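import Cfsg.Agent.H23.Ex5

/-! The normaliser of `3^(1+2)` in `SU₃(5)` is not maximal. -/

set_option autoImplicit false

namespace H23.Ex

open Matrix Module Cfsg Cfsg.Geo As

variable {F : Type*} [Field F] {σ : F →+* F} {ω : F}

theorem es_pair {R : Subgroup (GL (Fin 3) F)} (h1 : IsSymplecticTypeGroup 3 R)
    (h2 : ActsAbsolutelyIrreducibly (matrixSet R)) (hc : Nat.card R = 27)
    (hz : Nat.card (Subgroup.center R) = 3) (hω : ω ^ 2 + ω + 1 = 0) : ∃ x ∈ R, ∃ y ∈ R,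
      x.1 * y.1 = ω • (y.1 * x.1) ∧ x.1 ^ 3 = 1 ∧ y.1 ^ 3 = 1 := by
  have a1 : ∀ r : R, r.1.1 ^ 3 = 1 := fun r => by
    have := Monoid.pow_exponent_eq_one r
    rw [h1.exponent_eq] at this
    exact congrArg (fun g : R => g.1.1) this
  obtain ⟨x, y, a2⟩ : ∃ x y : R, x * y ≠ y * x := by
    by_contra! a2
    rw [show Subgroup.center R = ⊤ from eq_top_iff.2 fun x _ => Subgroup.mem_center_iff.2
      fun y => a2 y x, Subgroup.card_top, hc] at hz
    omega
  have : Fact (Nat.Prime 3) := ⟨by norm_num⟩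
  have a3 := (IsPGroup.isMulCommutative_of_card_eq_prime_sq (G := R ⧸ Subgroup.center R) (p := 3)
    (by
      have := Subgroup.card_eq_card_quotient_mul_card_subgroup (Subgroup.center R)
      rw [hc, hz] at this; omega)).is_comm.comm (y : R ⧸ Subgroup.center R) x
  have a4 := Subgroup.mem_center_iff.1 (QuotientGroup.eq.1 (show ((y * x : R) :
    R ⧸ Subgroup.center R) = (x * y : R) from a3))
  obtain ⟨c, a5⟩ := h2.2 ((y * x)⁻¹ * (x * y) : R).1.1 (by
    rintro _ ⟨s, hs, rfl⟩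
    exact congrArg (fun g : R => g.1.1) (a4 ⟨s, hs⟩).symm)
  have a6 : x.1.1 * y.1.1 = c • (y.1.1 * x.1.1) := by
    have := congrArg (fun g : R => g.1.1) (mul_inv_cancel_left (y * x) (x * y))
    simp only [Subgroup.coe_mul, Units.val_mul] at this a5
    rw [← this, a5]; simp
  have a7 : c ^ 3 = 1 := by
    have := congrFun (congrFun (a5 ▸ a1 _) 0) 0
    simpa [smul_pow] using this
  have a8 : (c - ω) * (c - ω ^ 2) = 0 := mul_left_cancel₀ (a := c - 1) (fun e => a2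
    (Subtype.ext (Units.ext (by simpa [sub_eq_zero.1 e] using a6))))
    (by linear_combination a7 + (-c ^ 2 + c * ω - ω + 1) * hω)
  rcases mul_eq_zero.1 a8 with e | e <;> rw [sub_eq_zero] at e
  · exact ⟨x, x.2, y, y.2, e ▸ a6, a1 x, a1 y⟩
  · refine ⟨y, y.2, x, x.2, ?_, a1 y, a1 x⟩
    rw [a6, smul_smul, show ω * c = 1 by rw [e]; linear_combination (ω - 1) * hω, one_smul]

theorem es_normal [Fintype F] (hσ : σ ≠ RingHom.id F) (hσ2 : ∀ a, σ (σ a) = a)
    (hω : ω ^ 2 + ω + 1 = 0) (h3 : (3 : F) ≠ 0) {x y : Matrix (Fin 3) (Fin 3) F}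
    (hx : xᵀ * 1 * x.map σ = 1) (hy : yᵀ * 1 * y.map σ = 1) (h : x * y = ω • (y * x))
    (x3 : x ^ 3 = 1) (y3 : y ^ 3 = 1) : ∃ P : GL (Fin 3) F, TrF σ (Equiv.refl _) P 1 1 ∧
      x = tr (Equiv.refl _) P !![1, 0, 0; 0, ω, 0; 0, 0, ω ^ 2] ∧
      y = tr (Equiv.refl _) P !![0, 0, 1; 1, 0, 0; 0, 1, 0] := by
  have a0 : ∀ v, x *ᵥ y *ᵥ v = ω • y *ᵥ x *ᵥ v := fun v => by
    rw [mulVec_mulVec, h, smul_mulVec, mulVec_mulVec]
  have x4 : ∀ v, x *ᵥ x *ᵥ x *ᵥ v = v := fun v => by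
    rw [mulVec_mulVec, mulVec_mulVec, ← sq, ← pow_succ, x3, one_mulVec]
  have y4 : ∀ v, y *ᵥ y *ᵥ y *ᵥ v = v := fun v => by
    rw [mulVec_mulVec, mulVec_mulVec, ← sq, ← pow_succ, y3, one_mulVec]
  have w1 : ω ≠ 1 := by rintro rfl; exact h3 (by linear_combination hω)
  have w2 : ω ^ 2 ≠ 1 := fun e => w1 (by linear_combination (ω - 1) * hω - ω * e)
  have w3 : ω ≠ ω ^ 2 := fun e => w1 (mul_left_cancel₀ (a := ω) (by rintro rfl; simp at hω)
    (by linear_combination -e))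
  obtain ⟨v, v0, hv⟩ : ∃ v ≠ 0, x *ᵥ v = v := by
    by_contra! a1
    have a2 : ∀ w, w + x *ᵥ w + x *ᵥ x *ᵥ w = 0 := fun w => by_contra fun e =>
      a1 _ e (by simp only [mulVec_add, x4]; abel)
    have a3 := congrArg (y *ᵥ y *ᵥ ·) (a2 (y *ᵥ Pi.single 0 1))
    have a4 := congrArg (y *ᵥ ·) (a2 (y *ᵥ y *ᵥ Pi.single 0 1))
    simp only [a0, mulVec_add, mulVec_smul, y4, mulVec_zero] at a3 a4
    have a5 := congrFun (a2 (Pi.single 0 1)) 0
    replace a3 := congrFun a3 0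
    replace a4 := congrFun a4 0
    simp only [Pi.add_apply, Pi.smul_apply, smul_eq_mul, Pi.zero_apply, Pi.single_eq_same] at a3 a4 a5
    exact h3 (by linear_combination a3 + a4 + a5 - ((x *ᵥ Pi.single 0 1) 0 +
      (ω ^ 2 - ω + 1) * (x *ᵥ x *ᵥ Pi.single 0 1) 0) * hω)
  have fx : ∀ u w, formOfGram σ 1 (x *ᵥ u) (x *ᵥ w) = formOfGram σ 1 u w := fun u w => by
    rw [fog_mulVec, hx]
  have fy : ∀ u w, formOfGram σ 1 (y *ᵥ u) (y *ᵥ w) = formOfGram σ 1 u w := fun u w => by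
    rw [fog_mulVec, hy]
  have b1 : x *ᵥ y *ᵥ v = ω • y *ᵥ v := by rw [a0, hv]
  have b2 : x *ᵥ y *ᵥ y *ᵥ v = ω ^ 2 • y *ᵥ y *ᵥ v := by rw [a0, b1, mulVec_smul, smul_smul, sq]
  have b3 : formOfGram σ 1 (y *ᵥ v) v = 0 := mul_left_cancel₀ (sub_ne_zero.2 w1) (by
    have := fx (y *ᵥ v) v
    rw [b1, hv, fog_smul_left] at this
    linear_combination this)
  have b4 : formOfGram σ 1 (y *ᵥ y *ᵥ v) v = 0 := mul_left_cancel₀ (sub_ne_zero.2 w2) (by
    have := fx (y *ᵥ y *ᵥ v) v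
    rw [b2, hv, fog_smul_left] at this
    linear_combination this)
  let P := (of ![v, y *ᵥ v, y *ᵥ y *ᵥ v])ᵀ
  have c1 : IsUnit P := linearIndependent_cols_iff_isUnit.1 (Module.End.eigenvectors_linearIndependent'
    (toLin' x) ![1, ω, ω ^ 2] (by
      intro i j; fin_cases i <;> fin_cases j <;> simp [w1, w2, w3, w1.symm, w2.symm, w3.symm]) _
      fun i => ⟨Module.End.mem_eigenspace_iff.2 (by
        fin_cases i; exacts [hv.trans (one_smul F v).symm, b1, b2]),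
        fun e => v0 (by
          fin_cases i
          exacts [e, by rw [← y4 v, show y *ᵥ v = 0 from e]; simp,
            by rw [← y4 v, show y *ᵥ y *ᵥ v = 0 from e]; simp])⟩)
  have c2 : Pᵀ * 1 * P.map σ = formOfGram σ 1 v v • 1 := by
    ext i j
    rw [mul_one, show (Pᵀ * P.map σ : Matrix _ _ F) i j = formOfGram σ 1
      (![v, y *ᵥ v, y *ᵥ y *ᵥ v] i) (![v, y *ᵥ v, y *ᵥ y *ᵥ v] j) by
        rw [fog_eq, one_mulVec]; rfl]
    have b5 : formOfGram σ 1 v (y *ᵥ v) = 0 := by rw [← fy, ← fy, y4, b4]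
    have b6 : formOfGram σ 1 v (y *ᵥ y *ᵥ v) = 0 := by rw [← fy, y4, b3]
    fin_cases i <;> fin_cases j <;> simp [fy, b3, b4, b5, b6, -mulVec_mulVec]
  have c3 : formOfGram σ 1 v v ≠ 0 := fun e => by
    have := congrArg det c2
    rw [e, det_mul, det_mul, ← RingHom.mapMatrix_apply, ← RingHom.map_det] at this
    simp [((isUnit_iff_isUnit_det _).1 c1).ne_zero] at this
  obtain ⟨l, hl⟩ := exists_norm_eq_of_invol hσ hσ2 (μ := (formOfGram σ 1 v v)⁻¹) (by
    rw [map_inv₀, fog_swap hσ2, Matrix.map_one _ (map_zero _) (map_one _), transpose_one])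
  have c4 : (l • P)ᵀ * 1 * (l • P).map σ = 1 := by
    rw [Matrix.map_smul' _ _ _ (map_mul _), transpose_smul, smul_mul_assoc, smul_mul_smul_comm, c2,
      smul_smul, mul_comm l, hl, inv_mul_cancel₀ c3, one_smul]
  have c5 : (l • P).det ≠ 0 := fun e => by
    have := congrArg det c4
    rw [det_mul, det_mul, det_transpose, e] at this
    simp at this
  refine ⟨.mkOfDetNeZero _ c5, fun a b => (fog_mulVec _ _ _ _ _).trans
    (congrArg (formOfGram _ · a b) c4), (cj_eq_iff.2 ?_).symm, (cj_eq_iff.2 ?_).symm⟩ <;>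
    change l • P * _ = _ * l • P <;> rw [smul_mul_assoc, mul_smul_comm] <;> congr 1 <;> ext i j
  · fin_cases j
    exacts [Eq.trans (by simp [P, mul_apply, Fin.sum_univ_three]) (congrFun hv i).symm,
      Eq.trans (by simp [P, mul_apply, Fin.sum_univ_three, mul_comm]) (congrFun b1 i).symm,
      Eq.trans (by simp [P, mul_apply, Fin.sum_univ_three, mul_comm]) (congrFun b2 i).symm]
  · fin_cases j
    exacts [Eq.trans (b := (y *ᵥ v) i) (by simp [P, mul_apply, Fin.sum_univ_three]) rfl,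
      Eq.trans (b := (y *ᵥ y *ᵥ v) i) (by simp [P, mul_apply, Fin.sum_univ_three]) rfl,
      Eq.trans (by simp [P, mul_apply, Fin.sum_univ_three]) (congrFun (y4 v) i).symm]

theorem es_SU3_five [Fintype F] (hF : Fintype.card F = 5 ^ 2) {R : Subgroup (GL (Fin 3) F)}
    (h1 : IsSymplecticTypeGroup 3 R) (h2 : ActsAbsolutelyIrreducibly (matrixSet R))
    (h3 : R ≤ GU 3 F 5) (hc : Nat.card R = 27) (hz : Nat.card (Subgroup.center R) = 3) :
    ¬ IsMaximalIn (GU 3 F 5 ⊓ specialLinear (Fin 3) F)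
      (subgroupNormalizer R ⊓ (GU 3 F 5 ⊓ specialLinear (Fin 3) F)) := fun hH => by
  obtain ⟨d, h⟩ := cd25 hF
  have a1 : d 17 = d 12 ^ 2 := by rw [sq, ← h.mu]; exact congrArg d (by decide +kernel)
  have a2 : d 12 ^ 2 + d 12 + 1 = 0 := by
    rw [← a1, ← h.one, ← h.ad, ← h.ad, ← h.zero]; exact congrArg d (by decide +kernel)
  have a3 : (3 : F) ≠ 0 := fun e => one_ne_zero (α := F) (by
    have : (5 : F) = 0 := cast_eq_zero_of_card (p := 5) hF
    linear_combination 2 * e - this)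
  rw [GU_eq_Iso hF] at h3
  obtain ⟨x, hx, y, hy, a4, a5, a6⟩ := es_pair h1 h2 hc hz a2
  obtain ⟨P, hP, a7, a8⟩ := es_normal (conj_ne_id hF) (conj_conj hF) a2 a3
    (mem_Iso_fog.1 (h3 hx)) (mem_Iso_fog.1 (h3 hy)) a4 a5 a6
  have e0 : ∀ M i j k, t25.en 3 M i j % 25 = k → d (t25.en 3 M i j) = d k := fun M i j k e => by
    rw [← h.mod, ← e]; rfl
  replace a7 : x.1 = tr (Equiv.refl _) P (dm t25 d 3 (RL.getD 1 0)) := a7.trans (congrArg _ (by
    rw [← a1, ← h.one, ← h.zero]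
    ext i j; fin_cases i <;> fin_cases j <;> exact (e0 _ _ _ _ (by decide +kernel)).symm))
  replace a8 : y.1 = tr (Equiv.refl _) P (dm t25 d 3 (RL.getD 2 0)) := a8.trans (congrArg _ (by
    rw [← h.one, ← h.zero]
    ext i j; fin_cases i <;> fin_cases j <;> exact (e0 _ _ _ _ (by decide +kernel)).symm))
  have b0 : dm t25 d 3 (RL.getD 0 0) = 1 := by rw [← h.idm]; exact congrArg _ (by decide +kernel)
  have b1 : ∀ m < 27, ∃ g : R, g.1.1 = tr (Equiv.refl _) P (dm t25 d 3 (RL.getD m 0)) := by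
    intro m hm
    induction m using Nat.strong_induction_on with
    | _ m ih =>
    obtain rfl | ⟨k, hk, e⟩ := (by decide +kernel : ∀ m < 27, m = 0 ∨ ∃ k < m,
      RL.getD m 0 = t25.mm 3 (RL.getD 1 0) (RL.getD k 0) ∨
        RL.getD m 0 = t25.mm 3 (RL.getD 2 0) (RL.getD k 0)) m hm
    · exact ⟨1, by rw [b0, map_one]; rfl⟩
    obtain ⟨g, hg⟩ := ih k hk (by omega)
    rcases e with e | e
    · exact ⟨⟨x, hx⟩ * g, by rw [e, h.mm, map_mul, ← hg, ← a7]; rfl⟩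
    · exact ⟨⟨y, hy⟩ * g, by rw [e, h.mm, map_mul, ← hg, ← a8]; rfl⟩
  choose f hf using fun m : Fin 27 => b1 m m.2
  have b2 : Function.Surjective f := ((Nat.bijective_iff_injective_and_card f).2 ⟨fun m k e =>
    (by decide +kernel : ∀ m k : Fin 27, t25.mv 3 (RL.getD m 0) 26 = t25.mv 3 (RL.getD k 0) 26 →
      m = k) m k (h.mv_eq (by rw [(tr _ P).injective ((hf m).symm.trans (e ▸ hf k))])),
        by simp [hc]⟩).2
  refine false_of_X hF hH hP (fun x => ∃ c ∈ DL, dv t25 d 3 c = x) (T := dm t25 d 3 345909303875)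
    (S := dm t25 d 3 152590390896) (h.U3 4 (by decide +kernel)) (h.U3 4 (by decide +kernel))
    (fun Y hY g hg e1 => ?_) ?_ ⟨10125, by decide +kernel, rfl⟩ ?_
  · have b3 : ∀ r ∈ R, ∀ k, r.1 = tr (Equiv.refl _) P (dm t25 d 3 k) →
        ∃ m < 27, Y * dm t25 d 3 k = dm t25 d 3 (RL.getD m 0) * Y := fun r hr k e => by
      obtain ⟨m, hm⟩ := b2 ⟨_, (Subgroup.mem_normalizer_iff.1 hg.1 r).1 hr⟩
      refine ⟨m, m.2, (tr (Equiv.refl _) P).injective ?_⟩
      rw [map_mul, map_mul, ← hf, hm, ← e, ← e1]; simp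
    obtain ⟨m, b4, b5⟩ := b3 x hx _ a7
    obtain ⟨k, b6, b7⟩ := b3 y hy _ a8
    obtain ⟨c, b8, b9⟩ := h.surjv (Y *ᵥ dv t25 d 3 1)
    have c0 : ∀ {M a b}, t25.mv 3 M a = b → dm t25 d 3 M *ᵥ dv t25 d 3 a = dv t25 d 3 b :=
      fun e => by rw [← h.mv, e]
    have c1 : dv t25 d 3 (t25.mv 3 (RL.getD k 0) c) = Y *ᵥ dv t25 d 3 25 := by
      rw [h.mv, b9, mulVec_mulVec, ← b7, ← mulVec_mulVec, c0 (b := 25) (by decide +kernel)]
    have c2 : dv t25 d 3 (t25.mv 3 (RL.getD k 0) (t25.mv 3 (RL.getD k 0) c)) =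
        Y *ᵥ dv t25 d 3 625 := by
      rw [h.mv, c1, mulVec_mulVec, ← b7, ← mulVec_mulVec, c0 (b := 625) (by decide +kernel)]
    have c3 : dm t25 d 3 (cm c (t25.mv 3 (RL.getD k 0) c) (t25.mv 3 (RL.getD k 0)
        (t25.mv 3 (RL.getD k 0) c))) = Y := by
      have c3 : ∀ i j : Fin 3, (Y *ᵥ dv t25 d 3 (25 ^ (j : ℕ))) i = Y i j := fun i j => by
        rw [show dv t25 d 3 (25 ^ (j : ℕ)) = (dm t25 d 3 (t25.idm 3)).col j from funext fun l => by
          refine (h.mod _).symm.trans (Eq.trans (congrArg d ?_) (h.mod _))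
          revert j l; decide +kernel, h.idm]
        simp [mulVec, dotProduct, one_apply]
      ext i j
      rw [cm, h.dm_pack fun _ => h.lt _, h.mod, (Cd.div_mod i j).1, (Cd.div_mod i j).2, ← c3]
      fin_cases j
      exacts [congrFun b9 i, congrFun c1 i, congrFun c2 i]
    obtain _ | m := m
    · rw [b0, one_mul] at b5
      exact absurd (h.mv_eq (n := 3) (M := RL.getD 1 0) (M' := RL.getD 0 0) (c := 25) (c' := 25)
        (by rw [b0, ((isUnit_iff_isUnit_det Y).2 (hY.2 ▸ isUnit_one)).mul_left_cancel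
          (b5.trans (mul_one Y).symm)])) (by decide +kernel)
    have := eC_true
    rw [eC, force_eq] at this
    replace this := of_all2 this b8
    have c4 : t25.hh 3 c c = t25.hh 3 1 1 := h.hh_eq (by rw [b9, hY.form])
    have c5 : t25.hh 3 c (t25.mv 3 (RL.getD k 0) c) = t25.hh 3 1 25 :=
      h.hh_eq (by rw [b9, c1, hY.form])
    have c6 : t25.dt3 4 c (t25.mv 3 (RL.getD k 0) c) (t25.mv 3 (RL.getD k 0)
        (t25.mv 3 (RL.getD k 0) c)) = t25.dt3 4 1 25 625 :=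
      h.inj _ (h.ad_lt _ _) _ (h.ad_lt _ _) ((h.dt3 (by decide +kernel) _ _ _).trans (Eq.trans
        (by rw [b9, c1, c2, det_rows, hY.2, mul_one]) (h.dt3 (by decide +kernel) _ _ _).symm))
    have c7 : dm t25 d 3 (RL.getD (m + 1) 0) *ᵥ dv t25 d 3 c = dv t25 d 3 c := by
      rw [b9, mulVec_mulVec, ← b5, ← mulVec_mulVec, c0 (b := 1) (by decide +kernel)]
    simp only [Bool.or_eq_true, allB_iff, force_eq, Bool.not_eq_true', Bool.eq_false_iff, ne_eq,
      Nat.beq_eq, Bool.and_eq_true, List.all_eq_true] at this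
    obtain ⟨c8, c9⟩ := ((((this.resolve_left (not_or.2 ⟨not_not.2 (c4.trans (by decide +kernel)),
      fun e => e m (by omega) fun j hj => h.inj _ (h.dot_lt _ _ _) _ (h.lt _) (by
        rw [h.dot, h.mod]; exact congrFun c7 ⟨j, hj⟩)⟩)) k b6).resolve_left
          (not_not.2 (c5.trans (by decide +kernel)))).resolve_left
            (not_not.2 (c6.trans (by decide +kernel))))
    refine ⟨?_, fun e => c8 (h.mv_eq (by rw [c3, e]))⟩
    rintro _ ⟨x, hx, rfl⟩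
    exact ⟨_, mem_of_msk (c9 x hx), by rw [h.mv, c3]⟩
  · rintro _ ⟨c, hc, rfl⟩
    exact ⟨_, (by decide +kernel : ∀ c ∈ DL, t25.mv 3 345909303875 c ∈ DL) c hc, h.mv _ _⟩
  · rintro ⟨c, hc, e⟩
    exact (by decide +kernel : ∀ c ∈ DL, t25.mv 3 (t25.idm 3) c ≠ t25.mv 3 152590390896 10125) c hc
      (h.mv_eq (by rw [h.idm, one_mulVec, e]))

end H23.Ex
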