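import Mathlib

/-! Small lemmas on extraspecial normal subgroups. -/

set_option autoImplicit false
open Subgroup

namespace H23.Qa

variable {G : Type*} [Group G] [Finite G]

theorem comm27 (h : ¬ 27 ∣ Nat.card G) {a b : G} (a3 : a ^ 3 = 1) (b3 : b ^ 3 = 1)
    (r3 : (a * b * a⁻¹ * b⁻¹) ^ 3 = 1) (ra : a * (a * b * a⁻¹ * b⁻¹) = a * b * a⁻¹ * b⁻¹ * a)
    (rb : b * (a * b * a⁻¹ * b⁻¹) = a * b * a⁻¹ * b⁻¹ * b) : a * b * a⁻¹ * b⁻¹ = 1 := by
  have : Fact (Nat.Prime 3) := ⟨Nat.prime_three⟩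
  generalize hr : a * b * a⁻¹ * b⁻¹ = r at *
  have zp : ∀ x : G, x ^ 3 = 1 → IsPGroup 3 (zpowers x) := fun x hx => by
    rintro ⟨_, k, rfl⟩
    refine ⟨1, Subtype.ext ?_⟩
    change (x ^ k) ^ (3 ^ 1) = 1
    rw [pow_one, ← zpow_natCast, ← zpow_mul, mul_comm, zpow_mul, zpow_natCast, hx, one_zpow]
  have nz : ∀ (H : Subgroup G) (x : G), (∀ y ∈ H, x * y * x⁻¹ ∈ H) → zpowers x ≤ normalizer (H : Set G) :=
    fun H x hx => zpowers_le.2 (mem_normalizer_fintype hx)
  have p1 : IsPGroup 3 (zpowers r ⊔ zpowers a : Subgroup G) :=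
    (zp r r3).to_sup_of_normal_left' (zp a a3) (nz _ _ (by
      rintro _ ⟨k, rfl⟩
      rw [(Commute.zpow_right (show Commute a r from ra) k).eq, mul_inv_cancel_right]
      exact ⟨k, rfl⟩))
  have p2 : IsPGroup 3 ((zpowers r ⊔ zpowers a) ⊔ zpowers b : Subgroup G) :=
    p1.to_sup_of_normal_left' (zp b b3) (nz _ _ fun y hy => by
      have : zpowers r ⊔ zpowers a ≤ (zpowers r ⊔ zpowers a).comap (MulAut.conj b).toMonoidHom := by
        refine sup_le (zpowers_le.2 ?_) (zpowers_le.2 ?_)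
        · change b * r * b⁻¹ ∈ zpowers r ⊔ zpowers a
          rw [rb, mul_inv_cancel_right]; exact mem_sup_left (mem_zpowers _)
        · change b * a * b⁻¹ ∈ zpowers r ⊔ zpowers a
          have : b * a * b⁻¹ = r⁻¹ * a := by rw [← hr]; group
          rw [this]
          exact mul_mem (inv_mem (mem_sup_left (mem_zpowers _))) (mem_sup_right (mem_zpowers _))
      exact this hy)
  set H := (zpowers r ⊔ zpowers a) ⊔ zpowers b
  have ha : a ∈ H := mem_sup_left (mem_sup_right (mem_zpowers _))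
  have hb : b ∈ H := mem_sup_right (mem_zpowers _)
  obtain ⟨k, hk⟩ := IsPGroup.iff_card.1 p2
  have k2 : k ≤ 2 := by
    by_contra hh
    exact h (((pow_dvd_pow 3 (show 3 ≤ k by omega)).trans hk.symm.dvd).trans (card_subgroup_dvd_card H))
  have c : IsMulCommutative H := by
    interval_cases k
    · have := (Nat.card_eq_one_iff_unique.1 hk).1
      exact ⟨⟨fun x y => Subsingleton.elim _ _⟩⟩
    · have := isCyclic_of_prime_card (hk.trans (pow_one 3))
      infer_instance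
    · exact IsPGroup.isMulCommutative_of_card_eq_prime_sq hk
  have := congrArg Subtype.val (c.1.1 (⟨a, ha⟩ : H) ⟨b, hb⟩)
  rw [← hr, show a * b = b * a from this]; group

/-- a commutator central in `⟨a, b⟩` dies in a quotient of order prime to `27` -/
theorem rho_mem {C N : Subgroup G} (NC : N ≤ C) (nN : C ≤ normalizer (N : Set G)) (cN : Nat.card N = 3 * 2 ^ 13)
    (cC : Nat.card C = 21799895040) {a b : G} (ha : a ∈ C) (hb : b ∈ C) (a3 : a ^ 3 = 1) (b3 : b ^ 3 = 1)
    (r3 : (a * b * a⁻¹ * b⁻¹) ^ 3 = 1) (ra : a * (a * b * a⁻¹ * b⁻¹) = a * b * a⁻¹ * b⁻¹ * a)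
    (rb : b * (a * b * a⁻¹ * b⁻¹) = a * b * a⁻¹ * b⁻¹ * b) : a * b * a⁻¹ * b⁻¹ ∈ N := by
  have : (N.subgroupOf C).Normal := (normal_subgroupOf_iff_le_normalizer NC).2 nN
  have c := card_eq_card_quotient_mul_card_subgroup (N.subgroupOf C)
  rw [Nat.card_congr (subgroupOfEquivOfLe NC).toEquiv, cN, cC] at c
  let π := QuotientGroup.mk' (N.subgroupOf C)
  let A : C := ⟨a, ha⟩
  let B : C := ⟨b, hb⟩
  have e := comm27 (G := C ⧸ N.subgroupOf C) (by omega) (a := π A) (b := π B)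
    (by rw [← map_pow, show A ^ 3 = 1 from Subtype.ext a3, map_one])
    (by rw [← map_pow, show B ^ 3 = 1 from Subtype.ext b3, map_one])
    (by simp only [← map_inv, ← map_mul, ← map_pow]
        rw [show (A * B * A⁻¹ * B⁻¹) ^ 3 = 1 from Subtype.ext r3, map_one])
    (by simp only [← map_inv, ← map_mul]; exact congrArg π (Subtype.ext ra))
    (by simp only [← map_inv, ← map_mul]; exact congrArg π (Subtype.ext rb))
  simp only [← map_inv, ← map_mul] at e
  exact mem_subgroupOf.1 ((QuotientGroup.eq_one_iff _).1 e)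

theorem mem_R {R N : Subgroup G} (RN : R ≤ N) (nR : N ≤ normalizer (R : Set G)) (cR : Nat.card R = 2 ^ 13)
    (cN : Nat.card N = 3 * 2 ^ 13) {g : G} (hg : g ∈ N) (g4 : g ^ 4 = 1) : g ∈ R := by
  have : (R.subgroupOf N).Normal := (normal_subgroupOf_iff_le_normalizer RN).2 nR
  have c := card_eq_card_quotient_mul_card_subgroup (R.subgroupOf N)
  rw [Nat.card_congr (subgroupOfEquivOfLe RN).toEquiv, cN, cR] at c
  let π := QuotientGroup.mk' (R.subgroupOf N)
  have e3 : π ⟨g, hg⟩ ^ 3 = 1 := by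
    rw [show 3 = Nat.card (N ⧸ R.subgroupOf N) by omega]; exact pow_card_eq_one'
  have e4 : π ⟨g, hg⟩ ^ 4 = 1 := by rw [← map_pow, show (⟨g, hg⟩ : N) ^ 4 = 1 from Subtype.ext g4, map_one]
  rw [pow_succ, e3, one_mul] at e4
  exact mem_subgroupOf.1 ((QuotientGroup.eq_one_iff _).1 e4)

/-- each new generator is detected by a witness commuting with the earlier ones -/
theorem chain (g w : ℕ → G) (g0 : g 0 ≠ 1) (n : ℕ) (h1 : ∀ i ≤ n, ∀ j < i, w i * g j = g j * w i)
    (h2 : ∀ i ≤ n, i ≠ 0 → w i * g i ≠ g i * w i) : 2 ^ (n + 1) ≤ Nat.card (closure (g '' {i | i ≤ n})) := by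
  have st : ∀ H K : Subgroup G, H ≤ K → H ≠ K → 2 * Nat.card H ≤ Nat.card K := fun H K l ne => by
    obtain ⟨c, hc⟩ := card_dvd_of_le l
    have p : 0 < Nat.card K := Nat.card_pos
    rcases c with _ | _ | c
    · omega
    · exact absurd (eq_of_le_of_card_ge l (by omega)) ne
    · rw [hc]; nlinarith
  induction n with
  | zero =>
    have := st ⊥ (closure (g '' {i | i ≤ 0})) bot_le fun e => g0 (mem_bot.1 (e.ge (subset_closure ⟨0, Nat.le_refl 0, rfl⟩)))
    rwa [card_bot] at this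
  | succ n ih =>
    have a := ih (fun i hi => h1 i (by omega)) fun i hi => h2 i (by omega)
    have b := st (closure (g '' {i | i ≤ n})) (closure (g '' {i | i ≤ n + 1}))
      (closure_mono (Set.image_mono fun i (hi : i ≤ n) => (show i ≤ n + 1 by omega))) fun e => by
        have l : closure (g '' {i | i ≤ n}) ≤ centralizer {w (n + 1)} := (closure_le _).2 (by
          rintro _ ⟨j, hj : j ≤ n, rfl⟩
          exact mem_centralizer_singleton_iff.2 (h1 _ le_rfl j (by omega)).symm)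
        exact h2 _ le_rfl (by omega)
          (mem_centralizer_singleton_iff.1 (l (e.ge (subset_closure ⟨n + 1, Nat.le_refl _, rfl⟩)))).symm
    rw [pow_succ]; omega

theorem eq_R {R H : Subgroup G} (cR : Nat.card R = 2 ^ 13) (l : H ≤ R) (g w : ℕ → G) (g0 : g 0 ≠ 1)
    (hg : ∀ i ≤ 12, g i ∈ H) (h1 : ∀ i ≤ 12, ∀ j < i, w i * g j = g j * w i)
    (h2 : ∀ i ≤ 12, i ≠ 0 → w i * g i ≠ g i * w i) : H = R :=
  eq_of_le_of_card_ge l (cR ▸ (chain g w g0 12 h1 h2).trans (card_le_of_le ((closure_le _).2 (by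
    rintro _ ⟨i, hi, rfl⟩; exact hg i hi))))

end H23.Qa
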