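import Cfsg.Agent.H23.Ls1

/-! Maximality of the similarity groups in `SL_n(q)` for `n ≥ 6`. -/

set_option autoImplicit false

namespace H23

open Module H22 Cfsg Cfsg.Geo

namespace Form

variable {F V : Type*} [Field F] {σ : F →+* F} [AddCommGroup V] [Module F V] {Φ : Form σ V}
  [FiniteDimensional F V] (hΦ : Φ.Nondeg) (h3 : Φ.Iso3) {H : Subgroup (V ≃ₗ[F] V)} {u w : V}
include hΦ h3

theorem exists_map_E5 (hV : 5 ≤ finrank F V) (hu : Sing Φ u) (hw : Sing Φ w) (h1 : u ≠ 0)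
    (h2 : w ≠ 0) : ∃ m ∈ Φ.E, ∃ c : F, m u = c • w := by
  have key : ∀ {u w}, Sing Φ u → Sing Φ w → u ≠ 0 → w ≠ 0 → Φ.B u w = 0 →
      ∃ m ∈ Φ.E, ∃ c : F, m u = c • w := fun {u w} hu hw h1 h2 h => by
    obtain ⟨x, hx, a1, a2⟩ := exists_sing_not_perp hΦ hu h1 h2 h
    rw [Ne, Φ.B_eq_zero_comm] at a1 a2
    obtain ⟨e, -, s, hs, a3⟩ := exists_eich_map' hΦ (hyp_smul hx hu a1) (hyp_smul hx hw a2)
    obtain ⟨m, hm⟩ := exists_eich hΦ hs
    rw [← hm, map_smul] at a3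
    exact ⟨m, mem_E hs hm, Φ.B x u * (Φ.B x w)⁻¹, by rw [mul_smul, ← a3, smul_inv_smul₀ a1]⟩
  obtain ⟨z, -, hz, a1, a2⟩ := h3.exists_perp hΦ (T := ⊤) (S := ⊥) [u, w] (by simpa)
  obtain ⟨m, hm, c, a3⟩ := key hu hz h1 (by simpa using a1) (a2 u (by simp))
  obtain ⟨m', hm', c', a4⟩ := key hz hw (by simpa using a1) h2 (Φ.B_eq_zero_symm (a2 w (by simp)))
  exact ⟨m' * m, mul_mem hm' hm, c * c', by simp [a3, a4, mul_smul]⟩

variable (hV : 6 ≤ finrank F V) (hs : ∀ v, Φ.B v v = 0 → Sing Φ v) (hE : Φ.E ≤ H)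
include hV hs hE

theorem mem_TC_six (hu : Sing Φ u) (hu0 : u ≠ 0) (hwu : w ∉ F ∙ u) (h : Φ.B w u = 0)
    (ht : tv (Φ.B w) u h ∈ H) : u ∈ TC H := by
  let A : AddSubgroup V :=
    { carrier := {w | ∃ h : Φ.B w u = 0, tv (Φ.B w) u h ∈ H}
      add_mem' := fun ⟨a1, a2⟩ ⟨a3, a4⟩ => ⟨by simp [a1, a3], by
        simpa using tv_add_left_mem a2 a4 (by simp [a1, a3])⟩
      zero_mem' := ⟨by simp, mem_of_eq_tv (one_mem _) _ (by simp)⟩
      neg_mem' := fun ⟨a1, a2⟩ => ⟨by simp [a1], by simpa using tv_neg_left_mem a2 (by simp [a1])⟩ }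
  have a0 : ∀ w ∈ A, ∀ k ∈ Φ.E, k u = u → k w ∈ A := fun w ⟨a1, a2⟩ k hk h1 => by
    have := tv_conj_mem a2 (hE hk) (ψ := Φ.B (k w)) ((E_le_O hk).1 w) (by rw [(E_le_O hk).1, a1])
    exact ⟨by rw [← h1, (E_le_O hk).1, a1], by simpa only [h1] using this⟩
  have key : ∀ w ∈ A, ∀ x, Sing Φ x → Φ.B x u = 0 → Φ.B x w = 0 → w ∉ (F ∙ u) ⊔ (F ∙ x) →
      ∀ c : F, c • x ∈ A := by
    intro w hw x hx hxu hxw hw' c
    obtain ⟨y, h1, h2⟩ := hΦ.exists_perp_eq_one hw'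
    have h4 := h1 u (Submodule.mem_sup_left (Submodule.mem_span_singleton_self u))
    have h5 := h1 x (Submodule.mem_sup_right (Submodule.mem_span_singleton_self x))
    obtain ⟨s, hs⟩ := exists_eichData hx (e := σ c • y) (by simp [Φ.B_eq_zero_symm h5])
    obtain ⟨k, hk⟩ := exists_eich hΦ hs
    simpa [hk, eichler_apply, B_smul_left, h2, hxw, Φ.invol] using sub_mem
      (a0 w hw k (mem_E hs hk) (by simp [hk, eichler_apply, B_smul_left, h4, hxu])) hw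
  let U : Submodule F V :=
    { carrier := {w | ∀ c : F, c • w ∈ A}
      add_mem' := fun ha hb c => by simpa using add_mem (ha c) (hb c)
      zero_mem' := by simp
      smul_mem' := fun c a ha d => by simpa [smul_smul] using ha (d * c) }
  have a1 : u ∈ U := key w ⟨h, ht⟩ u hu hu.1 (Φ.B_eq_zero_symm h) (by simpa)
  obtain ⟨f, hf⟩ := exists_hyp hΦ hu hu0
  set W := Φ.perp (Submodule.span F {u, f})
  have a2 : finrank F W + 2 = _ := hf.finrank_perp hΦ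
  have a3 : Disjoint W (Φ.perp W) := by rw [hΦ.perp_perp]; exact hf.disjoint.symm
  have a4 : ∀ {x}, x ∈ W → x ≠ 0 → x ∉ Φ.perp W := fun hx h0 e =>
    h0 (Submodule.disjoint_def.1 a3 _ hx e)
  have a5 : ∀ {w x}, w ∈ W → x ∈ W → w ∉ F ∙ x → w ∉ (F ∙ u) ⊔ (F ∙ x) := fun hw hx h1 h2 => by
    obtain ⟨_, b1, y, b2, rfl⟩ := Submodule.mem_sup.1 h2
    obtain ⟨c, rfl⟩ := Submodule.mem_span_singleton.1 b1
    have := (mem_perp_pair.1 (sub_mem hw ((Submodule.span_singleton_le_iff_mem _ _).2 hx b2))).2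
    simp [hf.B_symm, Φ.eps_ne_zero] at this
    exact h1 (by simpa [this] using b2)
  have a6 : ∀ {x}, x ∈ W → Sing Φ x → x ≠ 0 → ∃ x' ∈ W, Hyp Φ x x' ∧ ∀ y ∈ W, Φ.B x y = 0 →
      Φ.B x' y = 0 → ∃ k ∈ Φ.E, k u = u ∧ ∃ c : F, k x = x + c • x' - y := fun hx h1 h0 => by
    obtain ⟨x', b1, b2⟩ := exists_hyp_mem hΦ h1 hx (a4 hx h0)
    refine ⟨x', b1, b2, fun y hy b3 b4 => ?_⟩
    obtain ⟨s, b5⟩ := exists_eichData b2.right b4
    obtain ⟨k, hk⟩ := exists_eich hΦ b5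
    exact ⟨k, mem_E b5 hk, by simp [hk, eichler_apply, Φ.B_eq_zero_symm (mem_perp_pair.1 b1).1,
      Φ.B_eq_zero_symm (mem_perp_pair.1 hy).1], _, by
      rw [hk, eichler_apply, b2.B_symm, σε_mul, neg_smul, one_smul, ← sub_eq_add_neg]⟩
  have a7 : ∀ w ∈ A, w ∈ W → ¬ Sing Φ w → ∃ x ∈ W, Sing Φ x ∧ x ≠ 0 ∧ x ∈ U := fun w b1 b2 b3 => by
    obtain ⟨x, b4, b5, b6, b7⟩ := h3.exists_perp hΦ (T := W) (S := ⊥) [w] (by simp; omega)
    exact ⟨x, b4, b5, by simpa using b6, key w b1 x b5 (Φ.B_eq_zero_symm (mem_perp_pair.1 b4).1)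
      (Φ.B_eq_zero_symm (b7 w (by simp))) (a5 b2 b4 fun e => by
        obtain ⟨c, rfl⟩ := Submodule.mem_span_singleton.1 e
        exact b3 (b5.smul c))⟩
  obtain ⟨x, b1, b2, b3, b4⟩ : ∃ x ∈ W, Sing Φ x ∧ x ≠ 0 ∧ x ∈ U := by
    have b1 := hf.sub_mem_perp w
    rw [Φ.B_eq_zero_symm h, zero_smul, sub_zero] at b1
    have b2 := sub_mem (show w ∈ A from ⟨h, ht⟩) (a1 (σ Φ.ε * Φ.B f w))
    have b3 : w - (σ Φ.ε * Φ.B f w) • u ≠ 0 := fun e =>
      hwu (Submodule.mem_span_singleton.2 ⟨_, (sub_eq_zero.1 e).symm⟩)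
    generalize w - (σ Φ.ε * Φ.B f w) • u = w at *
    by_cases b4 : Sing Φ w
    swap
    · exact a7 w b2 b1 b4
    obtain ⟨x', b5, b6, b7⟩ := a6 b1 b4 b3
    obtain ⟨y, b8, b9, c1⟩ := hΦ.exists_perp_notMem (T := W) (S := ⊥) [w, x'] (by simp; omega)
    have c2 := c1 w (by simp)
    have c3 := c1 x' (by simp)
    by_cases c4 : Sing Φ y
    · exact ⟨y, b8, c4, by simpa using b9, key w b2 y c4 (Φ.B_eq_zero_symm (mem_perp_pair.1 b8).1)
        (Φ.B_eq_zero_symm c2) (a5 b1 b8 fun e => by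
          obtain ⟨c, rfl⟩ := Submodule.mem_span_singleton.1 e
          simpa [c3, Φ.eps_ne_zero.symm] using b6.B_symm)⟩
    obtain ⟨k, c5, c6, c, c7⟩ := b7 y b8 c2 c3
    refine a7 (c • x' - y) (by simpa [c7, add_sub_assoc] using sub_mem (a0 w b2 k c5 c6) b2)
      (sub_mem (W.smul_mem c b5) b8) fun e => c4 (hs y ?_)
    simpa [B_smul_left, b6.right.1, c3, Φ.B_eq_zero_symm c3] using e.1
  obtain ⟨x', b5, b6, b7⟩ := a6 b1 b2 b3
  have b8 : W ≤ U := le_of_sing_mem b6 b1 b5 fun y hy h1 => (sing_mem_of_two_le hΦ a3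
    (S := W ⊓ U) inf_le_left ?_ (fun k hk z hz => ⟨apply_mem_of_mem_stabL (ED_le_stabL le_rfl hk) hz.1,
      fun c => by simpa using a0 _ (hz.2 c) k (ED_le_E _ hk) (ED_fix hk (Φ.le_perp_perp _
        (Submodule.subset_span (by simp))))⟩) hy h1).2
  · intro φ hφ
    obtain ⟨y, hy⟩ := hΦ.exists_repr φ
    obtain rfl : Φ.B y = φ := LinearMap.ext hy
    have := add_mem (b8 (hf.sub_mem_perp y) 1) (a1 (σ Φ.ε * Φ.B f y))
    simp only [Φ.B_eq_zero_symm hφ, zero_smul, sub_zero, one_smul, sub_add_cancel] at this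
    exact this.2
  obtain ⟨y, c1, c2, c3⟩ := hΦ.exists_perp_notMem (T := W) (S := F ∙ x) [x, x']
    (by simp [finrank_span_singleton b3]; omega)
  obtain ⟨k, c5, c6, c, c7⟩ := b7 y c1 (c3 x (by simp)) (c3 x' (by simp))
  by_contra! c8
  obtain ⟨d, c9⟩ := (finrank_eq_one_iff_of_nonzero' (⟨x, b1, b4⟩ : (W ⊓ U : Submodule F V))
    fun e => b3 (congrArg Subtype.val e)).1 (le_antisymm (Nat.le_of_lt_succ c8)
      (finrank_pos_iff_exists_ne_zero.2 ⟨⟨x, b1, b4⟩, fun e => b3 (congrArg Subtype.val e)⟩)) ⟨k x, c7 ▸ sub_mem (add_mem b1 (W.smul_mem c b5)) c1,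
      fun c => by simpa using a0 _ (b4 c) k c5 c6⟩
  replace c9 : d • x = x + c • x' - y := c7 ▸ congrArg Subtype.val c9
  have d1 := congrArg (Φ.B x) c9
  simp [b2.1, b6.one, c3] at d1
  exact c2 (Submodule.mem_span_singleton.2 ⟨1 - d, by
    rw [← d1] at c9; linear_combination (norm := module) -c9⟩)

variable (hN : ¬ SLv F V ≤ H)
include hN

theorem nw_six (hu : Sing Φ u) (hu0 : u ≠ 0) {ψ : Dual F V} (h : ψ u = 0) {r : V ≃ₗ[F] V}
    (hr : r ∈ H) (h1 : ∀ v, r v = v + ψ v • u) : ∃ c, ∀ v, ψ v = c * Φ.B u v := by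
  obtain ⟨w, hw⟩ := hΦ.exists_repr ψ
  obtain rfl : Φ.B w = ψ := LinearMap.ext hw
  by_cases h2 : w ∈ F ∙ u
  · obtain ⟨c, rfl⟩ := Submodule.mem_span_singleton.1 h2
    exact ⟨_, B_smul_left _ c u⟩
  refine absurd (SLv_le_of_TC (eq_top_of_sing_mem hΦ ⟨u, hu0, hu⟩ fun x hx => ?_)) hN
  by_cases hx0 : x = 0
  · simp [hx0]
  obtain ⟨k, hk, c, h4⟩ := exists_map_E5 hΦ h3 (by omega) hx hu hx0 hu0
  simpa [← h4] using apply_mem_TC ((TC H).smul_mem c
    (mem_TC_six hΦ h3 hV hs hE hu hu0 h2 h (mem_of_eq_tv hr h h1))) (inv_mem (hE hk))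

theorem sim_of_fix (hu : Sing Φ u) (hu0 : u ≠ 0) {g : V ≃ₗ[F] V} (hg : g ∈ H) {μ : F}
    (h1 : g u = μ • u) : ∃ c d, (∀ v, Φ.B (g u) (g v) = d * Φ.B u v) ∧
      ∀ e v, Φ.B u e = 0 → Φ.B u v = 0 → Φ.B (g e) (g v) = c * Φ.B e v := by
  have hμ : μ ≠ 0 := by rintro rfl; simp [hu0] at h1
  have a0 : ∀ e, Φ.B u e = 0 → ∃ s, ∃ T ∈ H, ∀ v, T v = Φ.eichler u e s v := fun e he => by
    obtain ⟨s, a1⟩ := exists_eichData hu he
    obtain ⟨T, hT⟩ := exists_eich hΦ a1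
    exact ⟨s, T, hE (mem_E a1 hT), hT⟩
  have a1 : g.symm u = μ⁻¹ • u := g.symm_apply_eq.2 (by simp [h1, hμ])
  obtain ⟨l, hl⟩ : ∃ l, ∀ v, Φ.B u (g.symm v) = l * Φ.B u v := by
    by_contra a2
    obtain ⟨w, hw⟩ := hΦ.exists_repr (Φ.B u ∘ₗ g.symm.toLinearMap)
    replace hw : ∀ v, Φ.B w v = Φ.B u (g.symm v) := hw
    obtain ⟨a, -, a3, a4⟩ := hΦ.exists_perp_notMem (T := ⊤) (S := F ∙ u ⊔ F ∙ w) [u, w] (by
      have := finrank_sup_le (F ∙ u) (F ∙ w)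
      have := Sf.finrank_span_one_le (F := F) u
      have := Sf.finrank_span_one_le (F := F) w
      simp; omega)
    obtain ⟨e', a5, a6⟩ := hΦ.exists_perp_eq_one a3
    have a7 := Φ.B_eq_zero_symm (a5 u (Submodule.mem_sup_left (Submodule.mem_span_singleton_self u)))
    have a8 := Φ.B_eq_zero_symm (a5 w (Submodule.mem_sup_right (Submodule.mem_span_singleton_self w)))
    have a9 := a4 u (by simp)
    have b1 := a4 w (by simp)
    have b0 : Φ.B w u = 0 := by simp [hw, a1, hu.1]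
    obtain ⟨s, T, b2, b3⟩ := a0 (g.symm a) (by rw [← hw, b1])
    obtain ⟨s', T', b4, b5⟩ := a0 e' a7
    have b6 : ∀ v, (g * T * g⁻¹) v = v + (μ * (Φ.B (g.symm a) (g.symm v) - σ s * Φ.B w v)) • u -
        (σ Φ.ε * Φ.B w v) • a := fun v => by
      simp [b3, eichler_apply, h1, hw, smul_smul, mul_comm μ, sub_eq_add_neg]
    have b7 := mul_mem (mul_mem hg b2) (inv_mem hg)
    have b8 : Φ.B (g.symm a) (g.symm u) = 0 := by
      simp [a1, Φ.B_eq_zero_symm (show Φ.B u (g.symm a) = 0 by rw [← hw, b1])]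
    generalize g * T * g⁻¹ = T at *
    obtain ⟨c, hc⟩ := nw_six hΦ h3 hV hs hE hN hu hu0
      (ψ := σ Φ.ε • (Φ.B w - (μ * Φ.B (g.symm a) (g.symm e')) • Φ.B u)) (by simp [b0, hu.1])
      (mul_mem (mul_mem b7 b4) (inv_mem (mul_mem b4 b7))) fun v => by
        obtain ⟨v, rfl⟩ := (T' * T).surjective v
        rw [LinearEquiv.mul_apply, LinearEquiv.coe_inv, LinearEquiv.symm_apply_apply]
        simp [b5, b6, eichler_apply, b0, b1, b8, a6, a7, a8, a9, hu.1, Φ.B_eq_zero_symm a7]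
        module
    refine a2 ⟨c / σ Φ.ε + μ * Φ.B (g.symm a) (g.symm e'), fun v => ?_⟩
    have := hc v
    have e := σε_ne (Φ := Φ)
    simp [hw] at this
    field_simp
    linear_combination this
  have hl0 : l ≠ 0 := by
    rintro rfl
    obtain ⟨f, hf⟩ := hΦ.exists_ne hu0
    simpa [hf] using hl (g f)
  have a2 : ∀ v, Φ.B u (g v) = l⁻¹ * Φ.B u v := fun v => by
    rw [← g.symm_apply_apply v, hl]; simp [hl0]
  have e := (map_ne_zero σ).2 hl0
  refine ⟨μ / σ l, σ μ * l⁻¹, fun v => by simp [h1, B_smul_left, a2, mul_assoc],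
    fun e v he hv => ?_⟩
  obtain ⟨s, T, b2, b3⟩ := a0 e he
  obtain ⟨s', T', b4, b5⟩ := a0 (-l • g e) (by simp [a2, he])
  have b6 : Φ.B (g e) u = 0 := Φ.B_eq_zero_symm (by simp [a2, he])
  obtain ⟨c, hc⟩ := nw_six hΦ h3 hV hs hE hN hu hu0
    (ψ := μ • Φ.B e ∘ₗ g.symm.toLinearMap - σ l • Φ.B (g e) + (σ l * σ Φ.ε * l * Φ.B (g e) (g e) -
      μ * σ s * l - σ s') • Φ.B u) (by simp [a1, b6, hu.1, Φ.B_eq_zero_symm he])
    (mul_mem b4 (mul_mem (mul_mem hg b2) (inv_mem hg))) fun v => by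
      simp [b3, b5, eichler_apply, h1, hl, b6, hu.1, a2, he, B_smul_left]
      module
  have := hc (g v)
  simp [a2, hv] at this
  field_simp
  linear_combination -this

theorem sim_of_sing (hu : Sing Φ u) (hu0 : u ≠ 0) {g : V ≃ₗ[F] V} (hg : g ∈ H)
    (h1 : Sing Φ (g u)) : g ∈ Φ.Sim := by
  have a1 : ∀ {u}, Sing Φ u → u ≠ 0 → Sing Φ (g u) → ∃ c d, (∀ v, Φ.B (g u) (g v) = d * Φ.B u v) ∧
      ∀ e v, Φ.B u e = 0 → Φ.B u v = 0 → Φ.B (g e) (g v) = c * Φ.B e v := fun hu hu0 h1 => by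
    obtain ⟨m, hm, c, h2⟩ := exists_map_E5 hΦ h3 (by omega) h1 hu (by simpa) hu0
    simpa [(E_le_O hm).1] using sim_of_fix hΦ h3 hV hs hE hN hu hu0 (mul_mem (hE hm) hg) h2
  have a0 : ∀ {u}, Sing Φ u → u ≠ 0 → ∃ x, Sing Φ x ∧ x ∉ F ∙ u ∧ Φ.B u x = 0 := fun {u} hu hu0 =>
    have ⟨x, _, b1, b2, b3⟩ := h3.exists_perp hΦ (T := ⊤) (S := F ∙ u) [u]
      (by simp [finrank_span_singleton hu0]; omega)
    ⟨x, b1, b2, b3 u (by simp)⟩
  have a2 : ∀ {u}, Sing Φ u → u ≠ 0 → Sing Φ (g u) →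
      ∃ c, ∀ e, Φ.B u e = 0 → ∀ v, Φ.B (g e) (g v) = c * Φ.B e v := fun {u} hu hu0 h1 => by
    obtain ⟨c, -, -, b1⟩ := a1 hu hu0 h1
    let U : Submodule F V :=
      { carrier := {x | ∀ v, Φ.B (g x) (g v) = c * Φ.B x v}
        add_mem' := fun {a b} ha hb v => by simp [ha v, hb v, mul_add]
        zero_mem' := by simp
        smul_mem' := fun d a ha v => by simp only [map_smul, B_smul_left, ha v]; ring }
    have b2 : ∀ x, Sing Φ x → x ∉ F ∙ u → Φ.B u x = 0 → x ∈ U := fun x hx b2 b3 => by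
      obtain ⟨-, d, b4, -⟩ := a1 hx (by rintro rfl; simp at b2) (hs _ (by simp [b1 x x b3 b3, hx.1]))
      obtain ⟨v, b5, b6⟩ := exists_perp_eq_one' hΦ b2
      obtain rfl : d = c := by
        simpa [b6, b4] using b1 x v b3 (b5 u (Submodule.mem_span_singleton_self u))
      exact b4
    obtain ⟨x, b3, b4, b5⟩ := a0 hu hu0
    obtain ⟨f, b6, b7⟩ := exists_hyp_mem hΦ b3 (Φ.mem_perp_span_singleton.2 b5)
      (by rwa [hΦ.perp_perp])
    refine ⟨c, fun e he => le_of_sing_mem (U := U) b7 (Φ.mem_perp_span_singleton.2 b5) b6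
      (fun y hy b8 => ?_) (Φ.mem_perp_span_singleton.2 he)⟩
    by_cases b9 : y ∈ F ∙ u
    · obtain ⟨d, rfl⟩ := Submodule.mem_span_singleton.1 b9
      simpa using U.smul_mem d (sub_mem (b2 (x + u) ⟨by simp [b3.1, hu.1, b5, Φ.B_eq_zero_symm b5],
        by simp [Φ.Q_add, b3.2, hu.2, Φ.B_eq_zero_symm b5]⟩ (fun e => b4 (by
          simpa using sub_mem e (Submodule.mem_span_singleton_self u))) (by simp [b5, hu.1]))
        (b2 x b3 b4 b5))
    · exact b2 y b8 b9 (Φ.mem_perp_span_singleton.1 hy)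
  obtain ⟨c, b1⟩ := a2 hu hu0 h1
  obtain ⟨x, b3, b4, b5⟩ := a0 hu hu0
  obtain ⟨c', b2⟩ := a2 b3 (by rintro rfl; simp at b4) (hs _ (by simp [b1 x b5, b3.1]))
  obtain ⟨f, hf⟩ := hΦ.exists_ne hu0
  obtain rfl : c = c' := by simpa [b1 u hu.1, hf] using b2 u (Φ.B_eq_zero_symm b5) f
  obtain ⟨y, b6, b7⟩ := exists_perp_eq_one' hΦ
    (notMem_sup_span_swap (S := ⊥) (by simpa) (by simpa) : u ∉ ⊥ ⊔ F ∙ x)
  refine ⟨c, ?_, fun e v => ?_⟩
  · rintro rfl
    exact hu0 (g.injective (by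
      rw [map_zero]; exact hΦ _ fun y => by simpa using b1 u hu.1 (g.symm y)))
  · have b8 := b1 (e - Φ.B u e • y) (by simp [b7]) v
    have b9 := b2 y (b6 x (Submodule.mem_sup_right (Submodule.mem_span_singleton_self x))) v
    simp only [map_sub, map_smul, LinearMap.sub_apply, B_smul_left, b9] at b8
    linear_combination b8

theorem mem_Sim_six {g : V ≃ₗ[F] V} (hg : g ∈ H) : g ∈ Φ.Sim := by
  have a1 : ∀ x y s, EichData Φ x y s → ∀ a b,
      Φ.B (g (Φ.eichler x y s a)) (g (Φ.eichler x y s b)) = Φ.B (g a) (g b) := fun x y s h a b => by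
    obtain ⟨k, hk⟩ := exists_eich hΦ h
    let K := (Φ.perp (Submodule.span F {x, y})).map g.toLinearMap
    have b1 : ∀ v ∈ K, (g * k * g⁻¹) v = v := by
      rintro _ ⟨v, hv, rfl⟩
      simp [hk, eichler_apply, mem_perp_pair.1 hv]
    have b2 : 4 ≤ finrank F K := by
      have := hΦ.finrank_perp_add (Submodule.span F {x, y})
      have := finrank_span_pair_le (F := F) x y
      rw [LinearEquiv.finrank_map_eq]; omega
    obtain ⟨u, b3, b4, b5⟩ := h3 K (by omega)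
    obtain ⟨c, -, b6⟩ := sim_of_sing hΦ h3 hV hs hE hN b5 b4
      (mul_mem (mul_mem hg (hE (mem_E h hk))) (inv_mem hg)) (by rwa [b1 u b3])
    obtain ⟨v, b7, b8⟩ : ∃ v ∈ K, v ∉ Φ.perp K := by
      by_contra! b7
      have := Submodule.finrank_mono (show K ≤ Φ.perp K from b7)
      have := hΦ.finrank_perp_add K
      have := hΦ.finrank_perp_add (Submodule.span F {x, y})
      have := finrank_span_pair_le (F := F) x y
      have : finrank F K = _ := LinearEquiv.finrank_map_eq g (Φ.perp (Submodule.span F {x, y}))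
      omega
    obtain ⟨v', b9, c1⟩ : ∃ v' ∈ K, Φ.B v' v ≠ 0 := by simpa [mem_perp] using b8
    obtain rfl : c = 1 := by simpa [b1 _ b7, b1 _ b9, c1] using (b6 v' v).symm
    simpa [hk] using b6 (g a) (g b)
  obtain ⟨u, hu0, hu⟩ := h3.exists_sing (by omega)
  refine sim_of_sing hΦ h3 hV hs hE hN hu hu0 hg (hs _ ?_)
  obtain ⟨y, -, h4, h5⟩ := hΦ.exists_perp_notMem (T := ⊤) (S := F ∙ u) [u]
    (by simp [finrank_span_singleton hu0]; omega)
  obtain ⟨v, h6, h7⟩ := exists_perp_eq_one' hΦ h4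
  obtain ⟨s, hs⟩ := exists_eichData hu (h5 u (by simp))
  simpa [eichler_apply, h6 u (Submodule.mem_span_singleton_self u), h7, hu.1,
    Φ.B_eq_zero_symm (h5 u (by simp))] using a1 u y s hs v u

omit hE hN in
theorem isMaximalIn_Sim_six : IsMaximalIn (SLv F V) (Φ.Sim ⊓ SLv F V) := by
  refine isMaximalIn_of inf_le_right ?_ fun H hMH hHE g hg hgM => by_contra fun h => hgM
    ⟨mem_Sim_six hΦ h3 hV hs ((le_inf (E_le_O.trans O_le_Sim) (E_le_SLv hΦ)).trans hMH) h hg, hHE hg⟩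
  obtain ⟨u, hu0, -⟩ := h3.exists_sing (by omega)
  obtain ⟨f, hf⟩ := hΦ.exists_ne hu0
  have e2 := finrank_span_pair_le (F := F) u f
  obtain ⟨a, -, h1, h2⟩ := hΦ.exists_perp_notMem (T := ⊤) (S := Submodule.span F {u, f}) [f]
    (by simp; omega)
  obtain ⟨φ, h4, h5⟩ := exists_dual_eq_one h1
  have h6 := h4 u (Submodule.subset_span (by simp))
  refine ⟨tv φ u h6, tv_mem_SLv h6, ?_⟩
  rintro ⟨⟨c, -, hc⟩, -⟩
  have := hc a f
  simp [h5, h4 f (Submodule.subset_span (by simp)), hf, Φ.B_eq_zero_symm (h2 f (by simp))] at this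

end Form

variable {F : Type*} [Field F] [Fintype F] {n : ℕ}

theorem ls_c8o' (hn : 6 ≤ n) (hodd : Odd (Fintype.card F)) (Q : (Fin n → F) → F)
    (hQ : IsNondegenerateQuadraticForm Q) :
    IsMaximalIn (specialLinear (Fin n) F) (quadSimilarityGroup Q ⊓ specialLinear (Fin n) F) := by
  obtain ⟨Q, rfl, hΦ⟩ := exists_quad hQ
  have h2 := two_ne_zero_of_odd_card hodd
  exact isMaximalIn_of_iff (glE (Fin n) F) (Form.isMaximalIn_Sim_six hΦ (Form.iso3_quad rfl)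
    (by simpa) fun v hv => (sing_quad rfl).2 (by simpa [B_self_quad (Φ := ofQuad Q) rfl, h2] using hv))
    (fun g => mem_specialLinear_iff) fun g =>
      and_congr (mem_quadSimilarityGroup_iff h2) mem_specialLinear_iff

theorem ls_c8s' (hn : 6 ≤ n) (f : (Fin n → F) → (Fin n → F) → F) (hf : IsSymplecticForm f) :
    IsMaximalIn (specialLinear (Fin n) F) (similarityGroup f ⊓ specialLinear (Fin n) F) := by
  obtain ⟨Φ, hΦ, hε, hκ, h⟩ := exists_form_of_isSymplecticForm hf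
  exact isMaximalIn_of_iff (glE (Fin n) F) (Form.isMaximalIn_Sim_six hΦ (Form.iso3_alt hε hκ)
    (by simpa) fun v _ => sing_alt hε hκ v) (fun g => mem_specialLinear_iff) fun g =>
      and_congr (mem_similarityGroup_iff (Or.inl h)) mem_specialLinear_iff

theorem ls_c8u' (hn : 6 ≤ n) (σ : F ≃+* F) (f : (Fin n → F) → (Fin n → F) → F)
    (hf : IsUnitaryForm σ f) :
    IsMaximalIn (specialLinear (Fin n) F) (similarityGroup f ⊓ specialLinear (Fin n) F) := by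
  obtain ⟨hσ, Φ, hΦ, hε, h⟩ := exists_form_of_isUnitaryForm hf
  exact isMaximalIn_of_iff (glE (Fin n) F) (Form.isMaximalIn_Sim_six hΦ (Form.iso3_herm hσ hε)
    (by simpa) fun v hv => ⟨hv, Form.Q_of_κ (Form.κ_of_ne_id hσ) v⟩)
    (fun g => mem_specialLinear_iff) fun g =>
      and_congr (mem_similarityGroup_iff (Or.inr h)) mem_specialLinear_iff

end H23
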