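import Cfsg.Agent.H23.Count
import Cfsg.Agent.H23.Det

/-! The number of totally isotropic lines of a hermitian space. -/

set_option autoImplicit false

namespace H23

open Module H22 Form

theorem card_herm_lines {F : Type*} [Field F] [Fintype F] {q : ℕ} (hF : Fintype.card F = q ^ 2)
    (d : ℕ) :
    Nat.card {W : Submodule F (Fin (4 + d) → F) // Module.finrank F W = 2 ∧
      ∀ u ∈ W, ∀ v ∈ W, Cfsg.hermForm (4 + d) F q u v = 0} *
      ((q ^ 2) ^ (2 * d + 1) * q ^ 2 * (q ^ (d * (d - 1) / 2) *
        ∏ i ∈ Finset.range d, (if Even i then q ^ (i + 1) + 1 else q ^ (i + 1) - 1)) *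
        (((q ^ 2) ^ 2 - 1) * ((q ^ 2) ^ 2 - q ^ 2))) =
      q ^ ((4 + d) * (4 + d - 1) / 2) *
        ∏ i ∈ Finset.range (4 + d), (if Even i then q ^ (i + 1) + 1 else q ^ (i + 1) - 1) := by
  have hΦ := huForm_nondeg hF (4 + d)
  obtain ⟨v, hv⟩ := exists_orthonormal_family_herm (conj_ne_id hF) rfl hΦ (k := 4) (by simp)
  obtain ⟨a, ha⟩ := exists_norm_eq hF (μ := -1) (map_neg (conj hF) 1 |>.trans (by simp))
  let e : Fin 2 → Fin (4 + d) → F := ![v 0 + a • v 1, v 2 + a • v 3]
  have he : ∀ i j, (huForm hF (4 + d)).B (e i) (e j) = 0 := by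
    intro i j
    fin_cases i <;> fin_cases j <;>
      simp only [e, Fin.zero_eta, Fin.mk_one, Matrix.cons_val_zero, Matrix.cons_val_one, map_add,
        LinearMap.add_apply, B_smul_left, B_smul_right, hv] <;> simp
    all_goals linear_combination ha
  have hli : LinearIndependent F e := linearIndependent_of_dual (Φ := huForm hF (4 + d))
    (w := ![v 0, v 2]) (by
      intro i j hij
      fin_cases i <;> fin_cases j <;> first | exact absurd rfl hij | skip
      all_goals simp only [e, Fin.zero_eta, Fin.mk_one, Matrix.cons_val_zero, Matrix.cons_val_one,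
        map_add, B_smul_right, hv]; simp) (by
      intro i
      fin_cases i <;> simp only [e, Fin.zero_eta, Fin.mk_one, Matrix.cons_val_zero,
        Matrix.cons_val_one, map_add, B_smul_right, hv] <;> simp)
  have hT : (huForm hF (4 + d)).TotSing (Submodule.span F (Set.range e)) :=
    totSing_span (by rintro _ ⟨i, rfl⟩ _ ⟨j, rfl⟩; exact he i j) fun _ _ => rfl
  have hW : finrank F (Submodule.span F (Set.range e)) = 2 := by
    rw [finrank_span_eq_card hli]; simp
  obtain ⟨D, -, hD, hD1, hD2⟩ := hΦ.exists_card_Fix_totSing hT hW (d := d) (by simp)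
  have h := hΦ.card_totSing_mul hT
  rw [hΦ.card_Stab_totSing hT, hD2, card_linearEquiv hW, tr_herm hF _ rfl rfl,
    card_O_herm hF _ _ hD rfl rfl hD1, card_O_herm hF (4 + d) _ hΦ rfl rfl (by simp), hF, hW] at h
  rw [← h]
  congr 1
  · refine Nat.card_congr (Equiv.subtypeEquivRight fun W => and_congr_right fun _ => ?_)
    exact ⟨fun h => ⟨fun u hu v hv => h v hv u hu, fun _ _ => rfl⟩, fun h u hu v hv => h.1 v hv u hu⟩
  · simp [Fin.prod_univ_two]

end H23
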