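import Cfsg.Agent.H23.Ex1
import Cfsg.Agent.H23.Lf1

/-! Non-maximality criteria in small unitary groups: Singer normalisers. -/

set_option autoImplicit false

namespace H23.Ex

open Matrix Module Cfsg Cfsg.Geo As

theorem sylow_red {G : Type*} [Group G] [Finite G] {p : ℕ} (hp : p.Prime)
    (h2 : ¬ p ^ 2 ∣ Nat.card G) {a b : G} (ha : orderOf a = p) (hb : orderOf b = p) :
    ∃ g : G, ∀ x, x ∈ Subgroup.zpowers b ↔ g * x * g⁻¹ ∈ Subgroup.zpowers a := by
  have := Fact.mk hp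
  have h1 : (Nat.card G).factorization p = 1 := le_antisymm
    (by_contra fun h => h2 ((hp.pow_dvd_iff_le_factorization Nat.card_pos.ne').2 (by omega)))
    ((hp.dvd_iff_one_le_factorization Nat.card_pos.ne').1 (ha ▸ orderOf_dvd_natCard a))
  obtain ⟨g, hg⟩ := MulAction.exists_smul_eq G
    (Sylow.ofCard (Subgroup.zpowers a) (by rw [Nat.card_zpowers, ha, h1, pow_one]))
    (Sylow.ofCard (Subgroup.zpowers b) (by rw [Nat.card_zpowers, hb, h1, pow_one]))
  refine ⟨g⁻¹, fun x => ?_⟩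
  have := congrArg (fun P : Sylow p G => x ∈ (P : Subgroup G)) hg
  simpa [Sylow.coe_subgroup_smul, Subgroup.mem_pointwise_smul_iff_inv_smul_mem] using this.symm

theorem singer_red {G : Type*} [Group G] [Finite G] {S : Subgroup G} {p : ℕ} (hp : p.Prime)
    (h2 : ¬ p ^ 2 ∣ Nat.card G) {a b : G} (ha : a ∈ S) (hb : b ∈ S) (ha' : orderOf a = p)
    (hb' : orderOf b = p) : ∃ P ∈ S, ∀ g, g * a * g⁻¹ ∈ Subgroup.zpowers a →
      ∃ i < p, P⁻¹ * g * P * b = b ^ i * (P⁻¹ * g * P) := by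
  classical
  obtain ⟨⟨P, hP⟩, h⟩ := sylow_red hp (fun h => h2 (h.trans S.card_subgroup_dvd_card))
    (a := ⟨a, ha⟩) (b := ⟨b, hb⟩) (by simpa) (by simpa)
  have h3 : ∀ x (hx : x ∈ S), x ∈ Subgroup.zpowers b ↔ P * x * P⁻¹ ∈ Subgroup.zpowers a :=
    fun x hx => by simpa [Subgroup.mem_zpowers_iff, Subtype.ext_iff] using h ⟨x, hx⟩
  refine ⟨P, hP, fun g hg => ?_⟩
  obtain ⟨k, hk⟩ := (h3 b hb).1 (Subgroup.mem_zpowers b)
  have h4 : g * (P * b * P⁻¹) * g⁻¹ ∈ Subgroup.zpowers a := by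
    rw [← hk, ← conj_zpow]; exact zpow_mem hg k
  have h5 := (h3 (P⁻¹ * (g * (P * b * P⁻¹) * g⁻¹) * P) (mul_mem (mul_mem (inv_mem hP)
    ((Subgroup.zpowers_le.2 ha) h4)) hP)).2 (by simpa [mul_assoc] using h4)
  obtain ⟨i, h6, h7⟩ := Finset.mem_image.1 (mem_zpowers_iff_mem_range_orderOf.1 h5)
  exact ⟨i, hb' ▸ Finset.mem_range.1 h6, by rw [h7]; group⟩

variable {F : Type*} [Field F] {n q : ℕ}

/-- Unitary matrices of determinant one. -/
def U (σ : F →+* F) (Y : Matrix (Fin n) (Fin n) F) : Prop := Yᵀ * 1 * Y.map σ = 1 ∧ Y.det = 1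

theorem U.form {σ : F →+* F} {Y : Matrix (Fin n) (Fin n) F} (h : U σ Y) (u v : Fin n → F) :
    formOfGram σ 1 (Y *ᵥ u) (Y *ᵥ v) = formOfGram σ 1 u v := by rw [fog_mulVec, h.1]

theorem U.one (σ : F →+* F) : U σ (1 : Matrix (Fin n) (Fin n) F) :=
  ⟨by rw [Matrix.map_one _ (map_zero _) (map_one _)]; simp, det_one⟩

variable [Fintype F] (hF : Fintype.card F = q ^ 2) {H : Subgroup (GL (Fin n) F)}

theorem mem_SU_tr {e : Fin n ≃ Fin n} {P g : GL (Fin n) F} (hT : TrF (conj hF) e P 1 1)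
    {Y : Matrix (Fin n) (Fin n) F} (hg : (g : Matrix _ _ F) = tr e P Y) :
    g ∈ GU n F q ⊓ specialLinear (Fin n) F ↔ U (conj hF) Y := by
  rw [Subgroup.mem_inf, GU_eq_Iso hF, hT.mem_Iso hg, mem_SL_iff, hg, det_tr]; rfl

theorem mem_SU {g : GL (Fin n) F} :
    g ∈ GU n F q ⊓ specialLinear (Fin n) F ↔ U (conj hF) (g : Matrix (Fin n) (Fin n) F) := by
  rw [Subgroup.mem_inf, GU_eq_Iso hF, mem_Iso_fog, mem_SL_iff]; rfl

theorem false_of_X (hH : IsMaximalIn (GU n F q ⊓ specialLinear (Fin n) F) H) {e : Fin n ≃ Fin n}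
    {P : GL (Fin n) F} (hT : TrF (conj hF) e P 1 1) (X : (Fin n → F) → Prop)
    {T S : Matrix (Fin n) (Fin n) F} (hT1 : U (conj hF) T) (hS1 : U (conj hF) S)
    (h1 : ∀ Y, U (conj hF) Y → ∀ g ∈ H, (g : Matrix _ _ F) = tr e P Y →
      (∀ x, X x → X (Y *ᵥ x)) ∧ Y ≠ T)
    (h2 : ∀ x, X x → X (T *ᵥ x)) {x : Fin n → F} (h3 : X x) (h4 : ¬ X (S *ᵥ x)) : False := by
  obtain ⟨g, hg⟩ := exists_trG e P (hT1.2.trans_ne one_ne_zero)
  obtain ⟨s, hs⟩ := exists_trG e P (hS1.2.trans_ne one_ne_zero)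
  refine IsMaximalIn.false_of hH (M := relS (relC e P fun x _ => X x)) (fun k hk => ?_)
    (fun h => h4 (rel_of_mem_relS hs (h ((mem_SU_tr hF hT hs).2 hS1)) (y := x) h3))
    ((mem_SU_tr hF hT hg).2 hT1) (mem_relS_tr hg fun x _ => h2 x)
    fun h => (h1 T hT1 g h hg).2 rfl
  have h5 := ((tr e P).apply_symm_apply k).symm
  exact mem_relS_tr h5 fun x _ => (h1 _ ((mem_SU_tr hF hT h5).1 (hH.1.le hk)) k hk h5).1 x

include hF in
theorem singer_elt [NeZero n] {K : Subalgebra F (Matrix (Fin n) (Fin n) F)}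
    (hK : IsFieldSubalgebra n K) (hac : IsAdjointClosedFor (hermForm n F q) K) {l : ℕ}
    (hl : l.Prime) (h1 : l ∣ q ^ n + 1) (h2 : l.Coprime (q ^ 2 - 1)) :
    ∃ a ∈ GU n F q ⊓ specialLinear (Fin n) F, orderOf a = l ∧
      ∀ g ∈ subalgebraNormalizer K, g * a * g⁻¹ ∈ Subgroup.zpowers a := by
  classical
  letI := (As.IsFieldSubalgebra.isField hK).toField
  have : Finite K := Subtype.finite
  have := Fintype.ofFinite K
  have := Fact.mk hl
  have sy : ∀ u v, (huForm hF n).B v u = conj hF ((huForm hF n).B u v) := fun u v => by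
    rw [Form.symm, huForm_ε, one_mul]
  obtain ⟨τ, h⟩ := exists_adjE (huForm_nondeg hF n) hK fun k hk => (hac k hk).imp fun k' e =>
    ⟨e.1, fun u v => by rw [sy, sy (Matrix.mulVec k' v)]; exact congrArg _ (e.2 u v)⟩
  have hc : Fintype.card K = (q ^ n) ^ 2 := by
    rw [Module.card_eq_pow_finrank (K := F), hK.finrank_eq, hF, ← pow_mul, ← pow_mul, mul_comm]
  have hτ : τ = conj hc := eq_conj (fun e => conj_ne_id hF (RingHom.ext fun c =>
    (algebraMap F K).injective (by rw [← h.alg, e]; rfl))) h.invol hc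
  obtain ⟨u, hu⟩ := exists_prime_orderOf_dvd_card (G := Kˣ) l (by
    rw [Fintype.card_units, hc, ← one_pow 2, Nat.sq_sub_sq]; exact h1.mul_right _)
  let a : GL (Fin n) F := Units.map (K.val : K →* _) u
  have ha : orderOf a = l :=
    hu ▸ orderOf_injective _ (Units.map_injective Subtype.val_injective) u
  have h3 : τ u * u = 1 := by
    rw [hτ, conj_apply, ← pow_succ, ← Units.val_pow_eq_pow_val, Units.val_eq_one,
      ← orderOf_dvd_iff_pow_eq_one, hu]; exact h1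
  refine ⟨a, ⟨fun v w => ?_, ?_⟩, ha, fun g hg => ?_⟩
  · exact (h.adj u w ((u : K) • v)).trans (congrArg ((huForm hF n).B w)
      ((mulVec_mulVec _ _ _).trans ((congrArg (fun k : K => k.1 *ᵥ v) h3).trans (one_mulVec v))))
  · refine orderOf_eq_one_iff.1 (Nat.eq_one_of_dvd_coprimes h2 (ha ▸ orderOf_map_dvd _ a) ?_)
    rw [← hF, ← Fintype.card_units]; exact orderOf_dvd_card
  · have h4 : (⟨_, (hg a).1 u.1.2⟩ : K) ^ l = 1 := Subtype.ext (by
      have := congrArg Units.val (show (g * a * g⁻¹) ^ l = 1 by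
        rw [conj_pow, ← ha, pow_orderOf_eq_one, mul_one, mul_inv_cancel])
      exact this)
    obtain ⟨i, -, h5⟩ := (show IsPrimitiveRoot (u : K) l from
      IsPrimitiveRoot.coe_units_iff.2 (hu ▸ IsPrimitiveRoot.orderOf u)).eq_pow_of_pow_eq_one h4
    exact ⟨i, Units.ext (by simpa [a] using congrArg Subtype.val h5)⟩

variable {t : Tb} {d : ℕ → F}

omit [Fintype F] in
theorem Cd.hh_eq {σ : F →+* F} (h : Cd t σ d) {a b a' b' : ℕ}
    (e : formOfGram σ 1 (dv t d n a) (dv t d n b) = formOfGram σ 1 (dv t d n a') (dv t d n b')) :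
    t.hh n a b = t.hh n a' b' :=
  h.inj _ (h.dot_lt _ _ _) _ (h.dot_lt _ _ _) ((h.hh _ _).trans (e.trans (h.hh _ _).symm))

/-- The invariants of a vector with respect to a Singer element. -/
def sQ (t : Tb) (n : ℕ) (J : ℕ → ℕ → ℕ → ℕ) (L : List ℕ) (M c : ℕ) : Bool :=
  force (t.mv n M c) fun w => L.elem (Nat.add (t.hh n w c) (Nat.mul t.Q (J M c w)))

/-- The check for Singer normalisers. -/
def sC (t : Tb) (n l a b : ℕ) (J : ℕ → ℕ → ℕ → ℕ) (L A : List ℕ) (T S e : ℕ) : Bool :=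
  allB l (fun i => Nat.beq (t.mm n (A.getD 1 0) (A.getD i 0)) (A.getD (i + 1) 0) &&
    !Nat.beq (t.mv n T (t.mv n (A.getD 1 0) e)) (t.mv n (A.getD i 0) (t.mv n T e))) &&
  Nat.beq (A.getD 0 0) (t.idm n) && Nat.beq (A.getD l 0) (t.idm n) &&
  Nat.beq (t.hh n e e) 1 && sQ t n J L (A.getD 1 0) e && !sQ t n J L (A.getD 1 0) (t.mv n S e) &&
  all2 a b fun c => !Nat.beq (t.hh n c c) 1 || if sQ t n J L (A.getD 1 0) c then
    force (t.mv n T c) (sQ t n J L (A.getD 1 0)) else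
      allB l fun i => !Nat.beq (t.trc n (A.getD i 0)) (t.trc n (A.getD 1 0)) ||
        !sQ t n J L (A.getD i 0) c

theorem singer_false (h : Cd t (conj hF) d) [NeZero n] {l a b : ℕ} (hQ : t.Q ^ n = a * b)
    (hl : l.Prime) (h1 : l ∣ q ^ n + 1) (h2 : l.Coprime (q ^ 2 - 1))
    (h3 : ¬ l ^ 2 ∣ ∏ i : Fin n, ((q ^ 2) ^ n - (q ^ 2) ^ (i : ℕ))) {J : ℕ → ℕ → ℕ → ℕ}
    (hJ : ∀ Y M M' c c', U (conj hF) Y → Y * dm t d n M = dm t d n M' * Y →
      dv t d n c' = Y *ᵥ dv t d n c → J M c (t.mv n M c) = J M' c' (t.mv n M' c'))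
    {L A : List ℕ} {T S e : ℕ} (hC : sC t n l a b J L A T S e = true)
    (hA : U (conj hF) (dm t d n (A.getD 1 0))) (hT : U (conj hF) (dm t d n T))
    (hS : U (conj hF) (dm t d n S)) {K : Subalgebra F (Matrix (Fin n) (Fin n) F)}
    (hK : IsFieldSubalgebra n K) (hac : IsAdjointClosedFor (hermForm n F q) K) :
    ¬ IsMaximalIn (GU n F q ⊓ specialLinear (Fin n) F)
      (subalgebraNormalizer K ⊓ (GU n F q ⊓ specialLinear (Fin n) F)) := fun hH => by
  simp only [sC, Bool.and_eq_true, allB_iff, Bool.not_eq_true', Bool.eq_false_iff,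
    ne_eq, Nat.beq_eq] at hC
  obtain ⟨⟨⟨⟨⟨⟨c1, c2⟩, c3⟩, c4⟩, c5⟩, c6⟩, c7⟩ := hC
  set α := A.getD 1 0
  have k1 : ∀ {Y M M' c c'}, U (conj hF) Y → Y * dm t d n M = dm t d n M' * Y →
      dv t d n c' = Y *ᵥ dv t d n c → sQ t n J L M c = sQ t n J L M' c' := by
    intro Y M M' c c' hY e1 e2
    rw [sQ, sQ, force_eq, force_eq, hJ _ _ _ _ _ hY e1 e2, h.hh_eq (a' := t.mv n M' c') (b' := c')
      (by rw [h.mv, h.mv, e2, mulVec_mulVec (dv t d n c), ← e1, ← mulVec_mulVec, hY.form])]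
  have k2 : ∀ {Y c c'}, U (conj hF) Y → dv t d n c' = Y *ᵥ dv t d n c → t.hh n c c = 1 →
      t.hh n c' c' = 1 := fun hY e1 e2 => e2 ▸ h.hh_eq (by rw [e1, hY.form])
  have k3 : ∀ i ≤ l, dm t d n α ^ i = dm t d n (A.getD i 0) := fun i hi => by
    induction i with
    | zero => rw [c2, h.idm, pow_zero]
    | succ i ih => rw [pow_succ', ih (by omega), ← h.mm, (c1 i hi).1]
  have k4 : ∀ i < l, dm t d n T * dm t d n α ≠ dm t d n (A.getD i 0) * dm t d n T :=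
    fun i hi e => (c1 i hi).2 (h.mv_eq (by rw [h.mv, h.mv, mulVec_mulVec, e, mulVec_mulVec]))
  obtain ⟨a, a1, a2, a3⟩ := singer_elt hF hK hac hl h1 h2
  let a₀ := Matrix.GeneralLinearGroup.mkOfDetNeZero _ (hA.2.trans_ne one_ne_zero)
  have := Fact.mk hl
  obtain ⟨P, b1, b2⟩ := singer_red hl (by rwa [card_GL_field, hF]) a1 ((mem_SU hF).2 hA) a2
    (b := a₀) (orderOf_eq_prime (Units.ext ((k3 l le_rfl).trans (by rw [c3, h.idm]; rfl)))
      fun e => k4 1 hl.one_lt (by rw [show dm t d n α = 1 from congrArg Units.val e]; simp))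
  refine false_of_X hF hH (e := Equiv.refl _) (P := P) (((mem_SU hF).1 b1).form)
    (fun x => ∃ c, dv t d n c = x ∧ t.hh n c c = 1 ∧ sQ t n J L α c = true) hT hS
    (fun Y hY g hg e1 => ?_) ?_ ⟨e, rfl, c4, c5⟩ ?_
  · obtain ⟨i, b3, b4⟩ := b2 g (a3 g hg.1)
    have b5 : Y * dm t d n α = dm t d n (A.getD i 0) * Y := by
      have b5 : ((P⁻¹ * g * P : GL (Fin n) F) : Matrix _ _ F) = Y := by
        simp [e1, tr_apply, cj_apply, mul_assoc]
      rw [← k3 i b3.le, ← b5]; exact congrArg Units.val b4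
    refine ⟨?_, fun e => k4 i b3 (e ▸ b5)⟩
    rintro _ ⟨c, rfl, b6, b7⟩
    obtain ⟨c', b8, b9⟩ := h.surjv (Y *ᵥ dv t d n c)
    refine ⟨c', b9, k2 hY b9 b6, by_contra fun e => ?_⟩
    have := of_all2 c7 (hQ ▸ b8)
    simp only [k2 hY b9 b6, e, Nat.beq_refl, Bool.not_true, Bool.false_or, Bool.false_eq_true,
      if_false, allB_iff] at this
    have b0 : t.trc n (A.getD i 0) = t.trc n α := h.inj _ (h.dot_lt _ _ _) _ (h.dot_lt _ _ _)
      (show d (t.trc n _) = d (t.trc n _) by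
        have := hY.2.symm ▸ isUnit_one (M := F)
        rw [h.trc, h.trc, ← mul_nonsing_inv_cancel_right Y (dm t d n (A.getD i 0)) this, ← b5,
          trace_mul_cycle, nonsing_inv_mul Y this, one_mul])
    have := this i b3
    rw [b0, ← k1 hY b5 b9, b7] at this
    simp at this
  · rintro _ ⟨c, rfl, b1, b2⟩
    obtain ⟨c', b3, b4⟩ := h.surjv (dv t d n c)
    replace b4 := b4.trans (one_mulVec _).symm
    have := of_all2 c7 (hQ ▸ b3)
    simp only [k2 (U.one _) b4 b1, ← k1 (M := α) (M' := α) (U.one _) (by simp) b4, b2,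
      Nat.beq_refl, Bool.not_true, Bool.false_or, if_true, force_eq] at this
    rw [one_mulVec] at b4
    exact ⟨_, by rw [h.mv, b4], k2 hT (by rw [h.mv, b4]) b1, this⟩
  · rintro ⟨c, b1, -, b2⟩
    rw [k1 (M' := α) (U.one _) (by simp) (c' := c) (by rw [b1, h.mv, one_mulVec]), b2] at c6
    exact c6 rfl

end H23.Ex
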