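import Cfsg.Agent.H23.Ex2

/-! The Singer normalisers in `SU₅(2)`, `SU₃(3)` and `SU₃(5)` are not maximal. -/

set_option autoImplicit false

namespace H23.Ex

open Matrix Module Cfsg Cfsg.Geo As

variable {F : Type*} [Field F] {n q : ℕ} {t : Tb} {d : ℕ → F} {σ : F →+* F}

/-- Determinant in dimension three; `m` codes `-1`. -/
def Tb.dt (t : Tb) (m : ℕ) (f : ℕ → ℕ → ℕ) : ℕ :=
  t.ad (t.ad (t.mu (f 0 0) (t.ad (t.mu (f 1 1) (f 2 2)) (t.mu m (t.mu (f 1 2) (f 2 1)))))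
    (t.mu (f 0 1) (t.ad (t.mu (f 1 2) (f 2 0)) (t.mu m (t.mu (f 1 0) (f 2 2))))))
    (t.mu (f 0 2) (t.ad (t.mu (f 1 0) (f 2 1)) (t.mu m (t.mu (f 1 1) (f 2 0)))))

theorem Cd.neg (h : Cd t σ d) {m : ℕ} (hm : t.ad m 1 = 0) : d m = -1 := by
  have := h.ad m 1
  rw [hm, h.zero, h.one] at this
  linear_combination -this

theorem Cd.dt (h : Cd t σ d) {m : ℕ} (hm : t.ad m 1 = 0) (f : ℕ → ℕ → ℕ) :
    d (t.dt m f) = (of fun i j : Fin 3 => d (f i j)).det := by
  simp only [Tb.dt, h.ad, h.mu, h.neg hm, det_fin_three, of_apply, Fin.val_zero, Fin.val_one,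
    Fin.val_two]
  ring

theorem Cd.U3 (h : Cd t σ d) (m : ℕ) {M : ℕ}
    (e : t.ad m 1 = 0 ∧ t.gr 3 M = t.idm 3 ∧ t.dt m (t.en 3 M) = 1) : U σ (dm t d 3 M) :=
  ⟨h.uni e.2.1, (h.dt e.1 _).symm.trans (by rw [e.2.2, h.one])⟩

theorem Cd.U2 (h : Cd t σ d) {M : ℕ}
    (e : t.ad 1 1 = 0 ∧ t.gr n M = t.idm n ∧ t.mm n M M = t.idm n) : U σ (dm t d n M) := by
  have h1 := congrArg det (h.mm (n := n) M M)
  have h2 := h.neg e.1
  rw [e.2.2, h.idm, det_one, det_mul] at h1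
  rw [h.one] at h2
  refine ⟨h.uni e.2.1, sub_eq_zero.1 (pow_eq_zero_iff two_ne_zero |>.1 ?_)⟩
  linear_combination -h1 + (1 - (dm t d n M).det) * h2

theorem U.mul {X Y : Matrix (Fin n) (Fin n) F} (hX : U σ X) (hY : U σ Y) : U σ (X * Y) :=
  ⟨fog_inj (σ := σ) fun u v => by
    rw [← fog_mulVec, ← mulVec_mulVec, ← mulVec_mulVec, hX.form, hY.form],
    by rw [det_mul, hX.2, hY.2, one_mul]⟩

theorem Cd.J1 (h : Cd t σ d) (Y) (M M' c c' : ℕ) (hY : U σ Y)
    (e1 : Y * dm t d n M = dm t d n M' * Y) (e2 : dv t d n c' = Y *ᵥ dv t d n c) :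
    t.hh n (t.mv n M (t.mv n M c)) c = t.hh n (t.mv n M' (t.mv n M' c')) c' :=
  h.hh_eq (by
    rw [h.mv, h.mv, h.mv, h.mv, e2, mulVec_mulVec (dv t d n c) (dm t d n M'), ← e1,
      ← mulVec_mulVec, mulVec_mulVec _ (dm t d n M'), ← e1, ← mulVec_mulVec, hY.form])

/-- Determinant of three vectors. -/
def Tb.dt3 (t : Tb) (m a b c : ℕ) : ℕ :=
  t.dt m fun i => t.dg (Nat.casesOn i a fun j => Nat.casesOn j b fun _ => c)

theorem Cd.dt3 (h : Cd t σ d) {m : ℕ} (hm : t.ad m 1 = 0) (a b c : ℕ) :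
    d (t.dt3 m a b c) = (of ![dv t d 3 a, dv t d 3 b, dv t d 3 c]).det :=
  (h.dt hm _).trans (congrArg det (by ext i j; fin_cases i <;> rfl))

theorem det_rows (Y : Matrix (Fin 3) (Fin 3) F) (x y z : Fin 3 → F) :
    (of ![Y *ᵥ x, Y *ᵥ y, Y *ᵥ z]).det = (of ![x, y, z]).det * Y.det := by
  rw [← det_transpose Y, ← det_mul]; congr 1; ext i j
  fin_cases i <;> simp [mul_apply, mulVec, dotProduct, mul_comm]

theorem Cd.J2 (h : Cd t σ d) {m : ℕ} (hm : t.ad m 1 = 0) (Y) (M M' c c' : ℕ) (hY : U σ Y)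
    (e1 : Y * dm t d 3 M = dm t d 3 M' * Y) (e2 : dv t d 3 c' = Y *ᵥ dv t d 3 c) :
    t.dt3 m c (t.mv 3 M c) (t.mv 3 M (t.mv 3 M c)) =
      t.dt3 m c' (t.mv 3 M' c') (t.mv 3 M' (t.mv 3 M' c')) :=
  h.inj _ (h.ad_lt _ _) _ (h.ad_lt _ _) ((h.dt3 hm _ _ _).trans (Eq.trans (by
    simp only [h.mv]
    rw [e2, mulVec_mulVec (dv t d 3 c) (dm t d 3 M'), ← e1,
      ← mulVec_mulVec, mulVec_mulVec _ (dm t d 3 M') Y, ← e1, ← mulVec_mulVec, det_rows, hY.2,
      mul_one]) (h.dt3 hm _ _ _).symm))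

variable [Fintype F]

theorem singer_SU5 (hF : Fintype.card F = 2 ^ 2) {K : Subalgebra F (Matrix (Fin 5) (Fin 5) F)}
    (hK : IsFieldSubalgebra 5 K) (hac : IsAdjointClosedFor (hermForm 5 F 2) K) :
    ¬ IsMaximalIn (GU 5 F 2 ⊓ specialLinear (Fin 5) F)
      (subalgebraNormalizer K ⊓ (GU 5 F 2 ⊓ specialLinear (Fin 5) F)) := by
  obtain ⟨d, h⟩ := cd4 hF
  refine singer_false hF h (l := 11) (a := 32) (b := 32) rfl (by norm_num) (by norm_num)
    (by norm_num) (by decide +kernel) (J := fun M c w => t4.hh 5 (t4.mv 5 M w) c) h.J1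
    (L := [0, 3, 4, 5, 9, 11]) (A := [281543712968705, 1069712814283375, 752024241105436,
      1060382715087325, 932796524465988, 1085285901473465, 584402647047861, 662289745331432,
      661590556084429, 989475465312844, 769362943891598, 281543712968705]) (T := 281558752840936)
    (S := 23158737618196) (e := 256) (by decide +kernel) ?_ (h.U2 (by decide +kernel))
    (h.U2 (by decide +kernel)) hK hac
  have := ((h.U2 (n := 5) (M := 266704067236768) (by decide +kernel)).mul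
    (h.U2 (M := 281586867313705) (by decide +kernel))).mul
    (h.U2 (M := 78440139512445) (by decide +kernel))
  rwa [← h.mm, ← h.mm, show t4.mm 5 (t4.mm 5 266704067236768 281586867313705) 78440139512445 =
    1069712814283375 by decide +kernel] at this

theorem singer_SU3_three (hF : Fintype.card F = 3 ^ 2) {K : Subalgebra F (Matrix (Fin 3) (Fin 3) F)}
    (hK : IsFieldSubalgebra 3 K) (hac : IsAdjointClosedFor (hermForm 3 F 3) K) :
    ¬ IsMaximalIn (GU 3 F 3 ⊓ specialLinear (Fin 3) F)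
      (subalgebraNormalizer K ⊓ (GU 3 F 3 ⊓ specialLinear (Fin 3) F)) := by
  obtain ⟨d, h⟩ := cd9 hF
  exact singer_false hF h (l := 7) (a := 27) (b := 27) rfl (by norm_num) (by norm_num)
    (by norm_num) (by decide +kernel) (J := fun M c w => t9.hh 3 (t9.mv 3 M w) c) h.J1
    (L := [14, 37, 49]) (A := [43053283, 59843381, 175055077, 378043873, 245769997, 333269569,
      83306321, 43053283]) (T := 59886531) (S := 175914187) (e := 81) (by decide +kernel)
    (h.U3 2 (by decide +kernel)) (h.U3 2 (by decide +kernel)) (h.U3 2 (by decide +kernel)) hK hac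

theorem singer_SU3_five (hF : Fintype.card F = 5 ^ 2) {K : Subalgebra F (Matrix (Fin 3) (Fin 3) F)}
    (hK : IsFieldSubalgebra 3 K) (hac : IsAdjointClosedFor (hermForm 3 F 5) K) :
    ¬ IsMaximalIn (GU 3 F 5 ⊓ specialLinear (Fin 3) F)
      (subalgebraNormalizer K ⊓ (GU 3 F 5 ⊓ specialLinear (Fin 3) F)) := by
  obtain ⟨d, h⟩ := cd25 hF
  exact singer_false hF h (l := 7) (a := 125) (b := 125) rfl (by norm_num) (by norm_num)
    (by norm_num) (by decide +kernel) (J := fun M c w => t25.dt3 4 c w (t25.mv 3 M w))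
    (h.J2 (by decide +kernel)) (L := [31, 47, 49, 50, 54, 73, 75, 79, 98, 106, 122, 124, 177, 186,
      189, 202, 211, 214, 253, 257, 267, 378, 382, 392, 552, 561, 564, 577, 586, 589])
    (A := [152588281251, 20492771311, 3629893555777, 742859109294, 691958695564, 1231583149177,
      54723092941, 152588281251]) (T := 192344213852) (S := 152596250256) (e := 5050)
    (by decide +kernel) (h.U3 4 (by decide +kernel)) (h.U3 4 (by decide +kernel))
    (h.U3 4 (by decide +kernel)) hK hac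

end H23.Ex
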