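import Cfsg.Agent.H23.Ex3
import Cfsg.Agent.H23.Disc

/-! Frames in `SU₃(5)`, `SU₆(2)` and orthogonal groups in `SU₃(3)`, `SU₃(5)` are not maximal. -/

set_option autoImplicit false

namespace H23.Ex

open Matrix Module Cfsg Cfsg.Geo As

variable {F : Type*} [Field F] {n q : ℕ} {t : Tb} {d : ℕ → F} {σ : F →+* F}

theorem Cd.cj_lt (h : Cd t σ d) (x : ℕ) : t.cj x < t.Q := by
  rw [Tb.cj, lk_mod, Nat.zero_mod]; exact (h.cj' _ (h.lt x)).1

/-- Products. -/
def Tb.pr (t : Tb) (n : ℕ) (f : ℕ → ℕ) : ℕ := Nat.rec 1 (fun i a => t.mu a (f i)) n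

theorem Cd.pr_lt (h : Cd t σ d) (n : ℕ) (f : ℕ → ℕ) : t.pr n f < t.Q := by
  cases n
  exacts [h.two, h.mu_lt _ _]

theorem Cd.pr (h : Cd t σ d) (n : ℕ) (f : ℕ → ℕ) : d (t.pr n f) = ∏ i : Fin n, d (f i) := by
  induction n with
  | zero => exact h.one
  | succ n ih => rw [Fin.prod_univ_castSucc]; exact (h.mu _ _).trans (congrArg (· * _) ih)

/-- The check for an invariant predicate. -/
def pC (t : Tb) (n a b : ℕ) (p : ℕ → Bool) (T S e : ℕ) : Bool :=
  p e && !p (t.mv n S e) && all2 a b fun c => !p c || force (t.mv n T c) p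

variable [Fintype F] (hF : Fintype.card F = q ^ 2) {H : Subgroup (GL (Fin n) F)}

theorem false_of_P (h : Cd t (conj hF) d) {a b : ℕ} (hQ : t.Q ^ n = a * b)
    (hH : IsMaximalIn (GU n F q ⊓ specialLinear (Fin n) F) H) {e : Fin n ≃ Fin n}
    {P : GL (Fin n) F} (hP : TrF (conj hF) e P 1 1) {p : ℕ → Bool} {T S x : ℕ}
    (hT : U (conj hF) (dm t d n T)) (hS : U (conj hF) (dm t d n S)) (hC : pC t n a b p T S x = true)
    (h1 : ∀ Y, U (conj hF) Y → ∀ g ∈ H, (g : Matrix _ _ F) = tr e P Y →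
      (∀ c c', dv t d n c' = Y *ᵥ dv t d n c → p c = true → p c' = true) ∧ Y ≠ dm t d n T) :
    False := by
  simp only [pC, Bool.and_eq_true, Bool.not_eq_true'] at hC
  have h2 := fun c c' e => (h1 1 (U.one _) 1 (one_mem _) (by simp)).1 c c'
    (Eq.trans e (one_mulVec _).symm)
  refine false_of_X hF hH hP (fun x => ∃ c, dv t d n c = x ∧ p c = true) hT hS
    (fun Y hY g hg e1 => ⟨?_, (h1 Y hY g hg e1).2⟩) ?_ ⟨x, rfl, hC.1.1⟩ ?_
  · rintro _ ⟨c, rfl, b1⟩
    obtain ⟨c', -, b2⟩ := h.surjv (Y *ᵥ dv t d n c)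
    exact ⟨c', b2, (h1 Y hY g hg e1).1 c c' b2 b1⟩
  · rintro _ ⟨c, rfl, b1⟩
    obtain ⟨c', b2, b3⟩ := h.surjv (dv t d n c)
    have := of_all2 hC.2 (hQ ▸ b2)
    rw [h2 c c' b3 b1, force_eq] at this
    exact ⟨t.mv n T c', by rw [h.mv, b3], this⟩
  · rintro ⟨c, b1, b2⟩
    exact absurd (h2 c _ ((h.mv S x).trans b1.symm) b2) (by simp [hC.1.2])

/-- Invariants of monomial groups. -/
def fP (t : Tb) (n k r : ℕ) (L : List ℕ) (c : ℕ) : Bool := Nat.beq (t.hh n c c) r &&
  L.elem (Nat.add (t.pr n fun i => t.ad 1 (t.mu k (t.mu (t.dg c i) (t.cj (t.dg c i)))))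
    (Nat.mul t.Q (t.mu (t.pr n (t.dg c)) (t.pr n (t.dg c)))))

theorem frame_false (h : Cd t (conj hF) d) {a b : ℕ} (hQ : t.Q ^ n = a * b) {k r T S x : ℕ}
    {L : List ℕ} (hT : U (conj hF) (dm t d n T)) (hS : U (conj hF) (dm t d n S))
    (hC : pC t n a b (fP t n k r L) T S x = true) {i j l : Fin n} (hij : i ≠ j)
    (h0 : t.mu (t.en n T i l) (t.en n T j l) ≠ 0) {D : Fin n → Submodule F (Fin n → F)}
    (hD : IsNondegenerateMDecomposition (hermForm n F q) 1 D) :
    ¬ IsMaximalIn (GU n F q ⊓ specialLinear (Fin n) F)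
      (decompositionStabilizer D ⊓ (GU n F q ⊓ specialLinear (Fin n) F)) := fun hH => by
  rw [hermForm_eq hF] at hD
  obtain ⟨e, P, hP, h1⟩ := exists_frame_herm (fd_one hF) (conj_ne_id hF) hD
  refine false_of_P hF h hQ hH hP hT hS hC fun Y hY g hg e1 => ?_
  obtain ⟨s, α, h2⟩ := h1 g hg.1
  obtain rfl := (tr e P).injective (e1.symm.trans h2)
  refine ⟨fun c c' e2 b1 => ?_, fun e2 => h0 (h.inj _ (h.mu_lt _ _) 0 (h.lt 0) ?_)⟩
  · have b2 : ∀ i, d (t.dg c' (s i)) = α i * d (t.dg c i) := fun i =>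
      (congrFun e2 (s i)).trans (mono_mulVec α s _ i)
    have b3 := mono_conj hY.1
    have b4 : (∏ i, α i) * ∏ i, α i = 1 := by
      have := hY.2
      rw [det_mono] at this
      rcases Int.units_eq_one_or (Equiv.Perm.sign s) with b4 | b4 <;> rw [b4] at this <;>
        simp at this
      · simp [this]
      · simp [neg_eq_iff_eq_neg.1 this]
    rw [← b1, fP, fP, h.hh_eq (a' := c) (b' := c) (by rw [e2, hY.form])]
    congr 3
    · refine h.inj _ (h.pr_lt _ _) _ (h.pr_lt _ _) ?_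
      rw [h.pr, h.pr, ← Equiv.prod_comp s]
      refine Finset.prod_congr rfl fun i _ => ?_
      simp only [h.ad, h.mu, h.cj, b2, map_mul]
      linear_combination d k * d (t.dg c i) * conj hF (d (t.dg c i)) * b3 i
    · refine congrArg _ (h.inj _ (h.mu_lt _ _) _ (h.mu_lt _ _) ?_)
      rw [h.mu, h.mu, h.pr, h.pr, ← Equiv.prod_comp s]
      simp only [b2, Finset.prod_mul_distrib]
      linear_combination (∏ i : Fin n, d (t.dg c i)) ^ 2 * b4
  · rw [h.mu, h.zero, mul_eq_zero]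
    by_contra! b1
    exact not_mono (e := e) (P := P) (congrArg _ e2.symm) hij b1.1 b1.2

theorem frame_SU3_five (hF : Fintype.card F = 5 ^ 2) {D : Fin 3 → Submodule F (Fin 3 → F)}
    (hD : IsNondegenerateMDecomposition (hermForm 3 F 5) 1 D) :
    ¬ IsMaximalIn (GU 3 F 5 ⊓ specialLinear (Fin 3) F)
      (decompositionStabilizer D ⊓ (GU 3 F 5 ⊓ specialLinear (Fin 3) F)) := by
  obtain ⟨d, h⟩ := cd25 hF
  exact frame_false hF h (a := 125) (b := 125) rfl (k := 1) (r := 1) (T := 338086124777)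
    (S := 917969146896) (x := 625) (L := [1, 2, 225, 227, 325]) (h.U3 4 (by decide +kernel))
    (h.U3 4 (by decide +kernel)) (by decide +kernel) (i := 0) (j := 1) (l := 0) (by decide)
    (by decide +kernel) hD

theorem frame_SU6_two (hF : Fintype.card F = 2 ^ 2) {D : Fin 6 → Submodule F (Fin 6 → F)}
    (hD : IsNondegenerateMDecomposition (hermForm 6 F 2) 1 D) :
    ¬ IsMaximalIn (GU 6 F 2 ⊓ specialLinear (Fin 6) F)
      (decompositionStabilizer D ⊓ (GU 6 F 2 ⊓ specialLinear (Fin 6) F)) := by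
  obtain ⟨d, h⟩ := cd4 hF
  exact frame_false hF h (a := 64) (b := 64) rfl (k := 2) (r := 0) (T := 393458478246784210260)
    (S := 1180597536094348710164) (x := 1280) (L := [2, 5]) (h.U2 (by decide +kernel))
    (h.U2 (by decide +kernel)) (by decide +kernel) (i := 1) (j := 2) (l := 0) (by decide)
    (by decide +kernel) hD

/-! ### Orthogonal groups -/

theorem so_normal (hq : Odd q) {F₀ : Subfield F} {P : GL (Fin 3) F}
    (h0 : Fintype.card F = Nat.card F₀ ^ 2) (h1 : IsFormRationalStructure (hermForm 3 F q) F₀ 1 P) :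
    ∃ P' : GL (Fin 3) F, TrF (conj hF) (Equiv.refl _) P' 1 1 ∧ ∀ g ∈ subfieldSubgroup F₀ P, ∀ Y,
      (g : Matrix _ _ F) = tr (Equiv.refl _) P' Y →
        ∃ c : F, c ≠ 0 ∧ (c • Y).map (conj hF) = c • Y := by
  classical
  have := Fintype.ofFinite F₀
  have a0 : ∀ x : F₀, conj hF x = x := fun x => by
    have : Fintype.card F₀ = q := Nat.pow_left_injective two_ne_zero
      (by simp only; rw [← hF, h0, Nat.card_eq_fintype_card])
    rw [conj_apply, ← this, ← SubmonoidClass.coe_pow, FiniteField.pow_card]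
  have a1 : ∀ M : Matrix (Fin 3) (Fin 3) F₀, (M.map F₀.subtype).map (conj hF) = M.map F₀.subtype :=
    fun M => by ext i j; exact a0 _
  rw [hermForm_eq hF] at h1
  obtain ⟨M, hM⟩ := Rat.exists_map (F₀ := F₀) (M := (P : Matrix _ _ F)ᵀ * 1 * P.1.map (conj hF))
    fun i j => by
      have a2 : ∀ i k : Fin 3, (Pi.single i 1 : Fin 3 → F) k ∈ F₀ := fun i k => by
        rw [Pi.single_apply]; split_ifs; exacts [one_mem _, zero_mem _]
      simpa only [one_mul, fog_mulVec, fog_single] using h1 _ _ (a2 i) (a2 j)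
  have a2 : Mᵀ = M := map_injective F₀.subtype_injective (by
    simp only [transpose_map]
    refine (congrArg transpose (a1 M).symm).trans ?_
    rw [← hM, mul_one, Matrix.map_mul, Matrix.map_map,
      show conj hF ∘ conj hF = id from funext (conj_conj hF), transpose_mul, transpose_map,
      transpose_transpose, Matrix.map_id])
  have a3 : M.det ≠ 0 := fun e => by
    have := congrArg det hM
    rw [← RingHom.mapMatrix_apply F₀.subtype, ← RingHom.map_det, e, map_zero, det_mul, det_mul,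
      ← RingHom.mapMatrix_apply, ← RingHom.map_det] at this
    simp [P.det_ne_zero, hq.pos.ne'] at this
  have a4 : (2 : F₀) ≠ 0 := fun e => two_ne_zero_of_odd_card (hF ▸ hq.pow)
    (by rw [← map_ofNat F₀.subtype 2, e, map_zero])
  obtain ⟨E, hE⟩ := exists_isometry_of_disc a4 (B := toBilin' (1 : Matrix (Fin 3) (Fin 3) F₀))
    (C := toBilin' (M.det • M)) (isSymm_toBilin'_iff_isSymm.2 isSymm_one)
    (isSymm_toBilin'_iff_isSymm.2 (IsSymm.smul a2 _))
    (LinearMap.BilinForm.nondegenerate_toBilin'_iff_det_ne_zero.2 (by simp))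
    (LinearMap.BilinForm.nondegenerate_toBilin'_iff_det_ne_zero.2 (by simp [a3]))
    (Pi.basisFun _ _) (Pi.basisFun _ _) rfl ⟨M.det ^ 2, by
      simp only [LinearMap.BilinForm.toMatrix_basisFun, LinearMap.BilinForm.toMatrix'_toBilin']
      simp; ring⟩
  set R := LinearMap.toMatrix' E.toLinearMap
  have a5 : Rᵀ * (M.det • M) * R = 1 := toBilin'.injective (LinearMap.ext₂ fun x y => by
    rw [← hE, toBilin'_apply', toBilin'_apply', ← mulVec_mulVec, ← mulVec_mulVec, dotProduct_mulVec,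
      vecMul_transpose]
    simp [R])
  obtain ⟨l, hl⟩ := exists_norm_eq_of_invol (conj_ne_id hF) (conj_conj hF) (a0 M.det)
  have a6 : (l • (P.1 * R.map F₀.subtype))ᵀ * 1 * (l • (P.1 * R.map F₀.subtype)).map (conj hF) =
      1 := by
    have := congrArg (·.map F₀.subtype) a5
    simp only [Matrix.map_mul, Matrix.map_smul' _ _ _ (map_mul _), ← hM,
      Matrix.map_one _ (map_zero _) (map_one _)] at this
    refine Eq.trans ?_ this
    rw [Matrix.map_smul' _ _ _ (map_mul _), Matrix.map_mul, a1, Subfield.coe_subtype, ← hl]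
    simp [mul_assoc, smul_smul, transpose_map, mul_comm]
  have a7 : (l • (P.1 * R.map F₀.subtype)).det ≠ 0 := fun e => by
    have := congrArg det a6
    rw [det_mul, det_mul, det_transpose, e] at this
    simp at this
  refine ⟨.mkOfDetNeZero _ a7, fun x y => (fog_mulVec _ _ _ _ _).trans (congrArg (formOfGram _ · x y) a6),
    fun g hg Y e => ?_⟩
  obtain ⟨c, c0, hc⟩ := mem_subfieldSubgroup_iff.1 hg
  obtain ⟨W, hW⟩ := hc.exists_map
  rw [det_smul, det_mul, mul_ne_zero_iff, mul_ne_zero_iff] at a7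
  have a8 : (W * R).map F₀.subtype = R.map F₀.subtype * (c • Y) := by
    have := cj_eq_iff.1 e.symm
    refine P.isUnit.mul_left_cancel (smul_right_injective _ (pow_ne_zero_iff (by simp) |>.1 a7.1) ?_)
    rw [Matrix.map_mul, ← hW]
    simpa [cj_apply, ← mul_assoc, smul_comm l c, c0] using this.symm
  refine ⟨c, c0, ((isUnit_iff_isUnit_det _).2 a7.2.2.isUnit).mul_left_cancel ?_⟩
  rw [← a8, ← a1 (W * R), a8, Matrix.map_mul, a1]

/-- Real vectors up to a scalar. -/
def reP (t : Tb) (c : ℕ) : Bool :=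
  !allB t.Q fun m => !allB 3 fun i => Nat.beq (t.cj (t.dg c i)) (t.mu m (t.dg c i))

omit [Fintype F] in
theorem Cd.reP (h : Cd t σ d) {c : ℕ} : reP t c = true ↔ ∃ μ : F, σ ∘ dv t d 3 c = μ • dv t d 3 c := by
  simp only [Ex.reP, Bool.not_eq_true', Bool.eq_false_iff, ne_eq, allB_iff, not_forall,
    not_not, Nat.beq_eq, not_exists]
  refine ⟨fun ⟨m, _, e⟩ => ⟨d m, funext fun i => ((h.cj _).symm.trans
    (congrArg d (e i i.2))).trans (h.mu _ _)⟩, fun ⟨μ, e⟩ => ?_⟩
  obtain ⟨m, h1, rfl⟩ := h.surj μ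
  exact ⟨m, h1, fun i hi => h.inj _ (h.cj_lt _) _ (h.mu_lt _ _)
    (by rw [h.cj, h.mu]; exact congrFun e ⟨i, hi⟩)⟩

/-- Invariants of the orthogonal group. -/
def oP (t : Tb) (L L' : List ℕ) (c : ℕ) : Bool := Nat.beq (t.hh 3 c c) 1 &&
  force (t.pr 3 fun _ => t.dot 3 (t.dg c) (t.dg c)) fun x => L.elem x || L'.elem x && reP t c

theorem so_false (h : Cd t (conj hF) d) (hq : Odd q) {a b : ℕ} (hQ : t.Q ^ 3 = a * b) {T S x r : ℕ}
    {L L' : List ℕ} (hT : U (conj hF) (dm t d 3 T)) (hS : U (conj hF) (dm t d 3 S))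
    (hC : pC t 3 a b (oP t L L') T S x = true) (hr : reP t r = true ∧ ¬ reP t (t.mv 3 T r) = true)
    {F₀ : Subfield F} {P : GL (Fin 3) F} (h0 : Fintype.card F = Nat.card F₀ ^ 2)
    (h1 : IsFormRationalStructure (hermForm 3 F q) F₀ 1 P) :
    ¬ IsMaximalIn (GU 3 F q ⊓ specialLinear (Fin 3) F)
      (subfieldSubgroup F₀ P ⊓ (GU 3 F q ⊓ specialLinear (Fin 3) F)) := fun hH => by
  obtain ⟨P', hP, h2⟩ := so_normal hF hq h0 h1
  refine false_of_P hF h hQ hH hP hT hS hC fun Y hY g hg e1 => ?_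
  obtain ⟨k, k0, h3⟩ := h2 g hg.1 Y e1
  generalize conj hF = σ at *
  have k1 : σ k ≠ 0 := by simpa
  have b1 : Y.map σ = (k / σ k) • Y := by
    rw [Matrix.map_smul' _ _ _ (map_mul _)] at h3
    rw [div_eq_inv_mul, mul_smul, ← h3, inv_smul_smul₀ k1]
  have b2 : ∀ c c', dv t d 3 c' = Y *ᵥ dv t d 3 c → reP t c = true → reP t c' = true :=
    fun c c' e hc => by
      obtain ⟨μ, hμ⟩ := h.reP.1 hc
      exact h.reP.2 ⟨k / σ k * μ, by
        rw [e, comp_mulVec, b1, hμ, smul_mulVec, mulVec_smul, smul_smul]⟩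
  refine ⟨fun c c' e2 b3 => ?_, fun e => hr.2 (b2 r _ (by rw [h.mv, e]) hr.1)⟩
  have b4 : (k / σ k) ^ 3 = 1 := by
    have := congrArg det b1
    rwa [← RingHom.mapMatrix_apply, ← RingHom.map_det, det_smul, hY.2, map_one, mul_one,
      eq_comm] at this
  have b5 : k / σ k * (dv t d 3 c' ⬝ᵥ dv t d 3 c') = dv t d 3 c ⬝ᵥ dv t d 3 c := by
    have := hY.1
    rw [b1, mul_one] at this
    rw [e2, dotProduct_mulVec, vecMul_mulVec, ← smul_eq_mul, ← smul_dotProduct, ← vecMul_smul,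
      ← Matrix.mul_smul, this, vecMul_one]
  have b6 : (t.pr 3 fun _ => t.dot 3 (t.dg c') (t.dg c')) =
      t.pr 3 fun _ => t.dot 3 (t.dg c) (t.dg c) := h.inj _ (h.pr_lt _ _) _ (h.pr_lt _ _) (by
    simp only [h.pr, h.dot, Finset.prod_const, Finset.card_univ, Fintype.card_fin]
    change (dv t d 3 c' ⬝ᵥ dv t d 3 c') ^ 3 = (dv t d 3 c ⬝ᵥ dv t d 3 c) ^ 3
    rw [← b5, mul_pow, b4, one_mul])
  simp only [oP, force_eq, Bool.and_eq_true, Bool.or_eq_true] at b3 ⊢
  rw [b6, h.hh_eq (a' := c) (b' := c) (by rw [e2, hY.form])]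
  exact ⟨b3.1, b3.2.imp_right fun e => ⟨e.1, b2 c c' e2 e.2⟩⟩

include hF in
theorem so_SU3 (hq : q = 3 ∨ q = 5) {F₀ : Subfield F} {P : GL (Fin 3) F}
    (h0 : Fintype.card F = Nat.card F₀ ^ 2) (h1 : IsFormRationalStructure (hermForm 3 F q) F₀ 1 P) :
    ¬ IsMaximalIn (GU 3 F q ⊓ specialLinear (Fin 3) F)
      (subfieldSubgroup F₀ P ⊓ (GU 3 F q ⊓ specialLinear (Fin 3) F)) := by
  obtain rfl | rfl := hq
  · obtain ⟨d, h⟩ := cd9 hF
    exact so_false hF h (by decide) (a := 27) (b := 27) rfl (T := 43086090) (S := 174319621)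
      (x := 81) (r := 82) (L := [1, 2]) (L' := []) (h.U3 2 (by decide +kernel))
      (h.U3 2 (by decide +kernel)) (by decide +kernel) (by decide +kernel) h0 h1
  · obtain ⟨d, h⟩ := cd25 hF
    exact so_false hF h (by decide) (a := 125) (b := 125) rfl (T := 454434635275)
      (S := 917969146896) (x := 625) (r := 1) (L := [0, 2, 4]) (L' := [1])
      (h.U3 4 (by decide +kernel)) (h.U3 4 (by decide +kernel)) (by decide +kernel)
      (by decide +kernel) h0 h1

end H23.Ex
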