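import Cfsg.Agent.H4.Dk1
import Cfsg.Agent.H23.Classify

/-! Sets of involutions of `PGL₂(p)` closed under conjugation (an application of Dickson's list). -/

set_option autoImplicit false

namespace H23.Fr

open Matrix H4
open scoped MatrixGroups

variable {F : Type*} [Field F]

/-- The values of `tr² / det` on elements of order `3`, `4`, `5` of `PGL₂`. -/
def PT (t : F) : Prop := t = 1 ∨ t = 2 ∨ t ^ 2 - 3 * t + 1 = 0

theorem pt_of_pow {M : M2 F} (hs : ¬ Sc M) (hd : M.det ≠ 0) (ht : M.trace ≠ 0)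
    (h : Sc (M ^ 3) ∨ Sc (M ^ 4) ∨ Sc (M ^ 5)) : PT (M.trace ^ 2 / M.det) := by
  set τ := M.trace
  set d := M.det
  have h1 : ∀ a b : F, (a • (1 : M2 F) + b • M) * M = (-(b * d)) • 1 + (a + b * τ) • M := by
    intro a b
    have := lin_mul_lin M a b 0 1
    simpa using this
  have h2 : M ^ 2 = (-d) • 1 + τ • M := by rw [sq, m2_cayley]; module
  have h3 := pow_succ M 2
  rw [h2, h1] at h3
  have h4 := pow_succ M 3
  rw [h3, h1] at h4
  have h5 := pow_succ M 4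
  rw [h4, h1] at h5
  norm_num only at h3 h4 h5
  rw [h3, h4, h5, sc_lin_iff hs, sc_lin_iff hs, sc_lin_iff hs] at h
  rcases h with h | h | h
  · left; field_simp; linear_combination h
  · right; left; field_simp
    exact mul_left_cancel₀ ht (by linear_combination h)
  · right; right; field_simp; linear_combination h

theorem ac {X Y : M2 F} (hX : X.trace = 0) (hY : Y.trace = 0) :
    X * Y + Y * X = (X * Y).trace • (1 : M2 F) := by
  rw [trace_fin_two] at hX hY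
  have h1 : X 1 1 = -X 0 0 := by linear_combination hX
  have h2 : Y 1 1 = -Y 0 0 := by linear_combination hY
  refine m2_ext ?_ ?_ ?_ ?_ <;> simp [trace_fin_two, m2_mul, h1, h2] <;> ring

theorem tr_of_anti (h2 : (2 : F) ≠ 0) {X Y : M2 F} (h : X * Y = -(Y * X)) : (X * Y).trace = 0 := by
  have := congrArg trace h
  rw [trace_neg, trace_mul_comm Y] at this
  exact mul_left_cancel₀ h2 (by linear_combination this)

theorem tr_of_comm (h2 : (2 : F) ≠ 0) {A G B : M2 F} {k : F} (hk : k ≠ 0) (hA : A * A = k • 1)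
    (h : A * G = G * A) (h' : A * B = -(B * A)) : (G * B).trace = 0 := by
  have h1 : A * (G * B * A) = -(k • (G * B)) := by
    rw [← mul_assoc, ← mul_assoc, h, mul_assoc G, h']; simp [mul_assoc, hA]
  have := congrArg trace h1
  rw [trace_mul_comm, mul_assoc, hA] at this
  simp only [mul_smul_comm, mul_one, trace_smul, trace_neg, smul_eq_mul] at this
  exact mul_left_cancel₀ (mul_ne_zero h2 hk) (by linear_combination this)

theorem prop_of_comm (h2 : (2 : F) ≠ 0) {G B : M2 F} (hG : G.trace = 0) (hB : B.trace = 0) {k : F}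
    (hk : k ≠ 0) (hBB : B * B = k • 1) (h : B * G = G * B) : ∃ c : F, G = c • B := by
  have h1 := congrArg (· * B) (ac hG hB)
  simp only [h, add_mul, mul_assoc, hBB, mul_smul_comm, mul_one, smul_mul_assoc, one_mul] at h1
  refine ⟨(2 * k)⁻¹ * (G * B).trace, ?_⟩
  rw [mul_smul, ← h1, ← add_smul, smul_smul, ← two_mul, inv_mul_cancel₀ (mul_ne_zero h2 hk), one_smul]

theorem not_sc_mul {A B B' : M2 F} {k : F} (hk : k ≠ 0) (hBB : B * B = k • 1)
    (h1 : (B * B').trace = 0) (h2 : (A * B').trace ≠ 0) : ¬ Sc (A * B) := fun h => by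
  have h3 := congrArg (· * (B * B')) h.eq
  simp only [mul_assoc, ← mul_assoc B B, hBB, smul_mul_assoc, one_mul, mul_smul_comm] at h3
  have := congrArg trace h3
  simp [h1, hk, h2] at this

theorem det_of_sq {A : M2 F} {k : F} (h : A.trace = 0) (h' : A * A = k • 1) : A.det = -k := by
  have := congrFun (congrFun (h'.symm.trans (m2_cayley A)) 0) 0
  simp [h] at this
  rw [this, neg_neg]

theorem exists_sl_conj [Finite F] (h2 : (2 : F) ≠ 0) {M : M2 F} {k : F} (hk : k ≠ 0)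
    (h : M.trace = 0) (h' : M * M = k • 1) : ∃ g : SL(2, F), M * g.1 = g.1 * !![0, k; 1, 0] := by
  have hd := det_of_sq h h'
  rw [trace_fin_two] at h
  rw [det_fin_two] at hd
  have h1 : M 1 1 = -M 0 0 := by linear_combination h
  rw [h1] at hd
  obtain ⟨x, y, hxy⟩ : ∃ x y : F, M 1 0 * x ^ 2 - 2 * M 0 0 * x * y - M 0 1 * y ^ 2 = 1 := by
    by_cases hr : M 1 0 = 0
    · have hp : M 0 0 ≠ 0 := fun hp => hk (by rw [hr, hp] at hd; linear_combination hd)
      exact ⟨-(1 + M 0 1) / (2 * M 0 0), 1, by rw [hr]; field_simp; ring⟩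
    · obtain ⟨s, y, hs⟩ := exists_binary_eq h2 one_ne_zero (neg_ne_zero.2 hk) (M 1 0)
      refine ⟨(s + M 0 0 * y) / M 1 0, y, ?_⟩
      field_simp
      linear_combination hs + y ^ 2 * hd
  refine ⟨⟨!![x, M 0 0 * x + M 0 1 * y; y, M 1 0 * x - M 0 0 * y], ?_⟩, ?_⟩
  · rw [det_fin_two_of]; linear_combination hxy
  · refine m2_ext ?_ ?_ ?_ ?_ <;> simp [m2_mul, h1]
    · linear_combination (-x) * hd
    · ring
    · linear_combination (-y) * hd

/-- The elements of `GL₂` normalising a set of matrices. -/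
def stS (X : Set (M2 F)) : Subgroup (GL (Fin 2) F) where
  carrier := {g | ∀ M, M ∈ X ↔ g.1 * M * g⁻¹.1 ∈ X}
  one_mem' M := by simp
  mul_mem' {a b} ha hb M := by rw [hb, ha]; simp [mul_assoc]
  inv_mem' {a} ha M := by rw [ha (a⁻¹.1 * M * a⁻¹⁻¹.1)]; simp [mul_assoc]

theorem mem_stS_of {X : Set (M2 F)} {g : GL (Fin 2) F} (h : pmk g ∈ (stS X).map pmk) :
    g ∈ stS X := by
  obtain ⟨k, hk, h⟩ := h
  obtain ⟨c, hc⟩ := pmk_eq_iff.1 h
  intro M
  rw [hk M]
  have : g.1 * M * g⁻¹.1 = k.1 * M * k⁻¹.1 := by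
    rw [Units.mul_inv_eq_iff_eq_mul, hc]; simp [mul_assoc]
  rw [this]

theorem eq_top_of_prime [Fintype F] (hp : (Fintype.card F).Prime) {S : AddSubgroup F} {a : F}
    (ha : a ∈ S) (h0 : a ≠ 0) : S = ⊤ := by
  have : Fact (Nat.card F).Prime := ⟨by rwa [Nat.card_eq_fintype_card]⟩
  exact (S.eq_bot_or_eq_top_of_prime_card).resolve_left fun h => h0 (by simpa [h] using ha)

theorem pow_of_small {G : Type*} [Group G]
    (h : Nonempty (G ≃* alternatingGroup (Fin 4)) ∨ Nonempty (G ≃* Equiv.Perm (Fin 4)) ∨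
      Nonempty (G ≃* alternatingGroup (Fin 5))) (g : G) : g ^ 3 = 1 ∨ g ^ 4 = 1 ∨ g ^ 5 = 1 := by
  have h4 : ∀ s : Equiv.Perm (Fin 4), s ^ 3 = 1 ∨ s ^ 4 = 1 ∨ s ^ 5 = 1 := by decide +kernel
  have h5 : ∀ s : Equiv.Perm (Fin 5), Equiv.Perm.sign s = 1 → s ^ 3 = 1 ∨ s ^ 4 = 1 ∨ s ^ 5 = 1 := by
    decide +kernel
  rcases h with ⟨⟨e⟩⟩ | ⟨⟨e⟩⟩ | ⟨⟨e⟩⟩
  · simpa [← map_eq_one_iff e e.injective, Subtype.ext_iff] using h4 (e g).1
  · simpa [← map_eq_one_iff e e.injective] using h4 (e g)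
  · simpa [← map_eq_one_iff e e.injective, Subtype.ext_iff] using h5 (e g).1 (e g).2

theorem dk0 [Fintype F] (hp : (Fintype.card F).Prime) (h2 : (2 : F) ≠ 0) {κ : F} (hκ : κ ≠ 0)
    {X : Set (M2 F)} (hX : ∀ A ∈ X, A.trace = 0 ∧ A * A = κ • 1)
    (hc : ∀ A ∈ X, ∀ M ∈ X, κ⁻¹ • (A * M * A) ∈ X) {A A₁ A₂ : M2 F} (hA : A ∈ X) (h₁ : A₁ ∈ X)
    (h₂ : A₂ ∈ X) (h12 : A₁ * A₂ = -(A₂ * A₁)) (t1 : (A * A₁).trace ≠ 0)
    (t2 : (A * A₂).trace ≠ 0) (t3 : (A * (A₁ * A₂)).trace ≠ 0) :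
    (∀ M : M2 F, M.trace = 0 → M * M = κ • 1 → M ∈ X) ∨ (PT ((A * A₁).trace ^ 2 / κ ^ 2) ∧
      PT ((A * A₂).trace ^ 2 / κ ^ 2) ∧ PT ((A * (A₁ * A₂)).trace ^ 2 / (-κ ^ 3))) := by
  obtain ⟨p, hchar⟩ := CharP.exists F
  have : Fact p.Prime := ⟨CharP.char_is_prime F p⟩
  have hu : ∀ B ∈ X, ∃ u ∈ stS X, u.1 = B := fun B hB => by
    have e := (hX B hB).2
    refine ⟨⟨B, κ⁻¹ • B, by simp [e, smul_smul, hκ], by simp [e, smul_smul, hκ]⟩, fun M => ?_, rfl⟩
    change _ ↔ B * M * (κ⁻¹ • B) ∈ X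
    rw [mul_smul_comm]
    refine ⟨hc B hB M, fun h => ?_⟩
    convert hc B hB _ h
    simp [mul_assoc, e, ← mul_assoc B B, smul_smul, hκ]
  obtain ⟨u, hu0, rfl⟩ := hu A hA
  obtain ⟨u₁, hu1, rfl⟩ := hu A₁ h₁
  obtain ⟨u₂, hu2, rfl⟩ := hu A₂ h₂
  obtain ⟨a0, b0⟩ := hX _ hA
  obtain ⟨a1, b1⟩ := hX _ h₁
  obtain ⟨a2, b2⟩ := hX _ h₂
  have h21 : u₂.1 * u₁.1 = -(u₁.1 * u₂.1) := by rw [h12, neg_neg]
  have a3 := tr_of_anti h2 h12
  have b3 : u₁.1 * u₂.1 * (u₁.1 * u₂.1) = (-κ ^ 2) • 1 := by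
    rw [mul_assoc, ← mul_assoc u₂.1, h21]
    simp [mul_assoc, b2, b1, smul_smul, sq]
  have h13 : u₁.1 * (u₁.1 * u₂.1) = -(u₁.1 * u₂.1 * u₁.1) := by rw [mul_assoc, h21]; simp
  have h31 : u₁.1 * u₂.1 * u₁.1 = -(u₁.1 * (u₁.1 * u₂.1)) := by rw [h13, neg_neg]
  have hκ2 : -κ ^ 2 ≠ 0 := by simp [hκ]
  have small : (∀ γ : (stS X).map pmk, γ ^ 3 = 1 ∨ γ ^ 4 = 1 ∨ γ ^ 5 = 1) →
      PT ((u.1 * u₁.1).trace ^ 2 / κ ^ 2) ∧ PT ((u.1 * u₂.1).trace ^ 2 / κ ^ 2) ∧
        PT ((u.1 * (u₁.1 * u₂.1)).trace ^ 2 / (-κ ^ 3)) := fun h => by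
    have key : ∀ g ∈ stS X, ¬ Sc g.1 → g.1.trace ≠ 0 → PT (g.1.trace ^ 2 / g.1.det) :=
      fun g hg hs ht => pt_of_pow hs (gl_det_ne_zero g) ht (by
        simpa only [Subtype.ext_iff, SubmonoidClass.coe_pow, ← map_pow, OneMemClass.coe_one,
          pmk_eq_one_iff, Units.val_pow_eq_pow_val] using h ⟨pmk g, g, hg, rfl⟩)
    have d0 := det_of_sq a0 b0
    have d1 := det_of_sq a1 b1
    have d2 := det_of_sq a2 b2
    refine ⟨?_, ?_, ?_⟩
    · convert key _ (mul_mem hu0 hu1) (not_sc_mul hκ b1 a3 t2) t1 using 2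
      · rfl
      · simp [d0, d1, sq]
    · convert key _ (mul_mem hu0 hu2) (not_sc_mul hκ b2 (tr_of_anti h2 h21) t1) t2 using 2
      · rfl
      · simp [d0, d2, sq]
    · convert key _ (mul_mem hu0 (mul_mem hu1 hu2)) (not_sc_mul hκ2 b3 (tr_of_anti h2 h31) t1) t3
        using 2
      · rfl
      · simp [d0, d1, d2]; ring
  rcases dickson_pgl p ((stS X).map pmk) with ⟨x, h⟩ | ⟨g, hg, h⟩ | ⟨-, h⟩ | ⟨-, h⟩ | ⟨E, P, -, h⟩
  · exfalso
    induction x using Projectivization.ind with | h v hv => ?_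
    obtain ⟨a, ha⟩ := (pmk_fix_iff hv).1 (h ⟨u₁, hu1, rfl⟩)
    obtain ⟨b, hb⟩ := (pmk_fix_iff hv).1 (h ⟨u₂, hu2, rfl⟩)
    have e1 := congrArg (· *ᵥ v) h12
    have e2 := congrArg (· *ᵥ v) b3
    simp only [← mulVec_mulVec, ha, hb, mulVec_smul, neg_mulVec, smul_mulVec, one_mulVec,
      smul_smul, ← neg_smul] at e1 e2
    have e3 := smul_left_injective F hv e1
    have e4 := smul_left_injective F hv e2
    have : b * a = 0 := mul_left_cancel₀ h2 (by linear_combination e3)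
    exact hκ2 (by linear_combination -e4 + b * a * this)
  · exfalso
    set G := (2 : F) • g.1 - g.1.trace • (1 : M2 F) with hG
    have hG0 : G.trace = 0 := by simp [hG]; ring
    have hG1 : G ≠ 0 := fun h0 => hg (by
      have := congrArg det h0
      rw [show G = (-g.1.trace) • 1 + (2 : F) • g.1 by rw [hG]; module, det_lin] at this
      rw [det_zero] at this
      rw [disc]; linear_combination -this)
    have key : ∀ v ∈ stS X, v.1 * G = G * v.1 ∨ v.1 * G = -(G * v.1) := fun v hv => by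
      obtain ⟨k, hk, e⟩ := h ⟨v, hv, rfl⟩
      obtain ⟨c, hc⟩ := pmk_eq_iff.1 e
      rw [hc]
      rcases mem_glN.1 hk with hk | hk
      · left; simp [hG, mul_sub, sub_mul, hk, smul_sub, smul_comm c]
      · right
        simp only [hG, mul_sub, sub_mul, hk, adj_eq, smul_mul_assoc, mul_smul_comm, one_mul, mul_one]
        module
    have fin : ∀ {B B' : M2 F} {k : F}, B.trace = 0 → k ≠ 0 → B * B = k • 1 → B * G = G * B →
        B * B' = -(B' * B) → (u.1 * B).trace ≠ 0 → (u.1 * B').trace ≠ 0 → False := by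
      intro B B' k hB hk hBB e hBB' s1 s2
      obtain ⟨c, hc⟩ := prop_of_comm h2 hG0 hB hk hBB e
      have hc0 : c ≠ 0 := by rintro rfl; simp [hG1] at hc
      have := key u hu0
      simp only [hc, mul_smul_comm, smul_mul_assoc, ← smul_neg, (smul_right_injective _ hc0).eq_iff]
        at this
      rcases this with e | e
      · exact s2 (tr_of_comm h2 hk hBB e.symm hBB')
      · exact s1 (tr_of_anti h2 e)
    rcases key u₁ hu1 with e1 | e1
    · exact fin a1 hκ b1 e1 h12 t1 t2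
    rcases key u₂ hu2 with e2 | e2
    · exact fin a2 hκ b2 e2 h21 t2 t1
    exact fin a3 hκ2 b3 (by rw [mul_assoc, e2, mul_neg, ← mul_assoc, e1]; simp [mul_assoc]) h31 t3 t1
  · exact Or.inr (small (pow_of_small h))
  · exact Or.inr (small (pow_of_small (Or.inr (Or.inr h))))
  · left
    have hE : ∀ a : F, a ∈ E := fun a =>
      (eq_top_of_prime hp (S := E.toAddSubgroup) E.one_mem one_ne_zero).ge (AddSubgroup.mem_top a)
    obtain ⟨P, rfl⟩ := ProjGenLinGroup.mk_surjective P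
    have h1 : (pslS E).map (MulAut.conj (pmk P)).toMonoidHom ≤ (stS X).map pmk := by
      rcases h with h | h <;> rw [h]
      exact Subgroup.map_mono (pslS_le_pglS E)
    have h3 : ∀ g : SL(2, F), ∀ M ∈ X, g.1 * M * g⁻¹.1 ∈ X := fun g M hM => by
      have : smk g ∈ (stS X).map pmk := h1 ⟨smk (conjSL P⁻¹ g), smk_mem_pslS fun _ _ => hE _, by
        simp [smk_conjSL, mul_assoc]⟩
      exact (mem_stS_of (g := SpecialLinearGroup.toGL g) this M).1 hM
    intro M hM hM'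
    obtain ⟨g, hg⟩ := exists_sl_conj h2 hκ hM hM'
    obtain ⟨k, hk⟩ := exists_sl_conj h2 hκ a1 b1
    convert h3 (g * k⁻¹) _ h₁
    have e1 : ∀ g : SL(2, F), g.1 * g⁻¹.1 = 1 := fun g => by
      exact congrArg Subtype.val (mul_inv_cancel g)
    have e2 : k⁻¹.1 * k.1 = 1 := by simpa using e1 k⁻¹
    rw [_root_.mul_inv_rev, inv_inv]
    change M = g.1 * k⁻¹.1 * u₁.1 * (k.1 * g⁻¹.1)
    calc M = M * g.1 * g⁻¹.1 := by rw [mul_assoc, e1, mul_one]
      _ = g.1 * (k⁻¹.1 * k.1) * !![0, κ; 1, 0] * g⁻¹.1 := by rw [hg, e2, mul_one]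
      _ = _ := by simp only [mul_assoc]; rw [← mul_assoc k.1, ← hk, mul_assoc]

end H23.Fr
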