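import Cfsg.Agent.H23.Mx1
import Mathlib.GroupTheory.SpecificGroups.Alternating.Simple

/-! Overgroups of the monomial group, I: basic tools and the case of the full diagonal group. -/

set_option autoImplicit false

namespace H23

open Module H22 Cfsg Cfsg.Geo

variable {F : Type*} [Field F] {ι : Type} [Fintype ι] [DecidableEq ι]

/-- standard basis vector -/
abbrev ev (F : Type*) [Field F] {ι : Type} [DecidableEq ι] (i : ι) : ι → F := Pi.single i 1

/-- the monomial group -/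
abbrev Mon (F : Type*) [Field F] (ι : Type) [DecidableEq ι] : Subgroup ((ι → F) ≃ₗ[F] (ι → F)) :=
  decL fun i => F ∙ ev F i

theorem exists_notMem_list {α : Type*} [Fintype α] (l : List α) (h : l.length < Fintype.card α) :
    ∃ a, a ∉ l := by
  classical
  by_contra! hc
  have := (Finset.card_le_card (show Finset.univ ⊆ l.toFinset from fun a _ => by
    simpa using hc a)).trans (List.toFinset_card_le l)
  simp at this; omega

omit [Fintype ι] in
theorem mem_span_ev {x : ι → F} {i : ι} : x ∈ F ∙ ev F i ↔ ∀ p, p ≠ i → x p = 0 := by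
  refine ⟨fun h p hp => ?_, fun h => Submodule.mem_span_singleton.2 ⟨x i, funext fun p => ?_⟩⟩
  · obtain ⟨c, rfl⟩ := Submodule.mem_span_singleton.1 h; simp [hp]
  · by_cases hp : p = i
    · simp [hp]
    · simp [hp, h p hp]

omit [Fintype ι] in
theorem ev_ne_zero (i : ι) : ev F i ≠ 0 := fun h => by simpa using congrFun h i

theorem eq_sum_ev (x : ι → F) : x = ∑ i, x i • ev F i := by
  ext p; simp [Finset.sum_apply, Pi.single_apply]

theorem dual_ext_ev {φ ψ : Dual F (ι → F)} (h : ∀ i, φ (ev F i) = ψ (ev F i)) : φ = ψ :=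
  (Pi.basisFun F ι).ext fun i => by simpa using h i

theorem prj_ev : Prj (fun i : ι => F ∙ ev F i)
    fun i => (LinearMap.proj i : (ι → F) →ₗ[F] F).smulRight (ev F i) :=
  ⟨fun i x => Submodule.smul_mem _ _ (Submodule.mem_span_singleton_self _),
    fun i x hx => by obtain ⟨c, rfl⟩ := Submodule.mem_span_singleton.1 hx; simp,
    fun i j hij x hx => by simp [mem_span_ev.1 hx i hij], fun x => (eq_sum_ev x).symm⟩

omit [Fintype ι] in
theorem finrank_ev (i : ι) : finrank F (F ∙ ev F i) = 1 := finrank_span_singleton (ev_ne_zero i)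

theorem mem_Mon {g : (ι → F) ≃ₗ[F] (ι → F)} :
    g ∈ Mon F ι ↔ ∀ i, ∃ j, ∀ p, p ≠ j → g (ev F i) p = 0 := by
  refine ⟨fun ⟨s, hs⟩ i => ⟨s i, mem_span_ev.1 ((hs i).le ⟨_, Submodule.mem_span_singleton_self _, rfl⟩)⟩,
    fun h => prj_ev.mem_decL finrank_ev one_pos fun i x hx => ?_⟩
  obtain ⟨c, rfl⟩ := Submodule.mem_span_singleton.1 hx
  obtain ⟨j, hj⟩ := h i
  exact ⟨j, map_smul g c _ ▸ Submodule.smul_mem _ _ (mem_span_ev.2 hj)⟩

theorem exists_of_not_mem_Mon {g : (ι → F) ≃ₗ[F] (ι → F)} (h : g ∉ Mon F ι) :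
    ∃ i j k, j ≠ k ∧ g (ev F i) j ≠ 0 ∧ g (ev F i) k ≠ 0 := by
  by_contra! hc
  refine h (mem_Mon.2 fun i => ?_)
  obtain ⟨j, hj⟩ := Function.ne_iff.1 ((g.map_ne_zero_iff).2 (ev_ne_zero i))
  exact ⟨j, fun p hp => hc i j p hp.symm hj⟩

/-- diagonal maps -/
def dgE (d : ι → Fˣ) : (ι → F) ≃ₗ[F] (ι → F) where
  toFun x p := d p * x p
  invFun x p := ((d p)⁻¹ : Fˣ) * x p
  map_add' x y := by ext; simp [mul_add]
  map_smul' c x := by ext; simp [mul_left_comm]
  left_inv x := by ext; simp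
  right_inv x := by ext; simp

omit [Fintype ι] [DecidableEq ι] in
@[simp] theorem dgE_apply (d : ι → Fˣ) (x : ι → F) (p : ι) : dgE d x p = d p * x p := rfl

omit [Fintype ι] [DecidableEq ι] in
@[simp] theorem dgE_symm_apply (d : ι → Fˣ) (x : ι → F) (p : ι) :
    (dgE d).symm x p = (d p : F)⁻¹ * x p := by
  rw [← Units.val_inv_eq_inv_val]; rfl

theorem det_dgE (d : ι → Fˣ) : LinearMap.det (dgE d).toLinearMap = ∏ p, (d p : F) := by
  rw [← Matrix.det_diagonal, ← LinearMap.det_toLin']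
  congr 1; ext; simp [Matrix.mulVec_diagonal]

theorem dgE_mem (d : ι → Fˣ) : dgE d ∈ Mon F ι := mem_Mon.2 fun i => ⟨i, fun p hp => by simp [hp]⟩

/-- permutation maps -/
def pmE (F : Type*) [Field F] (ι : Type) : Equiv.Perm ι →* ((ι → F) ≃ₗ[F] (ι → F)) where
  toFun s := LinearEquiv.funCongrLeft F F s.symm
  map_one' := rfl
  map_mul' _ _ := rfl

omit [Fintype ι] [DecidableEq ι] in
@[simp] theorem pmE_apply (s : Equiv.Perm ι) (x : ι → F) (p : ι) : pmE F ι s x p = x (s.symm p) := rfl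

omit [Fintype ι] in
theorem pmE_ev (s : Equiv.Perm ι) (i : ι) : pmE F ι s (ev F i) = ev F (s i) := by
  ext p; simp [Pi.single_apply, Equiv.symm_apply_eq]

theorem pmE_mem (s : Equiv.Perm ι) : pmE F ι s ∈ Mon F ι :=
  mem_Mon.2 fun i => ⟨s i, fun p hp => by rw [pmE_ev]; simp [hp]⟩

theorem det_pmE (s : Equiv.Perm ι) :
    LinearMap.det (pmE F ι s).toLinearMap = Equiv.Perm.sign s := by
  rw [← Equiv.Perm.sign_inv, ← Matrix.det_permutation, ← LinearMap.det_toLin']
  congr 1; refine LinearMap.ext fun x => ?_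
  rw [Matrix.toLin'_apply, Matrix.permMatrix_mulVec]; rfl

/-- `diag(a at k, a⁻¹ at l)` -/
def ddE (k l : ι) (a : Fˣ) : (ι → F) ≃ₗ[F] (ι → F) :=
  dgE (Function.update (1 : ι → Fˣ) k a * Function.update (1 : ι → Fˣ) l a⁻¹)

omit [Fintype ι] in
theorem ddE_left {k l : ι} (h : k ≠ l) (a : Fˣ) (x : ι → F) : ddE k l a x k = a * x k := by
  simp [ddE, h]

omit [Fintype ι] in
theorem ddE_right {k l : ι} (h : k ≠ l) (a : Fˣ) (x : ι → F) :
    ddE k l a x l = (a : F)⁻¹ * x l := by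
  simp [ddE, h.symm]

omit [Fintype ι] in
theorem ddE_other {k l p : ι} (h : p ≠ k) (h' : p ≠ l) (a : Fˣ) (x : ι → F) :
    ddE k l a x p = x p := by
  simp [ddE, h, h']

theorem det_dgE_update (i : ι) (a : Fˣ) :
    LinearMap.det (dgE (Function.update 1 i a)).toLinearMap = a := by
  rw [det_dgE, Finset.prod_eq_single i (fun p _ hp => by simp [hp]) (by simp)]; simp

theorem ddE_mem (k l : ι) (a : Fˣ) : ddE k l a ∈ Mon F ι ⊓ SLv F (ι → F) := by
  refine ⟨dgE_mem _, mem_SLv.2 ?_⟩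
  have : ddE k l a = dgE (Function.update 1 k a) * dgE (Function.update 1 l a⁻¹) := by
    ext x p; simp [ddE, mul_assoc]
  rw [this]
  change LinearMap.det (_ * _) = 1
  rw [map_mul, det_dgE_update, det_dgE_update]; simp

omit [Fintype ι] in
theorem dgE_update_apply (i : ι) (a : Fˣ) (x : ι → F) :
    dgE (Function.update 1 i a) x = x + ((a - 1) * x i) • ev F i := by
  ext p
  by_cases h : p = i
  · subst h; simp; ring
  · simp [h]

/-- correcting the determinant in one row -/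
theorem exists_fix_det {g : (ι → F) ≃ₗ[F] (ι → F)} (hg : g ∈ Mon F ι) (i : ι) :
    ∃ m ∈ Mon F ι ⊓ SLv F (ι → F), ∃ c : Fˣ, m = dgE (Function.update 1 i c) * g := by
  refine ⟨_, ⟨Subgroup.mul_mem _ (dgE_mem _) hg, mem_SLv.2 ?_⟩,
    (Units.mk0 _ (det_equiv_ne_zero g))⁻¹, rfl⟩
  change LinearMap.det (_ * g.toLinearMap) = 1
  rw [map_mul, det_dgE_update]; simp [det_equiv_ne_zero]

theorem eq_zero_of_mem_SLv {V : Type*} [AddCommGroup V] [Module F V] [FiniteDimensional F V]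
    {g : V ≃ₗ[F] V} (hg : g ∈ SLv F V) {φ : Dual F V} {u : V} (h : ∀ x, g x = x + φ x • u) :
    φ u = 0 := by
  have h1 : g.toLinearMap = LinearMap.transvection φ u := LinearMap.ext h
  simpa [h1] using mem_SLv.1 hg

variable [Fintype F] {H : Subgroup ((ι → F) ≃ₗ[F] (ι → F))}

theorem SLv_le_of_tIn_ev (hn : 4 ≤ Fintype.card ι) (hq : 3 ≤ Fintype.card F)
    (hH : Mon F ι ⊓ SLv F (ι → F) ≤ H) {i : ι} {ψ : Dual F (ι → F)} (h0 : ψ (ev F i) = 0)
    (h1 : ψ ≠ 0) (ht : TIn H ψ (ev F i)) : SLv F (ι → F) ≤ H := by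
  obtain ⟨j, hj⟩ : ∃ j, ψ (ev F j) ≠ 0 := by
    by_contra! hc; exact h1 (dual_ext_ev hc)
  have hji : j ≠ i := by rintro rfl; exact hj h0
  obtain ⟨k, hk⟩ := exists_notMem_list [i, j] (by simp; omega)
  obtain ⟨l, hl⟩ := exists_notMem_list [i, j, k] (by simp; omega)
  simp only [List.mem_cons, List.not_mem_nil, or_false, not_or] at hk hl
  obtain ⟨c, hc0, hc1⟩ := exists_ne_zero_one hq
  have key : ∀ (ψ : Dual F (ι → F)) (k : ι), ψ (ev F i) = 0 → TIn H ψ (ev F i) → k ≠ i → k ≠ j →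
      TIn H (((c - 1) * ψ (ev F j)) • LinearMap.proj j +
        ((c⁻¹ - 1) * ψ (ev F k)) • LinearMap.proj k) (ev F i) := by
    intro ψ k h0 ht hki hkj
    have h2 := ht.conj' (hH (ddE_mem j k (Units.mk0 c hc0)))
    have h3 : ddE j k (Units.mk0 c hc0) (ev F i) = ev F i := by
      ext p; by_cases h : p = i
      · subst h; rw [ddE_other hji.symm hki.symm]
      · simp [ddE, h]
    rw [((LinearEquiv.symm_apply_eq _).2 h3.symm : (ddE j k _).symm _ = _)] at h2
    convert h2.sub_left ht (by simp [h3, h0]) h0 using 1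
    refine dual_ext_ev fun p => ?_
    have : ddE j k (Units.mk0 c hc0) (ev F p) = (ddE j k (Units.mk0 c hc0) (ev F p) p) • ev F p := by
      ext r; by_cases h : r = p
      · subst h; simp
      · simp [ddE, h]
    rw [LinearMap.sub_apply, LinearMap.comp_apply, LinearEquiv.coe_coe, this, map_smul]
    by_cases hp : p = j
    · subst hp; simp [ddE_left hkj.symm, hkj]; ring
    by_cases hp' : p = k
    · subst hp'; simp [ddE_right hkj.symm, hkj.symm]; ring
    · simp [ddE_other hp hp', Ne.symm hp, Ne.symm hp']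
  have h2 := key _ l (by simp [hji, hk.1]) (key ψ k h0 ht hk.1 hk.2) hl.1 hl.2.1
  simp only [LinearMap.add_apply, LinearMap.smul_apply, LinearMap.proj_apply, Pi.single_eq_same,
    Pi.single_eq_of_ne hk.2, Pi.single_eq_of_ne (Ne.symm hl.2.1),
    Pi.single_eq_of_ne (Ne.symm hl.2.2), smul_eq_mul, mul_zero, add_zero, zero_smul, mul_one] at h2
  refine prj_ev.SLv_le_of_cross finrank_ev one_pos hH hji.symm fun u hu φ => ?_
  obtain ⟨a, rfl⟩ := Submodule.mem_span_singleton.1 hu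
  by_cases h3 : a * φ (ev F j) = 0
  · exact (tIn_zero_left H 0).congr fun x => by
      rcases mul_eq_zero.1 h3 with h | h <;> simp [h]
  have h4 : (c - 1) * ((c - 1) * ψ (ev F j)) ≠ 0 := by simp [sub_eq_zero, hc1, hj]
  refine (h2.conj (hH (ddE_mem i k (Units.mk0 _ (div_ne_zero h3 h4))))).congr fun x => ?_
  ext p
  by_cases hp : p = i
  · subst hp
    have : (ddE p k (Units.mk0 _ (div_ne_zero h3 h4))).symm x j = x j := by simp [ddE, hji, Ne.symm hk.2]
    simp [ddE_left (Ne.symm hk.1), this]; field_simp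
  · simp [ddE, hp]

section FullDiag

variable (hH : Mon F ι ≤ H)
  (hT : ∀ i (ψ : Dual F (ι → F)), ψ (ev F i) = 0 → TIn H ψ (ev F i) → ψ = 0)
include hH hT

theorem monGL_fix (hq : 3 ≤ Fintype.card F) {k : (ι → F) ≃ₗ[F] (ι → F)} (hk : k ∈ H) {i : ι} {c : F}
    (hc : k (ev F i) = c • ev F i) (x : ι → F) : k x i = c * x i := by
  obtain ⟨a, ha0, ha1⟩ := exists_ne_zero_one hq
  have hc0 : c ≠ 0 := by rintro rfl; simp [ev_ne_zero] at hc
  have h1 : k.symm (ev F i) = c⁻¹ • ev F i := by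
    rw [LinearEquiv.symm_apply_eq, map_smul, hc, smul_smul, inv_mul_cancel₀ hc0, one_smul]
  have := hT i ((a - 1) • (c⁻¹ • LinearMap.proj i ∘ₗ k.toLinearMap - LinearMap.proj i))
    (by simp [hc, hc0]) ⟨k⁻¹ * dgE (Function.update 1 i (Units.mk0 a ha0)) * k *
      dgE (Function.update 1 i (Units.mk0 a ha0)⁻¹), H.mul_mem (H.mul_mem (H.mul_mem (H.inv_mem hk)
      (hH (dgE_mem _))) hk) (hH (dgE_mem _)), fun x => by
        simp only [LinearEquiv.mul_apply, dgE_update_apply, map_add, map_smul, hc,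
          LinearEquiv.coe_inv, LinearEquiv.symm_apply_apply, h1, smul_smul, add_assoc, ← add_smul]
        congr 2; simp; field_simp; ring⟩
  have h2 := LinearMap.congr_fun this x
  simp [sub_eq_zero, ha1] at h2
  rw [← h2]; field_simp

theorem monGL_zero (hq : 3 ≤ Fintype.card F) {g : (ι → F) ≃ₗ[F] (ι → F)} (hg : g ∈ H) {i p : ι}
    (h : g (ev F i) p = 0) : g.symm (ev F p) i = 0 := by
  obtain ⟨a, ha0, ha1⟩ := exists_ne_zero_one hq
  have := monGL_fix hH hT hq (k := g⁻¹ * dgE (Function.update 1 p (Units.mk0 a ha0)) * g) (i := i)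
    (c := 1) (H.mul_mem (H.mul_mem (H.inv_mem hg) (hH (dgE_mem _))) hg)
    (by simp [dgE_update_apply, h]) (g.symm (ev F p))
  simpa [dgE_update_apply, sub_eq_zero, ha1] using this

theorem monGL_eq (hq : 3 ≤ Fintype.card F) {g : (ι → F) ≃ₗ[F] (ι → F)} (hg : g ∈ H) {i p r : ι}
    (h : g (ev F i) p ≠ 0) (h' : g (ev F i) r ≠ 0) :
    g.symm (ev F p) i * g (ev F i) p = g.symm (ev F r) i * g (ev F i) r := by
  by_cases hpr : p = r
  · rw [hpr]
  let k := ddE p r (Units.mk0 _ (div_ne_zero h h')) * pmE F ι (Equiv.swap p r)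
  have h1 : k (g (ev F i)) = g (ev F i) := by
    ext s
    by_cases h1 : s = p
    · subst h1; simp [k, ddE_left hpr, h']
    by_cases h2 : s = r
    · subst h2; simp [k, ddE_right hpr, h]
    · simp [k, ddE_other h1 h2, Equiv.swap_apply_of_ne_of_ne h1 h2]
  have h2 : k (ev F p) = (g (ev F i) r / g (ev F i) p) • ev F r := by
    ext s
    by_cases h2 : s = r
    · subst h2; simp [k, ddE_right hpr]
    · simp [k, pmE_ev, ddE, h2]
  have := monGL_fix hH hT hq (k := g⁻¹ * k * g) (i := i) (c := 1)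
    (H.mul_mem (H.mul_mem (H.inv_mem hg) (H.mul_mem (hH (ddE_mem _ _ _).1) (hH (pmE_mem _)))) hg)
    (by simp [h1]) (g.symm (ev F p))
  simp [h2] at this
  rw [← this]; field_simp

theorem monGL_quad (hq : 3 ≤ Fintype.card F) {g : (ι → F) ≃ₗ[F] (ι → F)} (hg : g ∈ H) {i j k : ι}
    (hjk : j ≠ k) (h : g (ev F i) j ≠ 0) (h' : g (ev F i) k ≠ 0) {a : F} (ha : a ≠ 0) (ha1 : a ≠ 1)
    (ha2 : a ≠ -1) : 1 + (a + a⁻¹ - 2) * (g.symm (ev F j) i * g (ev F i) j) = 0 := by
  have h0 : ∀ p, g (ev F i) p ≠ 0 → g.symm (ev F p) i ≠ 0 := fun p hp h1 =>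
    hp (monGL_zero hH hT hq (H.inv_mem hg) h1)
  have hc := monGL_eq hH hT hq hg h h'
  let y := g * dgE (Function.update 1 i (Units.mk0 a ha)) * g⁻¹
  have hy : y ∈ H := H.mul_mem (H.mul_mem hg (hH (dgE_mem _))) (H.inv_mem hg)
  have h1 : ∀ x, y x = x + ((a - 1) * g.symm x i) • g (ev F i) := fun x => by
    simp [y, dgE_update_apply]
  have h2 : ∀ x, y.symm x = x + ((a⁻¹ - 1) * g.symm x i) • g (ev F i) := fun x => by
    rw [LinearEquiv.symm_apply_eq, h1]
    simp only [map_add, map_smul, LinearEquiv.symm_apply_apply, add_assoc, ← add_smul]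
    simp only [Pi.add_apply, Pi.smul_apply, Pi.single_eq_same, smul_eq_mul, left_eq_add]
    rw [smul_eq_zero]; left; field_simp; ring
  by_cases h3 : y (ev F j) j = 0
  · have h4 := monGL_zero hH hT hq hy h3
    simp only [h1, h2, Pi.add_apply, Pi.single_eq_same, Pi.smul_apply, smul_eq_mul] at h3 h4
    have h5 : (a - a⁻¹) * (g.symm (ev F j) i * g (ev F i) j) = 0 := by linear_combination h3 - h4
    rw [mul_eq_zero, or_iff_left (mul_ne_zero (h0 j h) h), sub_eq_zero] at h5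
    have h6 : (a - 1) * (a + 1) = 0 := by
      linear_combination a * h5 + mul_inv_cancel₀ ha
    simp [sub_eq_zero, ha1, add_eq_zero_iff_eq_neg, ha2] at h6
  · have h4 := monGL_eq hH hT hq hy h3 (r := k) (by simp [h1, hjk.symm, h', h0 j h, sub_eq_zero, ha1])
    simp only [h1, h2, Pi.add_apply, Pi.single_eq_same, Pi.smul_apply, smul_eq_mul,
      Pi.single_eq_of_ne hjk, Pi.single_eq_of_ne hjk.symm] at h4
    linear_combination h4 - (a - 1) * (a⁻¹ - 1) * (g.symm (ev F j) i * g (ev F i) j) * hc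

theorem monGL_le (hn : 3 ≤ Fintype.card ι) (hq : 5 ≤ Fintype.card F) : H ≤ Mon F ι := by
  have hq3 : 3 ≤ Fintype.card F := by omega
  have h0 : ∀ g ∈ H, ∀ i p, g (ev F i) p ≠ 0 → g.symm (ev F p) i ≠ 0 := fun g hg i p hp h1 =>
    hp (monGL_zero hH hT hq3 (H.inv_mem hg) h1)
  intro g hg
  by_contra hg'
  obtain ⟨i, j, k, hjk, h, h'⟩ := exists_of_not_mem_Mon hg'
  rcases hq.lt_or_eq with h6 | h5
  · obtain ⟨a, ha⟩ := exists_notMem_list [(0 : F), 1, -1] (by simp; omega)
    obtain ⟨b, hb⟩ := exists_notMem_list [(0 : F), 1, -1, a, a⁻¹] (by simp; omega)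
    simp only [List.mem_cons, List.not_mem_nil, or_false, not_or] at ha hb
    have h1 := monGL_quad hH hT hq3 hg hjk h h' ha.1 ha.2.1 ha.2.2
    have h2 := monGL_quad hH hT hq3 hg hjk h h' hb.1 hb.2.1 hb.2.2.1
    have h3 : (a + a⁻¹ - (b + b⁻¹)) * (g.symm (ev F j) i * g (ev F i) j) = 0 := by
      linear_combination h1 - h2
    rw [mul_eq_zero, or_iff_left (mul_ne_zero (h0 g hg i j h) h)] at h3
    have h4 : (b - a) * (b - a⁻¹) = 0 := by
      linear_combination (-b) * h3 + mul_inv_cancel₀ ha.1 - mul_inv_cancel₀ hb.1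
    simp [sub_eq_zero, hb.2.2.2.1, hb.2.2.2.2] at h4
  have h5 : (5 : F) = 0 := by simpa [← h5] using FiniteField.cast_card_eq_zero F
  have h2 : (2 : F) ≠ 0 := fun h2 => one_ne_zero (α := F) (by linear_combination h5 - 2 * h2)
  have hi : (2 : F)⁻¹ = 3 := inv_eq_of_mul_eq_one_right (by linear_combination h5)
  have hc : ∀ g ∈ H, ∀ i j k, j ≠ k → g (ev F i) j ≠ 0 → g (ev F i) k ≠ 0 →
      g.symm (ev F j) i * g (ev F i) j = 3 := fun g hg i j k hjk h h' => by
    have := monGL_quad hH hT hq3 hg hjk h h' h2 (fun h => one_ne_zero (α := F) (by linear_combination h))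
      (fun h => h2 (by linear_combination h5 - h))
    rw [hi] at this
    linear_combination 2 * this - (g.symm (ev F j) i * g (ev F i) j + 1) * h5
  have hy : ∀ g ∈ H, ∀ i (a : Fˣ), ∃ y ∈ H, ∀ x, y x = x + ((a - 1) * g.symm x i) • g (ev F i) :=
    fun g hg i a => ⟨g * dgE (Function.update 1 i a) * g⁻¹, H.mul_mem (H.mul_mem hg
      (hH (dgE_mem _))) (H.inv_mem hg), fun x => by simp [dgE_update_apply]⟩
  have h3 : ∀ g ∈ H, ∀ i j k l, j ≠ k → j ≠ l → k ≠ l → g (ev F i) j ≠ 0 → g (ev F i) k ≠ 0 →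
      g (ev F i) l = 0 := fun g hg i j k l hjk hjl hkl h h' => by
    by_contra h''
    obtain ⟨y, hy, h1⟩ := hy g hg i (-1)
    have h3 : y.symm (ev F k) = y (ev F k) := by
      rw [LinearEquiv.symm_apply_eq, h1 (y _), h1]
      simp only [map_add, map_smul, LinearEquiv.symm_apply_apply, add_assoc, ← add_smul]
      simp only [Pi.add_apply, Pi.smul_apply, Pi.single_eq_same, smul_eq_mul, left_eq_add]
      rw [smul_eq_zero]; left; simp; ring
    have h4 : (-1 - 1 : F) ≠ 0 := fun h => h2 (by linear_combination -h)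
    have h6 := hc y hy j k l hkl (by simp [h1, hjk.symm, h4, h', h0 g hg i j h])
      (by simp [h1, hjl.symm, h4, h'', h0 g hg i j h])
    have h7 := hc g hg i j k hjk h h'
    have h8 := hc g hg i k j hjk.symm h' h
    simp only [h3, h1, Pi.add_apply, Pi.smul_apply, smul_eq_mul, Pi.single_eq_of_ne hjk,
      Pi.single_eq_of_ne hjk.symm, Units.val_neg, Units.val_one] at h6
    exact h2 (by
      linear_combination -h6 + 4 * g.symm (ev F k) i * g (ev F i) k * h7 + 12 * h8 + 7 * h5)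
  obtain ⟨l, hl⟩ := exists_notMem_list [j, k] (by simp; omega)
  simp only [List.mem_cons, List.not_mem_nil, or_false, not_or] at hl
  have h4 := h3 g hg i j k l hjk (Ne.symm hl.1) (Ne.symm hl.2) h h'
  have h6 := monGL_zero hH hT hq3 hg h4
  obtain ⟨y, hy, h1⟩ := hy g hg i (Units.mk0 2 h2)
  have h7 := hc g hg i j k hjk h h'
  have h8 := hc g hg i k j hjk.symm h' h
  have h9 : (pmE F ι (Equiv.swap j l) * y) (ev F j) =
      (4 : F) • ev F l + (g.symm (ev F j) i * g (ev F i) k) • ev F k := by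
    ext p
    by_cases hp : p = l
    · subst hp; simp [h1, hl.2]; linear_combination h7
    by_cases hp' : p = k
    · subst hp'
      simp [h1, hp, Equiv.swap_apply_of_ne_of_ne hjk.symm hp, hjk.symm]; left; ring
    by_cases hp'' : p = j
    · subst hp''; simp [h1, hp, hp', h4, hl.1]
    · simp [h1, hp, hp', hp'', Equiv.swap_apply_of_ne_of_ne hp'' hp,
        h3 g hg i j k p hjk (Ne.symm hp'') (Ne.symm hp') h h']
  have h21 : (2 : F) - 1 = 1 := by ring
  have h14 : (4 : F) ≠ 0 := fun h => h2 (by linear_combination 2 * h5 - 2 * h)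
  have := h3 (y * (pmE F ι (Equiv.swap j l) * y)) (H.mul_mem hy (H.mul_mem (hH (pmE_mem _)) hy))
    j j k l hjk (Ne.symm hl.1) (Ne.symm hl.2)
  rw [LinearEquiv.mul_apply, h9] at this
  simp only [map_add, map_smul, h1, h6, Pi.add_apply, Pi.smul_apply, smul_eq_mul, Units.val_mk0,
    h21, one_mul, Pi.single_eq_same, Pi.single_eq_of_ne hjk, Pi.single_eq_of_ne hl.2,
    Pi.single_eq_of_ne (Ne.symm hl.1), Pi.single_eq_of_ne (Ne.symm hl.2), h4, h8, mul_zero,
    zero_mul, add_zero, zero_add, mul_one] at this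
  exact h14 (this (by simp [h, h', h0 g hg]) (by
    rw [mul_assoc, h8, ← mul_one_add, show (1 + 3 : F) = 4 by ring]; simp [h, h', h0 g hg, h14]))

end FullDiag

end H23
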