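import Cfsg.Agent.H23.Fr1
import Cfsg.Agent.H23.Mx2

/-! Sets of unit vectors closed under reflections and containing an orthonormal frame. -/

set_option autoImplicit false

namespace H23.Fr

open Matrix H4 Finset

variable {F : Type*} [Field F]

/-- Coordinates on traceless matrices. -/
def ph (κ a c α β γ : F) : M2 F :=
  !![β * a + γ * κ * c, α * κ - β * κ * c - γ * κ * a; α + β * c + γ * a, -(β * a + γ * κ * c)]

theorem ph_trace (κ a c α β γ : F) : (ph κ a c α β γ).trace = 0 := by simp [ph, trace_fin_two]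

theorem ph_mul_trace {κ a c : F} (h : a ^ 2 - κ * c ^ 2 = κ) (α β γ α' β' γ' : F) :
    (ph κ a c α β γ * ph κ a c α' β' γ').trace = 2 * κ * (α * α' + β * β' - κ * (γ * γ')) := by
  simp [ph, trace_fin_two, m2_mul]
  linear_combination (2 * β * β' - 2 * κ * γ * γ') * h

variable {ι : Type} [Fintype ι] [DecidableEq ι]

/-- A set of unit vectors closed under its reflections and under even permutations. -/
structure RX (X : Set (ι → F)) : Prop where
  norm : ∀ x ∈ X, x ⬝ᵥ x = 1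
  refl : ∀ x ∈ X, ∀ y ∈ X, y - (2 * (x ⬝ᵥ y)) • x ∈ X
  ev : ∀ i, ev F i ∈ X
  perm : ∀ a b c d, a ≠ b → c ≠ d → ∀ x ∈ X, (fun p => x (Equiv.swap a b (Equiv.swap c d p))) ∈ X

/-- The winning configuration. -/
def W1 (X : Set (ι → F)) : Prop := ∃ j z, z ≠ 0 ∧ z j = 0 ∧ ev F j + z ∈ X

/-- restriction to a set of coordinates -/
def rs (S : Finset ι) (x : ι → F) : ι → F := fun p => if p ∈ S then x p else 0

theorem dot_rs (S : Finset ι) (x y : ι → F) : x ⬝ᵥ rs S y = ∑ p ∈ S, x p * y p := by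
  simp [dotProduct, rs, sum_ite_mem]

namespace RX

variable {X : Set (ι → F)} (h : RX X) {x : ι → F}
include h

theorem neg (hx : x ∈ X) : -x ∈ X := by
  convert h.refl x hx x hx using 1
  rw [h.norm x hx]; module

theorem flip (hx : x ∈ X) (S : Finset ι) : x - (2 : F) • rs S x ∈ X := by
  induction S using Finset.induction_on with
  | empty => convert hx; ext; simp [rs]
  | insert i S hi ih =>
    convert h.refl _ (h.ev i) _ ih using 1
    ext p
    by_cases hp : p = i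
    · subst hp; simp [rs, hi]
    · simp [rs, hp]

theorem sub0 (hx : x ∈ X) {S : Finset ι} (h0 : ∑ p ∈ S, x p ^ 2 = 0) {j : ι} (hj : j ∉ S) :
    H23.ev F j + (4 * x j) • rs S x ∈ X := by
  convert h.refl _ hx _ (h.refl _ (h.flip hx S) _ (h.ev j)) using 1
  have h1 : x ⬝ᵥ rs S x = 0 := by rw [dot_rs, ← h0]; simp [sq]
  simp only [dotProduct_sub, dotProduct_smul, h1, h.norm x hx, dotProduct_single, Pi.sub_apply,
    Pi.smul_apply, rs, hj, if_false, smul_eq_mul]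
  module

theorem sub (h2 : (2 : F) ≠ 0) (hW : ¬ W1 X) (hx : x ∈ X) {S : Finset ι} {i j : ι} (hi : i ∈ S)
    (hj : j ∉ S) (hi0 : x i ≠ 0) (hj0 : x j ≠ 0) :
    ∑ p ∈ S, x p ^ 2 ≠ 0 ∧ ∑ p ∈ S, x p ^ 2 ≠ 1 := by
  have h4 : (4 : F) ≠ 0 := by rw [show (4 : F) = 2 * 2 by norm_num]; exact mul_ne_zero h2 h2
  have key : ∀ {S : Finset ι} {i j : ι}, i ∈ S → j ∉ S → x i ≠ 0 → x j ≠ 0 →
      ∑ p ∈ S, x p ^ 2 ≠ 0 := fun {S i j} hi hj hi0 hj0 h0 =>
    hW ⟨j, _, fun e => by simpa [rs, hi, h4, hi0, hj0] using congrFun e i, by simp [rs, hj],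
      h.sub0 hx h0 hj⟩
  refine ⟨key hi hj hi0 hj0, fun e => key (S := Sᶜ) (mem_compl.2 hj) (by simpa) hj0 hi0 ?_⟩
  have := sum_add_sum_compl S fun p => x p ^ 2
  have h1 : ∑ p, x p ^ 2 = 1 := by rw [← h.norm x hx]; simp [dotProduct, sq]
  linear_combination this + h1 - e

theorem dk [Fintype F] (hp : (Fintype.card F).Prime) (h2 : (2 : F) ≠ 0) (hW : ¬ W1 X)
    (hx : x ∈ X) {i j k l : ι} (hij : i ≠ j) (hki : k ≠ i) (hkj : k ≠ j) (hli : l ≠ i)
    (hlj : l ≠ j) (hkl : k ≠ l) (hi : x i ≠ 0) (hj : x j ≠ 0) (hk : x k ≠ 0) (hl : x l ≠ 0) :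
    PT (4 * x i ^ 2) ∧ PT (4 * x j ^ 2) ∧ PT (4 - 4 * x i ^ 2 - 4 * x j ^ 2) := by
  set κ := x i ^ 2 + x j ^ 2 - 1 with hκe
  have hκ : κ ≠ 0 := fun e => (h.sub h2 hW hx (S := {i, j}) (i := i) (j := k) (by simp)
    (by simp [hki, hkj]) hi hk).2 (by rw [sum_pair hij]; linear_combination e)
  obtain ⟨a, c, hac⟩ := exists_binary_eq h2 one_ne_zero (neg_ne_zero.2 hκ) κ
  replace hac : a ^ 2 - κ * c ^ 2 = κ := by linear_combination hac
  let y := x - x i • H23.ev F i - x j • H23.ev F j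
  let ψ : F → F → F → ι → F := fun α β γ => α • H23.ev F i + β • H23.ev F j + γ • y
  have hψ : ∀ α β γ α' β' γ', ψ α β γ ⬝ᵥ ψ α' β' γ' = α * α' + β * β' - κ * (γ * γ') := by
    intro α β γ α' β' γ'
    simp [ψ, y, h.norm x hx, hij, hij.symm, hκe]
    ring
  have hsq : ∀ α β γ, α * α + β * β - κ * (γ * γ) = 1 →
      ph κ a c α β γ * ph κ a c α β γ = κ • 1 := fun α β γ e => by
    have := ac (ph_trace κ a c α β γ) (ph_trace κ a c α β γ)
    rw [ph_mul_trace hac, e, ← two_smul F, mul_one, mul_smul] at this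
    exact smul_right_injective _ h2 this
  have h3 : ph κ a c 1 0 0 * ph κ a c 0 1 0 = ph κ a c 0 0 1 := by
    refine m2_ext ?_ ?_ ?_ ?_ <;> simp [ph, m2_mul]
  rcases dk0 hp h2 hκ (X := {M | ∃ α β γ, M = ph κ a c α β γ ∧ ψ α β γ ∈ X})
    (A := ph κ a c (x i) (x j) 1) (A₁ := ph κ a c 1 0 0) (A₂ := ph κ a c 0 1 0)
    (by
      rintro _ ⟨α, β, γ, rfl, e⟩
      exact ⟨ph_trace .., hsq α β γ (by rw [← hψ, h.norm _ e])⟩)
    (by
      rintro _ ⟨α, β, γ, rfl, e⟩ _ ⟨α', β', γ', rfl, e'⟩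
      set n := α * α' + β * β' - κ * (γ * γ') with hn
      refine ⟨2 * n * α - α', 2 * n * β - β', 2 * n * γ - γ', ?_, ?_⟩
      · have e1 := eq_sub_of_add_eq (ac (ph_trace κ a c α β γ) (ph_trace κ a c α' β' γ'))
        rw [e1, sub_mul, mul_assoc, hsq α β γ (by rw [← hψ, h.norm _ e]), ph_mul_trace hac, ← hn]
        refine m2_ext ?_ ?_ ?_ ?_ <;> simp [ph] <;> field_simp <;> ring
      · convert h.neg (h.refl _ e _ e') using 1
        rw [hψ, ← hn]; simp only [ψ]; module)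
    ⟨_, _, _, rfl, by convert hx; simp [ψ, y]⟩ ⟨_, _, _, rfl, by simpa [ψ] using h.ev i⟩
    ⟨_, _, _, rfl, by simpa [ψ] using h.ev j⟩
    (eq_neg_of_add_eq_zero_left (by rw [ac (ph_trace ..) (ph_trace ..), ph_mul_trace hac]; simp))
    (by simp [ph_mul_trace hac, h2, hκ, hi]) (by simp [ph_mul_trace hac, h2, hκ, hj])
    (by simp [h3, ph_mul_trace hac, h2, hκ]) with e | ⟨e1, e2, e3⟩
  · exfalso
    obtain ⟨α, β, e1⟩ := exists_binary_eq h2 one_ne_zero one_ne_zero (1 + κ * ((x k)⁻¹ * (x k)⁻¹))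
    obtain ⟨α', β', γ', e2, e3⟩ := e _ (ph_trace κ a c α β (x k)⁻¹)
      (hsq _ _ _ (by linear_combination e1))
    have e4 := fun u v w => congrArg (fun M => (M * ph κ a c u v w).trace) e2
    simp only [ph_mul_trace hac] at e4
    have e5 : (x k)⁻¹ = γ' := by simpa [h2, hκ] using e4 0 0 1
    subst e5
    refine hW ⟨k, ψ α' β' (x k)⁻¹ - H23.ev F k, fun e6 => ?_, ?_, by simpa using e3⟩
    · simpa [ψ, y, hli, hlj, hkl.symm, hk, hl] using congrFun e6 l
    · simp [ψ, y, hki, hkj, hk]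
  · rw [h3] at e3
    simp only [ph_mul_trace hac] at e1 e2 e3
    refine ⟨?_, ?_, ?_⟩
    · convert e1 using 1; field_simp; ring
    · convert e2 using 1; field_simp; ring
    · convert e3 using 1; field_simp; rw [hκe]; ring

end RX

theorem pt_pair {u v : F} (h2 : (2 : F) ≠ 0) (hu : PT u) (hv : PT v) (hw : PT (4 - u - v))
    (u1 : u ≠ 1) (v1 : v ≠ 1) (u4 : u ≠ 4) :
    u ^ 2 - 3 * u + 1 = 0 ∧ (u + v = 3 ∧ u ≠ v ∨ u = v ∧ 3 * u = 4) := by
  have h1 : (1 : F) ≠ 0 := one_ne_zero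
  have key : ∀ {v : F}, PT v → v ≠ 1 → ¬ PT (4 - 2 - v) := by
    rintro v (hv | hv | hv) v1 (hw | hw | hw)
    · exact v1 hv
    · exact v1 hv
    · exact v1 hv
    · exact h1 (by linear_combination -hw - hv)
    · exact h2 (by linear_combination -hw - hv)
    · exact h1 (by linear_combination hw - (v + 1) * hv)
    · exact v1 (by linear_combination -hw)
    · exact h1 (by linear_combination hv + (v - 3) * hw)
    · exact v1 (mul_left_cancel₀ h2 (by linear_combination hw - hv))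
  have hu' : u ^ 2 - 3 * u + 1 = 0 := by
    rcases hu with hu | rfl | hu
    exacts [absurd hu u1, absurd hw (key hv v1), hu]
  have hv' : v ^ 2 - 3 * v + 1 = 0 := by
    rcases hv with hv | rfl | hv
    exacts [absurd hv v1, absurd (by convert hw using 1; ring) (key hu u1), hv]
  have h4 : 2 * u ≠ 3 := fun e => u4 (mul_left_cancel₀ h2 (by
    linear_combination 4 * hu' + (4 - 2 * u) * e))
  refine ⟨hu', ?_⟩
  by_cases e : u = v
  · subst e
    refine Or.inr ⟨rfl, ?_⟩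
    rcases hw with hw | hw | hw
    · exact absurd (by linear_combination -hw) h4
    · exact absurd (mul_left_cancel₀ h2 (by linear_combination -hw)) u1
    · have : (3 * u - 4) * (u - 1) = 0 := by linear_combination hw - hu'
      exact (mul_eq_zero.1 this).elim sub_eq_zero.1 fun e => absurd (sub_eq_zero.1 e) u1
  · have : (u - v) * (u + v - 3) = 0 := by linear_combination hu' - hv'
    exact Or.inl ⟨sub_eq_zero.1 ((mul_eq_zero.1 this).resolve_left (sub_ne_zero.2 e)), e⟩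

namespace RX

variable [DecidableEq F] {X : Set (ι → F)} (h : RX X) {x : ι → F}
include h

theorem five [Fintype F] (hp : (Fintype.card F).Prime) (h2 : (2 : F) ≠ 0) (hW : ¬ W1 X)
    (hx : x ∈ X) : #{p | x p ≠ 0} ≤ 4 := by
  by_contra! h5
  set s : Finset ι := {p | x p ≠ 0}
  have hs : ∀ {p}, p ∈ s → x p ≠ 0 := fun hp => (mem_filter.1 hp).2
  have h4 : (4 : F) ≠ 0 := by rw [show (4 : F) = 2 * 2 by norm_num]; exact mul_ne_zero h2 h2
  have hsub : ∀ S ⊆ s, S.Nonempty → #S ≤ 4 →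
      ∑ p ∈ S, 4 * x p ^ 2 ≠ 0 ∧ ∑ p ∈ S, 4 * x p ^ 2 ≠ 4 := fun S hS ⟨i, hi⟩ hc => by
    obtain ⟨j, hj, hj'⟩ := exists_mem_notMem_of_card_lt_card (hc.trans_lt h5)
    simpa [← mul_sum, h4] using h.sub h2 hW hx hi hj' (hs (hS hi)) (hs hj)
  have h3 : ∀ i ∈ s, ∀ j ∈ s, ∀ k ∈ s, i ≠ j → i ≠ k → j ≠ k →
      4 * x i ^ 2 + 4 * x j ^ 2 + 4 * x k ^ 2 ≠ 0 ∧ 4 * x i ^ 2 + 4 * x j ^ 2 + 4 * x k ^ 2 ≠ 4 :=
    fun i hi j hj k hk e1 e2 e3 => by
      have := hsub {i, j, k} (by simp [insert_subset_iff, hi, hj, hk]) (by simp)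
        (card_le_three.trans (by norm_num))
      rwa [sum_insert (by simp [e1, e2]), sum_pair e3, ← add_assoc] at this
  have hpair : ∀ i ∈ s, ∀ j ∈ s, i ≠ j → 4 * x i ^ 2 ≠ 1 → 4 * x j ^ 2 ≠ 1 →
      (4 * x i ^ 2) ^ 2 - 3 * (4 * x i ^ 2) + 1 = 0 ∧ (4 * x i ^ 2 + 4 * x j ^ 2 = 3 ∧
        4 * x i ^ 2 ≠ 4 * x j ^ 2 ∨ 4 * x i ^ 2 = 4 * x j ^ 2 ∧ 3 * (4 * x i ^ 2) = 4) :=
    fun i hi j hj hij e1 e2 => by
      obtain ⟨k, hk, l, hl, hkl⟩ := one_lt_card.1 (show 1 < #(s \ {i, j}) by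
        have := le_card_sdiff {i, j} s
        have := card_le_two (a := i) (b := j)
        omega)
      simp only [mem_sdiff, mem_insert, mem_singleton, not_or] at hk hl
      obtain ⟨a, b, c⟩ := h.dk hp h2 hW hx hij hk.2.1 hk.2.2 hl.2.1 hl.2.2 hkl (hs hi) (hs hj)
        (hs hk.1) (hs hl.1)
      exact pt_pair h2 a b c e1 e2 (by simpa using (hsub {i} (by simpa) (by simp) (by simp)).2)
  have hc := card_filter_add_card_filter_not (s := s) fun p => 4 * x p ^ 2 = 1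
  by_cases h1 : 4 ≤ #{p ∈ s | 4 * x p ^ 2 = 1}
  · obtain ⟨S, hS, hS4⟩ := exists_subset_card_eq h1
    refine (hsub S (hS.trans (filter_subset _ _)) (card_pos.1 (by omega)) hS4.le).2 ?_
    rw [sum_congr rfl fun p hp => (mem_filter.1 (hS hp)).2]
    simp [hS4]
  obtain ⟨i, hi, j, hj, hij⟩ := one_lt_card.1 (show 1 < #{p ∈ s | ¬ 4 * x p ^ 2 = 1} by omega)
  rw [mem_filter] at hi hj
  have hne : ∀ k ∈ s, 4 * x k ^ 2 ≠ 1 := fun k hk e => by
    have := h3 i hi.1 j hj.1 k hk hij (by rintro rfl; exact hi.2 e) (by rintro rfl; exact hj.2 e)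
    obtain ⟨e1, ⟨e2, -⟩ | ⟨e2, e3⟩⟩ := hpair i hi.1 j hj.1 hij hi.2 hj.2
    · exact this.2 (by linear_combination e2 + e)
    · exact this.1 (by
        linear_combination -e2 + e - 3 * e1 + (4 * x i ^ 2 - 1) * e3)
  obtain ⟨v, -, hv⟩ := exists_lt_card_fiber_of_mul_lt_card_of_maps_to (s := s)
    (t := {4 * x i ^ 2, 3 - 4 * x i ^ 2}) (f := fun p => 4 * x p ^ 2) (n := 2) (fun k hk => by
      by_cases e : i = k
      · simp [e]
      rcases (hpair i hi.1 k hk e hi.2 (hne k hk)).2 with ⟨e1, -⟩ | ⟨e1, -⟩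
      · simp [← e1]
      · simp [e1]) (by have := card_le_two (a := 4 * x i ^ 2) (b := 3 - 4 * x i ^ 2); omega)
  obtain ⟨a, ha, b, hb, c, hc, e1, e2, e3⟩ := two_lt_card.1 hv
  rw [mem_filter] at ha hb hc
  rcases (hpair a ha.1 b hb.1 e1 (hne a ha.1) (hne b hb.1)).2 with ⟨-, e⟩ | ⟨-, e⟩
  · exact e (ha.2.trans hb.2.symm)
  · exact (h3 a ha.1 b hb.1 c hc.1 e1 e2 e3).2 (by
      linear_combination e + hb.2 + hc.2 - 2 * ha.2)

omit [DecidableEq F] in
theorem move (hx : x ∈ X) {a d e f : ι} (ha : x a ≠ 0) (hd : x d = 0) (he : x e = 0) (hf : x f = 0)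
    (e1 : d ≠ e) (e2 : d ≠ f) (e3 : e ≠ f) : x - x a • H23.ev F a + x a • H23.ev F d ∈ X := by
  have had : a ≠ d := by rintro rfl; exact ha hd
  have hae : a ≠ e := by rintro rfl; exact ha he
  have haf : a ≠ f := by rintro rfl; exact ha hf
  convert h.perm a d e f had e3 x hx using 1
  ext p
  by_cases p1 : p = a
  · subst p1; simp [Equiv.swap_apply_of_ne_of_ne hae haf, hd, had]
  by_cases p2 : p = d
  · subst p2; simp [Equiv.swap_apply_of_ne_of_ne e1 e2, hd, p1]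
  by_cases p3 : p = e
  · subst p3; simp [Equiv.swap_apply_of_ne_of_ne haf.symm e2.symm, he, hf, p1, p2]
  by_cases p4 : p = f
  · subst p4; simp [Equiv.swap_apply_of_ne_of_ne hae.symm e1.symm, he, hf, p1, p2]
  · simp [Equiv.swap_apply_of_ne_of_ne p3 p4, Equiv.swap_apply_of_ne_of_ne p1 p2, p1, p2]

omit h in
theorem three (hn : 7 ≤ Fintype.card ι) (h4 : #{p | x p ≠ 0} ≤ 4) :
    ∃ d e f, x d = 0 ∧ x e = 0 ∧ x f = 0 ∧ d ≠ e ∧ d ≠ f ∧ e ≠ f := by
  have hc := card_filter_add_card_filter_not (s := univ) fun p => x p ≠ 0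
  obtain ⟨d, hd, e, he, f, hf, e1, e2, e3⟩ := two_lt_card.1
    (show 2 < #{p | ¬ x p ≠ 0} by rw [card_univ] at hc; omega)
  simp only [mem_filter, mem_univ, true_and, not_not] at hd he hf
  exact ⟨d, e, f, hd, he, hf, e1, e2, e3⟩

theorem grow (hn : 7 ≤ Fintype.card ι) (h2 : (2 : F) ≠ 0) (hW : ¬ W1 X) (hx : x ∈ X) {a b : ι}
    (hab : b ≠ a) (ha : x a ≠ 0) (hb : x b ≠ 0) (ht : 2 * x a ^ 2 ≠ 1) (h4 : #{p | x p ≠ 0} ≤ 4) :
    ∃ y ∈ X, #{p | y p ≠ 0} = #{p | x p ≠ 0} + 1 := by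
  obtain ⟨d, e, f, hd, he, hf, e1, e2, e3⟩ := three hn h4
  have had : a ≠ d := by rintro rfl; exact ha hd
  have h1 := (h.sub h2 hW hx (S := {a}) (mem_singleton_self a) (by simpa) ha hb).2
  rw [sum_singleton] at h1
  have hy := h.move hx ha hd he hf e1 e2 e3
  refine ⟨_, h.refl x hx _ hy, ?_⟩
  rw [← card_insert_of_notMem (a := d) (by simp [hd])]
  congr 1
  ext p
  simp only [mem_filter, mem_univ, true_and, mem_insert, dotProduct_add, dotProduct_sub,
    dotProduct_smul, dotProduct_single, h.norm x hx, hd, smul_eq_mul, mul_one, mul_zero, add_zero]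
  by_cases p1 : p = a
  · subst p1
    have : 1 - x p * x p ≠ 0 := fun e => h1 (by linear_combination -e)
    simp [had, h2, ha, this]
  by_cases p2 : p = d
  · subst p2; simp [hd, p1, ha]
  · have : 1 - 2 * (1 - x a * x a) ≠ 0 := fun e => ht (by linear_combination e)
    have e4 : x p - 2 * (1 - x a * x a) * x p = (1 - 2 * (1 - x a * x a)) * x p := by ring
    simp [p1, p2, e4, this]

omit [DecidableEq F] in
theorem win [Fintype F] (hp : (Fintype.card F).Prime) (h2 : (2 : F) ≠ 0)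
    (hn : 7 ≤ Fintype.card ι) (hx : x ∈ X) {a b : ι} (hab : b ≠ a) (ha : x a ≠ 0) (hb : x b ≠ 0)
    (ht : 2 * x a ^ 2 ≠ 1) : W1 X := by
  classical
  by_contra hW
  have key : ∀ y ∈ X, 3 ≤ #{p | y p ≠ 0} → ∃ z ∈ X, #{p | z p ≠ 0} = #{p | y p ≠ 0} + 1 := by
    intro y hy h3
    have h4 := h.five hp h2 hW hy
    obtain ⟨a, ha, ht⟩ : ∃ a, y a ≠ 0 ∧ 2 * y a ^ 2 ≠ 1 := by
      by_contra! hc
      have e : ∑ p with y p ≠ 0, 2 * y p ^ 2 = 2 := by
        rw [sum_filter_of_ne (by simp +contextual), ← mul_sum]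
        simpa [dotProduct, sq, h2] using h.norm y hy
      rw [sum_congr rfl fun p hp => hc p (mem_filter.1 hp).2] at e
      obtain e1 | e1 : #{p | y p ≠ 0} = 3 ∨ #{p | y p ≠ 0} = 4 := by omega
      · simp only [sum_const, e1, nsmul_eq_mul] at e
        exact one_ne_zero (α := F) (by push_cast at e; linear_combination e)
      · simp only [sum_const, e1, nsmul_eq_mul] at e
        exact h2 (by push_cast at e; linear_combination e)
    obtain ⟨b, hb, hba⟩ := exists_mem_ne (s := {p | y p ≠ 0}) (by omega) a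
    exact h.grow hn h2 hW hy hba ha (mem_filter.1 hb).2 ht h4
  obtain ⟨y, hy, e⟩ := h.grow hn h2 hW hx hab ha hb ht (h.five hp h2 hW hx)
  have h1 : 1 < #{p | x p ≠ 0} := one_lt_card.2 ⟨b, by simpa, a, by simpa, hab⟩
  obtain ⟨z, hz, e1⟩ := key y hy (by omega)
  obtain ⟨w, hw, e2⟩ := key z hz (by omega)
  have := h.five hp h2 hW hw
  omega

omit [DecidableEq F] in
theorem win' [Fintype F] (hp : (Fintype.card F).Prime) (h2 : (2 : F) ≠ 0)
    (hn : 7 ≤ Fintype.card ι) (hx : x ∈ X) {a b : ι} (hab : b ≠ a) (ha : x a ≠ 0) (hb : x b ≠ 0)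
    {θ : (ι → F) → ι → F} (h1 : ∀ y ∈ X, θ y ∈ X) (h3 : ∀ y z, θ y ⬝ᵥ θ z = y ⬝ᵥ z) {i : ι}
    (h4 : θ x = H23.ev F i) : W1 X := by
  classical
  by_contra hW
  have t1 : 2 * x a ^ 2 = 1 := by_contra fun e => hW (h.win hp h2 hn hx hab ha hb e)
  have t2 : 2 * x b ^ 2 = 1 := by_contra fun e => hW (h.win hp h2 hn hx hab.symm hb ha e)
  obtain ⟨d, e, f, hd, he, hf, e1, e2, e3⟩ := three hn (h.five hp h2 hW hx)
  have hy := h1 _ (h.move hx hb hd he hf e1 e2 e3)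
  have hbd : d ≠ b := by rintro rfl; exact hb hd
  have e4 := h3 x (x - x b • H23.ev F b + x b • H23.ev F d)
  have e5 := h3 (H23.ev F d) (x - x b • H23.ev F b + x b • H23.ev F d)
  have e6 := h3 (H23.ev F d) x
  generalize θ (x - x b • H23.ev F b + x b • H23.ev F d) = y at hy e4 e5
  simp [h4, h.norm x hx, hd, hbd] at e4 e5 e6
  have e7 : 2 * y i = 1 := by linear_combination 2 * e4 - t2
  obtain ⟨j, hj, hj0⟩ : ∃ j, j ≠ i ∧ y j ≠ 0 := by
    by_contra! hc
    rw [dotProduct, sum_eq_single i (fun j _ hj => by simp [hc j hj]) (by simp), e6] at e5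
    exact hb (by simp [← e5])
  exact hW (h.win hp h2 hn hy hj (fun e => by simp [e] at e7) hj0 fun e =>
    one_ne_zero (α := F) (by linear_combination (2 * y i + 1) * e7 - 2 * e))

end RX

end H23.Fr
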