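import Cfsg.Agent.H23.Fr2
import Cfsg.Agent.H23.Qd0

/-! The stabiliser of an orthogonal frame in an odd-dimensional orthogonal group over a prime field. -/

set_option autoImplicit false

namespace H23.Fr

open Module H22 Cfsg Cfsg.Geo Form Finset

variable {F V : Type*} [Field F] [AddCommGroup V] [Module F V]
  {ι : Type} [Fintype ι] [DecidableEq ι]

/-- An orthogonal basis of vectors of the same length. -/
structure OF (Φ : Form (RingHom.id F) V) (b : Basis ι F V) (c : F) : Prop where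
  nd : Φ.Nondeg
  kap : Φ.κ = 1
  two : (2 : F) ≠ 0
  c0 : c ≠ 0
  orth : ∀ i j, i ≠ j → Φ.B (b i) (b j) = 0
  Q : ∀ i, Φ.Q (b i) = c

/-- the vector with given coordinates -/
noncomputable def vc (b : Basis ι F V) : (ι → F) ≃ₗ[F] V := b.equivFun.symm

omit [DecidableEq ι] in
theorem vc_apply (b : Basis ι F V) (x : ι → F) : vc b x = ∑ i, x i • b i :=
  b.equivFun_symm_apply x

theorem vc_ev (b : Basis ι F V) (i : ι) : vc b (ev F i) = b i := by
  simp [vc_apply, Pi.single_apply]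

omit [DecidableEq ι] in
theorem mem_dec {b : Basis ι F V} {g : V ≃ₗ[F] V} (h : ∀ i, ∃ j, g (b i) ∈ F ∙ b j) :
    g ∈ decL fun i => F ∙ b i := by
  have := b.finiteDimensional_of_finite
  obtain ⟨π, hπ⟩ := exists_prj (D := fun i => F ∙ b i) b.linearIndependent.iSupIndep_span_singleton
    (by rw [← Submodule.span_range_eq_iSup, b.span_eq])
  refine hπ.mem_decL (fun i => finrank_span_singleton (b.ne_zero i)) one_pos fun i x hx => ?_
  obtain ⟨c, rfl⟩ := Submodule.mem_span_singleton.1 hx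
  obtain ⟨j, hj⟩ := h i
  exact ⟨j, map_smul g c _ ▸ Submodule.smul_mem _ _ hj⟩

omit [Fintype ι] [DecidableEq ι] in
theorem aIn_smul [Fintype F] (hp : (Fintype.card F).Prime) {Φ : Form (RingHom.id F) V}
    {K : Subgroup (V ≃ₗ[F] V)} {u e : V} (hu : Sing Φ u) (h : Φ.AIn K u e) (a : F) :
    Φ.AIn K u (a • e) :=
  (eq_top_of_prime hp (a := 1) (S :=
    { carrier := {a | Φ.AIn K u (a • e)}
      add_mem' := fun ha hb => by simpa [add_smul] using ha.add hu hb
      zero_mem' := by simpa using h.zero hu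
      neg_mem' := fun ha => by simpa using ha.neg }) (by simpa) one_ne_zero).ge
    (AddSubgroup.mem_top a)

namespace OF

variable {Φ : Form (RingHom.id F) V} {b : Basis ι F V} {c : F} (h : OF Φ b c)
include h

theorem B_b (i : ι) (y : ι → F) : Φ.B (b i) (vc b y) = 2 * c * y i := by
  rw [vc_apply, map_sum, sum_eq_single i
    (fun j _ hj => by simp [h.orth i j hj.symm]) (by simp)]
  simp [B_self_quad h.kap, h.Q, mul_comm]

theorem B_vc (x y : ι → F) : Φ.B (vc b x) (vc b y) = 2 * c * (x ⬝ᵥ y) := by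
  conv_lhs => rw [vc_apply b x]
  simp only [map_sum, map_smul, LinearMap.sum_apply, LinearMap.smul_apply, h.B_b, RingHom.id_apply,
    dotProduct, mul_sum, smul_eq_mul]
  exact sum_congr rfl fun _ _ => by ring

theorem Q_vc (x : ι → F) : Φ.Q (vc b x) = c * (x ⬝ᵥ x) :=
  mul_left_cancel₀ h.two (by rw [← B_self_quad h.kap, h.B_vc, mul_assoc])

theorem refl_vc {x : ι → F} (hx : x ⬝ᵥ x = 1) (y : ι → F) :
    (refl h.kap (vc b x)).1 (vc b y) = vc b (y - (2 * (x ⬝ᵥ y)) • x) := by
  rw [refl_apply, h.Q_vc, h.B_vc, hx, map_sub, map_smul]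
  congr 2; field_simp [h.c0]

theorem refl_b (i : ι) (y : ι → F) :
    (refl h.kap (b i)).1 (vc b y) = vc b y - (2 * y i) • b i := by
  rw [refl_apply, h.Q, h.B_b]
  congr 2; field_simp [h.c0]

omit [Fintype ι] [DecidableEq ι] in
theorem Q_root {i j : ι} (hij : i ≠ j) {s t : F} (hs : s * s = 1) (ht : t * t = 1) :
    Φ.Q (s • b i - t • b j) = 2 * c := by
  simp [Φ.Q_sub, Φ.Q_smul, h.Q, h.orth i j hij, sq, hs, ht, two_mul]

omit [DecidableEq ι] in
theorem root_mem {i j : ι} (hij : i ≠ j) {s t : F} (hs : s * s = 1) (ht : t * t = 1) :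
    (refl h.kap (s • b i - t • b j)).1 ∈ decL fun i => F ∙ b i := by
  have := h.two
  have := h.c0
  refine mem_dec fun p => ?_
  rw [refl_apply, h.Q_root hij hs ht]
  by_cases h1 : p = i
  · subst h1
    refine ⟨j, Submodule.mem_span_singleton.2 ⟨s * t, ?_⟩⟩
    simp only [map_sub, map_smul, LinearMap.sub_apply, LinearMap.smul_apply, B_self_quad h.kap,
      h.Q, h.orth j p hij.symm, RingHom.id_apply, smul_eq_mul]
    match_scalars <;> field_simp
    · ring
    · linear_combination 2 * c * hs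
  by_cases h2 : p = j
  · subst h2
    refine ⟨i, Submodule.mem_span_singleton.2 ⟨s * t, ?_⟩⟩
    simp only [map_sub, map_smul, LinearMap.sub_apply, LinearMap.smul_apply, B_self_quad h.kap,
      h.Q, h.orth i p hij, RingHom.id_apply, smul_eq_mul]
    match_scalars <;> field_simp
    · ring
    · linear_combination 2 * c * ht
  · exact ⟨p, by simp [h.orth i p (Ne.symm h1), h.orth j p (Ne.symm h2)]⟩

theorem refl_swap {i j : ι} (hij : i ≠ j) (y : ι → F) :
    (refl h.kap ((1 : F) • b i - (1 : F) • b j)).1 (vc b y) = vc b fun p => y (Equiv.swap i j p) := by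
  have := h.two
  have := h.c0
  rw [refl_apply, h.Q_root hij (one_mul 1) (one_mul 1), one_smul, one_smul, map_sub,
    LinearMap.sub_apply, h.B_b, h.B_b, ← vc_ev, ← vc_ev, ← map_sub, ← map_smul, ← map_sub]
  congr 1
  ext p
  by_cases h1 : p = i
  · subst h1; simp [hij]; field_simp; ring
  by_cases h2 : p = j
  · subst h2; simp [h1]; field_simp; ring
  · simp [h1, h2, Equiv.swap_apply_of_ne_of_ne h1 h2]

variable [Fintype F] (hp : (Fintype.card F).Prime) (hn : 5 ≤ Fintype.card ι)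
  {K : Subgroup (V ≃ₗ[F] V)} (hK : K ≤ Φ.O) (hr : ∀ i, (refl h.kap (b i)).1 ∈ K)
  (hM : (decL fun i => F ∙ b i) ⊓ Φ.E ≤ K)

omit [DecidableEq ι] in
include hn hM in
theorem roots_mem {i j k l : ι} (hij : i ≠ j) (hkl : k ≠ l) {s t s' t' : F} (hs : s * s = 1)
    (ht : t * t = 1) (hs' : s' * s' = 1) (ht' : t' * t' = 1) :
    (refl h.kap (s • b i - t • b j)).1 * (refl h.kap (s' • b k - t' • b l)).1 ∈ K := by
  have := b.finiteDimensional_of_finite
  refine hM ⟨mul_mem (h.root_mem hij hs ht) (h.root_mem hkl hs' ht'),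
    refl_mul_refl_mem_E h.kap h.nd (by rwa [finrank_eq_card_basis b]) (t := 1) ?_ ?_⟩
  · simp [h.Q_root hij hs ht, h.two, h.c0]
  · simp [h.Q_root hij hs ht, h.Q_root hkl hs' ht']

include hn hK hr hM

theorem rx : RX {x | ∃ g ∈ K, ∃ i, vc b x = g (b i)} where
  norm := by
    rintro x ⟨g, hg, i, e⟩
    exact mul_left_cancel₀ h.c0 (by rw [← h.Q_vc, e, (hK hg).2, h.Q, mul_one])
  refl := by
    rintro x ⟨g, hg, i, e⟩ y ⟨k, hk, j, e'⟩
    refine ⟨_, K.mul_mem (refl_mem_of_map h.kap hK hg (hr i)) hk, j, ?_⟩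
    rw [LinearEquiv.mul_apply, ← e, ← e', h.refl_vc (mul_left_cancel₀ h.c0 (by
      rw [← h.Q_vc, e, (hK hg).2, h.Q, mul_one]))]
  ev i := ⟨1, K.one_mem, i, vc_ev b i⟩
  perm := by
    rintro i j k l hij hkl x ⟨g, hg, p, e⟩
    refine ⟨_, K.mul_mem (h.roots_mem hn hM hkl hij (one_mul 1) (one_mul 1) (one_mul 1) (one_mul 1))
      hg, p, ?_⟩
    simp only [LinearEquiv.mul_apply, ← e, h.refl_swap hij, h.refl_swap hkl]

include hp

theorem core {z : ι → F} {j : ι} (hz0 : z ≠ 0) (hj : z j = 0) (hz : z ⬝ᵥ z = 0)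
    (hA : Φ.AIn K (vc b z) (b j)) (hV : ∀ i l, z i ≠ 0 → z l ≠ 0 →
      Φ.AIn K (vc b z) ((z i)⁻¹ • b i - (z l)⁻¹ • b l)) : Φ.E ≤ K := by
  classical
  have := b.finiteDimensional_of_finite
  have hZ : Sing Φ (vc b z) := (sing_quad h.kap).2 (by simp only [h.Q_vc, hz, mul_zero])
  obtain ⟨i, hi⟩ := Function.ne_iff.1 hz0
  replace hi : z i ≠ 0 := hi
  have hS : ∀ y : ι → F, (∀ p, z p = 0 → y p = 0) → z ⬝ᵥ y = 0 → Φ.AIn K (vc b z) (vc b y) := by
    intro y h1 h2
    convert AIn.sum hZ (hA.zero hZ) {p | z p ≠ 0} fun p hp' =>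
      aIn_smul hp hZ (hV p i (mem_filter.1 hp').2 hi) (z p * y p)
    simp only [smul_sub, sum_sub_distrib, ← sum_smul]
    rw [sum_filter_of_ne (f := fun p => z p * y p) (by simp +contextual), ← dotProduct, h2,
      vc_apply, zero_smul, sub_zero, sum_filter]
    refine sum_congr rfl fun p _ => ?_
    by_cases e : z p = 0
    · simp [e, h1 p e]
    · simp [e, smul_smul, mul_comm (z p)]
  have hB : Φ.B (vc b z) ((refl h.kap (b i)).1 (vc b z)) ≠ 0 := by
    simp only [h.refl_b, map_sub, hZ.1, map_smul, B_comm_quad h.kap _ (b i), h.B_b]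
    simp [hi, h.two, h.c0]
  refine E_le_of_qIn_of_mem h.nd hZ (qIn_iff.2 fun e he => ?_) (hr i) (refl h.kap _).2 hB
  obtain ⟨y, rfl⟩ := (vc b).surjective e
  have h1 : vc b y = vc b (rs {p | z p ≠ 0} y) + ∑ p with z p = 0, y p • b p := by
    simp only [vc_apply, sum_filter, ← sum_add_distrib]
    exact sum_congr rfl fun p _ => by by_cases e : z p = 0 <;> simp [rs, e]
  rw [h1]
  refine (hS _ (by simp +contextual [rs]) ?_).add hZ (AIn.sum hZ (hA.zero hZ) _ fun l hl =>
    aIn_smul hp hZ ?_ _)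
  · rw [dot_rs, sum_filter_of_ne (f := fun p => z p * y p) (by simp +contextual)]
    simpa [h.B_vc, h.two, h.c0, dotProduct] using he
  replace hl := (mem_filter.1 hl).2
  by_cases hjl : j = l
  · exact hjl ▸ hA
  obtain ⟨i', hii, hi'⟩ : ∃ i', i ≠ i' ∧ z i' ≠ 0 := by
    by_contra! hc
    rw [dotProduct, sum_eq_single i (fun p _ e => by simp [hc p e.symm]) (by simp)] at hz
    simp [hi] at hz
  let W := Φ.perp (Submodule.span F (b '' {p | z p = 0}))
  have hW : ∀ {v}, v ∈ W ↔ ∀ p, z p = 0 → Φ.B (b p) v = 0 := by simp [W, Φ.mem_perp_span]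
  have hW1 : vc b z ∈ W := hW.2 fun p e => by simp only [h.B_b, e, mul_zero]
  have hW2 : ∀ {v}, v ∈ W → (refl h.kap (b i)).1 v ∈ W := fun hv => by
    rw [refl_apply]
    exact W.sub_mem hv (W.smul_mem _ (hW.2 fun p e => h.orth _ _ (by rintro rfl; exact hi e)))
  have hfix : (refl h.kap (b i)).1 (b l) = b l :=
    refl_apply_of_perp _ (h.orth _ _ (by rintro rfl; exact hi hl))
  obtain ⟨w, hw, hwW, hwA, hwB⟩ : ∃ w, Sing Φ w ∧ w ∈ W ∧ Φ.AIn K w (b l) ∧ Φ.B (vc b z) w ≠ 0 := by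
    have hg := h.roots_mem hn hM hii hjl (one_mul 1) (one_mul 1) (one_mul 1) (one_mul 1)
    have e1 := (vc_ev b j ▸ hA : Φ.AIn K _ (vc b (ev F j))).conj hg (hK hg)
    have e2 := hZ.mapO (hK hg)
    have hne : ∀ {p q}, z p ≠ 0 → z q = 0 → q ≠ p := fun h1 h2 e => h1 (e ▸ h2)
    have e3 : (fun p => z (Equiv.swap j l p)) = z := funext fun p => by
      rw [Equiv.swap_apply_def]; split_ifs with a1 a2 <;> simp [*]
    have e4 : (fun p => ev F j (Equiv.swap j l p)) = ev F l := funext fun p => by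
      simp [Pi.single_apply, Equiv.swap_apply_eq_iff]
    have e5 : (fun p => ev F l (Equiv.swap i i' p)) = ev F l := funext fun p => by
      simp [Pi.single_apply, Equiv.swap_apply_eq_iff,
        Equiv.swap_apply_of_ne_of_ne (hne hi hl) (hne hi' hl)]
    simp only [LinearEquiv.mul_apply, h.refl_swap hii, h.refl_swap hjl, e3, e4, e5] at e1 e2
    rw [vc_ev] at e1
    have e6 : vc b (fun p => z (Equiv.swap i i' p)) ∈ W := hW.2 fun p e => by
      rw [h.B_b, Equiv.swap_apply_of_ne_of_ne (hne hi e) (hne hi' e), e, mul_zero]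
    by_cases e7 : Φ.B (vc b z) (vc b fun p => z (Equiv.swap i i' p)) = 0
    · refine ⟨_, e2.mapO (refl h.kap (b i)).2, hW2 e6, hfix ▸ e1.conj (hr i) (refl _ _).2, ?_⟩
      simp only [h.refl_b, map_sub, e7, map_smul, B_comm_quad h.kap _ (b i), h.B_b]
      simp [hi, hi', h.two, h.c0]
    · exact ⟨_, e2, e6, e1, e7⟩
  obtain ⟨e, he, s, hs, e1⟩ := exists_eich_map' h.nd (hyp_smul hZ hw hwB)
    (hyp_smul hZ (hZ.mapO (refl h.kap (b i)).2) hB)
  have heW : e ∈ W := (Submodule.span_le.2 (by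
    simp [Set.insert_subset_iff, hW1, W.smul_mem _ hwW, W.smul_mem _ (hW2 hW1)])) he
  obtain ⟨y', rfl⟩ := (vc b).surjective e
  obtain ⟨k, hk, e2⟩ := (hS y' (fun p e => by simpa [h.B_b, h.two, h.c0] using hW.1 heW p e)
    (by simpa [h.B_vc, h.two, h.c0] using hs.perp)).2 s hs
  have e3 := (hwA.conj hk (hK hk)).conj (hr i) (refl _ _).2
  have e4 : k (b l) = b l := by
    simp [e2, eichler_apply, Φ.B_eq_zero_symm (hW.1 heW l hl), Φ.B_eq_zero_symm (hW.1 hW1 l hl)]
  have e5 : (refl h.kap (b i)).1 (k w) = (Φ.B (vc b z) w *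
      (Φ.B (vc b z) ((refl h.kap (b i)).1 (vc b z)))⁻¹) • vc b z := by
    rw [← e2, map_smul, inv_smul_eq_iff₀ hwB] at e1
    rw [e1, smul_smul, map_smul, ← LinearEquiv.mul_apply, ← Subgroup.coe_mul, refl_mul_self]; rfl
  rw [e4, hfix, e5] at e3
  have e6 := mul_ne_zero hwB (inv_ne_zero hB)
  simpa [smul_smul, e6, -mul_inv_rev] using aIn_smul hp hZ (e3.of_smul_left e6) (Φ.B (vc b z) w *
      (Φ.B (vc b z) ((refl h.kap (b i)).1 (vc b z)))⁻¹)⁻¹

theorem E_le (hW : W1 {x | ∃ g ∈ K, ∃ i, vc b x = g (b i)}) : Φ.E ≤ K := by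
  classical
  have := b.finiteDimensional_of_finite
  have hX := h.rx hn hK hr hM
  have key : ∀ j z, z j = 0 → ev F j + z ∈ {x | ∃ g ∈ K, ∃ i, vc b x = g (b i)} →
      z ⬝ᵥ z = 0 ∧ Φ.AIn K (vc b z) (b j) := fun j z hj hz => by
    have h1 : z ⬝ᵥ z = 0 := by simpa [hj] using hX.norm _ hz
    have hZ : Sing Φ (vc b z) := (sing_quad h.kap).2 (by simp only [h.Q_vc, h1, mul_zero])
    obtain ⟨g, hg, i, e⟩ := hz
    have h2 := aIn_of_refl h.kap h.nd (K := K) (u := c⁻¹ • vc b z) (e := b j) (hZ.smul _).2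
      (by simp [B_comm_quad h.kap _ (b j), h.B_b, hj])
      (by simp [h.Q, h.c0]) (K.mul_mem (by
        rw [h.Q, smul_inv_smul₀ h.c0, ← vc_ev, ← map_add, e]
        exact refl_mem_of_map h.kap hK hg (hr i)) (hr j))
    exact ⟨h1, by simpa [h.c0] using aIn_smul hp hZ (h2.of_smul_left (inv_ne_zero h.c0)) c⟩
  obtain ⟨j, z, hz0, hj, hz⟩ := hW
  obtain ⟨h1, h2⟩ := key j z hj hz
  by_cases h3 : (3 : F) = 0
  · have hsq : ∀ a : F, a ≠ 0 → a * a = 1 := fun a ha => by
      have h4 : Fintype.card F = 3 := by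
        obtain ⟨p, hc⟩ := CharP.exists F
        obtain ⟨n, hp', e⟩ := FiniteField.card F p
        have e1 := (Nat.prime_dvd_prime_iff_eq hp' Nat.prime_three).1
          ((CharP.cast_eq_zero_iff F p 3).1 (by simpa using h3))
        rw [e, e1] at hp ⊢
        rw [hp.eq_one_of_pow, pow_one]
      simpa [h4, sq] using FiniteField.pow_card_sub_one_eq_one a ha
    have hsum : ∀ T : Finset ι, (∀ p ∈ T, z p ≠ 0) → ∑ p ∈ T, z p * z p = #T := fun T hT => by
      rw [sum_congr rfl fun p hp => hsq _ (hT p hp)]; simp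
    obtain ⟨i, hi, l, hl, m, hm, e1, e2, e3⟩ := two_lt_card.1 (show 2 < #{p | z p ≠ 0} by
      have e := hsum {p | z p ≠ 0} (by simp)
      rw [sum_filter_of_ne (f := fun p => z p * z p) (by simp), ← dotProduct, h1] at e
      have e0 : 0 < #{p | z p ≠ 0} := card_pos.2 (by simpa [Finset.Nonempty] using Function.ne_iff.1 hz0)
      by_contra! hc
      obtain e1 | e1 : #{p | z p ≠ 0} = 1 ∨ #{p | z p ≠ 0} = 2 := by omega
      · simp [e1] at e
      · exact h.two (by simpa [e1] using e.symm))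
    simp only [mem_filter, mem_univ, true_and] at hi hl hm
    have hT : ∀ p ∈ ({i, l, m} : Finset ι), z p ≠ 0 := by simp [hi, hl, hm]
    have hjT : j ∉ ({i, l, m} : Finset ι) := fun e => hT j e hj
    have e4 := hX.sub0 hz (S := {i, l, m}) (by
      rw [sum_congr rfl (g := fun p => z p * z p) fun p hp => by
        simp [show p ≠ j by rintro rfl; exact hjT hp, sq], hsum _ hT,
        card_eq_three.2 ⟨i, l, m, e1, e2, e3, rfl⟩]
      simpa using h3) hjT
    have e5 : (4 * (ev F j + z) j) • rs {i, l, m} (ev F j + z) = rs {i, l, m} z := by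
      ext p
      by_cases e : p ∈ ({i, l, m} : Finset ι)
      · simp only [rs, e, if_true]
        simp [hj, show p ≠ j by rintro rfl; exact hjT e, rs, e, -mem_insert]
        linear_combination z p * h3
      · simp [rs, e, -mem_insert]
    rw [e5] at e4
    obtain ⟨h4, h5⟩ := key j _ (by simp [rs, hjT, -mem_insert]) e4
    have hZ : Sing Φ (vc b (rs {i, l, m} z)) :=
      (sing_quad h.kap).2 (by simp only [h.Q_vc, h4, mul_zero])
    refine h.core hp hn hK hr hM (fun e => by simpa [rs, hi] using congrFun e i)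
      (by simp [rs, hjT, -mem_insert]) h4 h5 fun p q hp' hq' => ?_
    by_cases hpq : p = q
    · simpa [hpq] using h5.zero hZ
    have a1 : p ∈ ({i, l, m} : Finset ι) := by_contra fun e => hp' (by simp [rs, e, -mem_insert])
    have a2 : q ∈ ({i, l, m} : Finset ι) := by_contra fun e => hq' (by simp [rs, e, -mem_insert])
    obtain ⟨r, hr1, hr2, hT'⟩ : ∃ r, p ≠ r ∧ q ≠ r ∧ ({i, l, m} : Finset ι) = {p, q, r} := by
      simp only [mem_insert, mem_singleton] at a1 a2
      rcases a1 with rfl | rfl | rfl <;> rcases a2 with rfl | rfl | rfl <;>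
        first
        | exact absurd rfl hpq
        | exact ⟨_, by assumption, by assumption, rfl⟩
        | exact ⟨l, by tauto, by tauto, by ext; simp; tauto⟩
        | exact ⟨m, by tauto, by tauto, by ext; simp; tauto⟩
        | exact ⟨i, by tauto, by tauto, by ext; simp; tauto⟩
    rw [hT'] at hT hZ ⊢
    have s1 := hsq _ (hT p (by simp))
    have s2 := hsq _ (hT q (by simp))
    have s3 := hsq _ (hT r (by simp))
    have hc2 := mul_ne_zero h.two h.c0
    have e6 : vc b (rs {p, q, r} z) = z p • b p + z q • b q + z r • b r := by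
      simp only [← vc_ev b, ← map_smul, ← map_add]
      congr 1; ext s
      by_cases b1 : s = p
      · subst b1; simp [rs, hpq, hr1]
      by_cases b2 : s = q
      · subst b2; simp [rs, b1, hr2]
      by_cases b3 : s = r
      · subst b3; simp [rs, b1, b2]
      · simp [rs, b1, b2, b3]
    have e7 := aIn_of_refl h.kap h.nd (K := K) (u := (2 * c)⁻¹ • vc b (rs {p, q, r} z))
      (e := z p • b p - z q • b q) (hZ.smul _).2 (by
        simp [B_comm_quad h.kap (vc b _), h.B_b, rs]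
        exact Or.inr (by linear_combination 2 * c * s1 - 2 * c * s2))
      (by rwa [h.Q_root hpq s1 s2]) (by
        rw [h.Q_root hpq s1 s2, smul_inv_smul₀ hc2, e6]
        convert h.roots_mem hn hM hr1.symm hpq s3 s1 s1 s2 using 4
        match_scalars
        · linear_combination z p * h3
        · ring
        · ring)
    have e8 := aIn_smul hp hZ (e7.of_smul_left (inv_ne_zero hc2)) (2 * c)
    rw [RingHom.id_apply, smul_inv_smul₀ hc2] at e8
    simpa [rs, inv_eq_of_mul_eq_one_right s1, inv_eq_of_mul_eq_one_right s2] using e8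
  have hZ : Sing Φ (vc b z) := (sing_quad h.kap).2 (by simp only [h.Q_vc, h1, mul_zero])
  refine h.core hp hn hK hr hM hz0 hj h1 h2 fun i l hi hl => ?_
  have hf : ∀ i, z i ≠ 0 → ∃ f, ∃ a : F, Hyp Φ (vc b z) f ∧
      (z i)⁻¹ • b i = (2 * c) • f + a • vc b z ∧
      ∀ β, β ≠ 0 → (refl h.kap (β • f + (c / β) • vc b z)).1 ∈ K := fun i hi => by
    have hB : Φ.B (vc b z) ((refl h.kap (b i)).1 (vc b z)) = -(4 * c * z i ^ 2) := by
      simp only [h.refl_b, map_sub, hZ.1, map_smul, B_comm_quad h.kap _ (b i), h.B_b]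
      simp; ring
    have h4 : (4 : F) ≠ 0 := by
      rw [show (4 : F) = 2 * 2 by norm_num]; exact mul_ne_zero h.two h.two
    have hB0 : -(4 * c * z i ^ 2) ≠ 0 := by simp [h4, h.c0, hi]
    have hH := hyp_smul hZ (hZ.mapO (refl h.kap (b i)).2) (hB ▸ hB0)
    have hij : i ≠ j := by rintro rfl; exact hi hj
    have e1 := h2.conj (hr i) (refl _ _).2
    rw [refl_apply_of_perp _ (h.orth i j hij),
      ← smul_inv_smul₀ hB0 ((refl h.kap (b i)).1 (vc b z)), ← hB] at e1
    replace e1 := e1.of_smul_left (hB ▸ hB0)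
    have e2 : ∀ a : F, Φ.AIn K _ (a • b j) := fun a => by
      simpa only [RingHom.id_apply, smul_smul, div_mul_cancel₀ _ (hB ▸ hB0)] using
        aIn_smul hp hH.right e1 (a / Φ.B (vc b z) ((refl h.kap (b i)).1 (vc b z)))
    refine ⟨_, (2 * z i ^ 2)⁻¹, hH, ?_, fun β hβ => ?_⟩
    · have := h.two
      have := h.c0
      rw [hB, h.refl_b]
      match_scalars <;> field_simp <;> ring
    · have := refl_hyp_mem h.kap h.two hK hH (by simpa using (e2 1).1) (by simp [h.Q, h.c0]) (hr j)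
        (aIn_smul hp hZ h2) e2 hβ
      rwa [h.Q j] at this
  obtain ⟨f, a, e1, e2, e3⟩ := hf i hi
  obtain ⟨f', a', e4, e5, e6⟩ := hf l hl
  convert (aIn_smul hp hZ (aIn_torus h.kap h.nd hK e1 e4 h.c0 h.two e3 e6) (2 * c / 3)).add_smul hZ
    (a - a') using 1
  rw [e2, e5]
  match_scalars <;> field_simp <;> ring

end OF

end H23.Fr
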