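import Cfsg.Agent.H23.Fr3

/-! Maximality of frame stabilisers in odd-dimensional orthogonal groups over prime fields. -/

set_option autoImplicit false

namespace H23.Fr

open Module H22 Cfsg Cfsg.Geo Form Finset

variable {F V : Type*} [Field F] [AddCommGroup V] [Module F V]
  {ι : Type} [Fintype ι] [DecidableEq ι]

/-- `± H` -/
def pm (H : Subgroup (V ≃ₗ[F] V)) : Subgroup (V ≃ₗ[F] V) where
  carrier := {g | g ∈ H ∨ g * LinearEquiv.neg F ∈ H}
  one_mem' := Or.inl H.one_mem
  mul_mem' := by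
    rintro a b (ha | ha) (hb | hb)
    · exact Or.inl (H.mul_mem ha hb)
    · exact Or.inr (by rw [mul_assoc]; exact H.mul_mem ha hb)
    · exact Or.inr (by convert H.mul_mem ha hb using 1; ext; simp)
    · exact Or.inl (by convert H.mul_mem ha hb using 1; ext; simp)
  inv_mem' := by
    rintro a (ha | ha)
    · exact Or.inl (H.inv_mem ha)
    · exact Or.inr (by convert H.inv_mem ha using 1; ext; simp)

namespace OF

variable {Φ : Form (RingHom.id F) V} {b : Basis ι F V} {c : F} (h : OF Φ b c) [Fintype F]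
include h

theorem neg_refl (hn : 5 ≤ Fintype.card ι) (ho : Odd (Fintype.card ι)) (i : ι) :
    (refl h.kap (b i)).1 * LinearEquiv.neg F ∈ (decL fun i => F ∙ b i) ⊓ Φ.E := by
  have := b.finiteDimensional_of_finite
  have hd := finrank_eq_card_basis b
  have hg : GenHyp Φ := genHyp_of h.nd h.kap (Or.inr (by omega))
  have h1 : ∀ p, (refl h.kap (b i)).1 (b p) = if p = i then -b p else b p := fun p => by
    split_ifs with e
    · rw [e, refl_apply_self _ (by simp [h.Q, h.c0])]
    · exact refl_apply_of_perp _ (h.orth _ _ (Ne.symm e))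
  refine ⟨mem_dec fun p => ⟨p, ?_⟩, ?_⟩
  · simp only [LinearEquiv.mul_apply, LinearEquiv.neg_apply, map_neg, h1]
    split_ifs <;> simp
  have key : ∀ S : Finset ι, ∃ g : Φ.O, dickson h.nd h.kap hg g = (-1) ^ #S ∧
      spin h.nd h.kap g = sqc c ^ #S ∧ ∀ p, g.1 (b p) = if p ∈ S then -b p else b p := by
    intro S
    induction S using Finset.induction_on with
    | empty => exact ⟨1, by simp⟩
    | insert j S hj ih =>
      obtain ⟨g, e1, e2, e3⟩ := ih
      have hQ : Φ.Q (b j) ≠ 0 := by simp [h.Q, h.c0]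
      refine ⟨g * refl h.kap (b j), ?_, ?_, fun p => ?_⟩
      · rw [map_mul, e1, dickson_refl _ _ _ hQ, card_insert_of_notMem hj, pow_succ]
      · rw [map_mul, e2, spin_refl _ _ hQ, card_insert_of_notMem hj, pow_succ, h.Q]
      · change g.1 ((refl h.kap (b j)).1 (b p)) = _
        by_cases e : p = j
        · rw [e, refl_apply_self _ hQ]; simp [e3, hj]
        · rw [refl_apply_of_perp _ (h.orth _ _ (Ne.symm e))]; simp [e3, e]
  obtain ⟨g, e1, e2, e3⟩ := key {i}ᶜ
  have he : Even #({i}ᶜ : Finset ι) := by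
    rw [card_compl, card_singleton]; exact Nat.Odd.sub_odd ho odd_one
  suffices e : (refl h.kap (b i)).1 * LinearEquiv.neg F = g.1 from
    e ▸ (mem_E_quad h.nd h.kap (by omega)).2 ((mem_omega_iff h.nd h.kap hg (g := g)).2
    ⟨by rw [e1, he.neg_one_pow], by obtain ⟨k, hk⟩ := he; rw [e2, hk, ← two_mul, pow_mul]; simp⟩)
  refine b.ext' fun p => ?_
  simp only [LinearEquiv.mul_apply, LinearEquiv.neg_apply, map_neg, h1, e3]
  by_cases e : p = i <;> simp [e]

theorem isMaximalIn (hp : (Fintype.card F).Prime) (hn : 7 ≤ Fintype.card ι)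
    (ho : Odd (Fintype.card ι)) : IsMaximalIn Φ.E ((decL fun i => F ∙ b i) ⊓ Φ.E) := by
  have := b.finiteDimensional_of_finite
  have hd := finrank_eq_card_basis b
  have hc2 := mul_ne_zero h.two h.c0
  refine isMaximalIn_of inf_le_right ?_ fun H hM hH g hg hgM => ?_
  · obtain ⟨j⟩ : Nonempty ι := Fintype.card_pos_iff.1 (by omega)
    obtain ⟨u, hu, hu0, hs⟩ := iso3_quad h.kap (Φ.perp (F ∙ b j)) (by
      rw [h.nd.finrank_perp, finrank_span_singleton (b.ne_zero j)]; omega)
    replace hu := Φ.mem_perp_span_singleton.1 hu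
    have hu' := Φ.B_eq_zero_symm hu
    refine ⟨(sieg h.nd h.kap hs.2 hu').1, mem_E (H22.eichData_quad h.kap hs.2 hu') fun _ => rfl,
      fun ⟨⟨s, e⟩, _⟩ => ?_⟩
    obtain ⟨a, ha⟩ := Submodule.mem_span_singleton.1
      ((e j).le ⟨_, Submodule.mem_span_singleton_self _, rfl⟩)
    simp only [LinearEquiv.coe_coe, sieg_apply, hu', B_self_quad h.kap, h.Q, mul_zero, sub_zero,
      zero_smul] at ha
    have e1 := congrArg (Φ.B (b j)) ha
    by_cases e2 : j = s j
    · rw [← e2] at ha e1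
      simp [B_self_quad h.kap, h.Q, hu, hc2] at e1
      simp [e1, hc2, hu0] at ha
    · simp [B_self_quad h.kap, h.Q, hu, h.orth _ _ e2, h.two, h.c0] at e1
  have hO := hH.trans E_le_O
  have hneg : LinearEquiv.neg F ∈ Φ.O := ⟨by simp, Φ.Q_neg⟩
  have hK : pm H ≤ Φ.O := by
    rintro k (hk | hk)
    · exact hO hk
    · exact (Subgroup.mul_mem_cancel_right _ hneg).1 (hO hk)
  have hr : ∀ i, (refl h.kap (b i)).1 ∈ pm H := fun i => Or.inr (hM (h.neg_refl (by omega) ho i))
  have hM' : (decL fun i => F ∙ b i) ⊓ Φ.E ≤ pm H := fun k hk => Or.inl (hM hk)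
  obtain ⟨i, hi⟩ : ∃ i, ∀ j, g (b i) ∉ F ∙ b j := by
    by_contra! hc
    exact hgM ⟨mem_dec hc, hH hg⟩
  obtain ⟨x, hx⟩ := (vc b).surjective (g (b i))
  have key : ∀ j, ∃ a, a ≠ j ∧ x a ≠ 0 := fun j => by
    by_contra! hc
    refine hi j ?_
    rw [← hx, vc_apply, sum_eq_single j (fun p _ e => by simp [hc p e]) (by simp)]
    exact Submodule.smul_mem _ _ (Submodule.mem_span_singleton_self _)
  obtain ⟨a, -, ha⟩ := key i
  obtain ⟨a', haa, ha'⟩ := key a
  have hE := h.E_le hp (by omega) hK hr hM' ((h.rx (by omega) hK hr hM').win' hp h.two hn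
    ⟨g, Or.inl hg, i, hx⟩ haa ha ha' (θ := fun y => (vc b).symm (g⁻¹ (vc b y))) (i := i) (by
      rintro y ⟨k, hk, j, e⟩
      exact ⟨g⁻¹ * k, mul_mem (Or.inl (H.inv_mem hg)) hk, j, by simp [e]⟩)
    (fun y z => mul_left_cancel₀ hc2 (by simp [← h.B_vc, (hO (H.inv_mem hg)).1, -LinearEquiv.coe_inv]))
    (by simp [hx, LinearEquiv.symm_apply_eq, vc_ev]))
  intro k hk
  refine (hE hk).elim id fun hk' => absurd (mem_SLv.1 (E_le_SLv h.nd
    ((Subgroup.mul_mem_cancel_left _ hk).1 (hH hk')))) ?_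
  rw [det_of_scalar (a := -1) (by simp), hd, ho.neg_one_pow]
  exact fun e => h.two (by linear_combination -e)

end OF

theorem isMaximalIn_frame [Fintype F] (hp : (Fintype.card F).Prime) (h2 : (2 : F) ≠ 0)
    {Q : QuadraticForm F (ι → F)} (hQ : (ofQuad Q).Nondeg) (hn : 7 ≤ Fintype.card ι)
    (ho : Odd (Fintype.card ι)) {t : ℕ} {D : Fin t → Submodule F (ι → F)}
    (hD : IsOrthogonalMDecomposition Q 1 D) :
    IsMaximalIn (omegaGL Q) (decompositionStabilizer D ⊓ omegaGL Q) := by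
  have h1 := hD.decomp.decomp
  let i₀ : Fin t := ⟨0, by have := h1.two_le; omega⟩
  obtain ⟨v, hv, hv0⟩ := (Submodule.ne_bot_iff (D i₀)).1 fun e => by
    have := h1.finrank_eq i₀; rw [e] at this; simp at this
  choose e he using hD.isometric i₀
  have h0 : ∀ i, (e i ⟨v, hv⟩ : ι → F) ≠ 0 := fun i => by simpa using hv0
  have h3 : ∀ i, D i = F ∙ (e i ⟨v, hv⟩ : ι → F) := fun i =>
    (Submodule.eq_of_le_of_finrank_eq ((Submodule.span_singleton_le_iff_mem _ _).2 (e i _).2)
      (by rw [finrank_span_singleton (h0 i), h1.finrank_eq])).symm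
  let b : Basis (Fin t) F (ι → F) := Basis.mk (h1.indep.linearIndependent D (fun i => (e i _).2) h0)
    (by rw [Submodule.span_range_eq_iSup, ← h1.iSup_eq_top]; exact iSup_mono fun i => (h3 i).le)
  have hb : ∀ i, b i = e i ⟨v, hv⟩ := Basis.mk_apply _ _
  have ht : Fintype.card (Fin t) = Fintype.card ι := by simp [← finrank_eq_card_basis b]
  have hc : Q v ≠ 0 := fun e => hv0 (Submodule.disjoint_def.1
    (disjoint_perp_quad (hD.decomp.nondegenerate i₀)) v hv (by
      rw [show D i₀ = F ∙ v from (Submodule.eq_of_le_of_finrank_eq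
        ((Submodule.span_singleton_le_iff_mem _ _).2 hv)
        (by rw [finrank_span_singleton hv0, h1.finrank_eq])).symm, mem_perp_span_singleton,
        B_self_quad rfl]
      exact mul_eq_zero_of_right _ e))
  have := OF.isMaximalIn (Φ := ofQuad Q) (b := b) (c := Q v) ⟨hQ, rfl, h2, hc, fun i j hij =>
    hD.decomp.orthogonal i j hij _ (hb i ▸ (e i _).2) _ (hb j ▸ (e j _).2),
    fun i => hb i ▸ he i _⟩ hp (ht ▸ hn) (ht ▸ ho)
  refine isMaximalIn_dec_of_E (fun _ => mem_omegaGL_iff_E hQ (by omega)) ?_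
  simpa only [hb, ← h3] using this

end H23.Fr
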