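import Mathlib

/-! Maximality of a subgroup from a class of involutions with one fixed point each. -/

set_option autoImplicit false

namespace H23.Zd

open MulAction

universe u

/-- The statement of the theorem on involutions fixing exactly one point. -/
def ZD : Prop := ∀ (G Ω : Type u) [Group G] [Finite G] [MulAction G Ω] [Finite Ω] (D : Set G),
  (∀ d ∈ D, orderOf d = 2) → (∀ d ∈ D, ∀ g : G, g * d * g⁻¹ ∈ D) →
  (∀ d ∈ D, ∃! a : Ω, d • a = a) →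
  (∀ d ∈ D, ∀ e ∈ D, d ≠ e → Commute d e → ∀ a b : Ω, (d * e) • a = a → (d * e) • b = b → a = b) →
  IsPretransitive G Ω → Nontrivial Ω → D.Nonempty → (∀ x : G, (∀ a : Ω, x • a = a) → x = 1) →
  ∀ x ∈ Subgroup.closure D, orderOf x = 2 → x ∈ D

theorem fix_iff {H : Type*} [Group H] (M : Subgroup H) (x g : H) :
    x • (g : H ⧸ M) = g ↔ g⁻¹ * x * g ∈ M := by
  rw [MulAction.Quotient.smul_coe, QuotientGroup.eq, ← M.inv_mem_iff]
  simp [mul_assoc]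

theorem eq_top (hZ : ZD.{u}) {H : Type u} [Group H] [Finite H] {M : Subgroup H} {d m₀ : H}
    (hd : d ∈ M) (d2 : d * d = 1) (fix : ∀ g, g⁻¹ * d * g ∈ M → g ∈ M)
    (prod : ∀ m ∈ M, m * d * m⁻¹ ≠ d → (∀ g, g⁻¹ * (d * (m * d * m⁻¹)) ^ 2 * g ∈ M) →
      ∀ g, g⁻¹ * (d * (m * d * m⁻¹)) * g ∈ M → g ∈ M)
    (h₀ : m₀ ∈ M) (h₁ : m₀ * d * m₀⁻¹ ≠ d) (h₂ : (d * (m₀ * d * m₀⁻¹)) ^ 2 = 1)
    (bad : ∀ m ∈ M, (∀ g, g⁻¹ * (d * (m₀ * d * m₀⁻¹) * (m * d * m⁻¹)) * g ∈ M) → M = ⊤) :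
    M = ⊤ := by
  by_contra hM
  obtain ⟨k, hk⟩ : ∃ k, k ∉ M := by
    by_contra! h; exact hM (top_unique fun x _ => h x)
  let φ := (toPermHom H (H ⧸ M)).rangeRestrict
  have hφ : ∀ (x : H) (a : H ⧸ M), φ x • a = x • a := fun _ _ => rfl
  have hs : Function.Surjective φ := MonoidHom.rangeRestrict_surjective _
  have h1 : ∀ x, φ x = 1 ↔ ∀ g, g⁻¹ * x * g ∈ M := fun x =>
    ⟨fun h g => (fix_iff M x g).1 (by rw [← hφ, h, one_smul]), fun h => Subtype.ext (Equiv.ext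
      fun a => by obtain ⟨g, rfl⟩ := QuotientGroup.mk_surjective a; exact (fix_iff M x g).2 (h g))⟩
  have h2 : ∀ g x : H, (g * d * g⁻¹) • (x : H ⧸ M) = x ↔ (x : H ⧸ M) = g := fun g x => by
    rw [fix_iff, eq_comm, QuotientGroup.eq]
    refine ⟨fun h => fix _ (by simpa [mul_assoc] using h), fun h => ?_⟩
    simpa [mul_assoc] using M.mul_mem (M.mul_mem (M.inv_mem h) hd) h
  have h3 : ∀ x, x ^ 2 = 1 → ¬ (∀ g, g⁻¹ * x * g ∈ M) → orderOf (φ x) = 2 := fun x e1 e2 =>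
    orderOf_eq_prime (by rw [← map_pow, e1, map_one]) (mt (h1 x).1 e2)
  have h4 : ∀ g x : H, φ (g * d * g⁻¹) = φ x → (x * (g * d * g⁻¹)) ∈ M →  x ∈ M → g ∈ M :=
    fun g x _ e2 e3 => by
    have := (h2 g 1).1 ((fix_iff _ _ _).2 (by simpa using (M.mul_mem_cancel_left e3).1 e2))
    simpa [QuotientGroup.eq] using this
  obtain ⟨g, hg⟩ := hZ _ (H ⧸ M) (Set.range fun g => φ (g * d * g⁻¹)) (by
      rintro _ ⟨g, rfl⟩
      refine h3 _ (by simp [sq, mul_assoc, ← mul_assoc d, d2]) fun h => hk (fix k ?_)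
      simpa [mul_assoc] using h (g * k))
    (by
      rintro _ ⟨g, rfl⟩ x
      obtain ⟨x, rfl⟩ := hs x
      exact ⟨x * g, by simp [mul_assoc]⟩)
    (by
      rintro _ ⟨g, rfl⟩
      refine ⟨g, (h2 g g).2 rfl, fun a ha => ?_⟩
      obtain ⟨x, rfl⟩ := QuotientGroup.mk_surjective a
      exact (h2 g x).1 ha)
    (by
      rintro _ ⟨g, rfl⟩ _ ⟨g', rfl⟩ e1 e2
      have e3 : (g : H ⧸ M) = g' := by
        refine (h2 g' g).1 ?_
        obtain ⟨y, hy⟩ := QuotientGroup.mk_surjective ((g' * d * g'⁻¹) • (g : H ⧸ M))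
        have e6 : φ (g * d * g⁻¹) * φ (g' * d * g'⁻¹) = φ (g' * d * g'⁻¹) * φ (g * d * g⁻¹) := e2
        rw [← hy, ← h2, hy, ← hφ, ← hφ, ← mul_smul, e6, mul_smul, hφ, hφ, hφ, (h2 g g).2 rfl]
      rw [QuotientGroup.eq] at e3
      have e4 : g * d * g⁻¹ * (g' * d * g'⁻¹) = g * (d * (g⁻¹ * g' * d * (g⁻¹ * g')⁻¹)) * g⁻¹ := by
        group
      have key : ∀ a : H ⧸ M, (φ (g * d * g⁻¹) * φ (g' * d * g'⁻¹)) • a = a → a = g := fun a ha => by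
        obtain ⟨x, rfl⟩ := QuotientGroup.mk_surjective a
        rw [← map_mul, hφ, fix_iff, e4] at ha
        rw [eq_comm, QuotientGroup.eq]
        refine prod _ e3 (fun h => e1 (congrArg φ ?_)) (fun y => ?_) _ (by simpa [mul_assoc] using ha)
        · change g * d * g⁻¹ = g' * d * g'⁻¹
          conv_lhs => rw [← h]
          group
        · have e5 : φ ((g * d * g⁻¹ * (g' * d * g'⁻¹)) ^ 2) = 1 := by
            rw [map_pow, map_mul, e2.mul_pow, ← map_pow, ← map_pow]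
            simp [sq, mul_assoc, ← mul_assoc d, d2]
          have := (h1 _).1 e5 (g * y)
          rw [e4, conj_pow] at this
          simpa [mul_assoc] using this
      exact fun a b ha hb => (key a ha).trans (key b hb).symm)
    ⟨fun a b => by
      obtain ⟨x, hx⟩ := exists_smul_eq H a b
      exact ⟨φ x, hx⟩⟩
    ⟨⟨k, (1 : H), fun h => hk (by simpa [QuotientGroup.eq] using h)⟩⟩ ⟨_, 1, rfl⟩
    (fun x hx => Subtype.ext (Equiv.ext hx)) (φ (d * (m₀ * d * m₀⁻¹))) (by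
      rw [map_mul]
      exact mul_mem (Subgroup.subset_closure ⟨1, by simp⟩) (Subgroup.subset_closure ⟨m₀, rfl⟩))
    (h3 _ h₂ fun h => hk (prod m₀ h₀ h₁ (fun g => by simp [h₂]) k (h k)))
  have e : ∀ y, y⁻¹ * (d * (m₀ * d * m₀⁻¹) * (g * d * g⁻¹)) * y ∈ M := (h1 _).1 (by
    rw [map_mul, ← hg, ← map_mul]
    simp [mul_assoc, ← mul_assoc d, d2])
  exact hM (bad g (h4 g _ hg (by simpa using e 1)
    (M.mul_mem hd (M.mul_mem (M.mul_mem h₀ hd) (M.inv_mem h₀)))) e)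

theorem le_of (hZ : ZD.{u}) {Γ : Type u} [Group Γ] [Finite Γ] {M H : Subgroup Γ} {d m₀ : Γ}
    (hM : M ≤ H) (hd : d ∈ M) (d2 : d * d = 1) (fix : ∀ g ∈ H, g⁻¹ * d * g ∈ M → g ∈ M)
    (prod : ∀ m ∈ M, m * d * m⁻¹ ≠ d → (∀ g ∈ H, g⁻¹ * (d * (m * d * m⁻¹)) ^ 2 * g ∈ M) →
      ∀ g ∈ H, g⁻¹ * (d * (m * d * m⁻¹)) * g ∈ M → g ∈ M)
    (h₀ : m₀ ∈ M) (h₁ : m₀ * d * m₀⁻¹ ≠ d) (h₂ : (d * (m₀ * d * m₀⁻¹)) ^ 2 = 1)
    (bad : ∀ m ∈ M, (∀ g ∈ H, g⁻¹ * (d * (m₀ * d * m₀⁻¹) * (m * d * m⁻¹)) * g ∈ M) → H ≤ M) :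
    H ≤ M :=
  Subgroup.subgroupOf_eq_top.1 (eq_top hZ (M := M.subgroupOf H) (d := ⟨d, hM hd⟩)
    (m₀ := ⟨m₀, hM h₀⟩) hd (Subtype.ext d2) (fun g => fix g g.2)
    (fun m hm e1 e2 g => prod m hm (fun e => e1 (Subtype.ext e)) (fun y hy => e2 ⟨y, hy⟩) g g.2)
    h₀ (fun e => h₁ (congrArg Subtype.val e)) (Subtype.ext h₂)
    fun m hm e => Subgroup.subgroupOf_eq_top.2 (bad m hm fun y hy => e ⟨y, hy⟩))

end H23.Zd
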