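import Cfsg.Agent.H23.Nd3
import Cfsg.Agent.H23.Zd1

/-! Tools for orthogonal decompositions: an overgroup containing reflections and rank bounds. -/

set_option autoImplicit false

namespace H23.Nd

open Module H22 Cfsg Cfsg.Geo Form

/-- the elements of `H ∪ H r` moving `r` into `H r` -/
def KH {G : Type*} [Group G] (H : Subgroup G) {r : G} (hr : r * r = 1) : Subgroup G where
  carrier := {k | (k ∈ H ∨ k * r ∈ H) ∧ k * r * k⁻¹ * r ∈ H}
  one_mem' := ⟨Or.inl H.one_mem, by simp [hr]⟩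
  mul_mem' := by
    have e1 : r⁻¹ = r := inv_eq_of_mul_eq_one_right hr
    have e2 : ∀ x, r * (r * x) = x := fun x => by rw [← mul_assoc, hr, one_mul]
    rintro a b ⟨ha, ha'⟩ ⟨hb, hb'⟩
    refine ⟨?_, ?_⟩
    · rcases ha with ha | ha <;> rcases hb with hb | hb
      · exact Or.inl (H.mul_mem ha hb)
      · exact Or.inr (by simpa [mul_assoc] using H.mul_mem ha hb)
      · exact Or.inr (by
          simpa [mul_assoc, e1, e2] using H.mul_mem (H.mul_mem ha (H.inv_mem hb')) hb)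
      · exact Or.inl (by
          simpa [mul_assoc, e1, e2, hr] using H.mul_mem (H.mul_mem ha (H.inv_mem hb')) hb)
    · rcases ha with ha | ha
      · simpa [mul_assoc, e1, e2] using
          H.mul_mem (H.mul_mem (H.mul_mem ha hb') (H.inv_mem ha)) ha'
      · simpa [mul_assoc, e1, e2] using
          H.mul_mem (H.mul_mem (H.mul_mem ha (H.inv_mem hb')) (H.inv_mem ha)) ha'
  inv_mem' := by
    have e1 : r⁻¹ = r := inv_eq_of_mul_eq_one_right hr
    have e2 : ∀ x, r * (r * x) = x := fun x => by rw [← mul_assoc, hr, one_mul]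
    rintro a ⟨ha | ha, ha'⟩
    · exact ⟨Or.inl (H.inv_mem ha), by
        simpa [mul_assoc, e1, e2] using H.mul_mem (H.mul_mem (H.inv_mem ha) (H.inv_mem ha')) ha⟩
    · have : a⁻¹ * r ∈ H := by
        simpa [mul_assoc, e1, e2, hr] using H.inv_mem (H.mul_mem (H.inv_mem ha') ha)
      exact ⟨Or.inr this, by simpa [mul_assoc] using H.mul_mem this ha⟩

theorem KH.conj {G : Type*} [Group G] {H : Subgroup G} {r : G} {hr : r * r = 1} {k h : G}
    (hk : k ∈ KH H hr) (hh : h ∈ H) (h1 : h * r * h⁻¹ * r ∈ H) : k * h * k⁻¹ ∈ H := by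
  have e1 : r⁻¹ = r := inv_eq_of_mul_eq_one_right hr
  have e2 : ∀ x, r * (r * x) = x := fun x => by rw [← mul_assoc, hr, one_mul]
  rcases hk.1 with e | e
  · exact H.mul_mem (H.mul_mem e hh) (H.inv_mem e)
  · simpa [mul_assoc, e1, e2] using
      H.mul_mem (H.mul_mem e (H.mul_mem (H.inv_mem h1) hh)) (H.inv_mem e)

theorem exists_half {ι : Type*} [Finite ι] {s : ι → ι} (hs : ∀ i, s (s i) = i) :
    ∃ T : Set ι, (∀ i ∈ T, s i ∈ T → s i = i) ∧ ∀ i, i ∈ T ∨ s i ∈ T := by
  obtain ⟨n, ⟨e⟩⟩ := Finite.exists_equiv_fin ι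
  exact ⟨{i | e i ≤ e (s i)}, fun i h1 h2 => e.injective (le_antisymm (by simpa [hs] using h2) h1),
    fun i => by simpa [hs] using le_total _ _⟩

variable {F V : Type*} [Field F] [AddCommGroup V] [Module F V] {Φ : Form (RingHom.id F) V}

/-- the reflection as a linear automorphism -/
noncomputable abbrev rf (hκ : Φ.κ = 1) (v : V) : V ≃ₗ[F] V := (refl hκ v).1

section

variable (hκ : Φ.κ = 1) {g : V ≃ₗ[F] V}

theorem rf_O (v : V) : rf hκ v ∈ Φ.O := (refl hκ v).2

theorem rf_rf (v : V) : rf hκ v * rf hκ v = 1 := congrArg Subtype.val (refl_mul_self hκ v)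

theorem rf_rf' (v : V) (g : V ≃ₗ[F] V) : rf hκ v * (rf hκ v * g) = g := by
  rw [← mul_assoc, rf_rf, one_mul]

theorem rf_inv (v : V) : (rf hκ v)⁻¹ = rf hκ v := inv_eq_of_mul_eq_one_right (rf_rf hκ v)

theorem conj_rf (hg : g ∈ Φ.O) (v : V) : g * rf hκ v * g⁻¹ = rf hκ (g v) :=
  congrArg Subtype.val (conj_refl hκ ⟨g, hg⟩ v)

theorem rf_smul {c : F} (hc : c ≠ 0) (v : V) : rf hκ (c • v) = rf hκ v :=
  congrArg Subtype.val (refl_smul hκ hc v)

theorem rf_comm {v w : V} (h : Φ.B v w = 0) : rf hκ v * rf hκ w = rf hκ w * rf hκ v := by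
  have := conj_rf hκ (rf_O hκ v) w
  rw [refl_apply_of_perp _ h] at this
  exact mul_inv_eq_iff_eq_mul.1 this

theorem sub_rf_mem (v x : V) : x - rf hκ v x ∈ F ∙ v := by
  rw [refl_apply, sub_sub_cancel]
  exact Submodule.smul_mem _ _ (Submodule.mem_span_singleton_self _)

theorem perp_of_fix {x : V} (hg : g ∈ Φ.O) (hx : g x = x) (v : V) : Φ.B (v - g v) x = 0 := by
  have := hg.1 v x
  rw [hx] at this
  simp [this]

end

theorem card_le_of_dual [FiniteDimensional F V] {κ : Type*} [Fintype κ] {W : Submodule F V}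
    {w f : κ → V} (hw : ∀ i, w i ∈ W) (h0 : ∀ i j, i ≠ j → Φ.B (w i) (f j) = 0)
    (h1 : ∀ i, Φ.B (w i) (f i) ≠ 0) : Fintype.card κ ≤ finrank F W := by
  have : LinearIndependent F w := Fintype.linearIndependent_iff.2 fun c hc j => by
    have := congrArg (fun x => Φ.B x (f j)) hc
    simp only [map_sum, LinearMap.sum_apply, map_zero, LinearMap.zero_apply, map_smul,
      LinearMap.smul_apply, RingHom.id_apply, smul_eq_mul] at this
    rw [Finset.sum_eq_single j (fun i _ hi => by simp [h0 i j hi]) (by simp)] at this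
    exact (mul_eq_zero.1 this).resolve_right (h1 j)
  exact LinearIndependent.fintype_card_le_finrank (b := fun i => (⟨w i, hw i⟩ : W))
    (LinearIndependent.of_comp W.subtype this)

variable [FiniteDimensional F V] {ι : Type*} [Fintype ι] {D : ι → Submodule F V}
  {π : ι → V →ₗ[F] V} {k : V ≃ₗ[F] V}

theorem exists_dual_pair (hΦ : Φ.Nondeg) {D : Submodule F V} (hD : Disjoint D (Φ.perp D))
    (h2 : 2 ≤ finrank F D) : ∃ e ∈ D, ∃ e' ∈ D, ∃ f ∈ D, ∃ f' ∈ D,
      Φ.B e f = 1 ∧ Φ.B e' f' = 1 ∧ Φ.B e f' = 0 ∧ Φ.B e' f = 0 := by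
  obtain ⟨e, he, h0⟩ := (Submodule.ne_bot_iff D).1 fun e => by rw [e] at h2; simp at h2
  obtain ⟨f, hf, h1⟩ := exists_ne hD he h0
  obtain ⟨e', ⟨he', h3⟩, h4⟩ := (Submodule.ne_bot_iff (D ⊓ Φ.perp (F ∙ f))).1 fun e => by
    have := finrank_inf_perp hΦ hD ((Submodule.span_singleton_le_iff_mem f D).2 hf)
    have h5 := finrank_span_singleton (K := F) (v := f) (by rintro rfl; simp at h1)
    rw [e, finrank_bot] at this; omega
  replace h3 := Φ.B_eq_zero_symm (Φ.mem_perp_span_singleton.1 h3)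
  obtain ⟨f', hf', h5⟩ := exists_ne hD he' h4
  exact ⟨e, he, e', he', f, hf, f' - Φ.B e f' • f, D.sub_mem hf' (D.smul_mem _ hf), h1,
    by simp [h5, h3], by simp [h1], h3⟩

omit [FiniteDimensional F V] in
theorem invol_of_sq (h : Prj D π) (h0 : ∀ i, D i ≠ ⊥) (k2 : k * k = 1) {s : ι → ι}
    (hs : ∀ i, ∀ x ∈ D i, k x ∈ D (s i)) (i : ι) : s (s i) = i := by
  obtain ⟨x, hx, h1⟩ := (Submodule.ne_bot_iff _).1 (h0 i)
  have := hs _ _ (hs _ _ hx)
  rw [← LinearEquiv.mul_apply, k2] at this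
  exact h.eq_of_mem h1 this hx

/-- An involution of small rank permuting the blocks fixes one of them pointwise. -/
theorem exists_fixed (h : ODec Φ D π) (hΦ : Φ.Nondeg) (hm : ∀ i, 2 ≤ finrank F (D i))
    (hk : k ∈ decL D) (k2 : k * k = 1) {W : Submodule F V} (hW : ∀ v, v - k v ∈ W)
    (hlt : finrank F W < Fintype.card ι) : ∃ i, ∀ v ∈ D i, k v = v := by
  classical
  by_contra! hc
  choose u hu hu' using hc
  obtain ⟨s, hs⟩ := hk
  replace hs : ∀ i, ∀ x ∈ D i, k x ∈ D (s i) := fun i x hx => (hs i).le ⟨x, hx, rfl⟩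
  have s2 := invol_of_sq h.toPrj (fun i e => by have := hm i; rw [e] at this; simp at this) k2 hs
  obtain ⟨T, hT, hT'⟩ := exists_half s2
  choose e he e' he' f hf f' hf' h1 h2 h3 h4 using fun i =>
    exists_dual_pair hΦ (h.disjoint hΦ i) (hm i)
  have key : ∀ i, ∃ a b, ∃ j ∈ T, a ∈ D j ∧ b ∈ D j ∧ (j = i ∨ j = s i) ∧
      Φ.B (a - k a) b ≠ 0 ∧ (s i ≠ i → if i ∈ T then a = e i ∧ b = f i else
        a = e' (s i) ∧ b = f' (s i)) := fun i => by
    by_cases e1 : s i = i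
    · obtain ⟨b, hb, e2⟩ := h.exists_one hΦ ((D i).sub_mem (hu i) (by simpa [e1] using hs i _ (hu i)))
        (sub_ne_zero.2 (hu' i).symm)
      exact ⟨_, b, i, by simpa [e1] using hT' i, hu i, hb, Or.inl rfl, by simp [-map_sub, e2],
        fun e => absurd e1 e⟩
    by_cases e2 : i ∈ T
    · exact ⟨_, _, i, e2, he i, hf i, Or.inl rfl,
        by simp [h1, h.orth _ _ e1 _ (hs i _ (he i)) _ (hf i)], fun _ => by simp [e2]⟩
    · refine ⟨_, _, s i, (hT' i).resolve_left e2, he' _, hf' _, Or.inr rfl, ?_, fun _ => by simp [e2]⟩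
      simp [h2, h.orth _ _ (fun e => e1 ((s2 i).symm.trans e).symm) _ (hs _ _ (he' (s i))) _ (hf' _)]
  choose a b j hj ha hb h5 h6 h7 using key
  refine (card_le_of_dual (Φ := Φ) (fun i => hW (a i)) (fun i l hil => ?_) h6).not_gt hlt
  by_cases e1 : j i = j l
  · have e2 : l = s i := by
      rcases h5 i with e2 | e2 <;> rcases h5 l with e3 | e3
      · exact absurd (e2.symm.trans (e1.trans e3)) hil
      · rw [← e2, e1, e3, s2]
      · rw [← e2, e1, e3]
      · exact absurd (s.injective (e2.symm.trans (e1.trans e3))) hil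
    subst e2
    have e3 : s (j i) ≠ j (s i) := fun e => by
      rw [← e1] at e
      rcases h5 i with e2 | e2 <;> rw [e2] at e
      · exact hil e.symm
      · exact hil ((s2 i).symm.trans e)
    rw [map_sub, LinearMap.sub_apply, h.orth _ _ e3 _ (hs _ _ (ha i)) _ (hb _), sub_zero]
    have e4 := h7 i (Ne.symm hil)
    have e5 := h7 (s i) (by rwa [s2])
    by_cases e6 : i ∈ T
    · rw [if_neg fun e => hil (hT i e6 e).symm, s2] at e5
      rw [if_pos e6] at e4
      rw [e4.1, e5.2, h3]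
    · rw [if_pos ((hT' i).resolve_left e6)] at e5
      rw [if_neg e6] at e4
      rw [e4.1, e5.2, h4]
  · have e3 : s (j i) ≠ j l := fun e => e1 ((hT _ (hj i) (e ▸ hj l)).symm.trans e)
    simp [h.orth _ _ e3 _ (hs _ _ (ha i)) _ (hb _), h.orth _ _ e1 _ (ha i) _ (hb _)]

end H23.Nd
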