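import Cfsg.Agent.H23.Fr4
import Cfsg.Agent.H23.Zd2

/-! Frame stabilisers in orthogonal groups over prime fields: the general case. -/

set_option autoImplicit false

namespace H23.Fr

open Module H22 Cfsg Cfsg.Geo Form Finset Nd

variable {F V : Type*} [Field F] [AddCommGroup V] [Module F V]
  {ι : Type} [Fintype ι] [DecidableEq ι]

theorem exists_supp (h2 : (2 : F) ≠ 0) {Y : Set (ι → F)} {Z : Finset ι} (hZ : 4 ≤ #Z)
    (h0 : ∀ y ∈ Y, y ⬝ᵥ y = 1) (h1 : ∀ y ∈ Y, ∀ y' ∈ Y, y ⬝ᵥ y' = 0 ∨ y' = y ∨ y' = -y)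
    (hs : ∀ i ∈ Z, ∀ j ∈ Z, i ≠ j → ∀ y ∈ Y, y - (2 : F) • rs {i, j} y ∈ Y)
    (hc : ∀ i ∈ Z, ∀ l ∈ Z, ∀ m ∈ Z, i ≠ l → l ≠ m → ∀ y ∈ Y,
      (fun p => y (Equiv.swap i l (Equiv.swap l m p))) ∈ Y)
    {y : ι → F} (hy : y ∈ Y) {i : ι} (hi : i ∈ Z) (hi0 : y i ≠ 0) :
    (∃ j, ∀ p, p ≠ j → y p = 0) ∨ ∃ S, #S = 4 ∧ Z ⊆ S ∧ ∀ p ∉ S, y p = 0 := by
  have key : ∀ S : Finset ι, y - (2 : F) • rs S y ∈ Y → ∀ p ∈ S, y p ≠ 0 →
      2 * ∑ p ∈ S, y p * y p = 1 ∨ ∀ p ∉ S, y p = 0 := fun S hS p hp hp0 => by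
    rcases h1 y hy _ hS with e | e | e
    · rw [dotProduct_sub, dotProduct_smul, dot_rs, h0 y hy] at e
      exact Or.inl (by simp only [smul_eq_mul] at e; linear_combination -e)
    · simpa [rs, hp, h2, hp0] using congrFun e p
    · refine Or.inr fun q hq => mul_left_cancel₀ h2 ?_
      have := congrFun e q
      simp only [Pi.sub_apply, Pi.smul_apply, rs, hq, if_false, Pi.neg_apply, smul_zero] at this
      linear_combination this
  by_cases hz : ∃ m ∈ Z, y m = 0
  · obtain ⟨m, hm, hm0⟩ := hz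
    refine Or.inl (by_contra fun hcon => ?_)
    have e1 : ∀ j ∈ Z, y j ≠ 0 → 2 * (y j * y j) = 1 := fun j hj hj0 => by
      have hjm : j ≠ m := by rintro rfl; exact hj0 hm0
      rcases key _ (hs j hj m hm hjm y hy) j (by simp) hj0 with e | e
      · simpa [sum_pair hjm, hm0] using e
      · refine absurd ⟨j, fun p hp => ?_⟩ hcon
        by_cases e' : p = m
        · rwa [e']
        · exact e p (by simp [hp, e'])
    have him : i ≠ m := by rintro rfl; exact hi0 hm0
    obtain ⟨l, hl, hl'⟩ := exists_mem_notMem_of_card_lt_card (s := {i, m}) (t := Z)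
      (card_le_two.trans_lt (by omega))
    simp only [mem_insert, mem_singleton, not_or] at hl'
    have e2 : ∀ p, Equiv.swap i l (Equiv.swap l m p) =
        if p = i then l else if p = l then m else if p = m then i else p := fun p => by
      simp only [Equiv.swap_apply_def]; split_ifs <;> simp_all
    rcases h1 y hy _ (hc i hi l hl m hm (Ne.symm hl'.1) hl'.2 y hy) with e | e | e
    · have e3 : ∑ p, (y p * y p - y p * y (Equiv.swap i l (Equiv.swap l m p))) =
          ∑ p ∈ {i, l, m}, (y p * y p - y p * y (Equiv.swap i l (Equiv.swap l m p))) :=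
        (sum_subset (subset_univ _) fun p _ hp => by
          simp only [mem_insert, mem_singleton, not_or] at hp
          simp [e2, hp]).symm
      rw [sum_sub_distrib, sum_insert (by simp [Ne.symm hl'.1, him]), sum_pair hl'.2] at e3
      change y ⬝ᵥ y - y ⬝ᵥ (fun p => _) = _ at e3
      rw [e, h0 y hy] at e3
      simp only [e2, if_true, hl'.1, if_false, hm0] at e3
      by_cases e4 : y l = 0
      · exact one_ne_zero (α := F) (by
          simp only [e4] at e3; linear_combination 2 * e3 + e1 i hi hi0)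
      · exact mul_ne_zero h2 (mul_ne_zero hi0 e4) (by
          linear_combination 2 * e3 + e1 i hi hi0 + e1 l hl e4)
    · simpa [e2, him.symm, Ne.symm hl'.2, hm0, hi0] using congrFun e m
    · simpa [e2, him.symm, Ne.symm hl'.2, hm0, hi0] using congrFun e m
  push Not at hz
  obtain ⟨S, hS, h4⟩ := exists_subset_card_eq hZ
  obtain ⟨a, b, c, d, hab, hac, had, hbc, hbd, hcd, rfl⟩ := card_eq_four.1 h4
  have ha : a ∈ Z := hS (by simp)
  have hb : b ∈ Z := hS (by simp)
  have hc' : c ∈ Z := hS (by simp)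
  have hd : d ∈ Z := hS (by simp)
  have e1 := (key _ (hs a ha b hb hab y hy) a (by simp) (hz a ha)).resolve_right fun e =>
    hz c hc' (e c (by simp [hac.symm, hbc.symm]))
  have e2 := (key _ (hs c hc' d hd hcd y hy) c (by simp) (hz c hc')).resolve_right fun e =>
    hz a ha (e a (by simp [hac, had]))
  have e3 := (key {a, b, c, d} (by
    convert hs a ha b hb hab _ (hs c hc' d hd hcd y hy) using 1
    ext p
    simp only [Pi.sub_apply, Pi.smul_apply, rs, mem_insert, mem_singleton]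
    split_ifs <;> first | (exfalso; grind) | simp) a (by simp) (hz a ha)).resolve_left fun e => by
      rw [sum_insert (by simp [hab, hac, had]), sum_insert (by simp [hbc, hbd])] at e
      rw [sum_pair hab] at e1
      exact one_ne_zero (α := F) (by linear_combination e - e1 - e2)
  exact Or.inr ⟨_, h4, fun p hp => by_contra fun e => hz p hp (e3 p e), e3⟩

/-- the sign change on `S` -/
def IsSg (b : Basis ι F V) (S : Finset ι) (k : V ≃ₗ[F] V) : Prop :=
  ∀ p, k (b p) = if p ∈ S then -b p else b p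

section Sg

omit [Fintype ι]

variable {b : Basis ι F V} {S S' : Finset ι} {k k' m : V ≃ₗ[F] V}

theorem IsSg.mul (h : IsSg b S k) (h' : IsSg b S' k') : IsSg b (symmDiff S S') (k * k') :=
  fun p => by
    rw [LinearEquiv.mul_apply, h' p]
    by_cases e : p ∈ S <;> by_cases e' : p ∈ S' <;> simp [h p, e, e', mem_symmDiff]

theorem IsSg.conj (h : IsSg b S k) {s : Equiv.Perm ι} (hm : ∀ p, m (b p) ∈ F ∙ b (s p)) :
    IsSg b (S.map s.toEmbedding) (m * k * m⁻¹) := fun p => by
  obtain ⟨p, rfl⟩ := s.surjective p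
  obtain ⟨a, ha⟩ := Submodule.mem_span_singleton.1 (hm p)
  have h0 : a ≠ 0 := by rintro rfl; exact b.ne_zero p (by simpa using ha.symm)
  have e : b (s p) = m (a⁻¹ • b p) := by rw [map_smul, ← ha, inv_smul_smul₀ h0]
  have e' : s p ∈ S.map s.toEmbedding ↔ p ∈ S := by simp
  rw [e]
  by_cases e1 : p ∈ S <;> simp [h p, e', e1]

theorem IsSg.eq (h : IsSg b S k) (h' : IsSg b S k') : k = k' :=
  b.ext' fun p => by rw [h p, h' p]

theorem IsSg.sq (h : IsSg b S k) : k * k = 1 :=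
  (h.mul h).eq fun p => by simp

end Sg

theorem IsSg.apply {b : Basis ι F V} {S : Finset ι} {k : V ≃ₗ[F] V} (h : IsSg b S k) (y : ι → F) :
    k (vc b y) = vc b (y - (2 : F) • rs S y) := by
  simp only [vc_apply, map_sum, map_smul, h _]
  refine sum_congr rfl fun p _ => ?_
  by_cases e : p ∈ S <;> simp [rs, e]
  module

namespace OF

variable {Φ : Form (RingHom.id F) V} {b : Basis ι F V} {c : F} (h : OF Φ b c)
include h

omit [Fintype ι] in
theorem isSg_pair {i j : ι} (hij : i ≠ j) : IsSg b {i, j} (rf h.kap (b i) * rf h.kap (b j)) := by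
  have key : ∀ i, IsSg b {i} (rf h.kap (b i)) := fun i p => by
    by_cases e : p = i
    · simp [e, refl_apply_self _ (show Φ.Q (b i) ≠ 0 by simp [h.Q, h.c0])]
    · simp [e, refl_apply_of_perp _ (h.orth _ _ (Ne.symm e))]
  convert (key i).mul (key j)
  ext p
  simp only [mem_insert, mem_singleton, mem_symmDiff]
  grind

theorem card_moved [DecidableEq V] {k : V ≃ₗ[F] V} (hk : k ∈ decL fun i => F ∙ b i) (k2 : k * k = 1)
    (hO : k ∈ Φ.O) {W : Submodule F V} (hW : ∀ v, v - k v ∈ W) :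
    #{j | k (b j) ≠ b j} ≤ 2 * finrank F W := by
  have := b.finiteDimensional_of_finite
  obtain ⟨s, hs⟩ := hk
  choose a ha using fun i => Submodule.mem_span_singleton.1
    ((hs i).le ⟨_, Submodule.mem_span_singleton_self _, rfl⟩)
  replace ha : ∀ i, k (b i) = a i • b (s i) := fun i => (ha i).symm
  have hB : ∀ i, Φ.B (b i) (b i) = 2 * c := fun i => by rw [B_self_quad h.kap, h.Q]
  have hc2 := mul_ne_zero h.two h.c0
  have s2 : ∀ i, s (s i) = i := fun i => by_contra fun e => by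
    have : k (k (b i)) = b i := by rw [← LinearEquiv.mul_apply, k2]; rfl
    have := congrArg (Φ.B (b i)) this
    simp [ha, h.orth _ _ (Ne.symm e), hB, hc2.symm] at this
  obtain ⟨T, hT, hT'⟩ := exists_half s2
  classical
  have e1 := card_le_of_dual (Φ := Φ) (κ := {j // j ∈ T ∧ k (b j) ≠ b j})
    (w := fun j => b j - k (b j)) (f := fun j => b j) (fun j => hW _) (fun i j hij => by
      have e2 : s i ≠ j := fun e => hij (Subtype.ext ((hT _ i.2.1 (e ▸ j.2.1)).symm.trans e))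
      simp [ha, h.orth _ _ e2, h.orth _ _ (Subtype.coe_ne_coe.2 hij)]) fun i => by
      by_cases e : s i = i
      · have : a i ≠ 1 := fun e' => i.2.2 (by simp [ha, e, e'])
        simp only [ha, e, map_sub, map_smul, LinearMap.sub_apply, LinearMap.smul_apply, hB]
        exact fun e' => mul_ne_zero (sub_ne_zero.2 this) hc2 (by simp at e'; linear_combination -e')
      · simp [ha, h.orth _ _ e, hB, hc2]
  rw [Fintype.card_subtype] at e1
  refine (card_le_card (t := ({j | j ∈ T ∧ k (b j) ≠ b j} : Finset ι) ∪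
    ({j | j ∈ T ∧ k (b j) ≠ b j} : Finset ι).image s) fun j hj => ?_).trans
    ((card_union_le _ _).trans (by have := card_image_le (s := {j | j ∈ T ∧ k (b j) ≠ b j}) (f := s)
                                   omega))
  simp only [mem_filter, mem_univ, true_and, mem_union, mem_image] at hj ⊢
  by_cases e : j ∈ T
  · exact Or.inl ⟨e, hj⟩
  refine Or.inr ⟨s j, ⟨(hT' j).resolve_left e, fun e' => ?_⟩, s2 j⟩
  have e2 : j ≠ s j := fun e2 => e (e2 ▸ (hT' j).resolve_left e)
  simpa [ha, s2, h.orth _ _ e2.symm, hB, hc2.symm] using congrArg (Φ.B (b (s j))) e'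

variable [Fintype F] (hp : (Fintype.card F).Prime) {H : Subgroup (V ≃ₗ[F] V)}

theorem pair_mem (hn : 5 ≤ Fintype.card ι) (i j : ι) :
    rf h.kap (b i) * rf h.kap (b j) ∈ (decL fun i => F ∙ b i) ⊓ Φ.E := by
  have := b.finiteDimensional_of_finite
  have key : ∀ i, rf h.kap (b i) ∈ decL fun i => F ∙ b i := fun i => mem_dec fun p => ⟨p, by
    by_cases e : p = i
    · simp [e, refl_apply_self _ (show Φ.Q (b i) ≠ 0 by simp [h.Q, h.c0])]
    · simp [refl_apply_of_perp _ (h.orth _ _ (Ne.symm e))]⟩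
  exact ⟨mul_mem (key i) (key j), refl_mul_refl_mem_E h.kap h.nd (by rwa [finrank_eq_card_basis b])
    (t := 1) (by simp [h.Q, h.c0]) (by simp [h.Q])⟩

theorem exists_perm (hn : 5 ≤ Fintype.card ι) {i j k l : ι} (hij : i ≠ j) (hkl : k ≠ l) :
    ∃ m ∈ (decL fun i => F ∙ b i) ⊓ Φ.E, (∀ y, m (vc b y) =
      vc b fun p => y (Equiv.swap i j (Equiv.swap k l p))) ∧
      ∀ p, m (b p) = b (Equiv.swap k l (Equiv.swap i j p)) := by
  refine ⟨_, h.roots_mem hn le_rfl hkl hij (one_mul 1) (one_mul 1) (one_mul 1) (one_mul 1),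
    fun y => by simp only [LinearEquiv.mul_apply, h.refl_swap hij, h.refl_swap hkl], fun p => ?_⟩
  rw [← vc_ev b p, ← vc_ev b (Equiv.swap k l _)]
  simp only [LinearEquiv.mul_apply, h.refl_swap hij, h.refl_swap hkl]
  refine congrArg (vc b) (funext fun q => ?_)
  simp [Pi.single_apply, Equiv.swap_apply_eq_iff]

include hp

theorem E_le_of_notMem (hn : 7 ≤ Fintype.card ι) {K : Subgroup (V ≃ₗ[F] V)} (hK : K ≤ Φ.O)
    (hr : ∀ i, (refl h.kap (b i)).1 ∈ K) (hM : (decL fun i => F ∙ b i) ⊓ Φ.E ≤ K)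
    {g : V ≃ₗ[F] V} (hg : g ∈ K) (hgM : g ∉ decL fun i => F ∙ b i) : Φ.E ≤ K := by
  have hc2 := mul_ne_zero h.two h.c0
  obtain ⟨i, hi⟩ : ∃ i, ∀ j, g (b i) ∉ F ∙ b j := by
    by_contra! hc
    exact hgM (mem_dec hc)
  obtain ⟨x, hx⟩ := (vc b).surjective (g (b i))
  have key : ∀ j, ∃ a, a ≠ j ∧ x a ≠ 0 := fun j => by
    by_contra! hc
    refine hi j ?_
    rw [← hx, vc_apply, sum_eq_single j (fun p _ e => by simp [hc p e]) (by simp)]
    exact Submodule.smul_mem _ _ (Submodule.mem_span_singleton_self _)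
  obtain ⟨a, -, ha⟩ := key i
  obtain ⟨a', haa, ha'⟩ := key a
  exact h.E_le hp (by omega) hK hr hM ((h.rx (by omega) hK hr hM).win' hp h.two hn
    ⟨g, hg, i, hx⟩ haa ha ha' (θ := fun y => (vc b).symm (g⁻¹ (vc b y))) (i := i) (by
      rintro y ⟨k, hk, j, e⟩
      exact ⟨g⁻¹ * k, mul_mem (K.inv_mem hg) hk, j, by simp [e]⟩)
    (fun y z => mul_left_cancel₀ hc2 (by simp [← h.B_vc, (hK (K.inv_mem hg)).1, -LinearEquiv.coe_inv]))
    (by simp [hx, LinearEquiv.symm_apply_eq, vc_ev]))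

variable (hM : (decL fun i => F ∙ b i) ⊓ Φ.E ≤ H) (hH : H ≤ Φ.E) (hne : ¬ Φ.E ≤ H)
  {g : V ≃ₗ[F] V}
include hM hH hne

theorem st (hn : 7 ≤ Fintype.card ι) (hg : g ∈ H) {i j : ι} (hij : g (b i) ∈ F ∙ b j) :
    g ∈ decL fun i => F ∙ b i := by
  have := b.finiteDimensional_of_finite
  have key : ∀ g ∈ H, ∀ j, g (b i) ∈ F ∙ b j → g ∈ KH H (rf_rf h.kap (b i)) ⊓ Φ.O :=
    fun g hg j hj => by
      obtain ⟨a, ha⟩ := Submodule.mem_span_singleton.1 hj
      have h0 : a ≠ 0 := by rintro rfl; exact b.ne_zero i (by simpa using ha.symm)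
      refine ⟨⟨Or.inl hg, ?_⟩, E_le_O (hH hg)⟩
      rw [conj_rf _ (E_le_O (hH hg)), ← ha, rf_smul _ h0]
      exact hM (h.pair_mem (by omega) _ _)
  by_contra hc
  have := h.E_le_of_notMem hp hn (K := KH H (rf_rf h.kap (b i)) ⊓ Φ.O) inf_le_right
    (fun l => ⟨⟨Or.inr (hM (h.pair_mem (by omega) _ _)), by
      rw [rf_inv, mul_assoc]
      exact mul_mem (hM (h.pair_mem (by omega) _ _)) (hM (h.pair_mem (by omega) _ _))⟩, rf_O _ _⟩)
    (fun m hm => let ⟨s, e⟩ := hm.1
      key m (hM hm) (s i) ((e i).le ⟨_, Submodule.mem_span_singleton_self _, rfl⟩))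
    (key g hg j hij) hc
  refine hne fun k hk => (this hk).1.1.elim id fun hk' => absurd (mem_SLv.1 (E_le_SLv h.nd
    ((Subgroup.mul_mem_cancel_left _ hk).1 (hH hk')))) ?_
  rw [det_refl _ (by simp [h.Q, h.c0])]
  exact fun e => h.two (by linear_combination -e)

theorem of_zero (hn : 9 ≤ Fintype.card ι) (hg : g ∈ H) {j : ι} {Z : Finset ι} (hZ : 4 ≤ #Z)
    (h0 : ∀ p ∈ Z, Φ.B (b p) (g (b j)) = 0) : g ∈ decL fun i => F ∙ b i := by
  have hc2 := mul_ne_zero h.two h.c0
  have hO := E_le_O (hH hg)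
  have step : ∀ j (Z : Finset ι), 4 ≤ #Z → (∀ p ∈ Z, Φ.B (b p) (g (b j)) = 0) →
      g ∈ (decL fun i => F ∙ b i) ∨
        ∃ S j, #S = 4 ∧ Z ⊆ S ∧ ∀ p ∉ S, Φ.B (b p) (g (b j)) = 0 := fun j Z hZ h0 => by
    obtain ⟨x, hx⟩ := (vc b).surjective (g (b j))
    replace h0 : ∀ p ∈ Z, x p = 0 := fun p hp => by simpa [← hx, h.B_b, h.two, h.c0] using h0 p hp
    have inv : ∀ k ∈ (decL fun i => F ∙ b i) ⊓ Φ.E, k (vc b x) = vc b x → ∀ y y', k (vc b y) =
        vc b y' → (∃ l, vc b y = g (b l) ∨ vc b y = -g (b l)) →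
        ∃ l, vc b y' = g (b l) ∨ vc b y' = -g (b l) := by
      rintro k hk e y y' e' ⟨l, hl⟩
      have e1 := H.mul_mem (H.mul_mem (H.inv_mem hg) (hM hk)) hg
      obtain ⟨s, hs⟩ := h.st hp hM hH hne (by omega) e1 (i := j) (j := j) (by
        rw [hx] at e; simp [e])
      obtain ⟨a, ha⟩ := Submodule.mem_span_singleton.1
        ((hs l).le ⟨_, Submodule.mem_span_singleton_self _, rfl⟩)
      have e2 : a ^ 2 = 1 := mul_right_cancel₀ h.c0 (by
        have := (E_le_O (hH e1)).2 (b l)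
        rw [← LinearEquiv.coe_coe, ← ha, Φ.Q_smul, h.Q, h.Q] at this
        simpa [sq] using this)
      have e3 : k (g (b l)) = a • g (b (s l)) := by rw [← map_smul, ha]; simp
      refine ⟨s l, ?_⟩
      rcases mul_self_eq_one_iff.1 (sq a ▸ e2) with rfl | rfl <;> rcases hl with hl | hl <;>
        simp [← e', hl, e3]
    obtain ⟨i, hi⟩ := card_pos.1 (show 0 < #Z by omega)
    obtain ⟨l, hl⟩ : ∃ l, Φ.B (b i) (g (b l)) ≠ 0 := by
      by_contra! hc
      have := LinearMap.congr_fun (b.ext (f₁ := Φ.B (b i) ∘ₗ g.toLinearMap) (f₂ := 0) hc) (g⁻¹ (b i))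
      simp [B_self_quad h.kap, h.Q, h.two, h.c0] at this
    obtain ⟨y, hy⟩ := (vc b).surjective (g (b l))
    rcases exists_supp h.two (Y := {y | ∃ l, vc b y = g (b l) ∨ vc b y = -g (b l)}) hZ
      (by
        rintro y ⟨l, e | e⟩ <;>
          exact mul_left_cancel₀ h.c0 (by simp [← h.Q_vc, e, hO.2, h.Q, Φ.Q_neg]))
      (by
        rintro y ⟨l, e⟩ y' ⟨l', e'⟩
        by_cases e1 : l = l'
        · subst e1
          simp only [← (vc b).injective.eq_iff, map_neg]
          rcases e with e | e <;> rcases e' with e' | e' <;> simp [e, e']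
        · refine Or.inl (mul_left_cancel₀ hc2 ?_)
          rcases e with e | e <;> rcases e' with e' | e' <;>
            simp [← h.B_vc, e, e', hO.1, h.orth _ _ e1])
      (fun i hi j hj hij y hy => inv _ (h.pair_mem (by omega) i j) (by
          rw [(h.isSg_pair hij).apply]
          congr 1
          ext p
          by_cases e : p = i ∨ p = j
          · rcases e with rfl | rfl <;> simp [rs, h0 _ hi, h0 _ hj]
          · simp [rs, e]) _ _ ((h.isSg_pair hij).apply y) hy)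
      (fun i hi l hl m hm hil hlm y hy => by
        obtain ⟨k, hk, e, -⟩ := h.exists_perm (by omega) hil hlm
        refine inv k hk ?_ _ _ (e y) hy
        rw [e]
        congr 1
        ext p
        simp only [Equiv.swap_apply_def]
        split_ifs <;> simp_all)
      (y := y) ⟨l, Or.inl hy⟩ hi (by simpa [← hy, h.B_b, h.two, h.c0] using hl) with
      ⟨p, e⟩ | ⟨S, e1, e2, e3⟩
    · refine Or.inl (h.st hp hM hH hne (by omega) hg (i := l) (j := p) ?_)
      rw [← hy, vc_apply, sum_eq_single p (fun q _ e' => by simp [e q e']) (by simp)]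
      exact Submodule.smul_mem _ _ (Submodule.mem_span_singleton_self _)
    · exact Or.inr ⟨S, l, e1, e2, fun p hp => by simp [← hy, h.B_b, e3 p hp]⟩
  refine (step j Z hZ h0).elim id fun ⟨S, j, e1, _, e3⟩ => ?_
  refine (step j Sᶜ (by rw [card_compl]; omega) fun p hp => e3 p (mem_compl.1 hp)).resolve_right ?_
  rintro ⟨S', -, e4, e5, -⟩
  have := card_le_card e5
  rw [card_compl] at this
  omega

theorem sg_fix (hn : 10 ≤ Fintype.card ι) (hg : g ∈ H) {S : Finset ι} {k : V ≃ₗ[F] V}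
    (hk : IsSg b S k) (hO : k ∈ Φ.O) (h0 : S.Nonempty) (h4 : #S ≤ 4)
    (h1 : g⁻¹ * k * g ∈ decL fun i => F ∙ b i) : g ∈ decL fun i => F ∙ b i := by
  classical
  have hg' := E_le_O (hH hg)
  have e1 := h.card_moved h1 (by simp [mul_assoc, ← mul_assoc k, hk.sq])
    (mul_mem (mul_mem (inv_mem hg') hO) hg')
    (W := Submodule.span F (S.image fun p => g⁻¹ (b p) : Finset V)) fun v => by
      obtain ⟨y, hy⟩ := (vc b).surjective (g v)
      have : v - (g⁻¹ * k * g) v = g⁻¹ (vc b ((2 : F) • rs S y)) := by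
        have e := hk.apply y
        rw [map_sub, hy] at e
        simp [e, -map_smul]
      rw [this, vc_apply, map_sum]
      refine Submodule.sum_mem _ fun p _ => ?_
      by_cases e : p ∈ S
      · rw [map_smul]
        exact Submodule.smul_mem _ _ (Submodule.subset_span (by simpa using ⟨p, e, rfl⟩))
      · simp [rs, e]
  have e2 := (finrank_span_finset_le_card (R := F) (S.image fun p => g⁻¹ (b p))).trans card_image_le
  have e3 : ∀ j, (g⁻¹ * k * g) (b j) = b j → ∀ p ∈ S, Φ.B (b p) (g (b j)) = 0 := fun j hj p hp => by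
    have := hO.1 (b p) (g (b j))
    rw [show k (g (b j)) = g (b j) by simpa [LinearEquiv.symm_apply_eq] using hj, hk, if_pos hp]
      at this
    exact mul_left_cancel₀ h.two (by simp at this; linear_combination -this)
  change finrank F _ ≤ _ at e2
  by_cases e : #S = 4
  · obtain ⟨j, -, hj⟩ := exists_mem_notMem_of_card_lt_card
      (s := {j | (g⁻¹ * k * g) (b j) ≠ b j}) (t := univ) (by rw [card_univ]; omega)
    exact h.of_zero hp hM hH hne (by omega) hg e.ge (e3 j (by_contra fun e => hj (mem_filter.2 ⟨mem_univ _, e⟩)))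
  · obtain ⟨p, hp'⟩ := h0
    refine (decL _).inv_mem_iff.1 (h.of_zero hp hM hH hne (by omega) (H.inv_mem hg) (j := p)
      (Z := ({j | (g⁻¹ * k * g) (b j) ≠ b j} : Finset ι)ᶜ) (by rw [card_compl]; omega) fun j hj => ?_)
    rw [← hg'.1, B_comm_quad h.kap]
    simpa using e3 j (by_contra fun e => mem_compl.1 hj (mem_filter.2 ⟨mem_univ _, e⟩)) p hp'

omit hM hH hne in
theorem isMaximalIn' (hZ : Zd.ZD.{u_2}) (hn : 10 ≤ Fintype.card ι) :
    IsMaximalIn Φ.E ((decL fun i => F ∙ b i) ⊓ Φ.E) := by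
  have := b.finiteDimensional_of_finite
  have hd := finrank_eq_card_basis b
  have hc2 := mul_ne_zero h.two h.c0
  refine isMaximalIn_of inf_le_right ?_ fun H hM hH g hg hgM => ?_
  · obtain ⟨j⟩ : Nonempty ι := Fintype.card_pos_iff.1 (by omega)
    obtain ⟨u, hu, hu0, hs⟩ := iso3_quad h.kap (Φ.perp (F ∙ b j)) (by
      rw [h.nd.finrank_perp, finrank_span_singleton (b.ne_zero j)]; omega)
    replace hu := Φ.mem_perp_span_singleton.1 hu
    have hu' := Φ.B_eq_zero_symm hu
    refine ⟨(sieg h.nd h.kap hs.2 hu').1, mem_E (H22.eichData_quad h.kap hs.2 hu') fun _ => rfl,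
      fun ⟨⟨s, e⟩, _⟩ => ?_⟩
    obtain ⟨a, ha⟩ := Submodule.mem_span_singleton.1
      ((e j).le ⟨_, Submodule.mem_span_singleton_self _, rfl⟩)
    simp only [LinearEquiv.coe_coe, sieg_apply, hu', B_self_quad h.kap, h.Q, mul_zero, sub_zero,
      zero_smul] at ha
    have e1 := congrArg (Φ.B (b j)) ha
    by_cases e2 : j = s j
    · rw [← e2] at ha e1
      simp [B_self_quad h.kap, h.Q, hu, hc2] at e1
      simp [e1, hc2, hu0] at ha
    · simp [B_self_quad h.kap, h.Q, hu, h.orth _ _ e2, h.two, h.c0] at e1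
  by_contra hne
  have : Finite V := Module.finite_of_finite F
  have : Finite (V ≃ₗ[F] V) := Finite.of_injective _ DFunLike.coe_injective
  obtain ⟨S, -, h4⟩ := exists_subset_card_eq (s := (univ : Finset ι)) (n := 4)
    (by rw [card_univ]; omega)
  obtain ⟨i, j, k, l, hij, hik, hil, hjk, hjl, hkl, rfl⟩ := card_eq_four.1 h4
  have hd := h.isSg_pair hij
  have hdM := h.pair_mem (by omega) i j
  set d := rf h.kap (b i) * rf h.kap (b j)
  have fix : ∀ {S k}, IsSg b S k → k ∈ (decL fun i => F ∙ b i) ⊓ Φ.E → S.Nonempty → #S ≤ 4 →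
      ∀ g ∈ H, g⁻¹ * k * g ∈ (decL fun i => F ∙ b i) ⊓ Φ.E → g ∈ (decL fun i => F ∙ b i) ⊓ Φ.E :=
    fun e1 e2 e3 e4 g hg e => ⟨h.sg_fix hp hM hH hne hn hg e1 (E_le_O e2.2) e3 e4 e.1, hH hg⟩
  have cj : ∀ m ∈ (decL fun i => F ∙ b i) ⊓ Φ.E, ∃ S, #S ≤ 2 ∧ IsSg b S (m * d * m⁻¹) :=
    fun m ⟨⟨s, e⟩, _⟩ => ⟨_, (card_map _).le.trans card_le_two,
      hd.conj fun p => (e p).le ⟨_, Submodule.mem_span_singleton_self _, rfl⟩⟩
  have cm : ∀ {x}, x ∈ (decL fun i => F ∙ b i) ⊓ Φ.E → ∀ m ∈ (decL fun i => F ∙ b i) ⊓ Φ.E,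
      m * x * m⁻¹ ∈ (decL fun i => F ∙ b i) ⊓ Φ.E := fun hx m hm =>
    mul_mem (mul_mem hm hx) (inv_mem hm)
  have cs : ∀ S S' : Finset ι, #(symmDiff S S') ≤ #S + #S' := fun S S' =>
    (card_le_card symmDiff_le_sup).trans (card_union_le _ _)
  obtain ⟨m₀, hm₀, -, e₀⟩ := h.exists_perm (by omega) hik hjl
  have e₁ : IsSg b {k, l} (m₀ * d * m₀⁻¹) := by
    convert hd.conj (s := (Equiv.swap i k).trans (Equiv.swap j l)) (m := m₀)
      fun p => by simp [e₀]
    simp [Equiv.swap_apply_def, hjk.symm, hkl, hij.symm, hjk]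
  refine hgM (Zd.le_of hZ hM hdM hd.sq (fix hd hdM (by simp) (card_le_two.trans (by omega)))
    (fun m hm e _ => ?_) hm₀
    (fun e => ?_) (by rw [sq, (hd.mul e₁).sq]) (fun m hm e => ?_) hg)
  · obtain ⟨S, e1, e2⟩ := cj m hm
    exact fix (hd.mul e2) (mul_mem hdM (cm hdM m hm)) (symmDiff_nonempty.2 fun e' =>
      e (e2.eq (e' ▸ hd))) ((cs _ _).trans (by have := card_le_two (a := i) (b := j); omega))
  · have := (e ▸ e₁) i
    rw [hd, if_pos (by simp), if_neg (by simp [hik, hil]), neg_eq_iff_add_eq_zero, ← two_smul F]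
      at this
    simp [h.two, b.ne_zero] at this
  obtain ⟨S, e1, e2⟩ := cj m hm
  have e3 := (hd.mul e₁).mul e2
  have e4 := mul_mem (mul_mem hdM (cm hdM m₀ hm₀)) (cm hdM m hm)
  have e5 : symmDiff {i, j} {k, l} = ({i, j, k, l} : Finset ι) := by
    ext p
    simp only [mem_insert, mem_singleton, mem_symmDiff]
    grind
  rw [e5] at e3
  obtain ⟨a, ha⟩ : (symmDiff {i, j, k, l} S).Nonempty :=
    symmDiff_nonempty.2 fun e => by rw [e] at h4; omega
  obtain ⟨a', a'', e6, e7, e8⟩ := one_lt_card_iff.1 (show 1 < #(symmDiff {i, j, k, l} S)ᶜ by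
    have := cs {i, j, k, l} S
    rw [card_compl]; omega)
  generalize symmDiff {i, j, k, l} S = T at *
  generalize d * (m₀ * d * m₀⁻¹) * (m * d * m⁻¹) = n at *
  rw [mem_compl] at e6 e7
  have e9 : a ≠ a' := by rintro rfl; exact e6 ha
  have e10 : a ≠ a'' := by rintro rfl; exact e7 ha
  obtain ⟨m₁, hm₁, -, e₂⟩ := h.exists_perm (by omega) e9 e8
  have e₃ := e3.mul (e3.conj (s := (Equiv.swap a a').trans (Equiv.swap a' a'')) (m := m₁)
    fun p => by simp [e₂])
  refine fun g hg => fix e₃ (mul_mem e4 (cm e4 _ hm₁)) ⟨a, ?_⟩ ((card_le_card (t := {a, a', a''})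
    fun p hp => by_contra fun e => ?_).trans (card_le_three.trans (by omega))) g hg ?_
  · rw [mem_symmDiff, mem_map_equiv]
    simp [ha, Equiv.swap_apply_def, e9, e10, e6]
  · simp only [mem_insert, mem_singleton, not_or] at e
    rw [mem_symmDiff, mem_map_equiv] at hp
    simp [Equiv.swap_apply_def, e] at hp
  · simpa [mul_assoc] using mul_mem (e g hg) (e _ (mul_mem (inv_mem (hM hm₁)) hg))

end OF

theorem isMaximalIn_frame' [Fintype F] (hZ : Zd.ZD.{u_1}) (hp : (Fintype.card F).Prime)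
    (h2 : (2 : F) ≠ 0) {Q : QuadraticForm F (ι → F)} (hQ : (ofQuad Q).Nondeg)
    (hn : 10 ≤ Fintype.card ι) {t : ℕ} {D : Fin t → Submodule F (ι → F)}
    (hD : IsOrthogonalMDecomposition Q 1 D) :
    IsMaximalIn (omegaGL Q) (decompositionStabilizer D ⊓ omegaGL Q) := by
  have h1 := hD.decomp.decomp
  let i₀ : Fin t := ⟨0, by have := h1.two_le; omega⟩
  obtain ⟨v, hv, hv0⟩ := (Submodule.ne_bot_iff (D i₀)).1 fun e => by
    have := h1.finrank_eq i₀; rw [e] at this; simp at this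
  choose e he using hD.isometric i₀
  have h0 : ∀ i, (e i ⟨v, hv⟩ : ι → F) ≠ 0 := fun i => by simpa using hv0
  have h3 : ∀ i, D i = F ∙ (e i ⟨v, hv⟩ : ι → F) := fun i =>
    (Submodule.eq_of_le_of_finrank_eq ((Submodule.span_singleton_le_iff_mem _ _).2 (e i _).2)
      (by rw [finrank_span_singleton (h0 i), h1.finrank_eq])).symm
  let b : Basis (Fin t) F (ι → F) := Basis.mk (h1.indep.linearIndependent D (fun i => (e i _).2) h0)
    (by rw [Submodule.span_range_eq_iSup, ← h1.iSup_eq_top]; exact iSup_mono fun i => (h3 i).le)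
  have hb : ∀ i, b i = e i ⟨v, hv⟩ := Basis.mk_apply _ _
  have ht : Fintype.card (Fin t) = Fintype.card ι := by simp [← finrank_eq_card_basis b]
  have hc : Q v ≠ 0 := fun e => hv0 (Submodule.disjoint_def.1
    (disjoint_perp_quad (hD.decomp.nondegenerate i₀)) v hv (by
      rw [show D i₀ = F ∙ v from (Submodule.eq_of_le_of_finrank_eq
        ((Submodule.span_singleton_le_iff_mem _ _).2 hv)
        (by rw [finrank_span_singleton hv0, h1.finrank_eq])).symm, mem_perp_span_singleton,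
        B_self_quad rfl]
      exact mul_eq_zero_of_right _ e))
  have := OF.isMaximalIn' (Φ := ofQuad Q) (b := b) (c := Q v) ⟨hQ, rfl, h2, hc, fun i j hij =>
    hD.decomp.orthogonal i j hij _ (hb i ▸ (e i _).2) _ (hb j ▸ (e j _).2),
    fun i => hb i ▸ he i _⟩ hp hZ (ht ▸ hn)
  refine isMaximalIn_dec_of_E (fun _ => mem_omegaGL_iff_E hQ (by omega)) ?_
  simpa only [hb, ← h3] using this

end H23.Fr
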