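import Cfsg.Agent.H23.Gu1

/-! Maximality of the unitary group in the symplectic group. -/

set_option autoImplicit false

namespace H23

open Module H22 Cfsg Cfsg.Geo Form Tn

variable {F E V : Type*} [Field F] [Field E] [Algebra F E] [Finite E] [AddCommGroup V] [Module F V]
  [Module E V] [IsScalarTower F E V] {τ : E →+* E}

omit [Algebra F E] [Finite E] [IsScalarTower F E V] in
theorem scalar_of_sing [FiniteDimensional E V] {Ψ : Form τ V} (hΨ : Ψ.Nondeg) (h3 : Ψ.Iso3)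
    (hV : 7 ≤ finrank E V) (θ : V →ₗ[F] V) (h1 : ∀ w, Sing Ψ w → θ w ∈ E ∙ w) :
    ∃ a : E, ∀ v, θ v = a • v := by
  have h2 : ∀ w z (a : E), Sing Ψ w → Sing Ψ z → Ψ.B w z = 0 → z ∉ E ∙ w → w ≠ 0 →
      (θ w = a • w ↔ θ z = a • z) := fun w z a hw hz hwz h2 h0 => by
    obtain ⟨b, hb⟩ := Submodule.mem_span_singleton.1 (h1 w hw)
    obtain ⟨c, hc⟩ := Submodule.mem_span_singleton.1 (h1 z hz)
    obtain ⟨d, hd⟩ := Submodule.mem_span_singleton.1 (h1 (w + z)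
      ⟨by simp [hw.1, hz.1, hwz, Ψ.B_eq_zero_symm hwz], by simp [Ψ.Q_add, hw.2, hz.2, hwz]⟩)
    have a4 : LinearIndependent E ![w, z] := (LinearIndependent.pair_iff' h0).2 fun a e =>
      h2 (e ▸ Submodule.smul_mem _ a (Submodule.mem_span_singleton_self w))
    obtain ⟨e1, e2⟩ := LinearIndependent.pair_iff.1 a4 (d - b) (d - c) (by
      rw [map_add, ← hb, ← hc] at hd; linear_combination (norm := module) hd)
    rw [← hb, ← hc, (smul_left_injective E h0).eq_iff, (smul_left_injective E (by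
      rintro rfl; simp at h2)).eq_iff, show b = c by linear_combination e2 - e1]
  obtain ⟨u, -, hu0, hu⟩ := h3 ⊤ (by simp; omega)
  obtain ⟨a, ha⟩ := Submodule.mem_span_singleton.1 (h1 u hu)
  obtain ⟨f, hf⟩ := exists_hyp hΨ hu hu0
  refine ⟨a, hf.sing_induction (fun w hw => ?_) fun x y hx hy => by simp [hx, hy]⟩
  by_cases h0 : w = 0
  · simp [h0]
  have := finrank_span_pair_le (F := E) u w
  obtain ⟨z, -, hz, a1, a2⟩ := h3.exists_perp hΨ (T := ⊤) (S := Submodule.span E {u, w})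
    [u, w] (by simp; omega)
  exact (h2 w z a hw hz (a2 w (by simp)) (fun e => a1 (Submodule.span_mono (by simp) e)) h0).2
    ((h2 u z a hu hz (a2 u (by simp)) (fun e => a1 (Submodule.span_mono (by simp) e)) hu0).1 ha.symm)

omit [Finite E] in
theorem exists_skew_ne (hτ : τ ≠ RingHom.id E) (hi : ∀ x, τ (τ x) = x) :
    ∃ d : E, d ≠ 0 ∧ τ d = -d := by
  obtain ⟨y, hy⟩ : ∃ y, τ y - y ≠ 0 := by
    by_contra! h3; exact hτ (RingHom.ext fun y => sub_eq_zero.1 (h3 y))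
  exact ⟨_, hy, by simp [hi]⟩

theorem iso3_skew [FiniteDimensional E V] {Ψ : Form τ V} (hτ : τ ≠ RingHom.id E)
    (hε : Ψ.ε = -1) : Ψ.Iso3 := fun T hT => by
  obtain ⟨d, h0, hd⟩ := exists_skew_ne hτ Ψ.invol
  have hκ := Ψ.κ_of_ne_id hτ
  obtain ⟨u, h1, h2, h3⟩ := iso3_herm (Φ := ⟨1, 0, d • Ψ.B, fun _ => 0, Ψ.invol, by simp,
    fun x y => by simp [Ψ.symm x y, hε, hd], by simp, by simp, by simp, by simp, fun v => by
      obtain ⟨s, hs, -⟩ := Ψ.trace v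
      exact ⟨d * s, by simp [hs, hε, hd]; ring, by simp⟩⟩) hτ rfl T hT
  exact ⟨u, h1, h2, by simpa [h0] using h3.1, Q_of_κ hκ u⟩

/-- A skew-hermitian form over a quadratic extension inducing an alternating form. -/
structure Gs (Φ : Form (RingHom.id F) V) (Ψ : Form τ V) : Prop extends Lift Φ Ψ where
  ε : Φ.ε = -1
  kap : Φ.κ = 0
  ne : τ ≠ RingHom.id E
  two : finrank F E = 2
  odd : (2 : E) ≠ 0
  dim : 7 ≤ finrank E V

variable (Ψ : Form τ V) in
/-- The central elements of the stabiliser of an isotropic line. -/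
def ZIn (H : Subgroup (V ≃ₗ[F] V)) (u : V) (c b : E) : Prop :=
  ∃ z ∈ H, ∀ x, z x = x + (c * Ψ.B u x + b * τ (Ψ.B u x)) • u

namespace Gs

variable {Φ : Form (RingHom.id F) V} {Ψ : Form τ V} (h : Gs Φ Ψ) {H : Subgroup (V ≃ₗ[F] V)}
  {u v w x e : V} {b c : E}
include h

omit [Finite E] [IsScalarTower F E V] in
theorem ε' : Ψ.ε = -1 := by simp [h.eps, h.ε]

theorem trB (u v : V) : algebraMap F E (Φ.B u v) = Ψ.B u v + τ (Ψ.B u v) := by
  rw [h.B_eq, (quad_ext h.two h.ne h.alg _).1]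

omit [Finite E] [IsScalarTower F E V] in
theorem fd : FiniteDimensional E V := Module.finite_of_finrank_pos (by have := h.dim; omega)

omit [IsScalarTower F E V] in
theorem iso3 : Ψ.Iso3 := have := h.fd; iso3_skew h.ne h.ε'

omit [Finite E] in
theorem fdF : FiniteDimensional F V :=
  have := h.fd
  have : FiniteDimensional F E := Module.finite_of_finrank_pos (by rw [h.two]; omega)
  Module.Finite.trans E V

omit [Finite E] in
theorem mem_O {k : V ≃ₗ[E] V} (hk : k ∈ Ψ.O) : k.restrictScalars F ∈ Φ.O :=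
  ⟨fun x y => by simp [h.B_eq, hk.1], fun x => by simp [Q_of_κ h.kap]⟩

theorem decomp {d : E} (h0 : d ≠ 0) (hd : τ d = -d) (k : E) :
    ∃ a b : F, k = algebraMap F E a + algebraMap F E b * d := by
  have h2 := h.odd
  obtain ⟨a, ha⟩ := (quad_ext h.two h.ne h.alg ((k + τ k) / 2)).2 (by
    simp [h.invol, add_comm, map_ofNat])
  obtain ⟨b, hb⟩ := (quad_ext h.two h.ne h.alg ((k - τ k) / 2 / d)).2 (by
    simp only [map_div₀, map_sub, h.invol, map_ofNat, hd]; field_simp; ring)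
  exact ⟨a, b, by rw [ha, hb]; field_simp; ring⟩

theorem lin (φ : E →ₗ[F] E) : ∃ a b : E, ∀ k, φ k = a * k + b * τ k := by
  have h2 := h.odd
  obtain ⟨d, h0, hd⟩ := exists_skew_ne h.ne h.invol
  refine ⟨(φ 1 + φ d / d) / 2, (φ 1 - φ d / d) / 2, fun k => ?_⟩
  obtain ⟨a, b, rfl⟩ := h.decomp h0 hd k
  rw [map_add, map_add, map_mul τ, h.alg, h.alg, hd, ← Algebra.smul_def, map_smul,
    Algebra.algebraMap_eq_smul_one, map_smul]
  simp only [Algebra.smul_def, RingHom.id_apply]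
  field_simp; ring

theorem B_fix {k : V ≃ₗ[F] V} (hk : k ∈ Φ.O) (h1 : ∀ a : E, k (a • u) = a • u) (x : V) :
    Ψ.B u (k x) = Ψ.B u x := tr_ext (F := F) fun c => by
  rw [h.tr, h.tr, ← h.invol c, ← h.adj, ← h.adj, ← hk.1 _ x, h1]

omit [Finite E] [IsScalarTower F E V] [Algebra F E] h in
theorem z_add {b' c' : E} (hu : Sing Ψ u) (h1 : ZIn Ψ H u c b) (h2 : ZIn Ψ H u c' b') :
    ZIn Ψ H u (c + c') (b + b') := by
  obtain ⟨z, a1, a2⟩ := h1
  obtain ⟨z', a3, a4⟩ := h2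
  refine ⟨z * z', mul_mem a1 a3, fun x => ?_⟩
  simp only [LinearEquiv.mul_apply, a4, a2 (_ + _), map_add (Ψ.B u), B_smul_right, hu.1, mul_zero,
    add_zero]
  module

omit [Finite E] [IsScalarTower F E V] [Algebra F E] h in
theorem z_neg (hu : Sing Ψ u) (h1 : ZIn Ψ H u c b) : ZIn Ψ H u (-c) (-b) := by
  obtain ⟨z, a1, a2⟩ := h1
  refine ⟨z⁻¹, inv_mem a1, fun x => z.injective ?_⟩
  simp only [a2 (_ + _), map_add (Ψ.B u), B_smul_right, hu.1, mul_zero, add_zero]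
  simp only [LinearEquiv.coe_inv, LinearEquiv.apply_symm_apply]
  module

variable (hM : ∀ k ∈ Ψ.O, k.restrictScalars F ∈ H)
include hM

omit [Finite E] in
theorem z_rat (hu : Sing Ψ u) (hc : τ c = c) : ZIn Ψ H u c 0 := by
  have := h.fd
  have h1 : EichData Ψ u 0 (-c) := ⟨hu, by simp, by simp [h.ε', hc], by simp [κ_of_ne_id h.ne]⟩
  obtain ⟨g, hg⟩ := exists_eich h.nondeg h1
  exact ⟨_, hM g (mem_O_of_eich h1 hg), fun v => by simp [hg, eichler_apply, hc]⟩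

omit [Finite E] h in
theorem z_conj {k : V ≃ₗ[E] V} (hk : k ∈ Ψ.O) (h1 : ZIn Ψ H u c b) : ZIn Ψ H (k u) c b := by
  obtain ⟨z, a1, a2⟩ := h1
  exact ⟨_, mul_mem (mul_mem (hM k hk) a1) (inv_mem (hM k hk)), fun x => by
    simp [a2, B_O_left hk]⟩

theorem O_le (hH : H ≤ Φ.O) (hu : Sing Ψ u) (hu0 : u ≠ 0) (hc : τ c = c) (hb : b ≠ 0)
    (h1 : ZIn Ψ H u c b) : Φ.O ≤ H := by
  have := h.fd
  have := h.fdF
  have h2 := h.odd
  have a1 : ZIn Ψ H u 0 b := by simpa using z_add hu h1 (h.z_rat hM hu (c := -c) (by simp [hc]))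
  have a2 : ∀ k : E, ZIn Ψ H u 0 (b * k ^ 2) := fun k => by
    by_cases h0 : k = 0
    · simpa [h0] using h.z_rat hM hu (c := 0) (by simp)
    obtain ⟨m, hm, h3⟩ := exists_map_E h.nondeg h.iso3 h.dim hu (hu.smul k) hu0 (smul_ne_zero h0 hu0)
    obtain ⟨z, a3, a4⟩ := z_conj hM (E_le_O hm) a1
    refine ⟨z, a3, fun x => ?_⟩
    simp only [a4, h3, B_smul_left, map_mul, h.invol]
    module
  have a3 : ∀ w, Sing Ψ w → Φ.TR H w := fun w hw c => by
    by_cases h0 : w = 0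
    · exact h0 ▸ tr_zero c
    obtain ⟨m, hm, rfl⟩ := exists_map_E h.nondeg h.iso3 h.dim hu hw hu0 h0
    obtain ⟨z, a3, a4⟩ := z_conj hM (E_le_O hm) (z_add hu (h.z_rat hM hu (h.alg c)) (z_add hu
      (a2 ((algebraMap F E c / b + 1) / 2)) (z_neg hu (a2 ((algebraMap F E c / b - 1) / 2)))))
    refine ⟨z, a3, fun x => ?_⟩
    rw [a4, ← algebraMap_smul E (c * _), map_mul, h.trB]
    congr 2
    field_simp; ring
  refine O_le_of_tr h.nd h.ε h.kap fun v => ?_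
  by_cases h0 : Ψ.B v v = 0
  · exact a3 v ⟨h0, Q_of_κ (κ_of_ne_id h.ne) _⟩
  obtain ⟨f, hf⟩ := exists_hyp h.nondeg hu hu0
  obtain ⟨w, hw, a4⟩ : ∃ w, Sing Ψ w ∧ Ψ.B w v ≠ 0 := by
    by_contra! h3
    exact h0 (hf.sing_induction (P := fun x => Ψ.B x v = 0) h3 (fun x y hx hy => by simp [hx, hy]) v)
  have a5 := Ψ.symm v v
  rw [h.ε'] at a5
  have a6 : Ψ.B (τ ((Ψ.B v v / 2 + 1) / Ψ.B w v) • w) v = Ψ.B v v / 2 + 1 := by
    simp [B_smul_left, h.invol, a4]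
  have a7 := hw.smul (τ ((Ψ.B v v / 2 + 1) / Ψ.B w v))
  generalize τ ((Ψ.B v v / 2 + 1) / Ψ.B w v) • w = w' at a6 a7
  simpa using (a3 _ a7).line hH (a3 (v - w') ⟨by
    simp only [map_sub, LinearMap.sub_apply, Ψ.symm w' v, a6, a7.1, h.ε', map_add, map_div₀,
      map_ofNat, map_one]
    linear_combination 2⁻¹ * a5 - Ψ.B v v * (mul_inv_cancel₀ h2),
    Q_of_κ (κ_of_ne_id h.ne) _⟩) (fun e => h2 (by
      have := h.trB w' (v - w')
      simp only [e, map_sub, a6, a7.1, map_add, map_div₀, map_ofNat, map_one, map_zero] at this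
      linear_combination -this - 2⁻¹ * a5)) 1

theorem lin_of_fix (hH : H ≤ Φ.O) (hN : ¬ Φ.O ≤ H) (hu : Sing Ψ u) (hu0 : u ≠ 0)
    {k : V ≃ₗ[F] V} (hk : k ∈ H) (h1 : ∀ a : E, k (a • u) = a • u) (hx : Ψ.B u x = 0) (c : E) :
    k (c • x) - c • k x ∈ E ∙ u := by
  have := h.fd
  rw [← h.nondeg.perp_perp (E ∙ u)]
  intro e he
  rw [mem_perp_span_singleton] at he
  obtain ⟨s, hs⟩ := exists_eichData hu he
  obtain ⟨s', hs'⟩ := exists_eichData hu hx
  obtain ⟨T, hT⟩ := exists_eich h.nondeg hs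
  obtain ⟨T', hT'⟩ := exists_eich h.nondeg hs'
  have a1 := hM T (mem_O_of_eich hs hT)
  have a2 := hM T' (mem_O_of_eich hs' hT')
  have a3 : ∀ a : E, k.symm (a • u) = a • u := fun a => k.symm_apply_eq.2 (h1 a).symm
  set r := k⁻¹ * T.restrictScalars F * k
  have a4 : r ∈ H := mul_mem (mul_mem (inv_mem hk) a1) hk
  have a5 : ∀ y, Ψ.B u y = 0 → r y = y + Ψ.B e (k y) • u := fun y hy => by
    simp [r, hT, eichler_apply, h.B_fix (hH hk) h1, hy, a3]
  have a6 : ∀ a : E, r (a • u) = a • u := fun a => by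
    simp [a5, hu.1, h1, Ψ.B_eq_zero_symm he]
  obtain ⟨a, b, a7⟩ := h.lin ((Ψ.B e).restrictScalars F ∘ₗ k.toLinearMap ∘ₗ
    (LinearMap.toSpanSingleton E V x).restrictScalars F)
  replace a7 : ∀ y : E, Ψ.B e (k (y • x)) = a * y + b * τ y := a7
  have a8 : ∀ v, Ψ.B x (r⁻¹ v) = Ψ.B x v + τ a * Ψ.B u v + b * τ (Ψ.B u v) := fun v =>
    tr_ext (F := F) fun y => by
      rw [h.tr, ← h.invol y, ← h.adj, ← B_O_left (hH a4), a5 _ (by simp [hx]), a7, map_add,
        LinearMap.add_apply, h.adj, h.B_eq, h.B_eq (_ • u)]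
      have := tr_map (F := F) (fun _ => rfl) h.alg (τ b * τ y * Ψ.B u v)
      simp only [h.invol, B_smul_left, B_smul_right, map_add, map_mul, add_mul,
        RingHom.id_apply] at this ⊢
      rw [show b * τ (Ψ.B u v) * y = b * y * τ (Ψ.B u v) by ring, this, add_assoc,
        mul_comm y, mul_right_comm (τ a)]
  by_cases hb : b = 0
  · have := a7 1
    rw [one_smul] at this
    simp [a7, hb, mul_comm, this]
  refine (hN (h.O_le hM hH hu hu0 (c := a + τ a) (b := 2 * b) (by simp [h.invol, add_comm])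
    (mul_ne_zero h.odd hb) ⟨_, mul_mem (mul_mem (mul_mem a4 a2) (inv_mem a4)) (inv_mem a2),
      fun v => ?_⟩)).elim
  obtain ⟨v, rfl⟩ := T'.surjective v
  have a9 := h.B_fix (hH (inv_mem a4)) (fun a => r.symm_apply_eq.2 (a6 a).symm) v
  have b1 : (T'.restrictScalars F)⁻¹ (T' v) = v := T'.symm_apply_apply v
  simp only [LinearEquiv.mul_apply, b1, LinearEquiv.restrictScalars_apply]
  simp only [hT', eichler_apply, map_add, a6, a9, a8, h.ε', B_smul_right, hu.1, hx, map_neg,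
    map_one, neg_mul, one_mul, neg_neg, a5 (Ψ.B u v • x) (by simp [hx]), a7, mul_zero, add_zero]
  simp only [LinearEquiv.coe_inv, LinearEquiv.apply_symm_apply]
  module

theorem line (hH : H ≤ Φ.O) (hN : ¬ Φ.O ≤ H) {g : V ≃ₗ[F] V} (hg : g ∈ H) (hw : Sing Ψ w)
    (y : E) : g (y • g⁻¹ w) ∈ E ∙ w := by
  by_cases hw0 : w = 0
  · simp [hw0]
  have := h.fd
  have := h.dim
  obtain ⟨d, d0, hd⟩ := exists_skew_ne h.ne h.invol
  have := finrank_span_pair_le (F := E) (g⁻¹ w) (g⁻¹ (d • w))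
  obtain ⟨u, -, hu, a1, a2⟩ := h.iso3.exists_perp h.nondeg (T := ⊤)
    (S := Submodule.span E {g⁻¹ w, g⁻¹ (d • w)}) [g⁻¹ w, g⁻¹ (d • w)] (by
      simp only [finrank_top, List.length]; omega)
  have a3 : ∀ c : E, ∃ a b : E, g⁻¹ (c • w) = a • g⁻¹ w + b • g⁻¹ (d • w) := fun c => by
    obtain ⟨a, b, rfl⟩ := h.decomp d0 hd c
    exact ⟨algebraMap F E a, algebraMap F E b, by simp [add_smul, mul_smul]⟩
  have a4 : ∀ c : E, g⁻¹ (c • w) ∈ Submodule.span E {g⁻¹ w, g⁻¹ (d • w)} := fun c =>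
    let ⟨a, b, e⟩ := a3 c; Submodule.mem_span_pair.2 ⟨a, b, e.symm⟩
  have a5 : ∀ a : E, Ψ.B w (g (a • u)) = 0 := fun a => h.B_eq_zero.2 fun c => by
    obtain ⟨p, q, e⟩ := a3 (τ c)
    rw [← h.invol c, ← h.adj, ← (hH (inv_mem hg)).1, e, h.B_eq]
    simp [B_smul_left, a2]
  obtain ⟨t, ht, a6⟩ := h.z_rat hM hw (c := 1) (by simp)
  have a7 : ∀ x, (g⁻¹ * t * g) x = x + g⁻¹ (Ψ.B w (g x) • w) := by simp [a6]
  have hu0 : u ≠ 0 := by rintro rfl; simp at a1
  obtain ⟨x, b1, b2⟩ := h.nondeg.exists_perp_eq_one (W := E ∙ u) (x := g⁻¹ w) fun e => by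
    obtain ⟨c, hc⟩ := Submodule.mem_span_singleton.1 e
    refine a1 ((Submodule.smul_mem_iff _ (s := c) (by rintro rfl; exact hw0 (by simpa using hc.symm))).1
      (hc ▸ Submodule.subset_span (by simp)))
  have b3 := Ψ.B_eq_zero_symm (b1 u (Submodule.mem_span_singleton_self u))
  have b4 : ∀ c : E, g⁻¹ (Ψ.B w (g (c • x)) • w) = c • g⁻¹ (Ψ.B w (g x) • w) := fun c => by
    obtain ⟨a, ha⟩ := Submodule.mem_span_singleton.1 (h.lin_of_fix hM hH hN hu hu0
      (mul_mem (mul_mem (inv_mem hg) ht) hg) (by simp [a7, a5]) b3 c)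
    rw [a7, a7, smul_add, add_sub_add_left_eq_sub] at ha
    by_cases h0 : a = 0
    · exact sub_eq_zero.1 (by rw [← ha, h0, zero_smul])
    exact (a1 ((Submodule.smul_mem_iff _ h0).1 (ha ▸ Submodule.sub_mem _ (a4 _)
      (Submodule.smul_mem _ _ (a4 _))))).elim
  have b5 : Ψ.B w (g x) ≠ 0 := fun e => h.odd (by
    have := h.trB x (g⁻¹ w)
    rw [← (hH hg).1, h.B_eq, b2] at this
    simpa [Ψ.B_eq_zero_symm e, one_add_one_eq_two, eq_comm] using this)
  obtain ⟨c, hc⟩ := Finite.injective_iff_surjective.1 ((injective_iff_map_eq_zero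
    ((Ψ.B w).restrictScalars F ∘ₗ g.toLinearMap ∘ₗ
      (LinearMap.toSpanSingleton E V x).restrictScalars F)).2 fun c hc => by
        have := b4 c
        rw [show Ψ.B w (g (c • x)) = 0 from hc] at this
        simpa [b5, hw0] using this.symm) 1
  have b6 := b4 c
  rw [show Ψ.B w (g (c • x)) = 1 from hc, one_smul] at b6
  rw [b6, smul_smul, ← b4]
  simp [Submodule.mem_span_singleton]

omit hM in
theorem isMaximalIn : IsMaximalIn Φ.O (Tg F (ls E V) ⊓ Φ.O) := by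
  have := h.fd
  have := h.fdF
  have := h.nt
  have := h.dim
  have : FiniteDimensional F E := Module.finite_of_finrank_pos (by rw [h.two]; omega)
  refine isMaximalIn_of inf_le_right ?_ fun H h1 h2 g hg hg' => ?_
  · obtain ⟨u, -, hu0, hu⟩ := h.iso3 ⊤ (by simp; omega)
    obtain ⟨f, hf⟩ := exists_hyp h.nondeg hu hu0
    obtain ⟨d, d0, hd⟩ := exists_skew_ne h.ne h.invol
    obtain ⟨t, ht, a1⟩ := exists_tv_alt h.nd h.ε h.kap u 1
    refine ⟨t, ht, fun h1 => ?_⟩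
    obtain ⟨α, hα⟩ := exists_semi (semi_of_Tg h1.1)
    have a2 := h.B_semi ht.1 hα ((1 + d) • f) ((1 + d) • f)
    rw [a1, ← algebraMap_smul E (1 * _ : F), one_mul, h.trB] at a2
    simp only [map_add, LinearMap.add_apply, B_smul_left, B_smul_right, hf.one, hf.B_symm, hu.1,
      hf.right.1, h.ε', hd, map_one, mul_one, map_neg, map_zero, mul_zero] at a2
    exact mul_ne_zero (mul_ne_zero h.odd h.odd) d0 (by linear_combination a2)
  have hM : ∀ k ∈ Ψ.O, k.restrictScalars F ∈ H := fun k hk =>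
    h1 ⟨mem_Tg_of_semi fun y => ⟨y, k.map_smul y⟩, h.mem_O hk⟩
  by_contra h3
  refine hg' ⟨mem_Tg_of_semi fun y => ?_, h2 hg⟩
  obtain ⟨a, ha⟩ := scalar_of_sing h.nondeg h.iso3 h.dim (g.toLinearMap ∘ₗ
    (LinearMap.lsmul E V y).restrictScalars F ∘ₗ g.symm.toLinearMap) fun w hw =>
      h.line hM h2 h3 hg hw y
  exact ⟨a, fun v => by simpa using ha (g v)⟩

end Gs

theorem isMaximalIn_gs [Fintype F] {m : ℕ} (hm : 7 ≤ m) (h2 : (2 : F) ≠ 0)
    {K : Subalgebra F (Matrix (Fin m ⊕ Fin m) (Fin m ⊕ Fin m) F)} (hK : IsFieldSubalgebra 2 K)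
    (hac : IsAdjointClosedFor (sympForm m F) K) (hnsa : ¬ IsSelfAdjointFor (sympForm m F) K) :
    IsMaximalIn (spGL m F) (subalgebraNormalizer K ⊓ spGL m F) := by
  have : Nonempty (Fin m) := ⟨⟨0, by omega⟩⟩
  letI := (As.IsFieldSubalgebra.isField hK).toField
  have : Finite K := Subtype.finite
  obtain ⟨τ, h⟩ := exists_adjE (spForm_nondeg m) hK fun k hk =>
    let ⟨k', a, b⟩ := hac k hk; ⟨k', a, fun u v => by simpa only [spForm_B] using b u v⟩
  have h1 := finrank_mul_finrank F K (Fin m ⊕ Fin m → F)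
  rw [hK.finrank_eq, finrank_fintype_fun_eq_card] at h1
  have h4 : (2 : K) ≠ 0 := by
    rw [← map_ofNat (algebraMap F K)]; exact (map_ne_zero _).2 h2
  obtain ⟨Ψ, h5, -⟩ := h.exists_lift (.inl ⟨2⁻¹, by simp [map_ofNat, ← two_mul, h4]⟩)
  have h3 : ∀ g, g ∈ spGL m F ↔ glE _ F g ∈ (spForm m F).O := fun g => by
    rw [mem_spGL_iff_E, E_alt (spForm_nondeg m) rfl rfl]
  exact isMaximalIn_of_iff (glE _ F) (Gs.isMaximalIn ⟨h5, rfl, rfl, by
    rintro rfl; exact hnsa fun k hk u v => by simp only [← spForm_B]; exact h.adj ⟨k, hk⟩ u v, hK.finrank_eq, h4,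
    by simp at h1; omega⟩) h3 fun g => and_congr
      (mem_normalizer_iff_semi.trans ⟨mem_Tg_of_semi, semi_of_Tg⟩) (h3 g)

end H23
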