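import Cfsg.Agent.H23.Gu1

/-! Maximality of the unitary group in the orthogonal group of dimension at least ten. -/

set_option autoImplicit false

namespace H23

open Module H22 Cfsg Cfsg.Geo Form Tn

variable {F E V : Type*} [Field F] [Field E] [Algebra F E] [Finite E] [AddCommGroup V] [Module F V]
  [Module E V] [IsScalarTower F E V] {τ : E →+* E}

omit [Algebra F E] [Finite E] [Module F V] [IsScalarTower F E V] in
theorem conn_five [FiniteDimensional E V] {Ψ : Form τ V} (hΨ : Ψ.Nondeg) (h3 : Ψ.Iso3)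
    (hV : 5 ≤ finrank E V) {R : V → V → Prop} (tr : ∀ a b c, R a b → R b c → R a c)
    (h : ∀ a b, Sing Ψ a → Sing Ψ b → Ψ.B a b = 0 → b ∉ E ∙ a → a ∉ E ∙ b → R a b) {u w : V}
    (hu : Sing Ψ u) (hw : Sing Ψ w) (h1 : u ≠ 0) (h2 : w ≠ 0) : R u w := by
  have sw : ∀ {a b : V}, a ≠ 0 → b ∉ E ∙ a → a ∉ E ∙ b := fun ha hb => by
    simpa using notMem_sup_span_swap (S := ⊥) (by simpa using ha) (by simpa using hb)
  have key : ∀ z, Sing Ψ z → Ψ.B u z = 0 → Ψ.B w z = 0 → z ∉ E ∙ u → z ∉ E ∙ w → R u w :=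
    fun z hz a1 a2 a3 a4 => tr _ _ _ (h u z hu hz a1 a3 (sw h1 a3))
      (h z w hz hw (Ψ.B_eq_zero_symm a2) (sw h2 a4) a4)
  by_cases e : Ψ.B u w = 0
  · by_cases e' : w ∈ E ∙ u
    · obtain ⟨z, -, hz, a1, a2⟩ := h3.exists_perp hΨ (T := ⊤) (S := E ∙ u) [u]
        (by simp [finrank_span_singleton h1]; omega)
      obtain ⟨c, rfl⟩ := Submodule.mem_span_singleton.1 e'
      exact key z hz (a2 u (by simp)) (by simp [B_smul_left, a2 u]) a1 fun e => a1
        ((Submodule.span_singleton_le_iff_mem _ _).2 e' e)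
    · exact h u w hu hw e e' (sw h1 e')
  obtain ⟨z, -, hz, a1, a2⟩ := h3.exists_perp hΨ (T := ⊤) (S := ⊥) [u, w] (by simpa)
  refine key z hz (a2 u (by simp)) (a2 w (by simp)) (fun e' => ?_) fun e' => ?_ <;>
    obtain ⟨c, rfl⟩ := Submodule.mem_span_singleton.1 e'
  · have := Ψ.B_eq_zero_symm (a2 w (by simp))
    simp only [B_smul_left, mul_eq_zero, map_eq_zero, e, or_false] at this
    simp [this] at a1
  · have := a2 u (by simp)
    simp only [B_smul_right, mul_eq_zero, e, or_false] at this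
    simp [this] at a1

omit [Algebra F E] [Finite E] [Module F V] [IsScalarTower F E V] in
theorem exists_map_E_five [FiniteDimensional E V] {Ψ : Form τ V} (hΨ : Ψ.Nondeg) (h3 : Ψ.Iso3)
    (hV : 5 ≤ finrank E V) {u w : V} (hu : Sing Ψ u) (hw : Sing Ψ w) (h1 : u ≠ 0) (h2 : w ≠ 0) :
    ∃ k ∈ Ψ.E, k u = w :=
  conn_five hΨ h3 hV (R := fun u w => ∃ k ∈ Ψ.E, k u = w)
    (fun _ _ _ ⟨k, hk, e⟩ ⟨k', hk', e'⟩ => ⟨k' * k, mul_mem hk' hk, by simp [e, e']⟩)
    (fun a b ha hb e e1 e2 => exists_map_ED_of_perp hΨ ha hb trivial trivial e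
      (by simpa [perp_top _ hΨ]) (by simpa [perp_top _ hΨ])) hu hw h1 h2

/-- A hermitian form over a quadratic extension inducing a quadratic form. -/
structure Gv (Φ : Form (RingHom.id F) V) (Ψ : Form τ V) : Prop extends Lift Φ Ψ where
  kap : Φ.κ = 1
  ne : τ ≠ RingHom.id E
  two : finrank F E = 2
  Q : ∀ v, algebraMap F E (Φ.Q v) = Ψ.B v v
  dim : 5 ≤ finrank E V

namespace Gv

variable {Φ : Form (RingHom.id F) V} {Ψ : Form τ V} (h : Gv Φ Ψ) {H : Subgroup (V ≃ₗ[F] V)}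
  {u v w x e : V}
include h

omit [Finite E] [IsScalarTower F E V] in
theorem ε : Φ.ε = 1 := by simpa [h.kap] using Φ.kε

omit [Finite E] [IsScalarTower F E V] in
theorem ε' : Ψ.ε = 1 := by simp [h.eps, h.ε]

theorem trB (u v : V) : algebraMap F E (Φ.B u v) = Ψ.B u v + τ (Ψ.B u v) := by
  rw [h.B_eq, (quad_ext h.two h.ne h.alg _).1]

theorem fix {x : E} (hx : τ x = x) : ∃ c, algebraMap F E c = x :=
  (quad_ext h.two h.ne h.alg _).2 hx

omit [Finite E] [IsScalarTower F E V] in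
theorem sing_iff : Sing Φ v ↔ Sing Ψ v := by
  rw [sing_quad h.kap, ← (algebraMap F E).injective.eq_iff, h.Q, map_zero]
  exact ⟨fun e => ⟨e, Q_of_κ (κ_of_ne_id h.ne) _⟩, fun e => e.1⟩

omit [Finite E] [IsScalarTower F E V] in
theorem fd : FiniteDimensional E V := Module.finite_of_finrank_pos (by have := h.dim; omega)

omit [IsScalarTower F E V] in
theorem iso3 : Ψ.Iso3 := have := h.fd; iso3_herm h.ne h.ε'

theorem fdF : FiniteDimensional F V :=
  have := h.fd
  have : FiniteDimensional F E := Module.finite_of_finrank_pos (by rw [h.two]; omega)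
  Module.Finite.trans E V

theorem eich (w f : V) (s : F) (v : V) : Φ.eichler w f s v = v + (Ψ.B f v + τ (Ψ.B f v) -
    algebraMap F E s * (Ψ.B w v + τ (Ψ.B w v))) • w - (Ψ.B w v + τ (Ψ.B w v)) • f := by
  simp only [← h.trB, eichler_apply, h.ε, ← map_mul, ← map_sub, algebraMap_smul]
  simp [sub_eq_add_neg]

theorem eich_self (u : V) (k : E) (v : V) :
    Φ.eichler u (k • u) 0 v = v + ((τ k - k) * Ψ.B u v) • u := by
  simp only [h.eich, B_smul_left, map_mul, h.invol, map_zero]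
  module

omit [Finite E] [IsScalarTower F E V] in
theorem data_self (hu : Sing Ψ u) (k : E) : EichData Φ u (k • u) 0 :=
  ⟨h.sing_iff.2 hu, by simp [h.B_eq, hu.1], by simp [(h.sing_iff.2 (hu.smul k)).1],
    by simp [(h.sing_iff.2 (hu.smul k)).2]⟩

theorem mem_E {k : V ≃ₗ[E] V} (hk : k ∈ Ψ.E) : k.restrictScalars F ∈ Φ.E := by
  have := h.fd
  have := h.dim
  have h1 := mem_closure_transvections_herm h.ne h.ε' h.nondeg (by omega) (Or.inl (by omega))
    (E_le_O hk) (mem_SLv.1 (E_le_SLv h.nondeg hk))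
  clear hk
  induction h1 using Subgroup.closure_induction with
  | mem g hg =>
    obtain ⟨hg, d, c, hd, h1⟩ := hg
    by_cases h0 : d = 0
    · rw [show g = 1 from LinearEquiv.ext fun x => by simp [h1, h0, qrefl_apply]]
      exact one_mem _
    obtain ⟨x, hx⟩ := h.nondeg.exists_ne h0
    have h2 := hg.1 x x
    simp only [h1, qrefl_apply, map_add, LinearMap.add_apply, B_smul_left, B_smul_right, hx, hd,
      Ψ.symm d x, mul_one, map_one, h.ε'] at h2
    obtain ⟨y, hy⟩ : ∃ y, τ y - y ≠ 0 := by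
      by_contra! h3; exact h.ne (RingHom.ext fun y => sub_eq_zero.1 (h3 y))
    obtain ⟨a, ha⟩ := h.fix (x := c / (τ y - y)) (by
      rw [map_div₀, map_sub, h.invol, div_eq_div_iff (fun e => hy (by linear_combination -e)) hy]
      linear_combination (τ y - y) * h2)
    refine Form.mem_E (h.data_self ⟨hd, Q_of_κ (κ_of_ne_id h.ne) _⟩ (algebraMap F E a * y))
      fun v => ?_
    rw [h.eich_self, map_mul, h.alg, RingHom.id_apply, ← mul_sub, ha, div_mul_cancel₀ _ hy]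
    exact (h1 v).trans (qrefl_apply ..)
  | one => exact one_mem _
  | mul a b _ _ ha hb => exact mul_mem ha hb
  | inv a _ ha => exact inv_mem ha

omit [Finite E] [IsScalarTower F E V] in
theorem B_symm {u v : V} (e : Ψ.B u v = 0) : Ψ.B v u = 0 := Ψ.B_eq_zero_symm e

variable (hM : ∀ k ∈ Ψ.E, k.restrictScalars F ∈ H)
include hM

theorem conj {k : V ≃ₗ[E] V} (hk : k ∈ Ψ.E) (h1 : Φ.AIn H u e) : Φ.AIn H (k u) (k e) :=
  h1.conj (hM k hk) (E_le_O (h.mem_E hk))

theorem self (hu : Sing Ψ u) (k : E) : Φ.AIn H u (k • u) := by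
  have := h.fd
  refine .of_eIn ⟨by simp, fun s hs => ?_⟩ (h.data_self hu k) ?_
  · rw [show s = 0 by simpa [h.kap] using hs.trQ]; exact eIn_zero ..
  have h1 : EichData Ψ u 0 (τ k - k) :=
    ⟨hu, by simp, by simp [h.ε', h.invol], by simp [κ_of_ne_id h.ne]⟩
  obtain ⟨g, hg⟩ := exists_eich h.nondeg h1
  exact ⟨_, hM g (Form.mem_E h1 hg), fun v => by
    simp [h.eich_self, hg, eichler_apply, h.invol, ← neg_smul, ← neg_mul]⟩

theorem move (hu : Sing Ψ u) (hw : Sing Ψ w) (h1 : Φ.AIn H u x) (huw : Ψ.B u w = 0)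
    (hue : Ψ.B u e = 0) (hwe : Ψ.B w e = 0) :
    ∃ s : E, Φ.AIn H u ((Ψ.B e x - s * Ψ.B w x) • w - Ψ.B w x • e) := by
  have := h.fd
  obtain ⟨s, hs⟩ := exists_eichData hw hwe
  obtain ⟨g, hg⟩ := exists_eich h.nondeg hs
  have h2 := h.conj hM (Form.mem_E hs hg) h1
  rw [show g u = u by simp [hg, eichler_apply, h.B_symm huw, h.B_symm hue]] at h2
  refine ⟨τ s, ?_⟩
  convert h2.sub (h.sing_iff.2 hu) h1 using 1
  simp only [hg, eichler_apply, h.ε', map_one]
  module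

theorem line (hu : Sing Ψ u) (hw : Sing Ψ w) (h1 : Φ.AIn H u x) (huw : Ψ.B u w = 0)
    (hwx : Ψ.B w x = 0) (hx : x ∉ Submodule.span E {u, w}) (k : E) : Φ.AIn H u (k • w) := by
  have := h.fd
  obtain ⟨f, h2, h3⟩ := h.nondeg.exists_perp_eq_one hx
  obtain ⟨s, hs⟩ := h.move hM hu hw h1 huw (e := τ k • f)
    (by simp [h.B_symm (h2 u (Submodule.subset_span (by simp)))])
    (by simp [h.B_symm (h2 w (Submodule.subset_span (by simp)))])
  simpa [hwx, B_smul_left, h3, h.invol] using hs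

theorem of_ne (hu : Sing Ψ u) (hw : Sing Ψ w) (h1 : Φ.AIn H u x) (huw : Ψ.B u w = 0)
    (hwx : Ψ.B w x ≠ 0) (h2 : ∀ k : E, Φ.AIn H u (k • w)) (hue : Ψ.B u e = 0)
    (hwe : Ψ.B w e = 0) : Φ.AIn H u e := by
  obtain ⟨s, hs⟩ := h.move hM hu hw h1 huw (e := (Ψ.B w x)⁻¹ • e) (by simp [hue]) (by simp [hwe])
  rw [smul_inv_smul₀ hwx] at hs
  exact sub_sub_cancel _ e ▸ (h2 _).sub (h.sing_iff.2 hu) hs

theorem qIn (hu : Sing Ψ u) (h1 : ∀ c : F, Φ.AIn H u (c • v)) (huv : Ψ.B u v ≠ 0) :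
    Φ.QIn H u := by
  refine qIn_iff.2 fun e he => ?_
  have h2 := h.trB u e
  have h3 := h.trB u v
  rw [he, map_zero] at h2
  rw [show Φ.B u v = 0 by simpa using (h1 1).1, map_zero] at h3
  obtain ⟨c, hc⟩ := h.fix (x := Ψ.B u e / Ψ.B u v) (by
    rw [map_div₀, div_eq_div_iff ((map_ne_zero τ).2 huv) huv]
    linear_combination Ψ.B u e * h3 - Ψ.B u v * h2)
  have h4 : Ψ.B u (e - c • v) = 0 := by
    rw [← algebraMap_smul E, map_sub, B_smul_right, hc, div_mul_cancel₀ _ huv, sub_self]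
  simpa using (h.of_ne hM hu hu (by simpa using h1 1) hu.1 huv (h.self hM hu) h4 h4).add
    (h.sing_iff.2 hu) (h1 c)

theorem E_le_of_qIn (hu : Sing Ψ u) (hu0 : u ≠ 0) (h1 : Φ.QIn H u) : Φ.E ≤ H := by
  have := h.fd
  refine E_le fun x hx => ?_
  by_cases h0 : x = 0
  · exact h0 ▸ qIn_zero H
  obtain ⟨k, hk, rfl⟩ := exists_map_E_five h.nondeg h.iso3 h.dim hu (h.sing_iff.1 hx) hu0 h0
  exact h1.conj (hM k hk) (E_le_O (h.mem_E hk))

theorem perp' (hu : Sing Ψ u) (hu0 : u ≠ 0) (h1 : Φ.AIn H u v) (huv : Ψ.B u v = 0)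
    (hv' : Ψ.B v v ≠ 0) (hue : Ψ.B u e = 0) : Φ.AIn H u e := by
  have := h.fd
  have := h.dim
  have hv : v ∉ E ∙ u := fun e => by
    obtain ⟨c, rfl⟩ := Submodule.mem_span_singleton.1 e
    simp [B_smul_left, hu.1] at hv'
  obtain ⟨f, hf⟩ := exists_hyp h.nondeg hu hu0
  obtain ⟨w, a0, w0, hw⟩ := exists_sing_of_herm (Φ := Ψ) h.ne h.ε'
    (T := Ψ.perp (Submodule.span E {x | x ∈ [u, v, f]})) (by
      have := finrank_span_list_le (F := E) [u, v, f]
      rw [h.nondeg.finrank_perp]; simp only [List.length] at this; omega)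
  have a2 : ∀ x ∈ [u, v, f], Ψ.B x w = 0 := fun x hx => a0 x (Submodule.subset_span hx)
  have a1 : w ∉ Submodule.span E {u, v} := fun e => by
    obtain ⟨a, b, rfl⟩ := Submodule.mem_span_pair.1 e
    have e1 := a2 v (by simp)
    have e2 := a2 f (by simp)
    simp only [map_add, B_smul_right, h.B_symm huv, mul_zero, zero_add, mul_eq_zero, hv',
      or_false] at e1
    simp [e1, hf.B_symm, h.ε'] at e2
    simp [e1, e2] at w0
  have a3 := a2 u (by simp)
  have a4 := a2 v (by simp)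
  obtain ⟨x, a5, a6⟩ := h.nondeg.exists_perp_eq_one a1
  obtain ⟨c, hc⟩ := exists_sing_add_smul hw (x := x) (by rw [Ψ.symm, a6]; simp [h.ε'])
  have a7 := h.B_symm (a5 u (Submodule.subset_span (by simp)))
  have a8 := a5 v (Submodule.subset_span (by simp))
  have a9 : Ψ.B w (x + c • w) = 1 := by simp [Ψ.symm x w, a6, h.ε', hw.1]
  have b1 := h.line hM hu hw h1 a3 (h.B_symm a4) (by
    rw [Submodule.span_insert] at a1 ⊢
    exact notMem_sup_span_swap hv a1)
  have b2 := h.line hM hu hc h1 (by simp [a7, a3]) (by simp [a8, B_smul_left, h.B_symm a4]) (by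
    intro h2
    obtain ⟨a, b, rfl⟩ := Submodule.mem_span_pair.1 h2
    have := h.B_symm a4
    rw [map_add, B_smul_right, B_smul_right, a9, h.B_symm a3] at this
    exact hv (by simp [show b = 0 by simpa using this, Submodule.mem_span_singleton]))
  simpa using (h.of_ne hM hu hw (by simpa using b2 1) a3 (by rw [a9]; simp) b1
    (e := e - Ψ.B w e • (x + c • w)) (by simp [hue, a7, a3]) (by
      rw [map_sub, B_smul_right, a9]; simp)).add (h.sing_iff.2 hu) (b2 (Ψ.B w e))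

theorem perp (hu : Sing Ψ u) (hu0 : u ≠ 0) (h1 : Φ.AIn H u v) (huv : Ψ.B u v = 0) (hv : v ∉ E ∙ u)
    (hue : Ψ.B u e = 0) : Φ.AIn H u e := by
  by_cases hv' : Ψ.B v v = 0
  swap
  · exact h.perp' hM hu hu0 h1 huv hv' hue
  have := h.fd
  have := h.dim
  have hκ := κ_of_ne_id (Φ := Ψ) h.ne
  obtain ⟨x, a1, a2⟩ := h.nondeg.exists_perp_eq_one hv
  obtain ⟨c, hw⟩ := exists_sing_add_smul (⟨hv', Q_of_κ hκ _⟩ : Sing Ψ v) (x := x)
    (by rw [Ψ.symm, a2]; simp [h.ε'])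
  have a3 : Ψ.B u (x + c • v) = 0 := by
    simp [huv, h.B_symm (a1 u (Submodule.mem_span_singleton_self u))]
  have a4 : Ψ.B (x + c • v) v = 1 := by simp [a2, B_smul_left, hv']
  generalize x + c • v = w at hw a3 a4
  obtain ⟨y, b1, b2⟩ : ∃ y ∈ Ψ.perp (Submodule.span E {u, w}), Ψ.B y y ≠ 0 := by
    by_contra! hc
    have e1 := h.nondeg.finrank_perp_add (Submodule.span E {u, w})
    have e2 := finrank_span_pair_le (F := E) u w
    have e3 := Submodule.finrank_mono (show Ψ.perp (Submodule.span E {u, w}) ≤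
        Ψ.perp (Ψ.perp (Submodule.span E {u, w})) from fun a ha b hb => by
      obtain ⟨t, ht⟩ : ∃ t, τ t - t ≠ 0 := by
        by_contra! h3; exact h.ne (RingHom.ext fun y => sub_eq_zero.1 (h3 y))
      have e4 := hc _ (add_mem ha hb)
      have e5 := hc _ (add_mem ha (Submodule.smul_mem _ t hb))
      simp only [map_add, LinearMap.add_apply, B_smul_left, B_smul_right, hc a ha, hc b hb] at e4 e5
      exact (mul_eq_zero.1 (by linear_combination e5 - t * e4)).resolve_left ht)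
    rw [h.nondeg.perp_perp] at e3
    omega
  have b3 := b1 u (Submodule.subset_span (by simp))
  have b4 := b1 w (Submodule.subset_span (by simp))
  obtain ⟨s, hs⟩ := h.move hM hu hw h1 a3 b3 b4
  exact h.perp' hM hu hu0 hs (by simp [a3, b3]) (by
    simpa [B_smul_left, a4, hw.1, b4, h.B_symm b4] using b2) hue

omit hM in
theorem exists_bad : ∃ w f s u e, EichData Φ w f s ∧ Sing Ψ w ∧ w ≠ 0 ∧ Ψ.B w f = 0 ∧ Sing Ψ u ∧
    u ≠ 0 ∧ Ψ.B u e = 0 ∧ Ψ.B (Φ.eichler w f s u) (Φ.eichler w f s e) ≠ 0 := by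
  have := h.fd
  have := h.dim
  obtain ⟨u, -, hu0, hu⟩ := h.iso3 ⊤ (by simp; omega)
  obtain ⟨w, -, hw, a1, a2⟩ := h.iso3.exists_perp h.nondeg (T := ⊤) (S := E ∙ u)
    [u] (by simp [finrank_span_singleton hu0]; omega)
  have a3 := a2 u (by simp)
  have a4 : LinearIndependent E ![u, w] := (LinearIndependent.pair_iff' hu0).2 fun a e =>
    a1 (e ▸ Submodule.smul_mem _ a (Submodule.mem_span_singleton_self u))
  obtain ⟨y, hy⟩ : ∃ y, τ y - y ≠ 0 := by
    by_contra! h3; exact h.ne (RingHom.ext fun y => sub_eq_zero.1 (h3 y))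
  obtain ⟨z, hz⟩ : ∃ z, z + τ z ≠ 0 := by
    by_cases h2 : (2 : E) = 0
    · exact ⟨y, fun e => hy (by linear_combination e - y * h2)⟩
    · exact ⟨1, by simpa [one_add_one_eq_two]⟩
  have hz0 : z ≠ 0 := by rintro rfl; simp at hz
  obtain ⟨e, he⟩ := h.nondeg.exists_prescribed' a4 ![0, 1]
  obtain ⟨f, hf⟩ := h.nondeg.exists_prescribed' a4 ![y, 0]
  have e1 : Ψ.B u e = 0 := he 0
  have e2 : Ψ.B w e = 1 := he 1
  have e3 : Ψ.B u f = y := hf 0
  have e4 : Ψ.B w f = 0 := hf 1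
  obtain ⟨s, hs⟩ := exists_eichData (h.sing_iff.2 hw) (e := f) (by simp [h.B_eq, e4])
  refine ⟨w, f, s, u, e, hs, hw, by rintro rfl; simp at a1, e4, hu, hu0, e1, ?_⟩
  simp only [h.eich, map_add, map_sub, LinearMap.add_apply, LinearMap.sub_apply, B_smul_left,
    B_smul_right, e1, e2, e3, e4, a3, h.B_symm a3, hw.1, Ψ.symm u f, h.ε', map_mul, h.invol,
    map_zero, map_one]
  exact fun e => hy (by linear_combination e)

theorem E_le (hu : Sing Ψ u) (hu0 : u ≠ 0) (h1 : ∀ c : F, Φ.AIn H u (c • v)) (hv : v ∉ E ∙ u) :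
    Φ.E ≤ H := by
  by_cases huv : Ψ.B u v ≠ 0
  · exact h.E_le_of_qIn hM hu hu0 (h.qIn hM hu h1 huv)
  have := h.fd
  have := h.fdF
  have h2 : ∀ x, Sing Ψ x → x ≠ 0 → ∀ e, Ψ.B x e = 0 → Φ.AIn H x e := fun x hx h0 e he => by
    obtain ⟨k, hk, rfl⟩ := exists_map_E_five h.nondeg h.iso3 h.dim hu hx hu0 h0
    simpa using h.conj hM hk (h.perp hM hu hu0 (by simpa using h1 1) (by simpa using huv) hv
      (e := k⁻¹ e) (by rw [← (E_le_O hk).1]; simpa using he))
  obtain ⟨w, f, s, x, e, a1, a2, a3, a4, a5, a6, a7, a8⟩ := h.exists_bad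
  obtain ⟨g, hg, a9⟩ := (h2 w a2 a3 f a4).2 s a1
  have b1 := mem_O_of_eich a1 a9
  have b2 := h.sing_iff.1 ((h.sing_iff.2 a5).mapO b1)
  refine h.E_le_of_qIn hM b2 (by simpa) (h.qIn hM b2 (v := g e) (fun c => ?_) (by rwa [a9, a9]))
  simpa using (h2 x a5 a6 (c • e) (by rw [← algebraMap_smul E]; simp [a7])).conj hg b1

omit hM in
theorem scalar (θ : V →ₗ[F] V) (h1 : ∀ w, Sing Ψ w → θ w ∈ E ∙ w) : ∃ a : E, ∀ v, θ v = a • v := by
  have := h.fd
  have := h.dim
  have h2 : ∀ w z (a : E), Sing Ψ w → Sing Ψ z → Ψ.B w z = 0 → z ∉ E ∙ w → w ≠ 0 →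
      (θ w = a • w ↔ θ z = a • z) := fun w z a hw hz hwz h2 h0 => by
    obtain ⟨b, hb⟩ := Submodule.mem_span_singleton.1 (h1 w hw)
    obtain ⟨c, hc⟩ := Submodule.mem_span_singleton.1 (h1 z hz)
    obtain ⟨d, hd⟩ := Submodule.mem_span_singleton.1 (h1 (w + z)
      ⟨by simp [hw.1, hz.1, hwz, h.B_symm hwz], Q_of_κ (κ_of_ne_id h.ne) _⟩)
    have a4 : LinearIndependent E ![w, z] := (LinearIndependent.pair_iff' h0).2 fun a e =>
      h2 (e ▸ Submodule.smul_mem _ a (Submodule.mem_span_singleton_self w))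
    obtain ⟨e1, e2⟩ := LinearIndependent.pair_iff.1 a4 (d - b) (d - c) (by
      rw [map_add, ← hb, ← hc] at hd; linear_combination (norm := module) hd)
    rw [← hb, ← hc, (smul_left_injective E h0).eq_iff, (smul_left_injective E (by
      rintro rfl; simp at h2)).eq_iff, show b = c by linear_combination e2 - e1]
  obtain ⟨u, -, hu0, hu⟩ := h.iso3 ⊤ (by simp; omega)
  obtain ⟨a, ha⟩ := Submodule.mem_span_singleton.1 (h1 u hu)
  obtain ⟨f, hf⟩ := exists_hyp h.nondeg hu hu0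
  refine ⟨a, hf.sing_induction (fun w hw => ?_) fun x y hx hy => by simp [hx, hy]⟩
  by_cases h0 : w = 0
  · simp [h0]
  exact (conn_five h.nondeg h.iso3 h.dim (R := fun w z => θ w = a • w ↔ θ z = a • z)
    (fun _ _ _ => Iff.trans) (fun w z hw hz e e1 e2 => h2 w z a hw hz e e1 (by
      rintro rfl; simp at e2)) hu hw hu0 h0).1 ha.symm

omit hM in
theorem isMaximalIn : IsMaximalIn Φ.E (Tg F (ls E V) ⊓ Φ.E) := by
  have := h.fd
  have := h.fdF
  have := h.nt
  have : FiniteDimensional F E := Module.finite_of_finrank_pos (by rw [h.two]; omega)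
  refine isMaximalIn_of inf_le_right ?_ fun H h1 h2 g hg hg' => ?_
  · obtain ⟨w, f, s, x, e, a1, a2, a3, a4, a5, a6, a7, a8⟩ := h.exists_bad
    obtain ⟨g, hg⟩ := exists_eich h.nd a1
    refine ⟨g, Form.mem_E a1 hg, fun h1 => a8 ?_⟩
    obtain ⟨α, hα⟩ := exists_semi (semi_of_Tg h1.1)
    rw [← hg, ← hg, h.B_semi (mem_O_of_eich a1 hg).1 hα, a7, map_zero]
  have hM : ∀ k ∈ Ψ.E, k.restrictScalars F ∈ H := fun k hk =>
    h1 ⟨mem_Tg_of_semi fun y => ⟨y, k.map_smul y⟩, h.mem_E hk⟩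
  have hO := E_le_O (h2 hg)
  by_contra h3
  refine hg' ⟨mem_Tg_of_semi fun y => ?_, h2 hg⟩
  obtain ⟨a, ha⟩ := h.scalar (g.toLinearMap ∘ₗ (LinearMap.lsmul E V y).restrictScalars F ∘ₗ
    g.symm.toLinearMap) fun w hw => by_contra fun h4 => h3 (h.E_le hM hw (by
      rintro rfl; simp at h4) (fun c => by
        have := (h.self hM (h.sing_iff.1 ((h.sing_iff.2 hw).mapO (inv_mem hO))) (c • y)).conj hg hO
        simpa [smul_assoc] using this) h4)
  exact ⟨a, fun v => by simpa using ha (g v)⟩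

end Gv

theorem AdjE.exists_gv {Φ : Form (RingHom.id F) V} (h : AdjE Φ τ) (hκ : Φ.κ = 1)
    (hτ : τ ≠ RingHom.id E) (h2 : finrank F E = 2) (hV : 5 ≤ finrank E V)
    (hQ : ∀ k : E, ∃ c, ∀ v, Φ.Q (k • v) = c * Φ.Q v) : ∃ Ψ : Form τ V, Gv Φ Ψ := by
  have hq := quad_ext h2 hτ h.alg
  obtain ⟨z, hz⟩ : ∃ z, z + τ z ≠ 0 := by
    by_cases h2 : (2 : E) = 0
    · by_contra! h3
      exact hτ (RingHom.ext fun y => show τ y = y by linear_combination h3 y - y * h2)
    · exact ⟨1, by simpa [one_add_one_eq_two]⟩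
  obtain ⟨Ψ, h1, h3⟩ := h.exists_lift (.inl ⟨z / (z + τ z), by
    rw [map_div₀, map_add, h.invol, add_comm (τ z), ← add_div, div_self hz]⟩)
  have h4 : Ψ.ε = 1 := by simpa [h1.eps, hκ] using congrArg (algebraMap F E) Φ.kε
  have h5 : ∀ u v, algebraMap F E (Φ.B u v) = Ψ.B u v + τ (Ψ.B u v) := fun u v => by
    rw [h1.B_eq, (hq _).1]
  have h6 : ∀ (k : E) v, algebraMap F E (Φ.Q (k • v)) = τ k * k * algebraMap F E (Φ.Q v) := by
    intro k
    obtain ⟨c, hc⟩ := hQ k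
    suffices algebraMap F E c = τ k * k by simp [hc, this]
    refine h.ext fun u v => ?_
    have := Φ.Q_add (k • u) (k • v)
    rw [← smul_add, hc, hc, hc, Φ.Q_add, hκ, h.adj, smul_smul] at this
    rw [algebraMap_smul, B_smul_right]
    linear_combination this
  refine ⟨Ψ, h1, hκ, hτ, h2, fun v => ?_, hV⟩
  have h7 := congrArg (algebraMap F E) (Φ.Q_add (z • v) v)
  have h8 := Ψ.symm v v
  rw [← one_smul E v, smul_smul, ← add_smul, h6] at h7
  simp only [one_smul, mul_one, hκ, map_add, h6, one_mul, h5, B_smul_left, map_mul, h.invol,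
    map_one] at h7
  rw [h4, one_mul] at h8
  exact mul_left_cancel₀ hz (by linear_combination h7 - z * h8)

theorem isMaximalIn_gv {ι : Type} [Fintype ι] [DecidableEq ι] [Fintype F]
    (hn : 10 ≤ Fintype.card ι) {Q : (ι → F) → F} (hQ : IsNondegenerateQuadraticForm Q)
    {K : Subalgebra F (Matrix ι ι F)} (hK : IsFieldSubalgebra 2 K)
    (hac : IsAdjointClosedFor (QuadraticMap.polar Q) K)
    (hnsa : ¬ IsSelfAdjointFor (QuadraticMap.polar Q) K)
    (hsc : ∀ k ∈ K, ∃ c : F, ∀ v, Q (Matrix.mulVec k v) = c * Q v) :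
    IsMaximalIn (omegaGL Q) (subalgebraNormalizer K ⊓ omegaGL Q) := by
  have : Nonempty ι := Fintype.card_pos_iff.1 (by omega)
  obtain ⟨Q, rfl, hΦ⟩ := exists_quad hQ
  letI := (As.IsFieldSubalgebra.isField hK).toField
  have : Finite K := Subtype.finite
  obtain ⟨τ, h⟩ := exists_adjE hΦ hK hac
  have h1 := finrank_mul_finrank F K (ι → F)
  rw [hK.finrank_eq, finrank_fintype_fun_eq_card] at h1
  obtain ⟨Ψ, h2⟩ := h.exists_gv rfl (by rintro rfl; exact hnsa fun k hk => h.adj ⟨k, hk⟩)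
    hK.finrank_eq (by omega) fun k => hsc k k.2
  have h3 := fun g => mem_omegaGL_iff_E (g := g) hΦ (by omega)
  exact isMaximalIn_of_iff (glE _ F) h2.isMaximalIn h3 fun g => and_congr
    (mem_normalizer_iff_semi.trans ⟨mem_Tg_of_semi, semi_of_Tg⟩) (h3 g)

end H23
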