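import Cfsg.Agent.H23.Mx2

/-! Overgroups of the monomial group, II: maximality in `SL`. -/

set_option autoImplicit false

namespace H23

open Module H22 Cfsg Cfsg.Geo

variable {F : Type*} [Field F] {ι : Type} [Fintype ι] [DecidableEq ι]

/-- the permutation action on the members of a family -/
noncomputable def decHom {V : Type*} [AddCommGroup V] [Module F V] {α : Type*}
    {D : α → Submodule F V} (hD : Function.Injective D) : decL D →* Equiv.Perm α :=
  MonoidHom.mk' (fun g => g.2.choose) fun a b => Equiv.ext fun i => hD (by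
    rw [← (a * b).2.choose_spec, Equiv.Perm.mul_apply, ← a.2.choose_spec, ← b.2.choose_spec,
      ← Submodule.map_comp]; rfl)

theorem decHom_spec {V : Type*} [AddCommGroup V] [Module F V] {α : Type*}
    {D : α → Submodule F V} (hD : Function.Injective D) (g : decL D) (i : α) :
    (D i).map g.1.toLinearMap = D (decHom hD g i) := g.2.choose_spec i

theorem exists_even_perm (hn : 5 ≤ Fintype.card ι) {a p k d : ι} (h1 : a ≠ k) (h2 : p ≠ k)
    (h3 : a ≠ d) (h4 : p ≠ d) :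
    ∃ s : Equiv.Perm ι, Equiv.Perm.sign s = 1 ∧ s a = p ∧ s k = k ∧ s d = d := by
  by_cases h : a = p
  · exact ⟨1, by simp, h, rfl, rfl⟩
  obtain ⟨c, hc⟩ := exists_notMem_list [a, p, k, d] (by simp; omega)
  simp only [List.mem_cons, List.not_mem_nil, or_false, not_or] at hc
  refine ⟨Equiv.swap a p * Equiv.swap p c, by simp [h, Ne.symm hc.2.1], ?_, ?_, ?_⟩
  · simp [Equiv.swap_apply_of_ne_of_ne h (Ne.symm hc.1)]
  · simp [Equiv.swap_apply_of_ne_of_ne h2.symm (Ne.symm hc.2.2.1),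
      Equiv.swap_apply_of_ne_of_ne h1.symm h2.symm]
  · simp [Equiv.swap_apply_of_ne_of_ne h4.symm (Ne.symm hc.2.2.2),
      Equiv.swap_apply_of_ne_of_ne h3.symm h4.symm]

/-- `h` permutes the lines spanned by the columns of `g` -/
theorem exists_col {g h : (ι → F) ≃ₗ[F] (ι → F)} (hh : g⁻¹ * h * g ∈ Mon F ι) (j : ι) :
    ∃ j', ∃ c : F, c ≠ 0 ∧ h (g (ev F j)) = c • g (ev F j') := by
  obtain ⟨j', hj⟩ := mem_Mon.1 hh j
  obtain ⟨c, hc⟩ := Submodule.mem_span_singleton.1 (mem_span_ev.2 hj)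
  refine ⟨j', c, ?_, by rw [← map_smul, hc]; simp⟩
  rintro rfl
  exact ev_ne_zero (F := F) j (by simpa using hc.symm)

theorem col_full (hn : 5 ≤ Fintype.card ι) {g : (ι → F) ≃ₗ[F] (ι → F)} {i : ι}
    (h1 : g (ev F i) = fun _ => 1)
    (h : ∀ s : Equiv.Perm ι, Equiv.Perm.sign s = 1 → g⁻¹ * pmE F ι s * g ∈ Mon F ι) : False := by
  have hD : Function.Injective fun i : ι => F ∙ ev F i :=
    prj_ev.injective fun i => by simpa using ev_ne_zero i
  let ρ : alternatingGroup ι →* Mon F ι := (((MulAut.conj g⁻¹).toMonoidHom.comp (pmE F ι)).comp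
    (alternatingGroup ι).subtype).codRestrict _ fun s => by simpa using h s s.2
  have hρ : ∀ s x, (ρ s).1 x = g.symm (pmE F ι s (g x)) := fun s x => rfl
  let θ := (decHom hD).comp ρ
  have h2 : ∀ s j, (ρ s).1 (ev F j) ∈ F ∙ ev F (θ s j) := fun s j =>
    (decHom_spec hD (ρ s) j).le ⟨_, Submodule.mem_span_singleton_self _, rfl⟩
  have h3 : ∀ s, θ s i = i := fun s => by
    have h4 : (ρ s).1 (ev F i) = ev F i := by
      rw [hρ, LinearEquiv.symm_apply_eq, h1]; rfl
    exact prj_ev.eq_of_mem (ev_ne_zero i) (h4 ▸ h2 s i) (Submodule.mem_span_singleton_self _)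
  have hs := alternatingGroup.isSimpleGroup (α := ι) (by simpa)
  rcases hs.eq_bot_or_eq_top_of_normal θ.ker inferInstance with h4 | h4
  · have h5 : Function.Injective fun s : alternatingGroup ι =>
        (θ s).subtypePerm (p := fun j => j ≠ i) fun j => by
          rw [not_iff_not]; conv_lhs => rw [← h3 s]
          exact (θ s).injective.eq_iff := fun s t hst => (MonoidHom.ker_eq_bot_iff _).1 h4
      (Equiv.ext fun j => by
        by_cases hj : j = i
        · rw [hj, h3, h3]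
        · exact congrArg Subtype.val (Equiv.congr_fun hst ⟨j, hj⟩))
    have h6 := Nat.card_le_card_of_injective _ h5
    have : Nontrivial ι := Fintype.one_lt_card_iff_nontrivial.1 (by omega)
    have h7 := two_mul_nat_card_alternatingGroup (α := ι)
    rw [Nat.card_perm] at h6 h7
    simp only [Nat.card_eq_fintype_card] at h6 h7
    obtain ⟨n, hn'⟩ : ∃ n, Fintype.card ι = n + 1 := ⟨_, (Nat.succ_pred_eq_of_pos (by omega)).symm⟩
    rw [show Fintype.card {j // j ≠ i} = n by simp [hn']] at h6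
    rw [hn', Nat.factorial_succ] at h7
    have := n.factorial_pos
    nlinarith
  · have h5 : ∀ s j, ∃ c : F, (ρ s).1 (ev F j) = c • ev F j := fun s j => by
      have := h2 s j
      rw [show θ s = 1 from h4.ge trivial] at this
      obtain ⟨c, hc⟩ := Submodule.mem_span_singleton.1 this
      exact ⟨c, hc.symm⟩
    obtain ⟨s, hs⟩ := exists_ne (1 : alternatingGroup ι)
    refine hs (Subgroup.mem_bot.1 (alternatingGroup.center_eq_bot (α := ι) (by simp; omega) ▸
      Subgroup.mem_center_iff.2 fun t => ?_))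
    have h6 : (ρ (t * s)).1 = (ρ (s * t)).1 := LinearEquiv.toLinearMap_injective
      ((Pi.basisFun F ι).ext fun j => by
        obtain ⟨c, hc⟩ := h5 s j
        obtain ⟨d, hd⟩ := h5 t j
        simp [hc, hd, smul_smul, mul_comm])
    refine Subtype.ext (Equiv.ext fun j => ?_)
    have h7 := g.symm.injective ((hρ _ _).symm.trans
      ((LinearEquiv.congr_fun h6 (g.symm (ev F j))).trans (hρ _ _)))
    simp only [LinearEquiv.apply_symm_apply, pmE_ev] at h7
    exact hD (by simp only [h7])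

theorem exists_sum_eq [Fintype F] (hq : 5 ≤ Fintype.card F) {s : Finset ι} (hs : 2 ≤ s.card) :
    ∃ y : ι → F, (∀ j, y j ≠ 0 ∧ y j ≠ 1) ∧ ∑ j ∈ s, y j = 1 := by
  obtain ⟨j, hj, k, hk, hjk⟩ := Finset.one_lt_card.1 hs
  obtain ⟨a, ha⟩ := exists_ne_zero_one (F := F) (by omega)
  set t := 1 - ∑ _l ∈ (s.erase j).erase k, a
  obtain ⟨b, hb⟩ := exists_notMem_list [0, 1, t, t - 1] (by simp; omega)
  simp only [List.mem_cons, List.not_mem_nil, or_false, not_or] at hb
  refine ⟨fun l => if l = j then b else if l = k then t - b else a, fun l => ?_, ?_⟩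
  · dsimp only; split_ifs
    · exact ⟨hb.1, hb.2.1⟩
    · exact ⟨fun h => hb.2.2.1 (by linear_combination -h), fun h => hb.2.2.2 (by linear_combination -h)⟩
    · exact ha
  · rw [← Finset.add_sum_erase _ _ hj, ← Finset.add_sum_erase _ _ (Finset.mem_erase.2 ⟨hjk.symm, hk⟩),
      Finset.sum_congr rfl (g := fun _ => a) fun l hl => by
        simp only [Finset.mem_erase] at hl; simp [hl.1, hl.2.1]]
    simp [hjk.symm, t]; ring

theorem col_corank [Fintype F] (hn : 5 ≤ Fintype.card ι) (hq : 5 ≤ Fintype.card F)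
    {g : (ι → F) ≃ₗ[F] (ι → F)} {i k : ι} (h1 : ∀ p, p ≠ k → g (ev F i) p = 1) {z : ι → ι}
    (hz : ∀ j p, g (ev F j) p = 0 ↔ p = z j) (hi : z i = k)
    (h : ∀ s : Equiv.Perm ι, Equiv.Perm.sign s = 1 → s k = k → g⁻¹ * pmE F ι s * g ∈ Mon F ι) :
    ∃ x : ι → F, x i = 0 ∧ (∀ p, p ≠ i → x p ≠ 0) ∧ ∀ p, g x p ≠ 0 := by
  have h2 : ∀ s : Equiv.Perm ι, Equiv.Perm.sign s = 1 → s k = k → ∀ j, ∃ j', ∃ c : F,
      z j' = s (z j) ∧ ∀ p, g (ev F j) p = c * g (ev F j') (s p) := fun s hs hk j => by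
    obtain ⟨j', c, hc, h3⟩ := exists_col (h s hs hk) j
    have h4 : ∀ p, g (ev F j) p = c * g (ev F j') (s p) := fun p => by
      simpa using congrFun h3 (s p)
    exact ⟨j', c, ((hz _ _).1 (by simpa [hc, (hz _ _).2] using (h4 (z j)).symm)).symm, h4⟩
  obtain ⟨j₀, hj₀⟩ : ∃ j, z j ≠ k := by
    by_contra! hc
    obtain ⟨x, hx⟩ := g.surjective (ev F k)
    have := congrFun hx k
    rw [eq_sum_ev x] at this
    simp [(hz _ _).2 (hc _).symm] at this
  have hsurj : Function.Surjective z := fun p => by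
    by_cases hp : p = k
    · exact ⟨i, hi.trans hp.symm⟩
    obtain ⟨s, hs, h3, h4, -⟩ := exists_even_perm hn hj₀ hp hj₀ hp
    obtain ⟨j', -, h5, -⟩ := h2 s hs h4 j₀
    exact ⟨j', h5.trans h3⟩
  have hinj := Finite.injective_iff_surjective.2 hsurj
  have hk : ∀ j, j ≠ i → g (ev F j) k ≠ 0 := fun j hj h0 => hj (hinj (((hz _ _).1 h0).symm.trans hi.symm))
  have hk' : ∀ j, j ≠ i → z j ≠ k := fun j hj h0 => hj (hinj (h0.trans hi.symm))
  have h3 : ∀ j, j ≠ i → ∀ p p', p ≠ k → p' ≠ k → p ≠ z j → p' ≠ z j →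
      g (ev F j) p = g (ev F j) p' := fun j hj p p' h3 h4 h5 h6 => by
    obtain ⟨s, hs, h7, h8, h9⟩ := exists_even_perm hn h3 h4 h5 h6
    obtain ⟨j', c, h10, h11⟩ := h2 s hs h8 j
    obtain rfl := hinj (h10.trans h9)
    have := h11 k
    rw [h8, eq_comm, mul_eq_right₀ (hk _ hj)] at this
    rw [h11 p, this, h7, one_mul]
  have h4 : ∀ j j', j ≠ i → j' ≠ i → ∀ p p', p ≠ k → p' ≠ k → p ≠ z j → p' ≠ z j' →
      g (ev F j) p / g (ev F j) k = g (ev F j') p' / g (ev F j') k :=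
    fun j j' hj hj' p p' h4 h5 h6 h7 => by
      obtain ⟨d, hd⟩ := exists_notMem_list [k, z j, z j'] (by simp; omega)
      simp only [List.mem_cons, List.not_mem_nil, or_false, not_or] at hd
      obtain ⟨s, hs, h8, h9, h10⟩ := exists_even_perm hn (hk' j hj) (hk' j' hj') (Ne.symm hd.2.1)
        (Ne.symm hd.2.2)
      obtain ⟨j'', c, h11, h12⟩ := h2 s hs h9 j
      obtain rfl := hinj (h11.trans h8)
      have h13 := hk j hj
      rw [h3 j hj p d h4 hd.1 h6 hd.2.1, h3 j'' hj' p' d h5 hd.1 h7 hd.2.2, h12 d, h12 k, h9, h10,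
        mul_div_mul_left _ _ (by rintro rfl; simp [h12 k] at h13)]
  obtain ⟨y, hy, hy'⟩ := exists_sum_eq hq (s := Finset.univ.erase i) (by simp; omega)
  let x : ι → F := fun j => if j = i then 0 else y j / g (ev F j) k
  have hx : ∀ p, g x p = ∑ j ∈ Finset.univ.erase i, y j * (g (ev F j) p / g (ev F j) k) := fun p => by
    rw [eq_sum_ev x, map_sum, Finset.sum_apply, ← Finset.add_sum_erase _ _ (Finset.mem_univ i)]
    simp only [x, if_pos, zero_smul, map_zero, Pi.zero_apply, zero_add]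
    exact Finset.sum_congr rfl fun j hj => by simp [(Finset.mem_erase.1 hj).1]; ring
  refine ⟨x, by simp [x], fun p hp => by simp [x, hp, hk, hy], fun p => ?_⟩
  rw [hx]
  by_cases hp : p = k
  · rw [Finset.sum_congr rfl (g := y) fun j hj => by simp [hp, hk j (Finset.mem_erase.1 hj).1], hy']
    exact one_ne_zero
  obtain ⟨j, rfl⟩ := hsurj p
  have hj : j ≠ i := fun h => hp (h ▸ hi)
  obtain ⟨d, hd⟩ := exists_notMem_list [k, z j] (by simp; omega)
  simp only [List.mem_cons, List.not_mem_nil, or_false, not_or] at hd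
  rw [← Finset.add_sum_erase _ _ (Finset.mem_erase.2 ⟨hj, Finset.mem_univ j⟩)] at hy' ⊢
  rw [(hz _ _).2 rfl, Finset.sum_congr rfl (g := fun l => y l * (g (ev F j) d / g (ev F j) k))
    fun l hl => by
      simp only [Finset.mem_erase] at hl
      rw [h4 l j hl.2.1 hj (z j) d hp hd.1 (hinj.ne hl.1.symm) hd.2], ← Finset.sum_mul,
    eq_sub_of_add_eq' hy']
  simp [sub_eq_zero, (hy j).2.symm, hz, hd.2, (hk' j hj).symm]

variable [Fintype F] {H : Subgroup ((ι → F) ≃ₗ[F] (ι → F))}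

theorem col_dd (hq : 5 ≤ Fintype.card F) {g : (ι → F) ≃ₗ[F] (ι → F)} {k l : ι} (hkl : k ≠ l)
    (h : ∀ a, g⁻¹ * ddE k l a * g ∈ Mon F ι) {j m : ι} (h1 : g (ev F j) k ≠ 0) (h2 : m ≠ k)
    (h3 : m ≠ l) : g (ev F j) m = 0 := by
  by_contra h4
  choose f c hc hf using fun a => exists_col (h a) j
  have hinj : Function.Injective f := fun a b hab => by
    have h5 := congrFun (hf a) m
    have h6 := congrFun (hf b) m
    have h7 := congrFun (hf a) k
    have h8 := congrFun (hf b) k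
    simp only [ddE_other h2 h3, ddE_left hkl, Pi.smul_apply, smul_eq_mul, hab] at h5 h6 h7 h8
    have h9 : c a = c b := mul_right_cancel₀ (right_ne_zero_of_mul (h5 ▸ h4)) (h5.symm.trans h6)
    exact Units.ext (mul_right_cancel₀ h1 (by rw [h7, h8, h9]))
  let W := Submodule.span F {x | x ∈ [g (ev F j), ev F k, ev F l]}
  have hW : ∀ a, g (ev F (f a)) ∈ W := fun a => by
    rw [← W.smul_mem_iff (hc a), ← hf]
    have : ddE k l a (g (ev F j)) = g (ev F j) + ((a - 1) * g (ev F j) k) • ev F k +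
        (((a : F)⁻¹ - 1) * g (ev F j) l) • ev F l := by
      ext p
      by_cases hp : p = k
      · subst hp; simp [ddE_left hkl, hkl]; ring
      by_cases hp' : p = l
      · subst hp'; simp [ddE_right hkl, hp]; ring
      · simp [ddE_other hp hp', hp, hp']
    rw [this]
    exact W.add_mem (W.add_mem (Submodule.subset_span (by simp)) (W.smul_mem _
      (Submodule.subset_span (by simp)))) (W.smul_mem _ (Submodule.subset_span (by simp)))
  have hli : LinearIndependent F fun a : Fˣ => (⟨_, hW a⟩ : W) := by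
    refine LinearIndependent.of_comp W.subtype ?_
    have := (((Pi.basisFun F ι).map g).linearIndependent.comp f hinj)
    convert this using 1
    ext a; simp
  classical
  have h5 := hli.fintype_card_le_finrank.trans (finrank_span_list_le _)
  simp [Fintype.card_units] at h5; omega

section NoWin

variable (hn : 5 ≤ Fintype.card ι) (hq : 5 ≤ Fintype.card F) (hH : Mon F ι ⊓ SLv F (ι → F) ≤ H)
  (hW : ∀ h ∈ H, ∀ i, h (ev F i) ∈ F ∙ ev F i → h ∈ Mon F ι)
include hn hq hH hW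

theorem noWin_two {g : (ι → F) ≃ₗ[F] (ι → F)} (hg : g ∈ H) {j k l : ι} (hkl : k ≠ l)
    (h1 : g (ev F j) k = 0) (h2 : g (ev F j) l = 0) : g ∈ Mon F ι := by
  have hA : ∀ j k l, k ≠ l → g (ev F j) k = 0 → g (ev F j) l = 0 → ∀ j', g (ev F j') k ≠ 0 →
      ∀ m, m ≠ k → m ≠ l → g (ev F j') m = 0 := fun j k l hkl h1 h2 j' h3 m =>
    col_dd hq hkl (fun a => hW _ (H.mul_mem (H.mul_mem (H.inv_mem hg) (hH (ddE_mem k l a))) hg) j
      (by
        have : ddE k l a (g (ev F j)) = g (ev F j) := by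
          ext p
          by_cases hp : p = k
          · subst hp; simp [ddE_left hkl, h1]
          by_cases hp' : p = l
          · subst hp'; simp [ddE_right hkl, h2]
          · simp [ddE_other hp hp']
        simp [this])) h3
  have hB : ∀ j k l, (∀ m, m ≠ k → m ≠ l → g (ev F j) m = 0) → ∀ r, r ≠ k → r ≠ l → ∀ j',
      g (ev F j') r ≠ 0 → ∀ m, m ≠ r → g (ev F j') m = 0 := fun j k l h r hk hl j' h3 m hm => by
    obtain ⟨s, hs⟩ := exists_notMem_list [k, l, r, m] (by simp; omega)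
    simp only [List.mem_cons, List.not_mem_nil, or_false, not_or] at hs
    exact hA j r s (Ne.symm hs.2.2.1) (h r hk hl) (h s hs.1 hs.2.1) j' h3 m hm (Ne.symm hs.2.2.2)
  have hC : ∀ k, ∃ j, g (ev F j) k ≠ 0 := fun k => by
    by_contra! hc
    obtain ⟨x, hx⟩ := g.surjective (ev F k)
    have := congrFun hx k
    rw [eq_sum_ev x] at this
    simp [hc] at this
  obtain ⟨j₁, hj₁⟩ := hC k
  obtain ⟨r, hr⟩ := exists_notMem_list [k, l] (by simp; omega)
  simp only [List.mem_cons, List.not_mem_nil, or_false, not_or] at hr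
  obtain ⟨j₂, hj₂⟩ := hC r
  have h3 := hB j₁ k l (hA j k l hkl h1 h2 j₁ hj₁) r hr.1 hr.2 j₂ hj₂
  refine mem_Mon.2 fun j => ?_
  by_cases h4 : ∃ s, s ≠ r ∧ g (ev F j) s ≠ 0
  · obtain ⟨s, hs, h4⟩ := h4
    exact ⟨s, hB j₂ r r (fun m hm _ => h3 m hm) s hs hs j h4⟩
  · exact ⟨r, by simpa using h4⟩

omit hq in
theorem noWin_full {g : (ι → F) ≃ₗ[F] (ι → F)} (hg : g ∈ H) (i : ι) : ∃ p, g (ev F i) p = 0 := by
  by_contra! hc
  let D := dgE fun p => Units.mk0 _ (hc p)
  refine col_full hn (g := D⁻¹ * g) (i := i) (by ext p; simp [D, hc]) fun s hs => ?_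
  have h1 : D * pmE F ι s * D⁻¹ ∈ H := hH ⟨Subgroup.mul_mem _ (Subgroup.mul_mem _ (dgE_mem _)
    (pmE_mem _)) (Subgroup.inv_mem _ (dgE_mem _)),
    (SLv_normal).conj_mem _ (mem_SLv.2 (by simp [det_pmE, hs])) _⟩
  have h2 : (D * pmE F ι s * D⁻¹) (g (ev F i)) = g (ev F i) := by ext p; simp [D, hc]
  have := hW _ (H.mul_mem (H.mul_mem (H.inv_mem hg) h1) hg) i (by
    rw [LinearEquiv.mul_apply, LinearEquiv.mul_apply, h2]; simp)
  simpa [mul_assoc] using this

theorem noWin_le : H ≤ Mon F ι := fun g hg => by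
  classical
  by_contra hg'
  choose z hz using noWin_full hn hH hW hg
  have hz' : ∀ j p, g (ev F j) p = 0 ↔ p = z j := fun j p =>
    ⟨fun h => by_contra fun h' => hg' (noWin_two hn hq hH hW hg h' h (hz j)), fun h => h ▸ hz j⟩
  obtain ⟨i⟩ : Nonempty ι := Fintype.card_pos_iff.1 (by omega)
  let d : ι → Fˣ := fun p => if h : g (ev F i) p = 0 then 1 else Units.mk0 _ h
  let D := dgE d
  obtain ⟨x, hx, hx', hx''⟩ := col_corank hn hq (g := D⁻¹ * g) (i := i) (k := z i)
    (fun p hp => by simp [D, d, hz', hp]) (z := z) (fun j p => by simp [D, hz']) rfl fun s hs hk => by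
    have h1 : D * pmE F ι s * D⁻¹ ∈ H := hH ⟨Subgroup.mul_mem _ (Subgroup.mul_mem _ (dgE_mem _)
      (pmE_mem _)) (Subgroup.inv_mem _ (dgE_mem _)),
      (SLv_normal).conj_mem _ (mem_SLv.2 (by simp [det_pmE, hs])) _⟩
    have h2 : (D * pmE F ι s * D⁻¹) (g (ev F i)) = g (ev F i) := by
      ext p
      have h3 : s.symm p = z i ↔ p = z i := by rw [Equiv.symm_apply_eq, hk]
      by_cases hp : p = z i
      · simp [D, hp, hz, s.symm_apply_eq.2 hk.symm]
      · simp [D, d, hz', hp, h3]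
    have := hW _ (H.mul_mem (H.mul_mem (H.inv_mem hg) h1) hg) i (by
      rw [LinearEquiv.mul_apply, LinearEquiv.mul_apply, h2]; simp)
    simpa [mul_assoc] using this
  have h3 : ∀ p, p ≠ i → g (ev F i) (Equiv.swap (z i) i p) ≠ 0 := fun p hp h => by
    rw [hz', Equiv.swap_apply_eq_iff, Equiv.swap_apply_left] at h; exact hp h
  let e : ι → Fˣ := fun p => if h : p = i then 1 else Units.mk0 _ (div_ne_zero (hx' p h) (h3 p h))
  obtain ⟨m, hm, c, hc⟩ := exists_fix_det (Subgroup.mul_mem _ (dgE_mem e)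
    (pmE_mem (Equiv.swap (z i) i))) i
  have h4 : m (g (ev F i)) = x := by
    ext p
    by_cases hp : p = i
    · subst hp; simp [hc, hz, hx]
    · simp [hc, hp, e, h3 p hp]
  obtain ⟨p, hp⟩ := noWin_full hn hH hW (H.mul_mem (H.mul_mem hg (hH hm)) hg) i
  refine hx'' p ?_
  simp only [LinearEquiv.mul_apply, h4] at hp
  simp [D, hp]

end NoWin

/-- restriction to the coordinates different from `i` -/
abbrev resP (F : Type*) [Field F] {ι : Type} (i : ι) : (ι → F) →ₗ[F] ({j // j ≠ i} → F) :=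
  LinearMap.funLeft F F Subtype.val

/-- extension by zero -/
def extP (F : Type*) [Field F] {ι : Type} [DecidableEq ι] (i : ι) :
    ({j // j ≠ i} → F) →ₗ[F] (ι → F) :=
  LinearMap.pi fun p => if h : p = i then 0 else LinearMap.proj ⟨p, h⟩

omit [Fintype ι] [Fintype F] in
theorem extP_self (i : ι) (y : {j // j ≠ i} → F) : extP F i y i = 0 := by simp [extP]

omit [Fintype ι] [Fintype F] in
theorem extP_ne {i p : ι} (h : p ≠ i) (y : {j // j ≠ i} → F) : extP F i y p = y ⟨p, h⟩ := by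
  simp [extP, h]

omit [Fintype ι] [Fintype F] in
theorem resP_extP (i : ι) (y : {j // j ≠ i} → F) : resP F i (extP F i y) = y := by
  ext p; exact extP_ne p.2 y

omit [Fintype ι] [Fintype F] in
theorem extP_resP (i : ι) (x : ι → F) : extP F i (resP F i x) = x - x i • ev F i := by
  ext p
  by_cases h : p = i
  · subst h; simp [extP_self]
  · simp [extP_ne h, h]

omit [Fintype ι] [Fintype F] in
theorem resP_ev_self (i : ι) : resP F i (ev F i) = 0 := by
  ext p; simp [p.2]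

omit [Fintype ι] [Fintype F] in
theorem resP_ev {i : ι} (j : {j // j ≠ i}) : resP F i (ev F j.1) = ev F j := by
  ext p; simp [Pi.single_apply, Subtype.ext_iff]

omit [Fintype ι] [Fintype F] in
theorem resP_of_mem {i : ι} {x : ι → F} (h : x ∈ F ∙ ev F i) : resP F i x = 0 := by
  ext p; exact mem_span_ev.1 h p p.2

omit [Fintype F] in
theorem exists_resP {g : (ι → F) ≃ₗ[F] (ι → F)} {i : ι} (h : g (ev F i) ∈ F ∙ ev F i) :
    ∃ k : ({j // j ≠ i} → F) ≃ₗ[F] ({j // j ≠ i} → F), ∀ x, k (resP F i x) = resP F i (g x) := by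
  have h1 : ∀ x, resP F i (g (extP F i (resP F i x))) = resP F i (g x) := fun x => by
    simp [extP_resP, resP_of_mem h]
  refine ⟨LinearEquiv.ofBijective (resP F i ∘ₗ g.toLinearMap ∘ₗ extP F i) ?_, h1⟩
  refine ⟨LinearMap.injective_iff_surjective.2 ?_, ?_⟩ <;>
    exact fun y => ⟨resP F i (g.symm (extP F i y)), (h1 _).trans (by simp [resP_extP])⟩

/-- the group induced on the quotient by a coordinate line -/
def quotG (H : Subgroup ((ι → F) ≃ₗ[F] (ι → F))) (i : ι) :
    Subgroup (({j // j ≠ i} → F) ≃ₗ[F] ({j // j ≠ i} → F)) where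
  carrier := {k | ∃ g ∈ H, ∀ x, k (resP F i x) = resP F i (g x)}
  mul_mem' := by
    rintro a b ⟨g, hg, h1⟩ ⟨h, hh, h2⟩
    exact ⟨g * h, H.mul_mem hg hh, fun x => by simp only [LinearEquiv.mul_apply, h1, h2]⟩
  one_mem' := ⟨1, H.one_mem, fun _ => rfl⟩
  inv_mem' := by
    rintro a ⟨g, hg, h1⟩
    exact ⟨g⁻¹, H.inv_mem hg, fun x => a.injective (by simp [h1])⟩

omit [Fintype F] in
theorem exists_lift_Mon {i : ι} {k : ({j // j ≠ i} → F) ≃ₗ[F] ({j // j ≠ i} → F)}
    (hk : k ∈ Mon F {j // j ≠ i}) :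
    ∃ m ∈ Mon F ι ⊓ SLv F (ι → F), ∀ x, k (resP F i x) = resP F i (m x) := by
  let L : (({j // j ≠ i} → F) ≃ₗ[F] ({j // j ≠ i} → F)) → (ι → F) →ₗ[F] (ι → F) := fun k =>
    extP F i ∘ₗ k.toLinearMap ∘ₗ resP F i + (LinearMap.proj i : (ι → F) →ₗ[F] F).smulRight (ev F i)
  have hL : ∀ k x, L k x = extP F i (k (resP F i x)) + x i • ev F i := fun _ _ => rfl
  let g : (ι → F) ≃ₗ[F] (ι → F) := LinearEquiv.ofLinearMap (L k) (L k.symm)
    (LinearMap.ext fun x => by simp [hL, resP_extP, resP_ev_self, extP_self, extP_resP])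
    (LinearMap.ext fun x => by simp [hL, resP_extP, resP_ev_self, extP_self, extP_resP])
  have hg : g ∈ Mon F ι := mem_Mon.2 fun j => by
    by_cases hj : j = i
    · exact ⟨i, fun p hp => by simp [g, hL, hj, resP_ev_self, hp]⟩
    obtain ⟨l, hl⟩ := mem_Mon.1 hk ⟨j, hj⟩
    refine ⟨l, fun p hp => ?_⟩
    have := resP_ev (F := F) (i := i) ⟨j, hj⟩
    by_cases hp' : p = i
    · simp [g, hL, hp', extP_self, Ne.symm hj]
    · simpa [g, hL, extP_ne hp', Ne.symm hj, this] using hl ⟨p, hp'⟩ fun h => hp (h ▸ rfl)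
  obtain ⟨m, hm, c, rfl⟩ := exists_fix_det hg i
  exact ⟨_, hm, fun x => by simp [dgE_update_apply, g, hL, resP_extP, resP_ev_self]⟩

omit [Fintype F] in
theorem exists_dual_of_resP {i : ι} {z : (ι → F) ≃ₗ[F] (ι → F)} {φ : Dual F (ι → F)} {u : ι → F}
    (h : ∀ x, resP F i (z x) = resP F i (x + φ x • u)) :
    ∃ ψ : Dual F (ι → F), ∀ x, z x = x + φ x • u + ψ x • ev F i :=
  ⟨LinearMap.proj i ∘ₗ (z.toLinearMap - LinearMap.id - φ.smulRight u), fun x => by
    ext p
    by_cases hp : p = i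
    · subst hp; simp
    · simpa [hp] using congrFun (h x) ⟨p, hp⟩⟩

theorem SLv_le_of_Mon (hn : 5 ≤ Fintype.card ι) (hq : 5 ≤ Fintype.card F)
    (hH : Mon F ι ⊓ SLv F (ι → F) ≤ H) (hS : H ≤ SLv F (ι → F)) (h : ¬ H ≤ Mon F ι) :
    SLv F (ι → F) ≤ H := by
  by_contra hc
  obtain ⟨g, hg, i, hi, hg'⟩ : ∃ g ∈ H, ∃ i, g (ev F i) ∈ F ∙ ev F i ∧ g ∉ Mon F ι := by
    by_contra! hc; exact h (noWin_le hn hq hH hc)
  have hR : ∀ z ∈ H, (∀ x, resP F i (z x) = resP F i x) → z = 1 := fun z hz h1 => by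
    obtain ⟨ψ, hψ⟩ := exists_dual_of_resP (φ := 0) (u := 0) (z := z) (by simpa using h1)
    simp only [smul_zero, add_zero] at hψ
    by_contra h2
    exact hc (SLv_le_of_tIn_ev (by omega) (by omega) hH (eq_zero_of_mem_SLv (hS hz) hψ)
      (by rintro rfl; exact h2 (LinearEquiv.ext fun x => by simp [hψ])) ⟨z, hz, hψ⟩)
  have hM : Mon F {j // j ≠ i} ≤ quotG H i := fun k hk =>
    let ⟨m, hm, h1⟩ := exists_lift_Mon hk; ⟨m, hH hm, h1⟩
  have hn' : 4 ≤ Fintype.card {j // j ≠ i} := by simp; omega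
  obtain ⟨j, ψ, h0, ht, h1⟩ : ∃ (j : {j // j ≠ i}) (ψ : Dual F ({j // j ≠ i} → F)),
      ψ (ev F j) = 0 ∧ TIn (quotG H i) ψ (ev F j) ∧ ψ ≠ 0 := by
    by_contra! hc
    obtain ⟨k, hk⟩ := exists_resP hi
    obtain ⟨m, hm, h1⟩ := exists_lift_Mon (monGL_le hM hc (by omega) hq ⟨g, hg, hk⟩)
    have := hR (m⁻¹ * g) (H.mul_mem (H.inv_mem (hH hm)) hg) fun x => k.injective (by
      rw [h1, hk]; simp)
    exact hg' (inv_mul_eq_one.1 this ▸ hm.1)
  have hSL := SLv_le_of_tIn_ev hn' (by omega) (inf_le_left.trans hM) h0 h1 ht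
  obtain ⟨k, hk⟩ := exists_notMem_list [j] (by simp only [List.length_singleton]; omega)
  simp only [List.mem_singleton] at hk
  have hk' : k.1 ≠ j.1 := Subtype.val_injective.ne hk
  obtain ⟨_, ⟨z, hz, h2⟩, h3⟩ := (tIn_SLv (φ := LinearMap.proj k) (u := ev F j) (by simp [hk])).mono hSL
  obtain ⟨χ, hχ⟩ := exists_dual_of_resP (i := i) (z := z) (φ := LinearMap.proj k.1) (u := ev F j.1)
    fun x => by rw [← h2, h3]; simp [resP_ev]
  have h4 : χ (ev F i) = 0 := by
    have h4 : (LinearMap.proj k.1 : Dual F (ι → F)) (ev F j.1) = 0 := by simp [hk']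
    have := eq_zero_of_mem_SLv (φ := χ) (u := ev F i)
      ((SLv F _).mul_mem ((SLv F _).inv_mem (tv_mem_SLv h4)) (hS hz)) fun x => by
        rw [LinearEquiv.mul_apply, LinearEquiv.coe_inv, LinearEquiv.symm_apply_eq, hχ]
        simp [tv_apply, k.2]; abel
    exact this
  obtain ⟨a, ha0, ha1⟩ := exists_ne_zero_one (F := F) (by omega)
  have h5 : χ = 0 := dual_ext_ev fun r => by
    by_cases hr : r = i
    · rw [hr, h4]; rfl
    obtain ⟨l, hl⟩ := exists_notMem_list [i, j.1, k.1] (by simp; omega)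
    obtain ⟨l', hl'⟩ := exists_notMem_list [i, j.1, k.1, l] (by simp; omega)
    obtain ⟨l, hl, hlr⟩ : ∃ l, l ∉ [i, j.1, k.1] ∧ l ≠ r := by
      by_cases h : l = r
      · exact ⟨l', fun h' => hl' (by simp at h' ⊢; tauto), fun h' => hl' (by simp [h, h'])⟩
      · exact ⟨l, hl, h⟩
    simp only [List.mem_cons, List.not_mem_nil, or_false, not_or] at hl
    let t := ddE i l (Units.mk0 a ha0)
    have h6 : t * z = z * t := by
      rw [← mul_inv_eq_one, mul_inv_rev]
      refine hR _ (H.mul_mem (H.mul_mem (hH (ddE_mem _ _ _)) hz) (H.mul_mem (H.inv_mem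
        (hH (ddE_mem _ _ _))) (H.inv_mem hz))) fun x => ?_
      obtain ⟨x, rfl⟩ := (z * t).surjective x
      rw [← mul_inv_rev, LinearEquiv.mul_apply, LinearEquiv.coe_inv, LinearEquiv.symm_apply_apply]
      ext ⟨p, hp⟩
      by_cases hpl : p = l
      · subst hpl; simp [hχ, t, hp, hl.2.1, ddE_right (Ne.symm hp)]
      · simp [hχ, t, hp, ddE_other hp hpl, ddE_other k.2 (Ne.symm hl.2.2)]
    have h7 : t (ev F r) = ev F r := by
      ext p; by_cases hp : p = r
      · subst hp; exact ddE_other hr hlr.symm _ _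
      · simp [t, ddE, hp]
    have h8 := congrFun (LinearEquiv.congr_fun h6 (ev F r)) i
    simp only [LinearEquiv.mul_apply, h7] at h8
    have h9 : a * χ (ev F r) = χ (ev F r) := by
      simpa [t, ddE_left (Ne.symm hl.1), hχ, Ne.symm hr, j.2.symm] using h8
    by_contra h10
    exact ha1 ((mul_eq_right₀ h10).1 h9)
  exact hc (SLv_le_of_tIn_ev (by omega) (by omega) hH (i := j.1) (ψ := LinearMap.proj k.1)
    (by simp [hk']) (fun h => by simpa using LinearMap.congr_fun h (ev F k.1))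
    ⟨z, hz, fun x => by simp [hχ, h5]⟩)

theorem isMaximalIn_Mon (hn : 5 ≤ Fintype.card ι) (hq : 5 ≤ Fintype.card F) :
    IsMaximalIn (SLv F (ι → F)) (Mon F ι ⊓ SLv F (ι → F)) :=
  isMaximalIn_of inf_le_right
    (let ⟨g, h1, h2⟩ := prj_ev.exists_not_mem_decL finrank_ev one_pos (by omega);
      ⟨g, h1, fun h3 => h2 h3.1⟩)
    fun _ h1 h2 _ hg hg' => SLv_le_of_Mon hn hq h1 h2 fun h3 => hg' ⟨h3 hg, h2 hg⟩

omit [Fintype F] in
theorem mem_decL_conjE {V W : Type*} [AddCommGroup V] [Module F V] [AddCommGroup W] [Module F W]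
    (e : V ≃ₗ[F] W) {α : Type*} {D : α → Submodule F V} {g : V ≃ₗ[F] V} :
    g ∈ decL D ↔ conjE e g ∈ decL fun i => (D i).map e.toLinearMap := by
  refine exists_congr fun s => forall_congr' fun i => ?_
  rw [← (Submodule.map_injective_of_injective (f := e.toLinearMap) e.injective).eq_iff,
    ← Submodule.map_comp, ← Submodule.map_comp]
  congr! 2; ext; simp [conjE]

theorem isMaximalIn_decL_SL {V : Type*} [AddCommGroup V] [Module F V] [FiniteDimensional F V]
    {D : ι → Submodule F V} (h1 : iSupIndep D) (h2 : iSup D = ⊤) {m : ℕ}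
    (hm : ∀ i, finrank F (D i) = m) (ht : 2 ≤ Fintype.card ι)
    (h : 3 ≤ m ∨ (m = 2 ∧ 3 ≤ Fintype.card ι ∧ 3 ≤ Fintype.card F) ∨
      (m = 1 ∧ 5 ≤ Fintype.card ι ∧ 5 ≤ Fintype.card F)) :
    IsMaximalIn (SLv F V) (decL D ⊓ SLv F V) := by
  obtain ⟨π, hπ⟩ := exists_prj h1 h2
  rw [← or_assoc] at h
  rcases h with h | ⟨rfl, hn, hq⟩
  · exact hπ.isMaximalIn hm ht h
  have hI := DirectSum.isInternal_submodule_of_iSupIndep_of_iSup_eq_top h1 h2
  let b := fun i => finBasisOfFinrankEq F (D i) (hm i)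
  let c : Basis ι F V := (hI.collectedBasis b).reindex (Equiv.sigmaUnique ι fun _ => Fin 1)
  have hc : ∀ i, c i = b i 0 := fun i => by simp [c]; rfl
  have h3 : (fun i => (D i).map c.equivFun.toLinearMap) = fun i => F ∙ ev F i := by
    ext1 i
    have : D i = F ∙ c i := (Submodule.eq_of_le_of_finrank_eq (by simp [hc])
      (by rw [hm, finrank_span_singleton (c.ne_zero i)])).symm
    rw [this, Submodule.map_span, Set.image_singleton]
    congr 2; ext p; simp [Pi.single_apply, eq_comm]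
  refine isMaximalIn_of_iff (conjE c.equivFun) (isMaximalIn_Mon hn hq)
    (fun g => by rw [mem_SLv, mem_SLv, det_conjE]) fun g => and_congr ?_ ?_
  · change g ∈ decL D ↔ _ ∈ Mon F ι
    rw [mem_decL_conjE c.equivFun, h3]
  · change g ∈ SLv F V ↔ _ ∈ SLv F _
    rw [mem_SLv, mem_SLv, det_conjE]

theorem isMaximalIn_dec_SL {κ : Type} [Fintype κ] [DecidableEq κ] {t m : ℕ}
    {D : Fin t → Submodule F (κ → F)} (hD : IsMDecomposition m D)
    (h : 3 ≤ m ∨ (m = 2 ∧ 3 ≤ t ∧ 3 ≤ Fintype.card F) ∨ (m = 1 ∧ 5 ≤ t ∧ 5 ≤ Fintype.card F)) :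
    IsMaximalIn (specialLinear κ F) (decompositionStabilizer D ⊓ specialLinear κ F) :=
  isMaximalIn_of_iff (glE κ F) (isMaximalIn_decL_SL hD.indep hD.iSup_eq_top hD.finrank_eq
    (by simpa using hD.two_le) (by simpa using h)) (fun _ => mem_specialLinear_iff)
    fun _ => and_congr mem_decompositionStabilizer_iff mem_specialLinear_iff

end H23
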