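import Cfsg.Agent.H23.Tn4
import Cfsg.Agent.H23.Mx3
import Cfsg.Agent.H23.C8

/-!
Matrix versions of the maximality theorems for the geometric subgroups of `SL_n(q)`.
-/

set_option autoImplicit false

namespace H23

open Cfsg.Geo

variable {F : Type*} [Field F] [Fintype F] {n : ℕ}

omit [Fintype F] in
theorem ls_c1 (W : Submodule F (Fin n → F)) (h0 : W ≠ ⊥) (h1 : W ≠ ⊤) :
    IsMaximalIn (specialLinear (Fin n) F) (subspaceStabilizer W ⊓ specialLinear (Fin n) F) :=
  isMaximalIn_of_iff (glE _ F) (isMaximalIn_stabL h0 h1) (fun _ => mem_specialLinear_iff)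
    fun _ => and_congr mem_subspaceStabilizer_iff mem_specialLinear_iff

theorem ls_c3 {r : ℕ} (hr : r.Prime) (hlt : r < n) (K : Subalgebra F (Matrix (Fin n) (Fin n) F))
    (hK : IsFieldSubalgebra r K) :
    IsMaximalIn (specialLinear (Fin n) F) (subalgebraNormalizer K ⊓ specialLinear (Fin n) F) :=
  (Tn.isMaximalIn_normalizer hr (by simpa) hK).2

theorem ls_c5 (hn : 4 ≤ n) (F₀ : Subfield F) (r : ℕ) (P : GL (Fin n) F) (hr : r.Prime)
    (hcard : Fintype.card F = Nat.card F₀ ^ r) :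
    IsMaximalIn (specialLinear (Fin n) F) (subfieldSubgroup F₀ P ⊓ specialLinear (Fin n) F) :=
  isMaximalIn_of_iff (glE _ F) ((Sf.rl_colS (F₀ := F₀) P).isMaximalIn (Sf.pd_of_card hr hcard)
    (by simpa)) (fun _ => mem_specialLinear_iff) fun _ =>
      and_congr Sf.mem_subfieldSubgroup_iff_Mg mem_specialLinear_iff

theorem ls_c8o (hn : 9 ≤ n) (hodd : Odd (Fintype.card F)) (Q : (Fin n → F) → F)
    (hQ : IsNondegenerateQuadraticForm Q) :
    IsMaximalIn (specialLinear (Fin n) F) (quadSimilarityGroup Q ⊓ specialLinear (Fin n) F) := by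
  obtain ⟨Q, rfl, hΦ⟩ := exists_quad hQ
  exact isMaximalIn_of_iff (glE (Fin n) F) (Form.isMaximalIn_Sim hΦ (Form.iso3_quad rfl)
    (by simpa)) (fun g => mem_specialLinear_iff) fun g =>
      and_congr (mem_quadSimilarityGroup_iff (two_ne_zero_of_odd_card hodd)) mem_specialLinear_iff

theorem ls_c8s (hn : 9 ≤ n) (f : (Fin n → F) → (Fin n → F) → F) (hf : IsSymplecticForm f) :
    IsMaximalIn (specialLinear (Fin n) F) (similarityGroup f ⊓ specialLinear (Fin n) F) := by
  obtain ⟨Φ, hΦ, hε, hκ, h⟩ := exists_form_of_isSymplecticForm hf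
  exact isMaximalIn_of_iff (glE (Fin n) F) (Form.isMaximalIn_Sim hΦ (Form.iso3_alt hε hκ)
    (by simpa)) (fun g => mem_specialLinear_iff) fun g =>
      and_congr (mem_similarityGroup_iff (Or.inl h)) mem_specialLinear_iff

theorem ls_c8u (hn : 9 ≤ n) (σ : F ≃+* F) (f : (Fin n → F) → (Fin n → F) → F)
    (hf : IsUnitaryForm σ f) :
    IsMaximalIn (specialLinear (Fin n) F) (similarityGroup f ⊓ specialLinear (Fin n) F) := by
  obtain ⟨hσ, Φ, hΦ, hε, h⟩ := exists_form_of_isUnitaryForm hf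
  exact isMaximalIn_of_iff (glE (Fin n) F) (Form.isMaximalIn_Sim hΦ (Form.iso3_herm hσ hε)
    (by simpa)) (fun g => mem_specialLinear_iff) fun g =>
      and_congr (mem_similarityGroup_iff (Or.inr h)) mem_specialLinear_iff

end H23
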