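import Cfsg.Agent.H23.Tri

/-!
Monomial matrices and normalisers of diagonal groups.
-/

set_option autoImplicit false

namespace H23

open Module Matrix Cfsg

variable {F : Type*} [Field F] {ι : Type} [Fintype ι] [DecidableEq ι]

theorem exists_ne_zero_row {A B : Matrix ι ι F} (h : A * B = 1) (i : ι) : ∃ j, A i j ≠ 0 := by
  by_contra! hc
  have := congrFun (congrFun h i) i
  simp [Matrix.mul_apply, hc] at this

theorem exists_ne_zero_col {A B : Matrix ι ι F} (h : B * A = 1) (j : ι) : ∃ i, A i j ≠ 0 := by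
  by_contra! hc
  have := congrFun (congrFun h j) j
  simp [Matrix.mul_apply, hc] at this

theorem exists_perm_of_mono {A B : Matrix ι ι F} (h : B * A = 1) (h1 : ∀ i, ∃! j, A i j ≠ 0) :
    ∃ π : Equiv.Perm ι, ∀ i j, A i j ≠ 0 ↔ j = π i := by
  choose f hf hf' using h1
  have hs : Function.Surjective f := fun j => by
    obtain ⟨i, hi⟩ := exists_ne_zero_col h j
    exact ⟨i, (hf' i j hi).symm⟩
  exact ⟨Equiv.ofBijective f (Finite.surjective_iff_bijective.1 hs), fun i j =>
    ⟨hf' i j, by rintro rfl; exact hf i⟩⟩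

theorem mul_diagonal_of_mono {A : Matrix ι ι F} {π : Equiv.Perm ι} (h : ∀ i j, A i j ≠ 0 ↔ j = π i)
    (d : ι → F) : A * diagonal d = diagonal (d ∘ π) * A := by
  ext i j
  rw [mul_diagonal, diagonal_mul]
  by_cases hij : j = π i
  · rw [hij, mul_comm]; rfl
  · rw [not_not.1 (mt (h i j).1 hij)]; simp

theorem eq_of_mul_diagonal {A : Matrix ι ι F} {d d' : ι → F} (h : A * diagonal d = diagonal d' * A)
    {i j : ι} (hij : A i j ≠ 0) : d j = d' i := by
  have := congrFun (congrFun h i) j
  rw [mul_diagonal, diagonal_mul, mul_comm] at this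
  exact mul_right_cancel₀ hij this

end H23
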