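import Cfsg.Agent.H23.Nd1
import Cfsg.Agent.H22.AutH

/-! Stabilisers of non-degenerate subspaces of small dimension in `Ω`. -/

set_option autoImplicit false

namespace H23

open Module H22 Cfsg Cfsg.Geo Form

namespace Nd

variable {F V : Type*} [Field F] [AddCommGroup V] [Module F V] {Φ : Form (RingHom.id F) V}
  {H : Subgroup (V ≃ₗ[F] V)} {D D' U : Submodule F V} {u f e e' x y : V} {g : V ≃ₗ[F] V}
  [FiniteDimensional F V]

theorem finrank_le_one (x : V) : finrank F (F ∙ x) ≤ 1 := by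
  simpa using finrank_span_le_card (R := F) ({x} : Set V)

/-- an Eichler transformation of `H` fixing a singular vector of `U` -/
theorem ST.eich (hS : ST Φ H U) (C : Ctx Φ H) (hx : x ∈ U) (h1 : Φ.Q x = 0) (h0 : x ≠ 0)
    (hu : Φ.Q u = 0) (h : Φ.AIn H u e) (h2 : Φ.B u x = 0) (h3 : Φ.B e x = 0) :
    ∀ d ∈ U, d + (Φ.B e d - Φ.Q e * Φ.B u d) • u - Φ.B u d • e ∈ U := by
  obtain ⟨t, ht, -, h4⟩ := h.apply C.κ hu
  have := hS t ht x hx h1 h0 (by simpa [h4, h2, h3] using hx)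
  exact fun d hd => h4 d ▸ apply_mem_of_mem_stabL this hd

theorem le_of_sing (hΦ : Φ.Nondeg) (hκ : Φ.κ = 1) (hU : Disjoint U (Φ.perp U)) (hu : u ∈ U)
    (h1 : Φ.Q u = 0) (h0 : u ≠ 0) (h : ∀ x ∈ U, Φ.Q x = 0 → x ≠ 0 → x ∈ D) : U ≤ D := by
  obtain ⟨f, hfU, hf⟩ := hyp_of_nd hΦ hκ hU hu h1 h0
  refine le_of_sing_mem hf hu hfU fun x hx hs => ?_
  by_cases h2 : x = 0
  exacts [h2 ▸ D.zero_mem, h x hx hs.2 h2]

variable [Finite F]

theorem t_lemma (C : Ctx Φ H) (hU : Blk Φ H U) (h4 : 4 ≤ finrank F U) (hD : Disjoint D (Φ.perp D))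
    (h5 : 5 ≤ finrank F D) (hS : ST Φ H D) (hx : x ∈ U) (hQ : Φ.Q x = 0) :
    x ∈ D ∨ x ∈ Φ.perp D := by
  by_contra! hc
  obtain ⟨a, ha, hb⟩ := dec C.nd hD x
  suffices h : U ⊓ Φ.perp (F ∙ x) ≤ Submodule.span F {x, a} by
    have e1 := Submodule.finrank_mono h
    have e2 := finrank_span_pair_le (F := F) x a
    have e3 := C.nd.finrank_le_inf_perp U (F ∙ x)
    have e4 := finrank_le_one (F := F) x
    omega
  rintro y ⟨hy, hxy⟩
  obtain ⟨u, huD, hu, hu1, hu2⟩ := (iso3_quad C.κ).exists_perp C.nd (T := D) (S := ⊥) [x, y]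
    (by simpa using h5)
  obtain ⟨c, h⟩ := eich_stab C.κ hD ha hb (by rintro rfl; exact hc.2 (by simpa using hb)) hc.1
    (hS.eich C huD hu.2 (by simpa using hu1) hQ
      (hU.aIn C.nd hx hy (Φ.mem_perp_span_singleton.1 hxy)) (hu2 x (by simp)) (hu2 y (by simp)))
  exact Submodule.mem_span_pair.2 ⟨_, _, h.symm⟩

theorem y_lemma (C : Ctx Φ H) (h2 : (2 : F) ≠ 0) (hD : Blk Φ H D) (hU : Disjoint U (Φ.perp U))
    (h4 : 4 ≤ finrank F D) (h4' : 4 ≤ finrank F U) (hS : ST Φ H U)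
    (hno : ∀ u ∈ D, Φ.Q u = 0 → u ≠ 0 → u ∉ U) : U ≤ Φ.perp D := by
  have key : ∀ x ∈ U, Φ.Q x = 0 → x ≠ 0 → ∀ a ∈ D, x - a ∈ Φ.perp D →
      D ⊓ Φ.perp (F ∙ a) ≤ Φ.perp U := by
    intro x hx h1 h0 a ha hb
    have e1 : ∀ d ∈ D, Φ.B a d = 0 → Φ.B d x = 0 := fun d hd h => by
      simpa [Φ.B_eq_zero_symm h] using hb d hd
    have k2 : ∀ u ∈ D, Φ.Q u = 0 → u ≠ 0 → Φ.B a u = 0 → ∀ e ∈ D, Φ.B a e = 0 → Φ.B u e = 0 →
        Φ.Q e ≠ 0 → u ∈ Φ.perp U := fun u hu h5 h6 h7 e he h8 h9 h10 => by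
      by_contra h11
      obtain ⟨b, hb, hb'⟩ := dec C.nd hU u
      obtain ⟨c, h⟩ := eich_stab C.κ hU hb hb' (by rintro rfl; exact h11 (by simpa using hb'))
        (hno u hu h5 h6) (hS.eich C hx h1 h0 h5 (hD.aIn C.nd hu he h9) (e1 u hu h7) (e1 e he h8))
      have e2 : Φ.B u b = 0 := by
        rw [h] at h9
        simpa [B_self_quad C.κ, h5, h10] using h9
      have e3 : Φ.Q b = 0 := by
        simpa [Φ.B_eq_zero_symm e2, B_self_quad C.κ, h2] using hb' b hb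
      refine h10 ?_
      rw [h, Q_smul_add C.κ, Φ.Q_smul, h5, e3, map_smul, e2]; simp
    by_cases h3 : Φ.Q a = 0 ∧ a ≠ 0
    · obtain ⟨f, hfD, hf⟩ := hyp_of_nd C.nd C.κ hD.nd ha h3.1 h3.2
      obtain ⟨e, he, h5, -, h6⟩ := exists_third C.nd C.κ hD.nd hD.three hf ha hfD
      have h7 := k2 a ha h3.1 h3.2 hf.left.1 e he h5 h5 h6
      rintro e ⟨he, h8⟩ v hv
      replace h8 := Φ.mem_perp_span_singleton.1 h8
      have h9 := hS.eich C hx h1 h0 h3.1 (hD.aIn C.nd ha he h8) (e1 a ha hf.left.1) (e1 e he h8) v hv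
      rw [Φ.B_eq_zero_symm (h7 v hv)] at h9
      have h10 := eq_zero hU (U.sub_mem h9 hv) (by simpa using Submodule.smul_mem _ _ h7)
      exact Φ.B_eq_zero_symm (by simpa [h3.2] using h10)
    · obtain ⟨h5, h6⟩ := nd_inf_perp C.nd (P := F ∙ a) hD.nd (Submodule.disjoint_def.2 fun v hv h => by
        obtain ⟨c, rfl⟩ := Submodule.mem_span_singleton.1 hv
        have := Φ.mem_perp_span_singleton.1 h
        simp only [map_smul, B_self_quad C.κ, smul_eq_mul, mul_eq_zero, h2, false_or] at this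
        rcases this with rfl | h
        · simp
        · simp [not_not.1 (not_and.1 h3 h)]) ((Submodule.span_singleton_le_iff_mem _ _).2 ha)
      have h7 := finrank_le_one (F := F) a
      obtain ⟨u, hu, h8, h9⟩ := exists_sing C.κ (D := D ⊓ Φ.perp (F ∙ a)) (by omega)
      refine le_of_sing C.nd C.κ h5 hu h8 h9 fun u hu h8 h9 => ?_
      obtain ⟨f, hfD, hf⟩ := hyp_of_nd C.nd C.κ h5 hu h8 h9
      obtain ⟨e, he, h10, -, h11⟩ := exists_third C.nd C.κ h5 (by omega) hf hu hfD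
      exact k2 u hu.1 h8 h9 (Φ.mem_perp_span_singleton.1 hu.2) e he.1
        (Φ.mem_perp_span_singleton.1 he.2) h10 h11
  obtain ⟨x, hx, h1, h0⟩ := exists_sing C.κ (D := U) (by omega)
  obtain ⟨a, ha, hb⟩ := dec C.nd hD.nd x
  have h5 := Φ.le_perp_comm.1 (key x hx h1 h0 a ha hb)
  rw [C.nd.perp_inf, C.nd.perp_perp] at h5
  have h6 := Submodule.finrank_mono (sup_le h5 le_sup_left : U ⊔ Φ.perp D ≤ _)
  have h7 := finrank_sup_le (Φ.perp D) (F ∙ a)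
  have h8 := Submodule.finrank_sup_add_finrank_inf_eq U (Φ.perp D)
  have h9 := finrank_le_one (F := F) a
  obtain ⟨z, hz, h10, h11⟩ := exists_sing C.κ (D := U ⊓ Φ.perp D) (by omega)
  exact Φ.le_perp_comm.1 fun d hd => key z hz.1 h10 h11 0 D.zero_mem (by simpa using hz.2)
    ⟨hd, Φ.mem_perp_span_singleton.2 (by simp)⟩

omit [Finite F] in
theorem exists_eich_apply (hΦ : Φ.Nondeg) (hκ : Φ.κ = 1) (h1 : Φ.Q u = 0) (h2 : Φ.B u e = 0) :
    ∃ t ∈ Φ.E, ∀ x, t x = x + (Φ.B e x - Φ.Q e * Φ.B u x) • u - Φ.B u x • e :=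
  ⟨(sieg hΦ hκ h1 h2).1, mem_E (eichData_quad hκ h1 h2) fun _ => rfl, sieg_apply _ _ _ _⟩

omit [Finite F] in
theorem isMaximalIn_stab [Fintype F] (hΦ : Φ.Nondeg) (hκ : Φ.κ = 1) (hV : 5 ≤ finrank F V)
    (hD : Disjoint D (Φ.perp D)) (h3 : 3 ≤ finrank F D) (hD1 : D ≠ ⊤)
    (hex : finrank F (Φ.perp D) = 2 → (∃ x ∈ Φ.perp D, x ≠ 0 ∧ Φ.Q x = 0) → 4 ≤ Fintype.card F)
    (key : ∀ H, Ctx Φ H → stabL D ⊓ Φ.E ≤ H → Blk Φ H D → NW Φ H D → ST Φ H D →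
      ∀ g ∈ H, g ∈ stabL D) : IsMaximalIn Φ.E (stabL D ⊓ Φ.E) := by
  refine isMaximalIn_of inf_le_right ?_ fun H hMH hHE g hg hgM => ?_
  · obtain ⟨u, hu, h1, h0⟩ := exists_sing hκ h3
    obtain ⟨f, hfD, hf⟩ := hyp_of_nd hΦ hκ hD hu h1 h0
    obtain ⟨w, hw, hw0⟩ := (Submodule.ne_bot_iff _).1
      fun h => hD1 (hΦ.perp_injective (h.trans (perp_top _ hΦ).symm))
    obtain ⟨t, ht, h2⟩ := exists_eich_apply hΦ hκ h1 (hw u hu)
    refine ⟨t, ht, fun h => hw0 (eq_zero hD ?_ hw)⟩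
    have := apply_mem_of_mem_stabL h.1 hfD
    rw [h2, hf.one, one_smul] at this
    simpa using D.sub_mem (D.add_mem hfD (D.smul_mem (Φ.B w f - Φ.Q w * 1) hu)) this
  by_contra hne
  have C : Ctx Φ H := ⟨hκ, hΦ, hV, hHE, hne⟩
  obtain ⟨hB, hN⟩ := nw_of_irr C hD h3 hMH (fun g hg h => stab_of_fix hΦ hg h) fun S hS hS0 h =>
    irr_quad hΦ hκ (by rw [hΦ.perp_perp]; exact hD.symm) hex hS hS0 (fun k hk =>
      h k (ED_le_stabL_of_le_perp (Φ.le_perp_perp D) hk) (ED_le_O _ hk) fun d hd =>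
        ED_fix hk (Φ.le_perp_perp D hd)) fun a ha => h _ (refl_mem_stabL hκ (.inr ha))
          (refl hκ a).2 fun d hd => refl_apply_of_perp hκ (Φ.B_eq_zero_symm (ha d hd))
  exact hgM ⟨key H C hMH hB hN (st_of_stab C hB hN hMH) g hg, hHE hg⟩

omit [Finite F] in
theorem ST.of_mem_map (hS : ST Φ H D) (C : Ctx Φ H) (hg : g ∈ H) (hx : x ∈ D.map g.toLinearMap)
    (h1 : Φ.Q x = 0) (h0 : x ≠ 0) (h : x ∈ D) : g ∈ stabL D := by
  obtain ⟨u, hu, rfl⟩ := hx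
  exact hS g hg u hu (by rw [← (C.O hg).2]; exact h1) (by rintro rfl; simp at h0) h

omit [Finite F] in
theorem isMaximalIn_nd [Fintype F] (hΦ : Φ.Nondeg) (hκ : Φ.κ = 1) (hV : 5 ≤ finrank F V)
    (hD : Disjoint D (Φ.perp D)) (h4 : 5 ≤ finrank F D ∨ (4 ≤ finrank F D ∧ (2 : F) ≠ 0))
    (hD1 : D ≠ ⊤) (hiso : ∀ g ∈ Φ.E, ¬ D.map g.toLinearMap ≤ Φ.perp D)
    (hex : finrank F (Φ.perp D) = 2 → (∃ x ∈ Φ.perp D, x ≠ 0 ∧ Φ.Q x = 0) → 4 ≤ Fintype.card F) :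
    IsMaximalIn Φ.E (stabL D ⊓ Φ.E) := by
  refine isMaximalIn_stab hΦ hκ hV hD (by omega) hD1 hex fun H C hM hB hN hS g hg => ?_
  by_contra hc
  have hd : finrank F (D.map g.toLinearMap) = finrank F D := LinearEquiv.finrank_map_eq _ _
  have hU := hB.map C hg
  refine hiso g (C.le hg) ?_
  rcases h4 with h4 | ⟨h4, h2⟩
  · obtain ⟨u, hu, h1, h0⟩ := exists_sing hκ hU.three
    exact le_of_sing hΦ hκ hU.nd hu h1 h0 fun x hx h1 h0 =>
      (t_lemma C hU (by omega) hD h4 hS hx h1).resolve_left fun h =>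
        hc (hS.of_mem_map C hg hx h1 h0 h)
  · exact y_lemma C h2 hB hU.nd h4 (by omega) (hS.map C hg) fun u hu h1 h0 h =>
      hc (hS.of_mem_map C hg h h1 h0 hu)

omit [Finite F] in
theorem isMaximalIn_nd' [Fintype F] (hΦ : Φ.Nondeg) (hκ : Φ.κ = 1)
    (hV : 9 ≤ finrank F V ∨ (7 ≤ finrank F V ∧ (2 : F) ≠ 0) ∨
      (7 ≤ finrank F V ∧ finrank F D ≠ 4 ∧ finrank F D ≠ 3))
    (hD : Disjoint D (Φ.perp D)) (hD0 : D ≠ ⊥) (hD1 : D ≠ ⊤)
    (hiso : 2 * finrank F D = finrank F V → ∀ g ∈ Φ.E, ¬ D.map g.toLinearMap ≤ Φ.perp D)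
    (hex : ∀ U, U = D ∨ U = Φ.perp D → finrank F U = 2 → (∃ x ∈ U, x ≠ 0 ∧ Φ.Q x = 0) →
      4 ≤ Fintype.card F) : IsMaximalIn Φ.E (stabL D ⊓ Φ.E) := by
  have h1 := hΦ.finrank_perp_add D
  by_cases h : finrank F (Φ.perp D) ≤ finrank F D
  · refine isMaximalIn_nd hΦ hκ (by omega) hD ?_ hD1 (fun g hg h2 => ?_) (hex _ (.inr rfl))
    · rcases hV with hV | ⟨hV, h2⟩ | hV
      exacts [.inl (by omega), .inr ⟨by omega, h2⟩, .inl (by omega)]
    · have := Submodule.finrank_mono h2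
      rw [LinearEquiv.finrank_map_eq] at this
      exact hiso (by omega) g hg h2
  · rw [← stabL_perp_inf hΦ]
    refine isMaximalIn_nd hΦ hκ (by omega) (by rw [hΦ.perp_perp]; exact hD.symm) ?_
      (fun h => hD0 (by rw [← hΦ.perp_perp D, h, perp_top _ hΦ])) (fun g hg h2 => ?_)
      (by rw [hΦ.perp_perp]; exact hex _ (.inl rfl))
    · rcases hV with hV | ⟨hV, h2⟩ | hV
      exacts [.inl (by omega), .inr ⟨by omega, h2⟩, .inl (by omega)]
    · have := Submodule.finrank_mono h2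
      rw [LinearEquiv.finrank_map_eq, hΦ.perp_perp] at this
      omega

theorem nd_of_aniso (hκ : Φ.κ = 1) (h2 : 2 ≤ finrank F D) (h : ∀ x ∈ D, Φ.Q x = 0 → x = 0) :
    Disjoint D (Φ.perp D) := Submodule.disjoint_def.2 fun w hw hw' => by
  by_contra h0
  have h1 : Φ.Q w ≠ 0 := fun h1 => h0 (h w hw h1)
  by_cases h3 : (2 : F) = 0
  · cases nonempty_fintype F
    obtain ⟨r, hr, h4⟩ := exists_notMem_span h2 w
    obtain ⟨c, hc⟩ := isSquare_of_two_eq_zero h3 (-Φ.Q r / Φ.Q w)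
    have := h (c • w + r) (D.add_mem (D.smul_mem _ hw) hr) (by
      rw [Q_smul_add hκ, Φ.B_eq_zero_symm (hw' r hr), sq, ← hc]; field_simp; ring)
    exact h4 (Submodule.mem_span_singleton.2 ⟨-c, by rw [eq_neg_of_add_eq_zero_right this]; simp⟩)
  · simpa [B_self_quad hκ, h3, h1] using hw' w hw

omit [Finite F] in
theorem exists_bin (hκ : Φ.κ = 1) (h2 : 2 ≤ finrank F D) (h : ∀ x ∈ D, Φ.Q x = 0 → x = 0) :
    ∃ p ∈ D, ∃ r ∈ D, ∃ a b : F, Φ.Q p ≠ 0 ∧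
      (∀ z₁ z₂ : F, z₁ ^ 2 + a * z₁ * z₂ + b * z₂ ^ 2 = 0 → z₁ = 0 ∧ z₂ = 0) ∧
      ∀ z₁ z₂ : F, Φ.Q (z₁ • p + z₂ • r) = Φ.Q p * (z₁ ^ 2 + a * z₁ * z₂ + b * z₂ ^ 2) := by
  obtain ⟨p, hp, h0⟩ := exists_notMem_span h2 0
  obtain ⟨r, hr, h1⟩ := exists_notMem_span h2 p
  have h3 : Φ.Q p ≠ 0 := fun h3 => h0 (by simp [h p hp h3])
  have h4 : ∀ z₁ z₂ : F, Φ.Q (z₁ • p + z₂ • r) =
      Φ.Q p * (z₁ ^ 2 + Φ.B p r / Φ.Q p * z₁ * z₂ + Φ.Q r / Φ.Q p * z₂ ^ 2) := fun z₁ z₂ => by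
    rw [Q_smul_add hκ, Φ.Q_smul, map_smul, smul_eq_mul]; field_simp; ring
  refine ⟨p, hp, r, hr, _, _, h3, fun z₁ z₂ h5 => ?_, h4⟩
  have h6 := h _ (D.add_mem (D.smul_mem z₁ hp) (D.smul_mem z₂ hr)) (by rw [h4, h5, mul_zero])
  have h7 : z₂ = 0 := by
    by_contra h7
    refine h1 (Submodule.mem_span_singleton.2 ⟨-(z₂⁻¹ * z₁), ?_⟩)
    rw [neg_smul, mul_smul, eq_neg_of_add_eq_zero_left h6, smul_neg, smul_smul]
    simp [h7]
  refine ⟨?_, h7⟩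
  rw [h7] at h5
  simpa using h5

/-- two orthogonal anisotropic planes -/
theorem exists_totSing_two (hκ : Φ.κ = 1) {P P' Z : Submodule F V} (h2 : 2 ≤ finrank F P)
    (h2' : 2 ≤ finrank F P') (h : ∀ x ∈ P, Φ.Q x = 0 → x = 0) (h' : ∀ x ∈ P', Φ.Q x = 0 → x = 0)
    (hP : P' ≤ Φ.perp P) (hZ : Φ.TotSing Z) (h1 : Z ≤ Φ.perp P) (h1' : Z ≤ Φ.perp P') :
    ∃ X, Φ.TotSing X ∧ finrank F X = finrank F Z + 2 := by
  obtain ⟨p, hp, r, hr, a, b, h3, h4, h5⟩ := exists_bin hκ h2 h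
  obtain ⟨p', hp', r', hr', a', b', h3', h4', h5'⟩ := exists_bin hκ h2' h'
  obtain ⟨e, he⟩ := exists_bin_equiv h4 h4' (k := -Φ.Q p / Φ.Q p') (by simp [h3, h3'])
  let l : V → V → (Fin 2 → F) →ₗ[F] V := fun p r =>
    (LinearMap.proj 0).smulRight p + (LinearMap.proj 1).smulRight r
  have hl : ∀ p r z, l p r z = z 0 • p + z 1 • r := fun _ _ _ => rfl
  have m1 : ∀ z, l p r z ∈ P := fun z => P.add_mem (P.smul_mem _ hp) (P.smul_mem _ hr)
  have m2 : ∀ z, l p' r' z ∈ P' := fun z => P'.add_mem (P'.smul_mem _ hp') (P'.smul_mem _ hr')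
  let φ := l p r + l p' r' ∘ₗ e.toLinearMap
  have hφ : ∀ z, φ z = l p r z + l p' r' (e z) := fun _ => rfl
  have h6 : ∀ z, φ z ∈ Z → z = 0 := fun z hz => by
    have h7 := eq_zero (nd_of_aniso hκ h2 h) (m1 z)
      (by simpa [hφ] using Submodule.sub_mem _ (h1 hz) (hP (m2 (e z))))
    obtain ⟨h8, h9⟩ := h4 (z 0) (z 1) (by
      have := h5 (z 0) (z 1)
      rw [← hl, h7] at this
      simpa [h3] using this.symm)
    ext i; fin_cases i <;> simpa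
  refine ⟨Z ⊔ LinearMap.range φ, hZ.sup (totSing_of_Q hκ ?_) ?_, ?_⟩
  · rintro _ ⟨z, rfl⟩
    rw [hφ, Q_add_quad hκ, hP (m2 _) _ (m1 z), hl, hl, h5, h5', he]
    field_simp; ring
  · rintro _ ⟨z, rfl⟩
    exact add_mem (Φ.le_perp_comm.1 h1 (m1 z)) (Φ.le_perp_comm.1 h1' (m2 _))
  · have h7 := Submodule.finrank_sup_add_finrank_inf_eq Z (LinearMap.range φ)
    rw [LinearMap.finrank_range_of_inj (LinearMap.ker_eq_bot.1 (LinearMap.ker_eq_bot'.2 fun z hz =>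
      h6 z (hz ▸ Z.zero_mem))), (Submodule.eq_bot_iff (Z ⊓ LinearMap.range φ)).2 (by
        rintro _ ⟨hz, z, rfl⟩
        simp [h6 z hz])] at h7
    simpa using h7

omit [FiniteDimensional F V] [Finite F] in
theorem totSing_pair (hκ : Φ.κ = 1) (hx : Φ.Q x = 0) (hy : Φ.Q y = 0) (h : Φ.B x y = 0) :
    Φ.TotSing (Submodule.span F {x, y}) := totSing_of_Q hκ fun v hv => by
  obtain ⟨a, b, rfl⟩ := Submodule.mem_span_pair.1 hv
  simp [Q_smul_add hκ, Φ.Q_smul, hx, hy, h]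

omit [FiniteDimensional F V] [Finite F] in
theorem finrank_pair (h0 : x ≠ 0) (h : y ∉ F ∙ x) : finrank F (Submodule.span F {x, y}) = 2 := by
  have := finrank_span_eq_card ((LinearIndependent.pair_iff' h0).2 fun a ha =>
    h (Submodule.mem_span_singleton.2 ⟨a, ha⟩))
  rwa [Matrix.range_cons_cons_empty] at this

omit [Finite F] in
theorem isMaximalIn_four' [Fintype F] (hΦ : Φ.Nondeg) (hκ : Φ.κ = 1) (hV : finrank F V = 8)
    (hD : Disjoint D (Φ.perp D)) (h4 : finrank F D = 4)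
    (hno : ∀ X, Φ.TotSing X → finrank F X ≠ 4) (hx : x ∈ D) (hy : y ∈ D) (h1 : Φ.Q x = 0)
    (h2 : Φ.Q y = 0) (h3 : Φ.B x y = 0) (h0 : x ≠ 0) (hxy : y ∉ F ∙ x) :
    IsMaximalIn Φ.E (stabL D ⊓ Φ.E) := by
  have h4' := hΦ.finrank_perp_add D
  have hD' : Disjoint (Φ.perp D) (Φ.perp (Φ.perp D)) := by rw [hΦ.perp_perp]; exact hD.symm
  refine isMaximalIn_stab hΦ hκ (by omega) hD (by omega) (by rintro rfl; simp at h4; omega)
    (by omega) fun H C hM hB hN hS g hg => ?_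
  have hM' := (stabL_perp_inf hΦ D).trans_le hM
  obtain ⟨hB', hN'⟩ := nw_of_irr C hD' (by omega) hM' (fun g hg h => stab_of_fix hΦ hg h)
    fun S hS hS0 h => by
      rw [hΦ.perp_perp] at hS ⊢
      exact irr_quad hΦ hκ hD (by omega) hS hS0 (fun k hk =>
        h k (ED_le_stabL_of_le_perp le_rfl hk) (ED_le_O _ hk) fun d hd => ED_fix hk hd)
        fun a ha => h _ (refl_mem_stabL hκ (.inr (Φ.le_perp_perp D ha))) (refl hκ a).2
          fun d hd => refl_apply_of_perp hκ (hd a ha)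
  have hO := C.O hg
  obtain ⟨t, ht, -, h5⟩ := ((hB.aIn hΦ hx hy h3).conj hg hO).apply hκ (by rw [hO.2, h1])
  rw [hO.2, h2] at h5
  set Z := Submodule.span F {g x, g y}
  have hZ : finrank F Z = 2 := finrank_pair (by simpa using h0) fun h => by
    obtain ⟨a, ha⟩ := Submodule.mem_span_singleton.1 h
    exact hxy (Submodule.mem_span_singleton.2 ⟨a, g.injective (by simpa using ha)⟩)
  have h6 : ∀ {W : Submodule F V}, ST Φ H W → (¬ ∀ v ∈ W ⊓ Φ.perp Z, Φ.Q v = 0 → v = 0) →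
      t ∈ stabL W := fun hW h => by
    push Not at h
    obtain ⟨v, ⟨hv, h7⟩, h8, h9⟩ := h
    obtain ⟨h10, h11⟩ := mem_perp_pair.1 h7
    exact hW t ht v hv h8 h9 (by simpa [h5, h10, h11] using hv)
  have h7 : t ∈ stabL D := by
    by_contra h7
    have e1 := hΦ.finrank_le_inf_perp D Z
    have e2 := hΦ.finrank_le_inf_perp (Φ.perp D) Z
    obtain ⟨X, h8, h9⟩ := exists_totSing_two hκ (P := D ⊓ Φ.perp Z) (P' := Φ.perp D ⊓ Φ.perp Z)
      (Z := Z) (by omega) (by omega) (by_contra fun h => h7 (h6 hS h))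
      (by_contra fun h => h7 ((stabL_perp_inf hΦ D).le
        ⟨h6 (st_of_stab C hB' hN' hM') h, C.le ht⟩).1)
      (inf_le_left.trans (Φ.perp_anti inf_le_left))
      (totSing_pair hκ (by rw [hO.2, h1]) (by rw [hO.2, h2]) (by rw [hO.1, h3]))
      (Φ.le_perp_comm.1 inf_le_right) (Φ.le_perp_comm.1 inf_le_right)
    exact hno X h8 (by omega)
  by_cases h8 : g x ∈ Φ.perp D
  · obtain ⟨-, -, s, hs, -, h9⟩ := hN'.exists_shift C hB hD' hg hx h1 h0 h8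
    obtain ⟨X, h10, h11⟩ := exists_totSing_of_map_le hκ hD (by rw [h4]; decide)
      (E_le_O (mul_mem hs (C.le hg))) (by rintro _ ⟨v, hv, rfl⟩; exact h9 v hv)
    exact absurd (h11.trans h4) (hno X h10)
  obtain ⟨d, hd, h9⟩ : ∃ d ∈ D, Φ.B (g x) d ≠ 0 := by simpa [mem_perp'] using h8
  have h10 := D.sub_mem (apply_mem_of_mem_stabL h7 hd) hd
  refine hS g hg (Φ.B (g y) d • x - Φ.B (g x) d • y) (D.sub_mem (D.smul_mem _ hx) (D.smul_mem _ hy))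
    (by simp [Φ.Q_sub, Φ.Q_smul, h1, h2, h3]) (fun h => hxy (Submodule.mem_span_singleton.2
      ⟨(Φ.B (g x) d)⁻¹ * Φ.B (g y) d, by
        rw [mul_smul, sub_eq_zero.1 h, smul_smul, inv_mul_cancel₀ h9, one_smul]⟩)) ?_
  convert h10 using 1
  rw [h5, map_sub, map_smul, map_smul]
  module

omit [Finite F] in
theorem isMaximalIn_four [Fintype F] (hΦ : Φ.Nondeg) (hκ : Φ.κ = 1) (hV : finrank F V = 8)
    (hD : Disjoint D (Φ.perp D)) (h4 : finrank F D = 4)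
    (hno : ∀ X, Φ.TotSing X → finrank F X ≠ 4) : IsMaximalIn Φ.E (stabL D ⊓ Φ.E) := by
  have h4' := hΦ.finrank_perp_add D
  have hD' : Disjoint (Φ.perp D) (Φ.perp (Φ.perp D)) := by rw [hΦ.perp_perp]; exact hD.symm
  have key : ∀ {D : Submodule F V}, Disjoint D (Φ.perp D) → finrank F D = 4 →
      IsMaximalIn Φ.E (stabL D ⊓ Φ.E) ∨ ∃ u ∈ D, Φ.Q u = 0 ∧ u ≠ 0 ∧ ∃ P ≤ D, 2 ≤ finrank F P ∧
        (∀ x ∈ P, Φ.Q x = 0 → x = 0) ∧ u ∈ Φ.perp P := fun {D} hD h4 => by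
    obtain ⟨u, hu, h1, h0⟩ := exists_sing hκ (D := D) (by omega)
    obtain ⟨f, hfD, hf⟩ := hyp_of_nd hΦ hκ hD hu h1 h0
    obtain ⟨W, -, h2, h3⟩ := nd_hyp hΦ hD hf hu hfD
    refine or_iff_not_imp_left.2 fun h => ⟨u, hu, h1, h0, W, fun x hx => ((h3 x).1 hx).1, by omega,
      fun x hx h5 => ?_, Φ.mem_perp'.2 fun x hx => ((h3 x).1 hx).2.1⟩
    obtain ⟨h6, h7, h8⟩ := (h3 x).1 hx
    by_contra h9
    refine h (isMaximalIn_four' hΦ hκ hV hD h4 hno hu h6 h1 h5 h7 h0 fun h10 => h9 ?_)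
    obtain ⟨a, rfl⟩ := Submodule.mem_span_singleton.1 h10
    simp_all [B_comm_quad hκ f u, hf.one]
  refine (key hD h4).elim id fun ⟨u, hu, h1, h0, P, h2, h3, h5, h6⟩ => ?_
  refine (key hD' (by omega)).elim (fun h => by rwa [stabL_perp_inf hΦ] at h)
    fun ⟨u', hu', h1', h0', P', h2', h3', h5', h6'⟩ => ?_
  obtain ⟨X, h8, h9⟩ := exists_totSing_two hκ h3 h3' h5 h5' (h2'.trans (Φ.perp_anti h2))
    (totSing_pair hκ h1 h1' (hu' u hu)) (Submodule.span_le.2 (by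
      rintro _ (rfl | rfl)
      exacts [h6, Φ.perp_anti h2 hu'])) (Submodule.span_le.2 (by
      rintro _ (rfl | rfl)
      exacts [Φ.perp_anti h2' (Φ.le_perp_perp D hu), h6']))
  rw [finrank_pair h0 fun h => h0' (eq_zero hD
    ((Submodule.span_singleton_le_iff_mem _ _).2 hu h) hu')] at h9
  exact absurd h9 (hno X h8)

theorem isMaximalIn_nonsing (hΦ : Φ.Nondeg) (hκ : Φ.κ = 1) (hV : 7 ≤ finrank F V) {v : V}
    (hv : Φ.B v v = 0) (hQ : Φ.Q v ≠ 0) : IsMaximalIn Φ.E (stabL (F ∙ v) ⊓ Φ.E) := by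
  have h3 := iso3_quad hκ
  have hv0 : v ≠ 0 := by rintro rfl; simp at hQ
  set D := Φ.perp (F ∙ v)
  have hD : Φ.perp D = F ∙ v := hΦ.perp_perp _
  have hd : finrank F D + 1 = finrank F V := by
    rw [← hΦ.finrank_perp_add (F ∙ v), finrank_span_singleton hv0]
  have hM : Φ.ED D ≤ stabL (F ∙ v) ⊓ Φ.E := le_inf (ED_le_stabL_of_le_perp hD.ge) (ED_le_E D)
  have hns : ∀ {u}, Sing Φ u → u ≠ 0 → u ∉ Φ.perp D := fun hu hu0 h => by
    obtain ⟨c, rfl⟩ := Submodule.mem_span_singleton.1 (hD ▸ h)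
    have := hu.2
    rw [Φ.Q_smul] at this
    simp_all
  refine isMaximalIn_of inf_le_right ?_ fun H hMH hHE g hg hgM => ?_
  · obtain ⟨u, huD, hu0, hu⟩ := h3 D (by omega)
    obtain ⟨e, -, he1, he2⟩ := exists_mem_perp_eq_one hΦ (D := ⊤) (S := F ∙ u) (x := v) (by
      rw [perp_top _ hΦ]
      exact notMem_sup_span_swap hv0 (by simpa [hD] using hns hu hu0))
    obtain ⟨t, ht, hg⟩ := exists_eich_apply hΦ hκ hu.2
      (he1 u (Submodule.mem_span_singleton_self u))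
    refine ⟨t, ht, fun h => hns hu hu0 ?_⟩
    have := apply_mem_of_mem_stabL h.1 (Submodule.mem_span_singleton_self v)
    rw [hg, Φ.B_eq_zero_symm (Φ.mem_perp_span_singleton.1 huD), B_comm_quad hκ, he2] at this
    simpa [hD] using Submodule.sub_mem _ this (Submodule.mem_span_singleton_self v)
  have hH := hM.trans hMH
  have hO := E_le_O (hHE hg)
  have hgv : g v ∉ F ∙ v := fun h => hgM ⟨mem_stabL_of_le.2 fun x hx => by
    obtain ⟨c, rfl⟩ := Submodule.mem_span_singleton.1 hx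
    simpa using Submodule.smul_mem _ c h, hHE hg⟩
  have e2 := finrank_span_pair_le (F := F) (g v) v
  obtain ⟨u, -, hu, hu1, hu2⟩ := h3.exists_perp hΦ (T := ⊤) (S := Submodule.span F {g v, v})
    [v, g v] (by simp; omega)
  have hu0 : u ≠ 0 := by rintro rfl; simp at hu1
  have huD : u ∈ D := Φ.mem_perp_span_singleton.2 (hu2 v (by simp))
  have hA : ∀ u ∈ D, ∀ e ∈ D, Φ.B u e = 0 → Φ.AIn H u e := fun u hu e he h1 =>
    ⟨h1, fun s hs => (eIn_ED hΦ hu he hs).mono hH⟩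
  obtain ⟨e, -, he1, he2⟩ := exists_mem_perp_eq_one hΦ (D := ⊤) (S := (F ∙ g v) ⊔ F ∙ u) (x := v) (by
    rw [perp_top _ hΦ, bot_sup_eq]
    refine notMem_sup_span_swap (by
      simpa using notMem_sup_span_swap (S := ⊥) hv0 (by simpa using hgv)) ?_
    rwa [← Submodule.span_union, Set.singleton_union])
  have he3 := he1 u (Submodule.mem_sup_right (Submodule.mem_span_singleton_self u))
  have he4 : Φ.AIn H u e := by
    have := (hA (g⁻¹ u) (Φ.mem_perp_span_singleton.2 (by rw [← B_O_left hO, hu2 _ (by simp)]))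
      (g⁻¹ e) (Φ.mem_perp_span_singleton.2 (by
        rw [← B_O_left hO, he1 _ (Submodule.mem_sup_left (Submodule.mem_span_singleton_self _))]))
      (by rw [(inv_mem hO).1, he3])).conj hg hO
    simpa using this
  obtain ⟨f, hfD, hf⟩ := exists_hyp_mem hΦ hu huD (hns hu hu0)
  have h4 := Φ.B_eq_zero_symm (Φ.mem_perp_span_singleton.1 huD)
  have h5 := Φ.B_eq_zero_symm (Φ.mem_perp_span_singleton.1 hfD)
  have hq : Φ.QIn H u := qIn_iff.2 fun x hx => by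
    simpa using (hA u huD (x - Φ.B v x • e) (Φ.mem_perp_span_singleton.2 (by simp [he2]))
      (by simp [hx, he3])).add hu (aIn_smul hκ hf (fun t ht => hMH ⟨mem_stabL_of_le.2 fun y hy => by
        obtain ⟨c, rfl⟩ := Submodule.mem_span_singleton.1 hy
        simpa [hsc_apply hκ hf (pow_ne_zero 2 ht), h4, h5] using hy,
        hsc_mem_E hΦ hκ (by omega) hf (pow_ne_zero 2 ht) ⟨t, sq t⟩⟩) he4 (Φ.B v x))
  obtain ⟨k, hk, hO, h6⟩ := (hA f hfD v (Φ.mem_perp_span_singleton.2 hv) h5).apply hκ hf.right.2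
  refine E_le_of_qIn_of_mem hΦ hu hq hk hO ?_
  simp [h6, hu.1, hf.one, h4, Φ.B_eq_zero_symm h4, B_comm_quad hκ f u, hQ]

end Nd

end H23
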