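import Cfsg.Agent.H23.Nd2

/-! Stabilisers of orthogonal decompositions with blocks of dimension at least three in `Ω`. -/

set_option autoImplicit false

namespace H23

open Module H22 Cfsg Cfsg.Geo Form

namespace Nd

variable {F V : Type*} [Field F] [AddCommGroup V] [Module F V] {Φ : Form (RingHom.id F) V}
  {H : Subgroup (V ≃ₗ[F] V)} {D D' U : Submodule F V} {u f e e' x y a b c : V} {g : V ≃ₗ[F] V}

variable (Φ) in
/-- a non-singular vector of `D` orthogonal to a singular one -/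
def Good (D : Submodule F V) (a : V) : Prop :=
  a ∈ D ∧ Φ.Q a ≠ 0 ∧ ∃ u ∈ D, Φ.Q u = 0 ∧ u ≠ 0 ∧ Φ.B u a = 0

theorem Good.map (h : Good Φ D a) (hg : g ∈ Φ.O) : Good Φ (D.map g.toLinearMap) (g a) :=
  let ⟨h1, h2, u, h3, h4, h5, h6⟩ := h
  ⟨⟨a, h1, rfl⟩, by rwa [hg.2], g u, ⟨u, h3, rfl⟩, by rwa [hg.2], by simpa, by rwa [hg.1]⟩

theorem map_map_inv (D : Submodule F V) (g : V ≃ₗ[F] V) :
    (D.map g.toLinearMap).map (g⁻¹).toLinearMap = D := by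
  rw [← Submodule.map_comp]
  conv_rhs => rw [← Submodule.map_id D]
  congr 1
  ext x; simp

variable (Φ H) in
/-- a system of blocks of dimension three -/
structure Sys {ι : Type*} (D : ι → Submodule F V) : Prop where
  blk : ∀ i, Blk Φ H (D i)
  st : ∀ i, ST Φ H (D i)
  dim : ∀ i, finrank F (D i) = 3
  orth : ∀ i j, i ≠ j → D j ≤ Φ.perp (D i)
  refl : ∀ (hκ : Φ.κ = 1) i j a b, Good Φ (D i) a → Good Φ (D j) b →
    (H22.refl hκ a * H22.refl hκ b).1 ∈ H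

theorem Sys.map {ι : Type*} {D : ι → Submodule F V} (h : Sys Φ H D) (C : Ctx Φ H) (hg : g ∈ H) :
    Sys Φ H fun i => (D i).map g.toLinearMap := by
  refine ⟨fun i => (h.blk i).map C hg, fun i => (h.st i).map C hg,
    fun i => (LinearEquiv.finrank_map_eq _ _).trans (h.dim i), fun i j hij => ?_,
    fun hκ i j a b ha hb => ?_⟩
  · rw [perp_map (C.O hg)]; exact Submodule.map_mono (h.orth i j hij)
  · have h1 := ha.map (inv_mem (C.O hg))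
    have h2 := hb.map (inv_mem (C.O hg))
    rw [map_map_inv] at h1 h2
    have h3 := fun v => conj_refl hκ ⟨g⁻¹, inv_mem (C.O hg)⟩ v
    have h4 := H.mul_mem (H.mul_mem hg (h.refl hκ i j _ _ h1 h2)) (H.inv_mem hg)
    rw [← h3, ← h3] at h4
    simpa [mul_assoc] using h4

variable [FiniteDimensional F V]

theorem mem_span_pair_of (h3 : finrank F U = 3) (ha : a ∈ U) (hc : Φ.B c a ≠ 0) (hx : x ∈ U)
    (hy : y ∈ U) (h1 : Φ.B c x = 0) (h2 : Φ.B c y = 0) (h0 : x ≠ 0) (hxy : y ∉ F ∙ x) {v : V}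
    (hv : v ∈ U) (h : Φ.B c v = 0) : v ∈ Submodule.span F {x, y} := by
  have h4 : U ⊓ Φ.perp (F ∙ c) < U := lt_of_le_of_ne inf_le_left fun h =>
    hc (Φ.mem_perp_span_singleton.1 (h.ge ha).2)
  have h5 := Submodule.finrank_lt_finrank_of_lt h4
  rw [Submodule.eq_of_le_of_finrank_le (S₂ := U ⊓ Φ.perp (F ∙ c)) (Submodule.span_le.2 (by
    rintro _ (rfl | rfl)
    exacts [⟨hx, Φ.mem_perp_span_singleton.2 h1⟩, ⟨hy, Φ.mem_perp_span_singleton.2 h2⟩]))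
    (by rw [finrank_pair h0 hxy]; omega)]
  exact ⟨hv, Φ.mem_perp_span_singleton.2 h⟩

omit [FiniteDimensional F V] in
theorem notMem_of_Q (h1 : Φ.Q u = 0) (h2 : Φ.Q a ≠ 0) : a ∉ F ∙ u := fun h => by
  obtain ⟨c, rfl⟩ := Submodule.mem_span_singleton.1 h
  simp [Φ.Q_smul, h1] at h2

theorem good_sq (hΦ : Φ.Nondeg) (hκ : Φ.κ = 1) (hD : Disjoint D (Φ.perp D)) (h3 : finrank F D = 3)
    (ha : Good Φ D a) (hb : Good Φ D b) : ∃ t : F, Φ.Q a = t ^ 2 * Φ.Q b := by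
  have key : ∀ {a u : V}, a ∈ D → Φ.Q a ≠ 0 → u ∈ D → Φ.Q u = 0 → u ≠ 0 → Φ.B u a = 0 →
      ∀ x ∈ D, Φ.B u x = 0 → ∃ α β : F, x = α • u + β • a ∧ Φ.Q x = β ^ 2 * Φ.Q a :=
    fun {a u} ha h1 hu h2 h0 h4 x hx h5 => by
      obtain ⟨d, hd, h6⟩ := exists_ne hD hu h0
      obtain ⟨α, β, rfl⟩ := Submodule.mem_span_pair.1 (mem_span_pair_of (c := u) h3 hd (by simp [h6])
        hu ha (by simp [B_self_quad hκ, h2]) h4 h0 (notMem_of_Q h2 h1) hx h5)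
      exact ⟨α, β, rfl, by simp [Q_smul_add hκ, Φ.Q_smul, h2, h4]⟩
  obtain ⟨ha, h1, u, hu, h2, h0, h4⟩ := ha
  obtain ⟨hb, h1', u', hu', h2', h0', h4'⟩ := hb
  obtain ⟨e, he, h5, h6, h7⟩ : ∃ e ∈ D, Φ.B u e = 0 ∧ Φ.B u' e = 0 ∧ Φ.Q e ≠ 0 := by
    by_cases h5 : Φ.B u u' = 0
    · obtain ⟨α, β, h6, h7⟩ := key ha h1 hu h2 h0 h4 u' hu' h5
      obtain rfl : β = 0 := by simpa [h2', h1] using h7
      exact ⟨a, ha, h4, by simp [h6, h4], h1⟩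
    · obtain ⟨e, he, h6, h7, h8⟩ := exists_third hΦ hκ hD h3.ge (u := u) (f := (Φ.B u u')⁻¹ • u')
        ⟨(sing_quad hκ).2 h2, ((sing_quad hκ).2 h2').smul _, by simp [h5]⟩ hu (D.smul_mem _ hu')
      exact ⟨e, he, h6, by simpa [h5] using h7, h8⟩
  obtain ⟨-, β, -, h8⟩ := key ha h1 hu h2 h0 h4 e he h5
  obtain ⟨-, γ, -, h9⟩ := key hb h1' hu' h2' h0' h4' e he h6
  have : β ≠ 0 := by rintro rfl; simp [h7] at h8
  exact ⟨γ / β, by field_simp; rw [mul_comm, ← h8, h9]⟩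

theorem finrank_inf_perp (hΦ : Φ.Nondeg) (hD : Disjoint D (Φ.perp D)) {P : Submodule F V}
    (h : P ≤ D) : finrank F (D ⊓ Φ.perp P : Submodule F V) + finrank F P = finrank F D := by
  have h1 := hΦ.finrank_perp_add (Φ.perp D ⊔ P)
  rw [perp_sup, hΦ.perp_perp] at h1
  have h2 := Submodule.finrank_sup_add_finrank_inf_eq (Φ.perp D) P
  rw [disjoint_iff.1 (hD.symm.mono_right h), finrank_bot] at h2
  have h3 := hΦ.finrank_perp_add D
  omega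

theorem sing_mem_perp (hΦ : Φ.Nondeg) (hκ : Φ.κ = 1) (h2 : (2 : F) ≠ 0)
    (hU : Disjoint U (Φ.perp U)) (h5 : Φ.Q u = 0) (h9 : Φ.B u e = 0) (h10 : Φ.Q e ≠ 0) (h1 : u ∉ U)
    (h : ∀ d ∈ U, d + (Φ.B e d - Φ.Q e * Φ.B u d) • u - Φ.B u d • e ∈ U) : u ∈ Φ.perp U := by
  by_contra h11
  obtain ⟨b, hb, hb'⟩ := dec hΦ hU u
  obtain ⟨c, h⟩ := eich_stab hκ hU hb hb' (by rintro rfl; exact h11 (by simpa using hb')) h1 h
  have e2 : Φ.B u b = 0 := by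
    rw [h] at h9
    simpa [B_self_quad hκ, h5, h10] using h9
  have e3 : Φ.Q b = 0 := by
    simpa [Φ.B_eq_zero_symm e2, B_self_quad hκ, h2] using hb' b hb
  refine h10 ?_
  rw [h, Q_smul_add hκ, Φ.Q_smul, h5, e3, map_smul, e2]; simp

variable [Finite F]

theorem le_perp_of_ED (hΦ : Φ.Nondeg) (hκ : Φ.κ = 1) (h2 : (2 : F) ≠ 0) (hD : Disjoint D (Φ.perp D))
    (h3 : 3 ≤ finrank F D) (hU : Disjoint U (Φ.perp U))
    (hno : ∀ u ∈ D, Φ.Q u = 0 → u ≠ 0 → u ∉ U) (h : Φ.ED D ≤ stabL U) : U ≤ Φ.perp D := by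
  obtain ⟨u, hu, h4, h5⟩ := exists_sing hκ h3
  refine Φ.le_perp_comm.1 (le_of_sing hΦ hκ hD hu h4 h5 fun u hu h4 h5 => ?_)
  obtain ⟨f, hfD, hf⟩ := hyp_of_nd hΦ hκ hD hu h4 h5
  obtain ⟨e, he, h6, -, h7⟩ := exists_third hΦ hκ hD h3 hf hu hfD
  obtain ⟨t, ht, h8⟩ := eIn_ED hΦ hu he (eichData_quad hκ h4 h6)
  exact sing_mem_perp hΦ hκ h2 hU h4 h6 h7 (hno u hu h4 h5) fun d hd => by
    rw [← eichler_quad hκ, ← h8]; exact apply_mem_of_mem_stabL (h ht) hd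

theorem exists_sing_not_perp (hΦ : Φ.Nondeg) (hκ : Φ.κ = 1) (hD : Disjoint D (Φ.perp D))
    (h3 : 3 ≤ finrank F D) (ha : a ∈ D) (h0 : a ≠ 0) : ∃ u ∈ D, Φ.Q u = 0 ∧ Φ.B u a = 1 := by
  obtain ⟨u, hu, h4, h5⟩ := exists_sing hκ h3
  obtain ⟨u, hu, h4, h5⟩ : ∃ u ∈ D, Φ.Q u = 0 ∧ Φ.B a u ≠ 0 := by
    by_contra! hc
    exact h0 (eq_zero hD ha (Φ.mem_perp'.2 fun v hv => Φ.mem_perp_span_singleton.1
      (le_of_sing (D := Φ.perp (F ∙ a)) hΦ hκ hD hu h4 h5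
        (fun x hx h _ => Φ.mem_perp_span_singleton.2 (hc x hx h)) hv)))
  exact ⟨(Φ.B a u)⁻¹ • u, D.smul_mem _ hu, by simp [Φ.Q_smul, h4], by simp [B_comm_quad hκ u, h5]⟩

theorem two_good (hΦ : Φ.Nondeg) (hκ : Φ.κ = 1) (h2 : (2 : F) ≠ 0) {t : F} (ht : t ≠ 0)
    (ht' : t ^ 2 ≠ 1) (hD : Disjoint D (Φ.perp D)) (h3 : 3 ≤ finrank F D) (c : V) :
    ∃ a b, Good Φ D a ∧ Good Φ D b ∧ b ∉ F ∙ a ∧ Φ.B c a = 0 ∧ Φ.B c b = 0 := by
  obtain ⟨d, hd, h4⟩ := dec hΦ hD c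
  suffices h : ∃ a b, Good Φ D a ∧ Good Φ D b ∧ b ∉ F ∙ a ∧ Φ.B d a = 0 ∧ Φ.B d b = 0 by
    obtain ⟨a, b, h5, h6, h7, h8, h9⟩ := h
    exact ⟨a, b, h5, h6, h7, by simpa [h8] using Φ.B_eq_zero_symm (h4 a h5.1),
      by simpa [h9] using Φ.B_eq_zero_symm (h4 b h6.1)⟩
  by_cases h5 : Φ.Q d = 0
  · obtain ⟨u, hu, h6, h7, h8⟩ : ∃ u ∈ D, Φ.Q u = 0 ∧ u ≠ 0 ∧ ∀ x, Φ.B u x = 0 → Φ.B d x = 0 := by
      by_cases h6 : d = 0
      · obtain ⟨u, hu, h7, h8⟩ := exists_sing hκ h3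
        exact ⟨u, hu, h7, h8, by simp [h6]⟩
      · exact ⟨d, hd, h5, h6, fun _ h => h⟩
    obtain ⟨f, hfD, hf⟩ := hyp_of_nd hΦ hκ hD hu h6 h7
    obtain ⟨e, he, h9, h10, h11⟩ := exists_third hΦ hκ hD h3 hf hu hfD
    have h12 : Φ.B u (u + e) = 0 := by simp [hf.left.1, h9]
    refine ⟨e, u + e, ⟨he, h11, u, hu, h6, h7, h9⟩, ⟨D.add_mem hu he, by
      simpa [Q_add_quad hκ, h6, h9], u, hu, h6, h7, h12⟩, fun h => ?_, h8 _ h9, h8 _ h12⟩
    obtain ⟨a, ha⟩ := Submodule.mem_span_singleton.1 h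
    simpa [h10, B_comm_quad hκ f u, hf.one] using congrArg (Φ.B f) ha
  obtain ⟨u, hu, h6, h7⟩ := exists_sing_not_perp hΦ hκ hD h3 hd (by rintro rfl; simp at h5)
  have hs := (sing_quad hκ).2 h6
  have hf : Hyp Φ u (d - Φ.Q d • u) := ⟨hs, (sing_quad hκ).2 (by
    simp [Φ.Q_sub, Φ.Q_smul, h6, hκ, B_comm_quad hκ d u, h7]), by simp [h7, hs.1]⟩
  have hfD := D.sub_mem hd (D.smul_mem (Φ.Q d) hu)
  obtain ⟨e, he, h9, h10, h11⟩ := exists_third hΦ hκ hD h3 hf hu hfD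
  obtain ⟨l, h12, h13⟩ : ∃ l : F, l ≠ 0 ∧ l ^ 2 * Φ.Q e ≠ Φ.Q d := by
    by_cases h12 : Φ.Q e = Φ.Q d
    · exact ⟨t, ht, by simpa [h12, h5] using ht'⟩
    · exact ⟨1, one_ne_zero, by simpa⟩
  have h14 : d = d - Φ.Q d • u + Φ.Q d • u := by simp
  generalize d - Φ.Q d • u = f at hf hfD h10 h14
  generalize Φ.Q d = γ at h13 h14
  subst h14
  have e1 := hf.one
  have e2 : Φ.B f u = 1 := by rw [B_comm_quad hκ, e1]
  have e3 := Φ.B_eq_zero_symm h9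
  have e4 := Φ.B_eq_zero_symm h10
  refine ⟨e, ((γ + l ^ 2 * Φ.Q e) / (2 * l * Φ.Q e)) • e + (f - γ • u),
    ⟨he, h11, u, hu, h6, hf.left_ne, h9⟩, ⟨D.add_mem (D.smul_mem _ he) (D.sub_mem hfD
      (D.smul_mem _ hu)), ?_, l • e + (f - (l ^ 2 * Φ.Q e) • u), D.add_mem (D.smul_mem _ he)
      (D.sub_mem hfD (D.smul_mem _ hu)), ?_, fun h => ?_, ?_⟩, fun h => ?_, by simp [h9, h10], ?_⟩
  · have : Φ.Q (((γ + l ^ 2 * Φ.Q e) / (2 * l * Φ.Q e)) • e + (f - γ • u)) =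
        (l ^ 2 * Φ.Q e - γ) ^ 2 / ((2 * l) ^ 2 * Φ.Q e) := by
      simp [Q_smul_add hκ, Φ.Q_sub, Φ.Q_smul, hκ, h6, hf.right.2, e2, e3, e4]
      field_simp; ring
    rw [this]
    simp [sub_ne_zero.2 h13, h2, h12, h11]
  · simp [Q_smul_add hκ, Φ.Q_sub, Φ.Q_smul, hκ, h6, hf.right.2, e2, e3, e4]
  · simpa [h9, e1, hs.1] using congrArg (Φ.B u) h
  · simp [B_self_quad hκ, h6, hf.right.2, e1, e2, e3, e4, h9, h10]
    field_simp; ring
  · obtain ⟨a, ha⟩ := Submodule.mem_span_singleton.1 h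
    simpa [h9, e1, hs.1] using congrArg (Φ.B u) ha
  · simp [hf.right.1, hs.1, e1, e2, h9, h10]

section Three

variable {ι κ : Type*} {D : ι → Submodule F V} {U : κ → Submodule F V} {i : κ} {j : ι}
  (C : Ctx Φ H) (h2 : (2 : F) ≠ 0) {t : F} (ht : t ≠ 0) (ht' : t ^ 2 ≠ 1)
include C h2 ht ht'

theorem Sys.f1 [Fintype ι] (hD : Sys Φ H D) (hι : 3 ≤ Fintype.card ι) {U : Submodule F V}
    (hS : ST Φ H U) (hx : x ∈ U) (h1 : Φ.Q x = 0) (h0 : x ≠ 0) (ha : Good Φ (D j) a)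
    (h3 : Φ.B x a = 0) : a ∈ U ∨ a ∈ Φ.perp U := by
  classical
  obtain ⟨l, m, h4, h5, h6⟩ : ∃ l m : ι, l ≠ m ∧ j ≠ l ∧ j ≠ m := by
    obtain ⟨l, hl, m, hm, h⟩ := Finset.one_lt_card.1 (show 1 < (Finset.univ.erase j).card by
      rw [Finset.card_erase_of_mem (Finset.mem_univ j), Finset.card_univ]; omega)
    exact ⟨l, m, h, (Finset.mem_erase.1 hl).1.symm, (Finset.mem_erase.1 hm).1.symm⟩
  have key : ∀ l, j ≠ l → ∃ b ∈ D l, ∀ v ∈ U,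
      ((Φ.Q a)⁻¹ * Φ.B a v) • a + ((Φ.Q b)⁻¹ * Φ.B b v) • b ∈ U := fun l hl => by
    obtain ⟨b, -, hb, -, -, h7, -⟩ := two_good C.nd C.κ h2 ht ht' (hD.blk l).nd (hD.blk l).three x
    have h8 := hS _ (hD.refl C.κ j l a b ha hb) x hx h1 h0 (by
      simpa [refl_apply, Φ.B_eq_zero_symm h3, Φ.B_eq_zero_symm h7] using hx)
    refine ⟨b, hb.1, fun v hv => ?_⟩
    convert U.sub_mem hv (apply_mem_of_mem_stabL h8 hv) using 1
    simp only [O_mul_apply, refl_apply, map_sub, map_smul, hD.orth j l hl hb.1 a ha.1]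
    module
  obtain ⟨b, hb, h7⟩ := key l h5
  obtain ⟨c, hc, h8⟩ := key m h6
  refine or_iff_not_imp_right.2 fun h9 => ?_
  obtain ⟨v, hv, h9⟩ : ∃ v ∈ U, Φ.B a v ≠ 0 := by simpa [mem_perp'] using h9
  have h10 := h8 _ (h7 v hv)
  simp only [map_add, map_smul, hD.orth j l h5 hb a ha.1, hD.orth m l h4.symm hb c hc,
    hD.orth m j h6.symm ha.1 c hc, B_self_quad C.κ, smul_eq_mul, mul_zero, add_zero,
    zero_smul] at h10
  exact (U.smul_mem_iff (by simp [ha.2.1, h9, h2])).1 h10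

theorem Sys.good_perp [Fintype ι] [Fintype κ] (hD : Sys Φ H D) (hι : 3 ≤ Fintype.card ι)
    (hU : Sys Φ H U) (hκ : 3 ≤ Fintype.card κ)
    (hno : ∀ u ∈ D j, Φ.Q u = 0 → u ≠ 0 → u ∉ U i) (hx : x ∈ U i) (h1 : Φ.Q x = 0) (h0 : x ≠ 0)
    (ha : Good Φ (D j) a) (h3 : Φ.B x a = 0) : a ∈ Φ.perp (U i) := by
  refine (hD.f1 C h2 ht ht' hι (hU.st i) hx h1 h0 ha h3).resolve_left fun h4 => ?_
  have ha0 : a ≠ 0 := by rintro rfl; simpa using ha.2.1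
  obtain ⟨u, hu, h5, h6⟩ := exists_sing_not_perp C.nd C.κ (hD.blk j).nd (hD.blk j).three ha.1 ha0
  have hu0 : u ≠ 0 := by rintro rfl; simp at h6
  obtain ⟨b, c, hb, hc, h7, h8, h9⟩ := two_good C.nd C.κ h2 ht ht' (hU.blk i).nd (hU.blk i).three u
  have hb0 : b ≠ 0 := by rintro rfl; simpa using hb.2.1
  have s1 : ∀ {b c}, Good Φ (U i) b → Good Φ (U i) c → Φ.B u c = 0 → b ∈ Φ.perp (D j) →
      c ∉ D j := fun {b c} hb hc e1 e2 e3 => by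
    obtain ⟨e4, e5, z, hz, e6, e7, e8⟩ := hb
    refine hno z (Submodule.span_le.2 ?_ (mem_span_pair_of (c := b) (hU.dim i) e4
      (by simp [B_self_quad C.κ, e5, h2]) h4 hc.1 (Φ.B_eq_zero_symm (e2 a ha.1))
      (Φ.B_eq_zero_symm (e2 c e3)) ha0 (fun h => ?_) hz (Φ.B_eq_zero_symm e8))) e6 e7 hz
    · rintro _ (rfl | rfl)
      exacts [ha.1, e3]
    · obtain ⟨α, rfl⟩ := Submodule.mem_span_singleton.1 h
      obtain rfl : α = 0 := by simpa [h6] using e1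
      simpa using hc.2.1
  rcases hU.f1 C h2 ht ht' hκ (hD.st j) hu h5 hu0 hb h8 with e1 | e1 <;>
  rcases hU.f1 C h2 ht ht' hκ (hD.st j) hu h5 hu0 hc h9 with e2 | e2
  · have := mem_span_pair_of (c := u) (hU.dim i) h4 (by simp [h6]) hb.1 hc.1 h8 h9 hb0 h7
      ((U i).sub_mem hx ((U i).smul_mem (Φ.B u x) h4)) (by simp [h6])
    have h10 : Submodule.span F {b, c} ≤ D j := Submodule.span_le.2 (by
      rintro _ (rfl | rfl) <;> assumption)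
    exact hno x (by simpa using (D j).add_mem (h10 this) ((D j).smul_mem (Φ.B u x) ha.1)) h1 h0 hx
  · exact s1 hc hb h8 e2 e1
  · exact s1 hb hc h9 e1 e2
  · have h10 : x ∈ Φ.perp (D j) := Submodule.span_le.2 (by rintro _ (rfl | rfl) <;> assumption)
      (mem_span_pair_of (c := a) (hU.dim i) h4 (by simp [B_self_quad C.κ, ha.2.1, h2]) hb.1 hc.1
        (e1 a ha.1) (e2 a ha.1) hb0 h7 hx (Φ.B_eq_zero_symm h3))
    exact ha0 (eq_zero (hD.blk j).nd ha.1 (le_perp_of_ED C.nd C.κ h2 (hD.blk j).nd (hD.blk j).three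
      (hU.blk i).nd hno (fun k hk => hU.st i k ((hD.blk j).ED_le hk) x hx h1 h0
        (by rwa [ED_fix hk h10])) h4))

theorem Sys.two_perp [Fintype ι] [Fintype κ] (hD : Sys Φ H D) (hι : 3 ≤ Fintype.card ι)
    (hU : Sys Φ H U) (hκ : 3 ≤ Fintype.card κ) (hno : ∀ u ∈ D j, Φ.Q u = 0 → u ≠ 0 → u ∉ U i) :
    2 ≤ finrank F (D j ⊓ Φ.perp (U i) : Submodule F V) := by
  obtain ⟨x, hx, h1, h0⟩ := exists_sing C.κ (hU.blk i).three
  obtain ⟨b, c, hb, hc, h7, h8, h9⟩ := two_good C.nd C.κ h2 ht ht' (hD.blk j).nd (hD.blk j).three x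
  rw [← finrank_pair (x := b) (by rintro rfl; simpa using hb.2.1) h7]
  refine Submodule.finrank_mono (Submodule.span_le.2 ?_)
  rintro _ (rfl | rfl)
  exacts [⟨hb.1, hD.good_perp C h2 ht ht' hι hU hκ hno hx h1 h0 hb h8⟩,
    ⟨hc.1, hD.good_perp C h2 ht ht' hι hU hκ hno hx h1 h0 hc h9⟩]

theorem Sys.le_perp [Fintype ι] [Fintype κ] (hD : Sys Φ H D) (hι : 3 ≤ Fintype.card ι)
    (hU : Sys Φ H U) (hκ : 3 ≤ Fintype.card κ) (hno : ∀ u ∈ D j, Φ.Q u = 0 → u ≠ 0 → u ∉ U i) :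
    U i ≤ Φ.perp (D j) := by
  refine le_perp_of_ED C.nd C.κ h2 (hD.blk j).nd (hD.blk j).three (hU.blk i).nd hno fun m hm => ?_
  by_contra h1
  have hmH := (hD.blk j).ED_le hm
  have h3 := hD.two_perp C h2 ht ht' hι hU hκ hno
  have h4 := hU.two_perp C h2 ht ht' hκ (hU.map C hmH) hκ (i := i) (j := i) fun u hu h4 h5 h6 =>
    h1 ((hU.st i).of_mem_map C hmH h6 h4 h5 hu)
  have h5 := finrank_inf_perp C.nd (hU.blk i).nd (P := U i ⊓ Φ.perp (D j)) inf_le_left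
  have h6 := Submodule.finrank_mono (inf_le_inf_left (U i) (Φ.perp_anti
    (show U i ⊓ Φ.perp (D j) ≤ (U i).map m.toLinearMap from fun v hv => ⟨v, hv.1, ED_fix hm hv.2⟩)))
  have h7 := C.nd.finrank_perp_add (D j ⊓ Φ.perp (U i))
  rw [C.nd.perp_inf, C.nd.perp_perp] at h7
  have h8 := Submodule.finrank_sup_add_finrank_inf_eq (Φ.perp (D j)) (U i)
  have h9 := C.nd.finrank_perp_add (D j)
  rw [inf_comm] at h8
  have := hD.dim j
  have := hU.dim i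
  omega

end Three

section Dec

variable {ι : Type*} [Fintype ι] {D : ι → Submodule F V} {π : ι → V →ₗ[F] V} (h : ODec Φ D π)
  (hΦ : Φ.Nondeg) {m : ℕ} (hm : ∀ i, finrank F (D i) = m) (h3 : 3 ≤ m)
include h hΦ hm h3

omit [Finite F] hΦ h3 in
theorem finrank_eq_mul : finrank F V = Fintype.card ι * m := by
  rw [← (LinearEquiv.ofBijective (∑ i, (D i).subtype ∘ₗ LinearMap.proj i : (∀ i, D i) →ₗ[F] V)
    ⟨LinearMap.ker_eq_bot.1 (LinearMap.ker_eq_bot'.2 fun x hx => funext fun i => Subtype.ext (by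
      have := congrArg (π i) hx
      simp only [LinearMap.sum_apply, LinearMap.comp_apply, map_sum, map_zero,
        Submodule.subtype_apply, LinearMap.proj_apply] at this
      rwa [Finset.sum_eq_single i (fun j _ hj => h.zero i j hj.symm _ (x j).2) (by simp),
        h.self i _ (x i).2] at this)),
      fun x => ⟨fun i => ⟨π i x, h.mem i x⟩, by simp [h.sum]⟩⟩).finrank_eq,
    Module.finrank_pi_fintype]
  simp [hm]

omit [Finite F] in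
theorem mem_decL_of_fix {i : ι} (hg : g ∈ Φ.O) (h1 : ∀ w ∈ Φ.perp (D i), g w = w) : g ∈ decL D :=
  h.mem_decL hm (by omega) fun l x hx => ⟨l, by
    by_cases h2 : l = i
    · subst h2; exact apply_mem_of_mem_stabL (stab_of_fix hΦ hg h1) hx
    · rwa [h1 x fun a ha => h.orth i l (Ne.symm h2) a ha x hx]⟩

omit [Finite F] in
theorem isMaximalIn_oDec [Fintype F] (hκ : Φ.κ = 1) (hV : 5 ≤ finrank F V)
    (ht : 2 ≤ Fintype.card ι) (hiso : ∀ i j, ∃ k ∈ Φ.O, (D i).map k.toLinearMap = D j)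
    (key : ∀ H, Ctx Φ H → decL D ⊓ Φ.E ≤ H → (∀ i, Blk Φ H (D i)) → (∀ i, NW Φ H (D i)) →
      (∀ i, ST Φ H (D i)) ∧ ((∀ i, ST Φ H (D i)) → ∀ g ∈ H, ∀ i j,
      (∀ u ∈ D j, Φ.Q u = 0 → u ≠ 0 → u ∉ (D i).map g.toLinearMap) →
        (D i).map g.toLinearMap ≤ Φ.perp (D j))) : IsMaximalIn Φ.E (decL D ⊓ Φ.E) := by
  have nd := h.disjoint hΦ
  have h3' : ∀ i, 3 ≤ finrank F (D i) := fun i => by rwa [hm]
  refine isMaximalIn_of inf_le_right ?_ fun H hMH hHE g hg hgM => ?_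
  · obtain ⟨i, j, hij⟩ := Fintype.exists_pair_of_one_lt_card ht
    obtain ⟨u, hu, h1, h0⟩ := exists_sing hκ (h3' i)
    obtain ⟨f, hfD, hf⟩ := hyp_of_nd hΦ hκ (nd i) hu h1 h0
    obtain ⟨w, hw, -, hw0⟩ := exists_sing hκ (h3' j)
    obtain ⟨t, ht, h2⟩ := exists_eich_apply hΦ hκ h1 (h.orth i j hij u hu w hw)
    refine ⟨t, ht, fun ⟨⟨s, hs⟩, _⟩ => ?_⟩
    have h4 : t f ∈ D (s i) := hs i ▸ ⟨f, hfD, rfl⟩
    rw [h2, hf.one, one_smul] at h4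
    by_cases h5 : s i = i
    · have := h.zero j _ (h5.symm ▸ hij.symm) _ h4
      simp [h.zero j i hij.symm f hfD, h.zero j i hij.symm u hu, h.self j w hw, hw0] at this
    · simpa [hf.one, hf.left.1, h.orth i j hij u hu w hw] using h.orth i _ (Ne.symm h5) u hu _ h4
  by_contra hne
  have C : Ctx Φ H := ⟨hκ, hΦ, hV, hHE, hne⟩
  have hB : ∀ i, Blk Φ H (D i) ∧ NW Φ H (D i) := fun i => by
    refine nw_of_irr C (nd i) (h3' i) hMH (fun g hg => mem_decL_of_fix h hΦ hm h3 hg)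
      fun S hS hS0 h1 => le_antisymm hS fun x hx => ?_
    have irr : ∀ {j}, j ≠ i → ∀ T ≤ D j, T ≠ ⊥ → (∀ s ∈ Φ.O, (∀ w ∈ Φ.perp (D j), s w = w) →
        ∀ w ∈ T, s w ∈ T) → T = D j := fun {j} hj T h2 h4 h5 =>
      irr_quad hΦ hκ (nd j) (by rw [hm]; omega) h2 h4
        (fun k hk => h5 k (ED_le_O _ hk) fun w hw => ED_fix hk hw) fun a ha =>
          h5 _ (refl hκ a).2 fun w hw => refl_apply_of_perp hκ (hw a ha)
    have h2 : ∀ {j}, j ≠ i → ∀ s ∈ Φ.O, (∀ w ∈ Φ.perp (D j), s w = w) → ∀ w ∈ S, s w ∈ S :=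
      fun {j} hj s hs h2 => h1 s (mem_decL_of_fix h hΦ hm h3 hs h2) hs fun d hd =>
        h2 d fun a ha => h.orth j i hj a ha d hd
    obtain ⟨w, hw, hw0⟩ := (Submodule.ne_bot_iff S).1 hS0
    obtain ⟨j, hj⟩ : ∃ j, π j w ≠ 0 := by
      by_contra! hc
      exact hw0 (h.eq_zero hc)
    have hji : j ≠ i := by rintro rfl; exact hj (h.eq_zero_of_perp hΦ (hS hw))
    obtain ⟨a, ha, h4⟩ := exists_Q_ne hκ (nd j) fun h0 => by
      have := h3' j; rw [h0, finrank_bot] at this; omega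
    obtain ⟨v, hv, h5⟩ : ∃ v ∈ S, Φ.B v a ≠ 0 := by
      by_contra! hc
      have := irr hji (D j ⊓ Φ.perp S) inf_le_left ((Submodule.ne_bot_iff _).2
        ⟨a, ⟨ha, hc⟩, by rintro rfl; simp at h4⟩) fun s hs h6 y hy =>
          ⟨apply_mem_of_mem_stabL (stab_of_fix hΦ hs h6) hy.1, fun v hv => by
            rw [← (inv_mem hs).1]
            simpa using hy.2 _ (h2 hji _ (inv_mem hs) (fun w hw => s.injective (by
              simp [h6 w hw])) v hv)⟩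
      exact hj (h.eq_zero_of_perp hΦ (Φ.le_perp_comm.1 (this.ge.trans inf_le_right) hw))
    have h6 : a ∈ S := by
      have := S.sub_mem hv (h2 hji _ (refl hκ a).2 (fun w hw => refl_apply_of_perp hκ (hw a ha)) v hv)
      rw [refl_apply, sub_sub_cancel, B_comm_quad hκ] at this
      exact (S.smul_mem_iff (by simp [h4, h5])).1 this
    have h7 : D j ≤ S := (irr hji (D j ⊓ S) inf_le_left ((Submodule.ne_bot_iff _).2
      ⟨a, ⟨ha, h6⟩, by rintro rfl; simp at h4⟩) fun s hs h8 y hy =>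
        ⟨apply_mem_of_mem_stabL (stab_of_fix hΦ hs h8) hy.1, h2 hji s hs h8 y hy.2⟩).ge.trans
          inf_le_right
    rw [← h.sum x]
    refine S.sum_mem fun l _ => ?_
    by_cases h8 : l = i
    · rw [h8, h.eq_zero_of_perp hΦ hx]; exact S.zero_mem
    by_cases h9 : j = l
    · exact h7 (h9 ▸ h.mem l x)
    obtain ⟨k, hk, h10⟩ := hiso j l
    obtain ⟨s, hs, h11, -, h12⟩ := h.exists_swap hΦ hm h9 hk h10
    obtain ⟨y, hy, h13⟩ := h10.ge (h.mem l x)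
    rw [← h13]
    exact h11 y hy ▸ h1 s hs.1 hs.2 (h12 i hji.symm (Ne.symm h8)) y (h7 hy)
  obtain ⟨hS, key⟩ := key H C hMH (fun i => (hB i).1) fun i => (hB i).2
  refine hgM ⟨h.mem_decL hm (by omega) fun i x hx => ?_, hHE hg⟩
  obtain ⟨j, u, hu, h1, h0, v, hv, rfl⟩ : ∃ j, ∃ u ∈ D j, Φ.Q u = 0 ∧ u ≠ 0 ∧
      u ∈ (D i).map g.toLinearMap := by
    by_contra! hc
    obtain ⟨u, hu, -, h0⟩ := exists_sing hκ (h3' i)
    exact h0 (g.map_eq_zero_iff.1 (h.eq_zero fun j =>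
      h.eq_zero_of_perp hΦ (key hS g hg i j (hc j) ⟨u, hu, rfl⟩)))
  obtain ⟨k, hk, h4⟩ : ∃ k ∈ H, (D i).map k.toLinearMap = D j := by
    by_cases hij : i = j
    · exact ⟨1, H.one_mem, hij ▸ Submodule.map_id _⟩
    obtain ⟨k, hk, h4⟩ := hiso i j
    obtain ⟨s, hs, h5, -⟩ := h.exists_swap hΦ hm hij hk h4
    obtain ⟨u, hu, h1, h0⟩ := exists_sing hκ (h3' i)
    obtain ⟨r, hr, h6, h7, -⟩ := exists_corr hΦ hκ hV (nd i) (h3' i) hu h1 h0 hs.2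
    refine ⟨s * r, hMH ⟨mul_mem hs.1 (mem_decL_of_fix h hΦ hm h3 hr h7), h6⟩,
      map_eq_of_le ?_ (by rw [hm, hm])⟩
    rintro _ ⟨y, hy, rfl⟩
    have h8 := apply_mem_of_mem_stabL (stab_of_fix hΦ hr h7) hy
    exact h4.le ⟨_, h8, (h5 _ h8).symm⟩
  refine ⟨j, ?_⟩
  rw [← h4, ← (hS i).map_eq hk hg hv (by rw [← (C.O hg).2]; exact h1) (by rintro rfl; simp at h0)
    (h4.ge hu)]
  exact ⟨x, hx, rfl⟩

omit [Finite F] in
theorem isMaximalIn_oDec_odd [Fintype F] (hκ : Φ.κ = 1) (hV : 7 ≤ finrank F V) (h2 : (2 : F) ≠ 0)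
    (ht : 2 ≤ Fintype.card ι) (hiso : ∀ i j, ∃ k ∈ Φ.O, (D i).map k.toLinearMap = D j)
    (hex : ¬ (Fintype.card F = 3 ∧ m = 3)) : IsMaximalIn Φ.E (decL D ⊓ Φ.E) := by
  have h4 : (-1 : F) ≠ 1 := fun h => h2 (by linear_combination -h)
  by_cases h5 : 4 ≤ m
  · refine isMaximalIn_oDec h hΦ hm h3 hκ (by omega) ht hiso fun H C hM hB hN => ⟨fun i =>
      st_of_tor C (hB i) (hN i) (.inr ⟨by rwa [hm], -1, by simp, h4⟩), fun hS g hg i j h1 => ?_⟩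
    exact y_lemma C h2 (hB j) ((hB i).map C hg).nd (by rwa [hm])
      (by rwa [LinearEquiv.finrank_map_eq, hm]) ((hS i).map C hg) h1
  obtain rfl : m = 3 := by omega
  obtain ⟨t, h6, h7⟩ : ∃ t : F, t ≠ 0 ∧ t ^ 2 ≠ 1 := by
    classical
    by_contra! hc
    have : (Finset.univ : Finset F) ⊆ {0, 1, -1} := fun c _ => by
      by_cases h7 : c = 0
      · simp [h7]
      · simp [mul_self_eq_one_iff.1 ((sq c).symm.trans (hc c h7))]
    have h8 := (Finset.card_le_card this).trans Finset.card_le_three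
    have h9 := odd_card_of_two_ne_zero h2
    have := Fintype.one_lt_card (α := F)
    rw [Finset.card_univ] at h8
    exact hex ⟨by omega, rfl⟩
  have h8 : 3 ≤ Fintype.card ι := by have := finrank_eq_mul h hm; omega
  refine isMaximalIn_oDec h hΦ hm h3 hκ (by omega) ht hiso fun H C hM hB hN => ⟨fun i =>
    st_of_tor C (hB i) (hN i) (.inl ⟨t, h6, h7⟩), fun hS g hg i j h1 => ?_⟩
  have hD : Sys Φ H D := ⟨hB, hS, hm, fun i j hij x hx a ha => h.orth i j hij a ha x hx,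
    fun hκ i j a b ha hb => by
      obtain ⟨k, hk, h9⟩ := hiso i j
      obtain ⟨s, hs⟩ := good_sq hΦ hκ (hB j).nd (hm j) (h9 ▸ ha.map hk) hb
      exact hM ⟨mul_mem (mem_decL_of_fix h hΦ hm h3 (refl hκ a).2 fun w hw =>
        refl_apply_of_perp hκ (hw a ha.1)) (mem_decL_of_fix h hΦ hm h3 (refl hκ b).2 fun w hw =>
        refl_apply_of_perp hκ (hw b hb.1)), refl_mul_refl_mem_E hκ hΦ (by omega) ha.2.1
          (by rw [← hs, hk.2])⟩⟩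
  exact hD.le_perp C h2 h6 h7 h8 (hD.map C hg) h8 (i := i) h1

end Dec

theorem exists_map_of_isometric {ι : Type} [Fintype ι] [DecidableEq ι] {Q : QuadraticForm F (ι → F)}
    (hQ : (ofQuad Q).Nondeg) {W W' : Submodule F (ι → F)} (h : AreIsometricFor Q W W') :
    ∃ k ∈ (ofQuad Q).O, W.map k.toLinearMap = W' := by
  obtain ⟨e, he⟩ := h
  obtain ⟨k, hk, h1⟩ := hQ.witt e (fun x y => by
    have := he (x + y)
    rw [map_add, Submodule.coe_add, Submodule.coe_add] at this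
    change QuadraticMap.polar Q _ _ = QuadraticMap.polar Q _ _
    simp only [QuadraticMap.polar, this, he]) he
  exact ⟨k, hk, map_eq_of_le (by rintro _ ⟨x, hx, rfl⟩; exact h1 ⟨x, hx⟩ ▸ (e _).2) e.finrank_eq.ge⟩

end Nd

end H23
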