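import Cfsg.Agent.H23.P21

/-! Orthogonal decompositions into blocks of dimension at least four in characteristic two. -/

set_option autoImplicit false

namespace H23.Nd

open Module H22 Cfsg Cfsg.Geo Form

variable {F V : Type*} [Field F] [AddCommGroup V] [Module F V] {Φ : Form (RingHom.id F) V}
  [FiniteDimensional F V]

theorem le_of_nonsing (hΦ : Φ.Nondeg) (hκ : Φ.κ = 1) {D S : Submodule F V}
    (hD : Disjoint D (Φ.perp D)) (h3 : 3 ≤ finrank F D) (h : ∀ v ∈ D, Φ.Q v ≠ 0 → v ∈ S) : D ≤ S :=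
  fun v hv => by
    by_cases h1 : Φ.Q v = 0
    swap
    · exact h v hv h1
    by_cases h0 : v = 0
    · exact h0 ▸ S.zero_mem
    obtain ⟨f, hf, e⟩ := hyp_of_nd hΦ hκ hD hv h1 h0
    obtain ⟨w, hw, e1, -, e2⟩ := exists_third hΦ hκ hD h3 e hv hf
    simpa using S.sub_mem (h _ (D.add_mem hv hw) (by simpa [Q_add_quad hκ, h1, e1])) (h w hw e2)

theorem exists_two_nonsing (hΦ : Φ.Nondeg) (hκ : Φ.κ = 1) (h2 : (2 : F) = 0) {D : Submodule F V}
    (hD : Disjoint D (Φ.perp D)) (h4 : 4 ≤ finrank F D) (x : V) : ∃ c ∈ D, ∃ c' ∈ D,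
      Φ.Q c ≠ 0 ∧ Φ.Q c' ≠ 0 ∧ c' ∉ F ∙ c ∧ Φ.B c x = 0 ∧ Φ.B c' x = 0 := by
  have e1 := hΦ.finrank_le_inf_perp D (F ∙ x)
  have e2 := finrank_le_one (F := F) x
  obtain ⟨c, hc, e3⟩ : ∃ c ∈ D ⊓ Φ.perp (F ∙ x), Φ.Q c ≠ 0 := by
    by_contra! hc
    have e3 := finrank_inf_perp hΦ hD (P := D ⊓ Φ.perp (F ∙ x)) inf_le_left
    have e4 := Submodule.finrank_mono (le_inf inf_le_left fun a ha b hb =>
      (totSing_of_Q hκ hc).1 b hb a ha : D ⊓ Φ.perp (F ∙ x) ≤ D ⊓ Φ.perp (D ⊓ Φ.perp (F ∙ x)))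
    omega
  obtain ⟨w, hw, e4⟩ : ∃ w ∈ (D ⊓ Φ.perp (F ∙ x)) ⊓ Φ.perp (F ∙ c), w ∉ F ∙ c := by
    by_contra! hw
    have e4 := hΦ.finrank_le_inf_perp (D ⊓ Φ.perp (F ∙ x)) (F ∙ c)
    have e5 := Submodule.finrank_mono hw
    have := finrank_le_one (F := F) c
    omega
  have e5 := Φ.B_eq_zero_symm (Φ.mem_perp_span_singleton.1 hc.2)
  have e6 := Φ.B_eq_zero_symm (Φ.mem_perp_span_singleton.1 hw.1.2)
  by_cases e7 : Φ.Q w = 0
  · exact ⟨c, hc.1, c + w, D.add_mem hc.1 hw.1.1, e3,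
      by simpa [Q_add_quad hκ, e7, Φ.mem_perp_span_singleton.1 hw.2], fun e => e4
        ((Submodule.add_mem_iff_right _ (Submodule.mem_span_singleton_self c)).1 e), e5,
      by simp [e5, e6]⟩
  · exact ⟨c, hc.1, w, hw.1.1, e3, e7, e4, e5, e6⟩

variable [Fintype F] {ι : Type*} [Fintype ι] {D : ι → Submodule F V} {π : ι → V →ₗ[F] V}
  (h : ODec Φ D π) (hΦ : Φ.Nondeg) (hκ : Φ.κ = 1) {m : ℕ} (hm : ∀ i, finrank F (D i) = m)
  (h4 : 4 ≤ m) (h2 : (2 : F) = 0) {g : V ≃ₗ[F] V} {i j l : ι} {a b x : V}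
  (hex : m = 4 → Fintype.card F = 2 → ∀ i, ∀ X ≤ D i, Φ.TotSing X → finrank F X ≠ 2)
include h hΦ hκ hm h4 h2

include hex in
theorem blk_two (hg : g ∈ Φ.O) (h1 : ∀ v ∈ D j, Φ.Q v ≠ 0 → ∃ l, g v ∈ D l) :
    ∃ l, ∀ v ∈ D j, g v ∈ D l := by
  have nd := h.disjoint hΦ j
  have h3 : 3 ≤ finrank F (D j) := by rw [hm]; omega
  obtain ⟨v, hv, a1⟩ := exists_Q_ne hκ nd fun e => by rw [e] at h3; simp at h3
  obtain ⟨l, hl⟩ := h1 v hv a1
  refine ⟨l, by_contra fun hc => ?_⟩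
  obtain ⟨v', hv', a2, a3⟩ : ∃ v' ∈ D j, Φ.Q v' ≠ 0 ∧ g v' ∉ D l := by
    by_contra! e
    exact hc (le_of_nonsing hΦ hκ (S := (D l).comap g.toLinearMap) nd h3 e)
  obtain ⟨l', hl'⟩ := h1 v' hv' a2
  have a4 : l ≠ l' := by rintro rfl; exact a3 hl'
  have key : ∀ {l l' x y}, l ≠ l' → x ∈ D j → y ∈ D j → g x ∈ D l → g y ∈ D l' → x ≠ 0 → y ≠ 0 →
      ∀ z ∈ D j, π l (g z) = 0 → π l' (g z) = 0 → Φ.Q (x + y + z) = 0 :=
    fun {l l' x y} e hx hy e1 e2 x0 y0 z hz e3 e4 => by_contra fun e5 => by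
      obtain ⟨n, hn⟩ := h1 _ ((D j).add_mem ((D j).add_mem hx hy) hz) e5
      by_cases e6 : n = l
      · have := h.zero _ _ (e6 ▸ e).symm _ hn
        simp [h.zero _ _ e.symm _ e1, h.self _ _ e2, e4, y0] at this
      · have := h.zero _ _ (Ne.symm e6) _ hn
        simp [h.zero _ _ e _ e2, h.self _ _ e1, e3, x0] at this
  have hB : ∀ {l l' x y}, l ≠ l' → g x ∈ D l → g y ∈ D l' → Φ.B x y = 0 := fun e e1 e2 => by
    rw [← hg.1, h.orth _ _ e _ e1 _ e2]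
  have key' : ∀ {l l' x y}, l ≠ l' → x ∈ D j → y ∈ D j → g x ∈ D l → g y ∈ D l' → x ≠ 0 → y ≠ 0 →
      Φ.Q x = Φ.Q y := fun {l l' x y} e hx hy e1 e2 x0 y0 => by
    have := key e hx hy e1 e2 x0 y0 0 (zero_mem _) (by simp) (by simp)
    rw [add_zero, Q_add_quad hκ, hB e e1 e2] at this
    linear_combination this - Φ.Q y * h2
  have v0 : v ≠ 0 := by rintro rfl; simp at a1
  have v0' : v' ≠ 0 := by rintro rfl; simp at a2
  have hq : Fintype.card F = 2 := by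
    classical
    have : (Finset.univ : Finset F) ⊆ {0, 1} := fun c _ => by
      by_cases e : c = 0
      · simp [e]
      have e1 := key' a4 ((D j).smul_mem c hv) hv' (map_smul g c v ▸ (D l).smul_mem c hl) hl'
        (smul_ne_zero e v0) v0'
      rw [← key' a4 hv hv' hl hl' v0 v0', Φ.Q_smul] at e1
      have e2 : (c - 1) ^ 2 * Φ.Q v = 0 := by linear_combination e1 + (Φ.Q v - c * Φ.Q v) * h2
      simpa [a1, e, sub_eq_zero] using e2
    have := (Finset.card_le_card this).trans Finset.card_le_two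
    have := Fintype.one_lt_card (α := F)
    rw [Finset.card_univ] at *
    omega
  let A : ι → Submodule F V := fun l => D j ⊓ (D l).comap g.toLinearMap
  have hA : ∀ x ∈ A l, x ≠ 0 → Φ.Q x = Φ.Q v' := fun x hx x0 => key' a4 hx.1 hv' hx.2 hl' x0 v0'
  have hA' : ∀ x ∈ A l', x ≠ 0 → Φ.Q x = Φ.Q v' := fun x hx x0 =>
    (key' a4 hv hx.1 hl hx.2 v0 x0).symm.trans (key' a4 hv hv' hl hl' v0 v0')
  have d1 : ∀ {l}, (∀ x ∈ A l, x ≠ 0 → Φ.Q x = Φ.Q v') → finrank F (A l) ≤ 2 := fun e =>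
    by_contra fun e' => by
      obtain ⟨u, hu, e1, e2⟩ := exists_sing hκ (not_le.1 e')
      exact a2 ((e u hu e2).symm.trans e1)
  have d2 := Submodule.finrank_mono (le_of_nonsing hΦ hκ (S := A l ⊔ A l') nd h3 fun w hw e => by
    obtain ⟨n, hn⟩ := h1 w hw e
    by_cases e1 : n = l
    · exact Submodule.mem_sup_left ⟨hw, e1 ▸ hn⟩
    by_cases e2 : n = l'
    · exact Submodule.mem_sup_right ⟨hw, e2 ▸ hn⟩
    have := key a4 hv hv' hl hl' v0 v0' w hw (h.zero _ _ (Ne.symm e1) _ hn)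
      (h.zero _ _ (Ne.symm e2) _ hn)
    rw [Q_add_quad hκ, map_add, LinearMap.add_apply, hB (Ne.symm e1) hl hn, hB (Ne.symm e2) hl' hn,
      ← add_zero (v + v'), key a4 hv hv' hl hl' v0 v0' 0 (zero_mem _) (by simp) (by simp)] at this
    exact absurd (by simpa using this) e)
  have d3 := finrank_sup_le (A l) (A l')
  have d4 := d1 hA
  have d5 := d1 hA'
  have d6 : ∀ {l x}, (∀ x ∈ A l, x ≠ 0 → Φ.Q x = Φ.Q v') → 2 ≤ finrank F (A l) → x ∈ A l → x ≠ 0 →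
      ∃ y ∈ A l, y ∉ F ∙ x ∧ y ≠ 0 ∧ Φ.B x y = Φ.Q v' := fun {l x} e e1 hx x0 => by
    obtain ⟨y, hy, e2⟩ : ∃ y ∈ A l, y ∉ F ∙ x := by
      by_contra! hy
      have := Submodule.finrank_mono hy
      have := finrank_le_one (F := F) x
      omega
    have y0 : y ≠ 0 := by rintro rfl; simp at e2
    have := e _ ((A l).add_mem hx hy) fun e3 => e2 (by simp [← neg_eq_iff_add_eq_zero.2 e3])
    rw [Q_add_quad hκ, e x hx x0, e y hy y0] at this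
    exact ⟨y, hy, e2, y0, by linear_combination this - Φ.Q v' * h2⟩
  rw [hm] at d2
  obtain ⟨p, hp, b1, b2, b3⟩ := d6 hA (by omega) ⟨hv, hl⟩ v0
  obtain ⟨r, hr, c1, c2, c3⟩ := d6 hA' (by omega) ⟨hv', hl'⟩ v0'
  refine hex (by omega) hq j (Submodule.span F {v + v', p + r}) (Submodule.span_le.2 ?_)
    (totSing_pair hκ (by simpa using key a4 hv hv' hl hl' v0 v0' 0 (zero_mem _) (by simp) (by simp))
      (by simpa using key a4 hp.1 hr.1 hp.2 hr.2 b2 c2 0 (zero_mem _) (by simp) (by simp)) ?_)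
    (finrank_pair (fun e => ?_) fun e => b1 ?_)
  · rintro _ (rfl | rfl)
    exacts [(D j).add_mem hv hv', (D j).add_mem hp.1 hr.1]
  · simp only [map_add, LinearMap.add_apply, b3, c3, hB a4 hl hr.2, hB a4.symm hl' hp.2]
    linear_combination Φ.Q v' * h2
  · simpa [h.self _ _ hl, h.zero _ _ a4 _ hl', v0] using congrArg (fun x => π l (g x)) e
  · obtain ⟨c, e⟩ := Submodule.mem_span_singleton.1 e
    have e1 : g p ∈ D l := hp.2
    have e2 : g r ∈ D l' := hr.2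
    have := congrArg (fun x => π l (g x)) e
    simp only [map_add, map_smul, h.self _ _ hl, h.zero _ _ a4 _ hl', h.self _ _ e1,
      h.zero _ _ a4 _ e2, add_zero] at this
    exact Submodule.mem_span_singleton.2 ⟨c, g.injective (by simpa using this)⟩

variable {H : Subgroup (V ≃ₗ[F] V)} (C : Ctx Φ H) (hM : decL D ⊓ Φ.E ≤ H) (hB : ∀ i, Blk Φ H (D i))
  (hN : ∀ i, NW Φ H (D i)) (ht : 2 ≤ Fintype.card ι)
include C hM

theorem pair_four (ha : a ∈ D i) (hb : b ∈ D j) (a1 : Φ.Q a ≠ 0) (b1 : Φ.Q b ≠ 0) :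
    rf hκ a * rf hκ b ∈ H := by
  obtain ⟨t, ht⟩ := FiniteField.isSquare_of_char_two
    (CharP.ringChar_of_prime_eq_zero Nat.prime_two (by exact_mod_cast h2)) (Φ.Q a / Φ.Q b)
  exact hM ⟨mul_mem (mem_decL_of_fix h hΦ hm (by omega) (rf_O _ _) (rf_fix _ ha))
    (mem_decL_of_fix h hΦ hm (by omega) (rf_O _ _) (rf_fix _ hb)), refl_mul_refl_mem_E hκ hΦ C.five
      a1 (t := t) (by rw [sq, ← ht, div_mul_cancel₀ _ b1])⟩

include hB hN ht

theorem mem_four (ha : a ∈ D i) (a1 : Φ.Q a ≠ 0) (x1 : Φ.Q x ≠ 0) (h1 : rf hκ x * rf hκ a ∈ H) :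
    ∃ j, x ∈ D j := by
  obtain ⟨j, hj⟩ : ∃ j, Φ.Q (π j x) ≠ 0 := by
    by_contra! e
    simp [h.Q_sum x, e] at x1
  obtain ⟨l, hl⟩ := Fintype.exists_ne_of_one_lt_card ht j
  obtain ⟨b, hb, b1⟩ := exists_Q_ne hκ (hB l).nd fun e => by
    have := (hB l).three; rw [e] at this; simp at this
  obtain ⟨z, ⟨hz, e1⟩, e2, e3⟩ := exists_sing hκ (D := D j ⊓ Φ.perp (F ∙ x)) (by
    have := hΦ.finrank_le_inf_perp (D j) (F ∙ x)
    have := finrank_le_one (F := F) x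
    have := hm j
    omega)
  replace e1 := Φ.B_eq_zero_symm (Φ.mem_perp_span_singleton.1 e1)
  obtain ⟨e, he, e4, e5⟩ := exists_mem_perp_eq_one hΦ (D := D j) (S := F ∙ z) (x := π j x) fun e => by
    obtain ⟨w, hw, _, hy, e⟩ := Submodule.mem_sup.1 e
    obtain ⟨c, rfl⟩ := Submodule.mem_span_singleton.1 hy
    have := eq_zero (hB j).nd (eq_sub_of_add_eq e ▸ (D j).sub_mem (h.mem j x) ((D j).smul_mem c hz)) hw
    simp [← e, this, Φ.Q_smul, e2] at hj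
  rw [h.B_left he, B_comm_quad hκ] at e5
  obtain ⟨k, hk, hO, e6⟩ := ((hB j).aIn hΦ hz he (e4 z (Submodule.mem_span_singleton_self z))).apply
    hκ e2
  have e7 := (pair_four h hΦ hκ hm h4 h2 C hM ha hb a1 b1)
  have e8 : rf hκ x * rf hκ b ∈ H := by simpa [mul_assoc, rf_rf'] using mul_mem h1 e7
  have e9 := mul_mem (mul_mem (mul_mem hk e8) (inv_mem hk)) (inv_mem e8)
  refine ⟨j, hN j ((Φ.Q x)⁻¹ • z) ((D j).smul_mem _ hz) (by simp [Φ.Q_smul, e2])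
    (by simp [x1, e3]) x (aIn_of_refl hκ hΦ (by simp [Φ.Q_smul, e2]) (by simp [e1]) x1 ?_)⟩
  have e10 : k b = b := by simp [e6, h.orth _ _ hl.symm z hz b hb, h.orth _ _ hl.symm e he b hb]
  have e11 : k x = x + z := by simp [e6, e1, e5]
  rw [smul_inv_smul₀ x1, ← e11]
  change rf hκ _ * rf hκ _ ∈ H
  rw [← conj_rf hκ hO]
  convert e9 using 1
  have := conj_rf hκ hO b
  rw [e10, mul_inv_eq_iff_eq_mul] at this
  simp only [mul_inv_rev, rf_inv, mul_assoc]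
  rw [← mul_assoc (rf _ b), ← (Commute.inv_left this).eq, mul_assoc, rf_rf']

include hex

theorem st_four (hg : g ∈ H) (ha : a ∈ D i) (a0 : a ≠ 0) (h1 : g a ∈ D l) : g ∈ decL D := by
  obtain ⟨a, ha, a1, h1⟩ : ∃ a ∈ D i, Φ.Q a ≠ 0 ∧ g a ∈ D l := by
    by_cases e : Φ.Q a = 0
    · obtain ⟨f, hf, e1⟩ := hyp_of_nd hΦ hκ (hB i).nd ha e a0
      obtain ⟨w, hw, e2, -, e3⟩ := exists_third hΦ hκ (hB i).nd (hB i).three e1 ha hf
      exact ⟨w, hw, e3, (hN l).map_mem C (hB i) hg ha e a0 h1 hw e2⟩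
    · exact ⟨a, ha, e, h1⟩
  refine h.mem_decL hm (by omega) fun j x hx => ?_
  obtain ⟨n, hn⟩ := blk_two h hΦ hκ hm h4 h2 hex (j := j) (C.O hg) fun v hv e =>
    mem_four h hΦ hκ hm h4 h2 C hM hB hN ht h1 (by rwa [(C.O hg).2]) (by rwa [(C.O hg).2]) (by
      simpa [← conj_rf hκ (C.O hg), mul_assoc] using mul_mem (mul_mem hg
        (pair_four h hΦ hκ hm h4 h2 C hM hv ha e a1)) (inv_mem hg))
  exact ⟨n, hn x hx⟩

theorem le_four (hg : g ∈ H) : g ∈ decL D := by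
  by_contra hc
  have st := fun {g i l a} => st_four h hΦ hκ hm h4 h2 hex C hM hB hN ht (g := g) (i := i) (l := l)
    (a := a)
  obtain ⟨i⟩ : Nonempty ι := Fintype.card_pos_iff.1 (by omega)
  obtain ⟨u, hu, -, u0⟩ := exists_sing hκ (hB i).three
  refine u0 (g.map_eq_zero_iff.1 (h.eq_zero fun j => h.eq_zero_of_perp hΦ fun a ha =>
    le_of_nonsing hΦ hκ (S := Φ.perp (F ∙ g u)) (hB j).nd (hB j).three (fun a ha a1 => ?_) ha
      |> Φ.mem_perp_span_singleton.1 |> Φ.B_eq_zero_symm))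
  refine Φ.mem_perp_span_singleton.2 (Φ.B_eq_zero_symm (by_contra fun e => ?_))
  obtain ⟨x, ⟨hx, e1⟩, e2, e3⟩ := exists_sing hκ (D := D i ⊓ Φ.perp (F ∙ g⁻¹ a)) (by
    have := hΦ.finrank_le_inf_perp (D i) (F ∙ g⁻¹ a)
    have := finrank_le_one (F := F) (g⁻¹ a)
    have := hm i
    omega)
  replace e1 : Φ.B a (g x) = 0 := by
    rw [← Φ.mem_perp_span_singleton.1 e1, ← (C.O hg).1 (g⁻¹ a)]; simp
  obtain ⟨l, hl⟩ := Fintype.exists_ne_of_one_lt_card ht j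
  have key : ∀ c ∈ D l, Φ.Q c ≠ 0 → Φ.B c (g x) = 0 → ∃ w ∈ D i, ∃ β : F,
      g w = ((Φ.Q a)⁻¹ * Φ.B a (g u)) • a + β • c := fun c hc c1 c2 => by
    have e4 := mul_mem (mul_mem (inv_mem hg) (pair_four h hΦ hκ hm h4 h2 C hM ha hc a1 c1)) hg
    have e5 : (g⁻¹ * (rf hκ a * rf hκ c) * g) x = x := by
      simp [refl_apply_of_perp _ e1, refl_apply_of_perp _ c2]
    obtain ⟨s, hs⟩ := st e4 hx e3 (e5.symm ▸ hx)
    have e6 : s i = i := h.eq_of_mem e3 (e5 ▸ (hs i).le ⟨x, hx, rfl⟩) hx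
    refine ⟨_, (D i).sub_mem hu (e6 ▸ (hs i).le ⟨u, hu, rfl⟩), (Φ.Q c)⁻¹ * Φ.B c (g u), ?_⟩
    simp [refl_apply, h.orth _ _ hl.symm a ha c hc]
    abel
  obtain ⟨c, hc, c', hc', c1, c2, c3, c4, c5⟩ :=
    exists_two_nonsing hΦ hκ h2 (hB l).nd (by rwa [hm]) (g x)
  obtain ⟨w, hw, β, e4⟩ := key c hc c1 c4
  obtain ⟨w', hw', β', e5⟩ := key c' hc' c2 c5
  have e6 : w = w' := by_contra fun e6 => ‹g ∉ decL D› (st hg ((D i).sub_mem hw hw') (sub_ne_zero.2 e6)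
    (by simpa [e4, e5] using (D l).sub_mem ((D l).smul_mem β hc) ((D l).smul_mem β' hc')))
  rw [← e6, e4, add_right_inj] at e5
  obtain rfl : β' = 0 := by_contra fun e7 => c3 (Submodule.mem_span_singleton.2
    ⟨β'⁻¹ * β, by rw [mul_smul, e5, inv_smul_smul₀ e7]⟩)
  rw [e5, zero_smul, add_zero] at e4
  refine ‹g ∉ decL D› (st hg hw (fun e7 => ?_) (e4 ▸ (D j).smul_mem _ ha))
  simp only [e7, map_zero, eq_comm (a := (0 : V)), smul_eq_zero, mul_eq_zero, inv_eq_zero, a1, e,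
    false_or] at e4
  simp [e4] at a1

omit C hM hB hN in
theorem isMaximalIn_oDec_two (hV : 5 ≤ finrank F V)
    (hiso : ∀ i j, ∃ k ∈ Φ.O, (D i).map k.toLinearMap = D j) : IsMaximalIn Φ.E (decL D ⊓ Φ.E) := by
  refine isMaximalIn_oDec h hΦ hm (by omega) hκ hV ht hiso fun H C hM hB hN =>
    ⟨fun i g hg u hu _ h0 h1 => ?_, fun _ g hg i j h1 => ?_⟩ <;>
    obtain ⟨s, hs⟩ := le_four h hΦ hκ hm h4 h2 hex C hM hB hN ht hg
  · have : s i = i := h.eq_of_mem (by simpa using h0) ((hs i).le ⟨u, hu, rfl⟩) h1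
    exact mem_stabL_of_le.2 fun x hx => this ▸ (hs i).le ⟨x, hx, rfl⟩
  · rw [hs] at h1 ⊢
    obtain ⟨u, hu, e1, e2⟩ := exists_sing hκ (hB j).three
    exact fun x hx a ha => h.orth _ _ (by rintro rfl; exact h1 u hu e1 e2 hu) a ha x hx

end H23.Nd
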