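import Cfsg.Agent.H23.Zd2

/-! Non-degenerate planes of an orthogonal space over a finite field. -/

set_option autoImplicit false

namespace H23.Nd

open Module H22 Cfsg Cfsg.Geo Form

variable {F V : Type*} [Field F] [AddCommGroup V] [Module F V] {Φ : Form (RingHom.id F) V}

open Polynomial in
theorem quad_le {a b c : F} (h : a ≠ 0 ∨ b ≠ 0 ∨ c ≠ 0) :
    ∃ S : Finset F, S.card ≤ 2 ∧ ∀ t, a * t ^ 2 + b * t + c = 0 → t ∈ S := by
  classical
  have h0 : (C a * X ^ 2 + C b * X + C c : F[X]) ≠ 0 := fun e => by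
    have e2 := congrArg (coeff · 2) e
    have e1 := congrArg (coeff · 1) e
    have e0 := congrArg (coeff · 0) e
    simp [coeff_X, coeff_C] at e0 e1 e2
    tauto
  exact ⟨(C a * X ^ 2 + C b * X + C c).roots.toFinset, (Multiset.toFinset_card_le _).trans
    ((card_roots' _).trans natDegree_quadratic_le), fun t ht => by simpa [h0] using ht⟩

open Polynomial in
theorem card_le_quad [Fintype F] [DecidableEq F] {a : F} (b c : F) (ha : a ≠ 0) :
    Fintype.card F ≤ 2 * (Finset.univ.image fun t => a * t ^ 2 + b * t + c).card := by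
  have := FiniteField.card_image_polynomial_eval
    (p := C a * X ^ 2 + C b * X + C c) (by rw [degree_quadratic ha]; norm_num)
  rw [natDegree_quadratic ha] at this
  simpa only [eval_add, eval_mul, eval_C, eval_pow, eval_X] using this

variable (Φ) in
/-- anisotropic subspaces -/
def An (D : Submodule F V) : Prop := ∀ v ∈ D, Φ.Q v = 0 → v = 0

variable (Φ) in
/-- a non-degenerate plane -/
structure Pl (D : Submodule F V) : Prop where
  κ : Φ.κ = 1
  nd : Disjoint D (Φ.perp D)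
  two : finrank F D = 2

variable (Φ) in
/-- a rotation of `D` without eigenvalues `± 1` -/
structure Rot (D : Submodule F V) (τ : V ≃ₗ[F] V) : Prop where
  O : τ ∈ Φ.O
  fix : ∀ w ∈ Φ.perp D, τ w = w
  eig : ∀ v ∈ D, τ v = v ∨ τ v = -v → v = 0

variable {D D' : Submodule F V} {a b v x y : V} {g τ : V ≃ₗ[F] V} {K : Subgroup (V ≃ₗ[F] V)}

theorem Rot.map (h : Rot Φ D τ) (hg : g ∈ Φ.O) : Rot Φ (D.map g.toLinearMap) (g * τ * g⁻¹) where
  O := mul_mem (mul_mem hg h.O) (inv_mem hg)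
  fix w hw := by
    have := h.fix (g⁻¹ w) fun a ha => by rw [← B_O_left hg]; exact hw _ ⟨a, ha, rfl⟩
    simp only [LinearEquiv.mul_apply, this]
    simp
  eig := by
    rintro _ ⟨v, hv, rfl⟩ e
    simpa using h.eig v hv (by simpa [← map_neg] using e)

theorem Rot.notMem (h : Rot Φ D τ) (hv : v ∈ D) (hQ : Φ.Q v ≠ 0) : τ v ∉ F ∙ v := fun e => by
  obtain ⟨c, hc⟩ := Submodule.mem_span_singleton.1 e
  have := h.O.2 v
  rw [← hc, Φ.Q_smul] at this
  have e1 : c * c = 1 := mul_right_cancel₀ hQ (by simpa [sq] using this)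
  have e2 := h.eig v hv (by rcases mul_self_eq_one_iff.1 e1 with rfl | rfl <;> simp [← hc])
  simp [e2] at hQ

theorem rf_fix (hκ : Φ.κ = 1) (ha : a ∈ D) : ∀ w ∈ Φ.perp D, rf hκ a w = w := fun w hw =>
  refl_apply_of_perp hκ (hw a ha)

theorem rf_mem (hκ : Φ.κ = 1) (ha : a ∈ D) (hv : v ∈ D) : rf hκ a v ∈ D := by
  rw [refl_apply]; exact D.sub_mem hv (D.smul_mem _ ha)

theorem aIn_swap (hκ : Φ.κ = 1) (hx : Φ.Q x = 0) (hy : Φ.Q y = 0) (h : Φ.AIn K x y) :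
    Φ.AIn K y x := by
  obtain ⟨g, hg, -, e⟩ := h.neg.apply hκ hx
  refine aIn_of_apply hκ (Φ.B_eq_zero_symm h.1) hg fun v => ?_
  rw [e, Φ.Q_neg, hx, hy]
  simp only [map_neg, LinearMap.neg_apply]
  module

theorem aIn_smul_left (hκ : Φ.κ = 1) (hx : Φ.Q x = 0) {c : F} (h : Φ.AIn K x (c • y))
    (h0 : Φ.B x y = 0) : Φ.AIn K (c • x) y := by
  obtain ⟨g, hg, -, e⟩ := h.apply hκ hx
  refine aIn_of_apply hκ (by simp [h0]) hg fun v => ?_
  rw [e, Φ.Q_smul]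
  simp only [map_smul, LinearMap.smul_apply, RingHom.id_apply, smul_eq_mul]
  module

variable [FiniteDimensional F V]

theorem Rot.mem (h : Rot Φ D τ) (hΦ : Φ.Nondeg) (hv : v ∈ D) : τ v ∈ D :=
  apply_mem_of_mem_stabL (stab_of_fix hΦ h.O h.fix) hv

theorem Rot.surj (h : Rot Φ D τ) (hΦ : Φ.Nondeg) (hv : v ∈ D) : ∃ u ∈ D, u - τ u = v := by
  let φ : D →ₗ[F] D := (LinearMap.id - τ.toLinearMap).restrict fun u hu => D.sub_mem hu (h.mem hΦ hu)
  obtain ⟨u, hu⟩ := LinearMap.injective_iff_surjective.1 ((injective_iff_map_eq_zero φ).2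
    fun u hu => Subtype.ext (h.eig u u.2 (Or.inl (sub_eq_zero.1 (congrArg Subtype.val hu)).symm)))
    ⟨v, hv⟩
  exact ⟨u, u.2, congrArg Subtype.val hu⟩

theorem aIn_pass (hκ : Φ.κ = 1) (hΦ : Φ.Nondeg) {H : Subgroup (V ≃ₗ[F] V)} (hx : Φ.Q x = 0)
    (h : Φ.AIn K x y) (hτ : τ ∈ H) (hO : τ ∈ Φ.O) (h1 : τ x = x) (h2 : ∀ k ∈ K, k * τ * k⁻¹ ∈ H) :
    Φ.AIn H x (y - τ y) := by
  obtain ⟨g, hg, -, e⟩ := h.apply hκ hx
  have e1 : g = (sieg hΦ hκ hx h.1).1 := LinearEquiv.ext fun v => by rw [e, sieg_apply]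
  have e2 : Φ.B x (τ y) = 0 := by rw [← h1, hO.1, h.1]
  refine aIn_of_apply hκ (by simp [h.1, e2]) (H.mul_mem (h2 g hg) (H.inv_mem hτ)) fun v => ?_
  have e3 := conj_sieg hΦ hκ ⟨τ, hO⟩ hx (e := -y) (by simp [h.1])
  rw [sieg_neg hΦ hκ hx h.1, sieg_congr hΦ hκ _ _ h1 (map_neg τ y)] at e3
  rw [← sieg_apply hΦ hκ hx (by simp [h.1, e2]), sieg_congr hΦ hκ hx _ rfl (sub_eq_add_neg _ _),
    sieg_add hΦ hκ hx h.1 (by simp [e2]), ← e3, e1, mul_assoc, mul_assoc]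
  rfl

namespace Pl

variable (h : Pl Φ D)
include h

theorem span (ha : a ∈ D) (hb : b ∈ D) (h0 : a ≠ 0) (h1 : b ∉ F ∙ a) (hv : v ∈ D) :
    ∃ s t : F, s • a + t • b = v :=
  Submodule.mem_span_pair.1 ((Submodule.eq_of_le_of_finrank_eq (Submodule.span_le.2 (by
    rintro _ (rfl | rfl); exacts [ha, hb])) ((finrank_pair h0 h1).trans h.two.symm)).ge hv)

theorem map (hg : g ∈ Φ.O) : Pl Φ (D.map g.toLinearMap) :=
  ⟨h.κ, disjoint_map h.nd hg, by rw [LinearEquiv.finrank_map_eq, h.two]⟩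

theorem exists_Q : ∃ a ∈ D, Φ.Q a ≠ 0 :=
  exists_Q_ne h.κ h.nd fun e => by have := h.two; rw [e] at this; simp at this

theorem exists_perp (hΦ : Φ.Nondeg) (ha : a ∈ D) (h0 : a ≠ 0) :
    ∃ c ∈ D, ∃ e ∈ D, Φ.B a c = 1 ∧ Φ.B a e = 0 ∧ e ≠ 0 := by
  obtain ⟨c, hc, h1⟩ := exists_ne h.nd ha h0
  obtain ⟨e, ⟨he, h3⟩, h4⟩ := (Submodule.ne_bot_iff (D ⊓ Φ.perp (F ∙ a))).1 fun e => by
    have := finrank_inf_perp hΦ h.nd ((Submodule.span_singleton_le_iff_mem a D).2 ha)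
    rw [e, finrank_bot, finrank_span_singleton h0, h.two] at this; omega
  exact ⟨c, hc, e, he, h1, Φ.mem_perp_span_singleton.1 h3, h4⟩

theorem rot (ha : a ∈ D) (hb : b ∈ D) (h1 : Φ.Q a ≠ 0) (h2 : Φ.Q b ≠ 0) (h3 : b ∉ F ∙ a)
    (h4 : (2 : F) = 0 ∨ Φ.B a b ≠ 0) : Rot Φ D (rf h.κ a * rf h.κ b) where
  O := mul_mem (rf_O _ _) (rf_O _ _)
  fix w hw := by rw [LinearEquiv.mul_apply, rf_fix _ hb w hw, rf_fix _ ha w hw]
  eig v hv e := by
    have h0 : a ≠ 0 := by rintro rfl; simp at h1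
    have key : rf h.κ b v = rf h.κ a v → v = 0 := fun e => by
      rw [refl_apply, refl_apply, sub_right_inj] at e
      have e1 : Φ.B b v = 0 := by_contra fun e1 => h3 (Submodule.mem_span_singleton.2
        ⟨_, by rw [mul_smul, ← e, inv_smul_smul₀ (mul_ne_zero (inv_ne_zero h2) e1)]⟩)
      have e2 : Φ.B a v = 0 := by simpa [e1, h0, h1] using e.symm
      refine eq_zero h.nd hv fun w hw => ?_
      obtain ⟨s, t, rfl⟩ := h.span ha hb h0 h3 hw
      simp [e1, e2]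
    have e3 : ∀ x, rf h.κ a (rf h.κ a x) = x := fun x => by rw [← LinearEquiv.mul_apply, rf_rf]; rfl
    rcases e with e | e
    · exact key (by rw [← e3 (rf h.κ b v)]; exact congrArg _ e)
    replace e : rf h.κ b v = -rf h.κ a v := by rw [← map_neg, ← e, LinearEquiv.mul_apply, e3]
    by_cases h5 : (2 : F) = 0
    · exact key (by rw [e, neg_eq_iff_add_eq_zero, ← two_smul F, h5, zero_smul])
    replace h4 := h4.resolve_left h5
    have e1 := congrArg (Φ.B a) e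
    have e2 := congrArg (Φ.B b) e
    simp only [refl_apply, map_sub, map_smul, map_neg, B_self_quad h.κ, smul_eq_mul,
      B_comm_quad h.κ b a] at e1 e2
    have e4 : Φ.B b v = 0 := by
      field_simp at e1
      exact (mul_eq_zero.1 (show Φ.B b v * Φ.B a b = 0 by linear_combination -e1)).resolve_right h4
    have e5 : Φ.B a v = 0 := by
      field_simp at e2
      exact (mul_eq_zero.1 (show Φ.B a v * Φ.B a b = 0 by linear_combination -e2)).resolve_right h4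
    rw [refl_apply_of_perp _ e4, refl_apply_of_perp _ e5, eq_neg_iff_add_eq_zero, ← two_smul F] at e
    simpa [h5] using e

theorem exists_Q_sub (hΦ : Φ.Nondeg) (hg : g ∈ Φ.O) (h1 : ∀ v ∈ D, g v ∈ D) (hv : v ∈ D)
    (h2 : g v ≠ v) : ∃ v ∈ D, Φ.Q (v - g v) ≠ 0 := by
  by_contra! hc
  have hy := D.sub_mem hv (h1 v hv)
  have h0 := sub_ne_zero.2 h2.symm
  obtain ⟨f, hf, e⟩ := hyp_of_nd hΦ h.κ h.nd hy (hc v hv) h0
  have h3 : f ∉ F ∙ (v - g v) := fun e' => by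
    obtain ⟨c, rfl⟩ := Submodule.mem_span_singleton.1 e'
    simpa [-map_sub, e.left.1] using e.one
  have h4 : ∀ w ∈ D, ∃ c : F, g w = w - c • (v - g v) := fun w hw => by
    obtain ⟨s, t, e1⟩ := h.span hy hf h0 h3 (D.sub_mem hw (h1 w hw))
    have e2 := hc _ (D.add_mem hv hw)
    rw [map_add, ← sub_add_sub_comm, Q_add_quad h.κ, hc v hv, hc w hw, ← e1] at e2
    simp only [map_add, map_smul, e.left.1, e.one, smul_eq_mul, mul_zero, zero_add, mul_one] at e2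
    exact ⟨s, by rw [e2, zero_smul, add_zero] at e1; rw [e1, sub_sub_cancel]⟩
  obtain ⟨s, t, e1⟩ := h.span hy hf h0 h3 hv
  obtain ⟨c, e2⟩ := h4 _ hy
  obtain ⟨c', e3⟩ := h4 _ hf
  have e4 := hg.2 f
  have e5 := hg.1 (v - g v) f
  generalize v - g v = y at *
  simp only [e3, Φ.Q_sub, Φ.Q_smul, e.left.2, e.right.2, map_smul, e.B_symm, eps_quad h.κ] at e4
  obtain rfl : c' = 0 := by simpa [h.κ] using e4
  simp only [e2, e3, zero_smul, sub_zero, map_sub, map_smul, LinearMap.sub_apply, e.one,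
    LinearMap.smul_apply] at e5
  obtain rfl : c = 0 := by simpa using e5
  exact h2 (by simp [← e1, e2, e3])

variable [Fintype F]

theorem exists_rot (hΦ : Φ.Nondeg) (hq : 7 ≤ Fintype.card F ∨ Fintype.card F ≠ 3 ∧ An Φ D)
    (ha : a ∈ D) (h1 : Φ.Q a ≠ 0) : ∃ w ∈ D, Φ.Q w ≠ 0 ∧ Φ.B w a ≠ 0 ∧ rf h.κ w a ∉ F ∙ a ∧
      Φ.B a (rf h.κ w a) ≠ 0 := by
  classical
  have h0 : a ≠ 0 := by rintro rfl; simp at h1
  obtain ⟨c, hc, h2, h3⟩ : ∃ c ∈ D, Φ.B a c = 1 ∧ c ∉ F ∙ a := by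
    obtain ⟨c, hc, e, he, h2, h3, h4⟩ := h.exists_perp hΦ ha h0
    by_cases h5 : c ∈ F ∙ a
    · refine ⟨c + e, D.add_mem hc he, by simp [h2, h3], fun h6 => ?_⟩
      obtain ⟨s, rfl⟩ := Submodule.mem_span_singleton.1 ((Submodule.add_mem_iff_right _ h5).1 h6)
      obtain ⟨t, rfl⟩ := Submodule.mem_span_singleton.1 h5
      simp only [map_smul, smul_eq_mul, mul_eq_zero] at h2 h3
      rcases h3 with rfl | h3
      · simp at h4
      · simp [h3] at h2
    · exact ⟨c, hc, h2, h5⟩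
  have h4 : ∀ t : F, t • a + c ∉ F ∙ a := fun t e => h3
    ((Submodule.add_mem_iff_right _ (Submodule.smul_mem _ t (Submodule.mem_span_singleton_self a))).1 e)
  have hQ : ∀ t : F, Φ.Q (t • a + c) = Φ.Q a * t ^ 2 + 1 * t + Φ.Q c := fun t => by
    rw [Q_smul_add h.κ, h2]; ring
  obtain ⟨t, e1, e2, e3⟩ : ∃ t : F, Φ.Q (t • a + c) ≠ 0 ∧ 0 * t ^ 2 + 2 * Φ.Q a * t + 1 ≠ 0 ∧
      -(2 * Φ.Q a ^ 2) * t ^ 2 + -(2 * Φ.Q a) * t + (2 * Φ.Q a * Φ.Q c - 1) ≠ 0 := by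
    obtain ⟨S₁, a1, b1⟩ := quad_le (b := 1) (c := Φ.Q c) (Or.inl h1)
    obtain ⟨S₂, a2, b2⟩ := quad_le (a := 0) (b := 2 * Φ.Q a) (c := 1) (by simp)
    obtain ⟨S₃, a3, b3⟩ := quad_le (a := -(2 * Φ.Q a ^ 2)) (b := -(2 * Φ.Q a))
      (c := 2 * Φ.Q a * Φ.Q c - 1) (by by_cases e : (2 : F) = 0 <;> simp [e, h1])
    rcases hq with hq | ⟨hq, hA⟩
    · obtain ⟨t, -, ht⟩ := Finset.exists_mem_notMem_of_card_lt_card (s := S₁ ∪ S₂ ∪ S₃)
        (t := Finset.univ) (by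
          have := Finset.card_union_le (S₁ ∪ S₂) S₃
          have := Finset.card_union_le S₁ S₂
          rw [Finset.card_univ]; omega)
      simp only [Finset.mem_union, not_or] at ht
      exact ⟨t, hQ t ▸ mt (b1 t) ht.1.1, mt (b2 t) ht.1.2, mt (b3 t) ht.2⟩
    have h5 : ∀ t : F, Φ.Q (t • a + c) ≠ 0 := fun t e => h4 t (by
      rw [hA _ (D.add_mem (D.smul_mem t ha) hc) e]; exact zero_mem _)
    by_cases e : (2 : F) = 0
    · exact ⟨0, h5 0, by simp, by simp [e]⟩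
    obtain ⟨t, -, ht⟩ := Finset.exists_mem_notMem_of_card_lt_card (s := S₂ ∪ S₃)
      (t := Finset.univ) (by
        have := Finset.card_union_le S₂ S₃
        have := odd_card_of_two_ne_zero e
        have := Fintype.one_lt_card (α := F)
        rw [Finset.card_univ]; omega)
    simp only [Finset.mem_union, not_or] at ht
    exact ⟨t, h5 t, mt (b2 t) ht.1, mt (b3 t) ht.2⟩
  have e4 : Φ.B (t • a + c) a = 0 * t ^ 2 + 2 * Φ.Q a * t + 1 := by
    simp [B_self_quad h.κ, B_comm_quad h.κ c a, h2]; ring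
  refine ⟨_, D.add_mem (D.smul_mem t ha) hc, e1, e4 ▸ e2, fun e => h4 t ?_, fun e => e3 ?_⟩
  · rw [refl_apply, sub_eq_add_neg, Submodule.add_mem_iff_right _
      (Submodule.mem_span_singleton_self a), neg_mem_iff] at e
    exact (Submodule.smul_mem_iff _ (mul_ne_zero (inv_ne_zero e1) (e4 ▸ e2))).1 e
  · rw [refl_apply, map_sub, map_smul, B_comm_quad h.κ a (_ + _), e4, B_self_quad h.κ] at e
    rw [smul_eq_mul, sub_eq_zero, mul_assoc, eq_inv_mul_iff_mul_eq₀ e1, hQ] at e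
    linear_combination e

theorem exists_Q_eq (hΦ : Φ.Nondeg) (h2 : (2 : F) ≠ 0) (c : F) : ∃ b ∈ D, Φ.Q b = c := by
  obtain ⟨a, ha, h1⟩ := h.exists_Q
  have h0 : a ≠ 0 := by rintro rfl; simp at h1
  obtain ⟨-, -, e, he, -, h3, h4⟩ := h.exists_perp hΦ ha h0
  have h5 : e ∉ F ∙ a := fun e' => by
    obtain ⟨s, rfl⟩ := Submodule.mem_span_singleton.1 e'
    simp [B_self_quad h.κ, h1, h2, h0] at h3 h4
    exact h4 h3
  have h6 : Φ.Q e ≠ 0 := fun e' => h4 (eq_zero h.nd he fun w hw => by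
    obtain ⟨s, t, rfl⟩ := h.span ha he h0 h5 hw
    simp [h3, B_self_quad h.κ, e'])
  obtain ⟨s, t, e1⟩ := exists_binary_eq h2 h1 h6 c
  exact ⟨s • a + t • e, D.add_mem (D.smul_mem _ ha) (D.smul_mem _ he), by
    simp [Q_add_quad h.κ, Φ.Q_smul, h3, ← e1]; ring⟩

theorem exists_line (hΦ : Φ.Nondeg) (hA : An Φ D) (ha : a ∈ D) (h0 : a ≠ 0) :
    ∃ c ∈ D, ∃ e ∈ D, (∀ t : F, Φ.B (t • e + c) a = 1) ∧ e ∉ F ∙ c ∧ ∃ S : Finset F,
      Fintype.card F ≤ 2 * S.card ∧ 0 ∉ S ∧ ∀ s ∈ S, ∃ t : F, Φ.Q (t • e + c) = s := by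
  classical
  obtain ⟨c, hc, e, he, h1, h2, h3⟩ := h.exists_perp hΦ ha h0
  have h4 : ∀ t : F, Φ.B (t • e + c) a = 1 := fun t => by rw [B_comm_quad h.κ]; simp [h1, h2]
  have h5 : ∀ t : F, Φ.Q (t • e + c) = Φ.Q e * t ^ 2 + Φ.B e c * t + Φ.Q c := fun t => by
    rw [Q_smul_add h.κ]; ring
  refine ⟨c, hc, e, he, h4, fun e' => ?_, _, card_le_quad (Φ.B e c) (Φ.Q c) (mt (hA e he) h3),
    fun e' => ?_, fun s hs => by simpa [h5] using hs⟩
  · obtain ⟨s, rfl⟩ := Submodule.mem_span_singleton.1 e'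
    simp [h1] at h2
    simp [h2] at h3
  · obtain ⟨t, -, ht⟩ := Finset.mem_image.1 e'
    simpa [hA _ (D.add_mem (D.smul_mem t he) hc) ((h5 t).trans ht)] using h4 t

theorem exists_opp (hΦ : Φ.Nondeg) (h' : Pl Φ D') (hA : An Φ D) (hA' : An Φ D') (ha : a ∈ D)
    (h0 : a ≠ 0) (hb : b ∈ D') (h0' : b ≠ 0) :
    ∃ w ∈ D, ∃ w' ∈ D', Φ.B w a = 1 ∧ Φ.B w' b = 1 ∧ Φ.Q w' = -Φ.Q w := by
  classical
  obtain ⟨c, hc, e, he, h1, -, S, h2, h3, h4⟩ := h.exists_line hΦ hA ha h0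
  obtain ⟨c', hc', e', he', h1', -, S', h2', h3', h4'⟩ := h'.exists_line hΦ hA' hb h0'
  obtain ⟨s, hs, hs'⟩ : ∃ s ∈ S, -s ∈ S' := by
    by_contra! hc
    have e1 := Finset.card_le_card (s := (S.image Neg.neg).disjUnion S' (Finset.disjoint_left.2
      fun x hx => by obtain ⟨s, hs, rfl⟩ := Finset.mem_image.1 hx; exact hc s hs))
      (t := Finset.univ.erase 0) fun x hx => by
        rcases Finset.mem_disjUnion.1 hx with hx | hx <;> simp only [Finset.mem_erase] <;>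
          refine ⟨?_, Finset.mem_univ _⟩ <;> rintro rfl
        exacts [h3 (by simpa using hx), h3' hx]
    rw [Finset.card_disjUnion, Finset.card_image_of_injective _ neg_injective,
      Finset.card_erase_of_mem (Finset.mem_univ _), Finset.card_univ] at e1
    have := Fintype.card_pos (α := F)
    omega
  obtain ⟨t, ht⟩ := h4 s hs
  obtain ⟨t', ht'⟩ := h4' _ hs'
  exact ⟨_, D.add_mem (D.smul_mem t he) hc, _, D'.add_mem (D'.smul_mem t' he') hc', h1 t, h1' t',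
    by rw [ht, ht']⟩

theorem le_of_an (hΦ : Φ.Nondeg) (hA : An Φ D) {A : AddSubgroup V}
    (hr : ∀ w ∈ D, ∀ v ∈ A, rf h.κ w v ∈ A) (ha : a ∈ D) (h0 : a ≠ 0) (haA : a ∈ A) (hv : v ∈ D) :
    v ∈ A := by
  classical
  obtain ⟨c, hc, e, he, h1, h5, S, h2, h3, h4⟩ := h.exists_line hΦ hA ha h0
  have hQ := mt (hA a ha) h0
  have key : ∀ w ∈ D, ∀ v ∈ A, ((Φ.Q w)⁻¹ * Φ.B w v) • w ∈ A := fun w hw v hv => by
    simpa [refl_apply] using A.sub_mem hv (hr w hw v hv)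
  have hw : ∀ t : F, t • e + c ∈ D := fun t => D.add_mem (D.smul_mem t he) hc
  let T : AddSubgroup F := A.comap (LinearMap.toSpanSingleton F V a).toAddMonoidHom
  have hT : T = ⊤ := by
    have e1 := Finset.card_le_card (s := insert 0 (S.image fun s => (Φ.Q a)⁻¹ * s⁻¹))
      (t := Finset.univ.filter (· ∈ T)) fun x hx => by
        rcases Finset.mem_insert.1 hx with rfl | hx
        · simp
        obtain ⟨s, hs, rfl⟩ := Finset.mem_image.1 hx
        obtain ⟨t, rfl⟩ := h4 s hs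
        have := key a ha _ (key _ (hw t) a haA)
        rw [map_smul, B_comm_quad h.κ a, h1] at this
        simpa [T] using this
    rw [Finset.card_insert_of_notMem (by simpa [hQ] using h3), Finset.card_image_of_injective _
      fun x y e => inv_injective (mul_left_cancel₀ (inv_ne_zero hQ) e), ← Fintype.card_subtype,
      ← Nat.card_eq_fintype_card] at e1
    have e2 := T.card_mul_index
    rw [Nat.card_eq_fintype_card (α := F)] at e2
    have e3 := T.index_ne_zero_of_finite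
    refine AddSubgroup.index_eq_one.1 (by_contra fun e4 => ?_)
    have : Nat.card T * 2 ≤ Nat.card T * T.index := Nat.mul_le_mul_left _ (by omega)
    omega
  have h6 : ∀ t s : F, s • (t • e + c) ∈ A := fun t s => by
    have e1 : Φ.Q (t • e + c) ≠ 0 := fun e' => by simpa [hA _ (hw t) e'] using h1 t
    have := key _ (hw t) _ (show (Φ.Q (t • e + c) * s) • a ∈ A from hT.ge (AddSubgroup.mem_top _))
    rwa [map_smul, h1, smul_eq_mul, mul_one, inv_mul_cancel_left₀ e1] at this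
  obtain ⟨s, t, rfl⟩ := h.span hc he (by rintro rfl; simpa using h1 0) h5 hv
  convert A.add_mem (h6 0 (s - t)) (h6 1 t) using 1
  module

end Pl

end H23.Nd
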