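import Cfsg.Agent.H23.P21

/-! Orthogonal decompositions into planes: groups containing many reflections. -/

set_option autoImplicit false

namespace H23.Nd

open Module H22 Cfsg Cfsg.Geo Form Finset

variable {F V : Type*} [Field F] [Fintype F] [AddCommGroup V] [Module F V]
  {Φ : Form (RingHom.id F) V} {ι : Type*} [Fintype ι]

variable (Φ) in
/-- an orthogonal decomposition into at least five isometric planes -/
structure P2 (D : ι → Submodule F V) (π : ι → V →ₗ[F] V) : Prop extends ODec Φ D π where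
  nd : Φ.Nondeg
  κ : Φ.κ = 1
  two : ∀ i, finrank F (D i) = 2
  iso : ∀ i j, ∃ k ∈ Φ.O, (D i).map k.toLinearMap = D j
  five : 5 ≤ Fintype.card ι
  q : 7 ≤ Fintype.card F ∨ Fintype.card F ≠ 3 ∧ ∀ i, An Φ (D i)

omit [Fintype F] in
theorem aIn_zero (hκ : Φ.κ = 1) (K : Subgroup (V ≃ₗ[F] V)) (z : V) : Φ.AIn K z 0 :=
  aIn_of_apply hκ (by simp) K.one_mem (by simp)

/-- the vectors `v` with `E(z, v) ∈ K` -/
def aSub (hκ : Φ.κ = 1) (K : Subgroup (V ≃ₗ[F] V)) {z : V} (hz : Φ.Q z = 0) : AddSubgroup V where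
  carrier := {v | Φ.AIn K z v}
  add_mem' := AIn.add ((sing_quad hκ).2 hz)
  zero_mem' := aIn_zero hκ K z
  neg_mem' := AIn.neg

theorem exists_avoid (hq : 7 ≤ Fintype.card F) (a b c b' c' : F) :
    ∃ t : F, t ≠ 0 ∧ t ≠ a ∧ t ^ 2 + b * t + c ≠ 0 ∧ t ^ 2 + b' * t + c' ≠ 0 := by
  classical
  obtain ⟨S, a1, b1⟩ := quad_le (a := 1) (b := b) (c := c) (Or.inl one_ne_zero)
  obtain ⟨S', a2, b2⟩ := quad_le (a := 1) (b := b') (c := c') (Or.inl one_ne_zero)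
  obtain ⟨t, -, ht⟩ := exists_mem_notMem_of_card_lt_card (s := {0, a} ∪ S ∪ S') (t := univ) (by
    have := card_union_le ({0, a} ∪ S) S'
    have := card_union_le {0, a} S
    have := card_le_two (a := 0) (b := a)
    rw [card_univ]; omega)
  simp only [mem_union, mem_insert, mem_singleton, not_or] at ht
  exact ⟨t, ht.1.1.1, ht.1.1.2, by simpa using mt (b1 t) ht.1.2, by simpa using mt (b2 t) ht.2⟩

namespace P2

variable [FiniteDimensional F V] {D : ι → Submodule F V} {π : ι → V →ₗ[F] V} (h : P2 Φ D π)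
  {H K : Subgroup (V ≃ₗ[F] V)} {i j l m : ι} {a b e v w x y z : V} {g : V ≃ₗ[F] V}
include h

omit [FiniteDimensional F V] in
theorem pl (i : ι) : Pl Φ (D i) := ⟨h.κ, h.disjoint h.nd i, h.two i⟩

theorem dim : 5 ≤ finrank F V := by
  have := finrank_eq_mul h.toODec h.two
  have := h.five
  omega

omit [FiniteDimensional F V] in
theorem q' (i : ι) : 7 ≤ Fintype.card F ∨ Fintype.card F ≠ 3 ∧ An Φ (D i) :=
  h.q.imp_right fun e => ⟨e.1, e.2 i⟩

omit [FiniteDimensional F V] in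
theorem perp (hij : i ≠ j) (hx : x ∈ D j) : x ∈ Φ.perp (D i) := fun a ha => h.orth i j hij a ha x hx

omit [FiniteDimensional F V] in
theorem apply_eq (hz : ∀ i, π i z = 0 ∨ ∀ x ∈ D i, g x = x) : g z = z := by
  rw [← h.sum z, map_sum]
  exact sum_congr rfl fun i _ => (hz i).elim (fun e => by simp [e]) fun e => e _ (h.mem i z)

omit [FiniteDimensional F V] in
theorem aIn_of (hz : Φ.Q z = 0) (hv : ∀ i, π i v = 0 ∨ ∀ x ∈ D i, Φ.AIn K z x) : Φ.AIn K z v := by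
  rw [← h.sum v]
  exact sum_mem (S := aSub h.κ K hz) fun i _ =>
    (hv i).elim (fun e => e ▸ zero_mem _) fun e => e _ (h.mem i v)

omit [FiniteDimensional F V] in
theorem sub_eq (h1 : ∀ w ∈ Φ.perp (D i), g w = w) (z : V) : z - g z = π i z - g (π i z) := by
  have := h1 (z - π i z) (h.mem_perp (by simp [h.idem]))
  rw [map_sub, sub_eq_iff_eq_add] at this
  rw [this]; abel

theorem fix_mem (hg : g ∈ Φ.O) (h1 : ∀ w ∈ Φ.perp (D i), g w = w) : g ∈ decL D :=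
  h.mem_decL h.two two_pos fun l x hx => ⟨l, by
    by_cases h2 : i = l
    · subst h2; exact apply_mem_of_mem_stabL (stab_of_fix h.nd hg h1) hx
    · rwa [h1 x (h.perp h2 hx)]⟩

theorem pair_mem (ha : a ∈ D i) (hb : b ∈ D j) (h1 : Φ.Q a ≠ 0) {t : F}
    (h2 : Φ.Q a = t ^ 2 * Φ.Q b) : rf h.κ a * rf h.κ b ∈ decL D ⊓ Φ.E :=
  ⟨mul_mem (h.fix_mem (rf_O _ _) (rf_fix _ ha)) (h.fix_mem (rf_O _ _) (rf_fix _ hb)),
    refl_mul_refl_mem_E h.κ h.nd h.dim h1 h2⟩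

theorem exists_tau (i : ι) : ∃ τ ∈ decL D ⊓ Φ.E, Rot Φ (D i) τ := by
  obtain ⟨a, ha, h1⟩ := (h.pl i).exists_Q
  obtain ⟨w, hw, -, -, h2, h3⟩ := (h.pl i).exists_rot h.nd (h.q' i) ha h1
  have h4 := (rf_O h.κ w).2 a
  exact ⟨_, h.pair_mem ha (rf_mem _ hw ha) h1 (t := 1) (by simp [h4]),
    (h.pl i).rot ha (rf_mem _ hw ha) h1 (h4 ▸ h1) h2 (Or.inr h3)⟩

theorem exists_sw (hij : i ≠ j) : ∃ s ∈ decL D ⊓ Φ.E, (D i).map s.toLinearMap = D j ∧
    ∀ l, l ≠ i → l ≠ j → ∀ x ∈ D l, s x = x := by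
  obtain ⟨k, hk, h1⟩ := h.iso i j
  obtain ⟨s, hs, h2, -, h3⟩ := h.exists_swap h.nd h.two hij hk h1
  obtain ⟨a, ha, h4⟩ := (h.pl i).exists_Q
  obtain ⟨r, hr, h5⟩ := exists_mul_mem_omega h.nd h.κ (genHyp h.nd h.κ h.dim)
    (Φ.Fix (Φ.perp (D i))) ⟨s, hs.2⟩ (.inr ⟨refl h.κ a, rf_fix _ ha, dickson_refl h.nd h.κ _ h4⟩)
    (or_iff_not_imp_left.2 fun h2 => by
      obtain ⟨ν, hν⟩ := FiniteField.exists_nonsquare (ringChar_ne_two h2)
      have hν0 : ν ≠ 0 := fun h => hν (h ▸ IsSquare.zero)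
      obtain ⟨b, hb, h6⟩ := (h.pl i).exists_Q_eq h.nd h2 (ν * Φ.Q a)
      have h7 : Φ.Q b ≠ 0 := h6 ▸ mul_ne_zero hν0 h4
      refine ⟨refl h.κ b * refl h.κ a, mul_mem (rf_fix _ hb) (rf_fix _ ha), ?_, ?_⟩
      · simp [dickson_refl h.nd h.κ _ h4, dickson_refl h.nd h.κ _ h7]
      · rw [map_mul, spin_refl h.nd h.κ h4, spin_refl h.nd h.κ h7, h6, sqc_mul hν0 h4,
          sqc_of_not hν, mul_assoc, Int.units_mul_self, mul_one])
  refine ⟨s * r.1, ⟨mul_mem hs.1 (h.fix_mem r.2 hr), (mem_E_quad h.nd h.κ h.dim).2 h5⟩,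
    map_eq_of_le ?_ (by rw [h.two, h.two]), fun l e1 e2 x hx => ?_⟩
  · rintro _ ⟨y, hy, rfl⟩
    have h8 := apply_mem_of_mem_stabL (stab_of_fix h.nd r.2 hr) hy
    exact h1.le ⟨_, h8, (h2 _ h8).symm⟩
  · rw [LinearEquiv.mul_apply, hr x (h.perp e1.symm hx), h3 l e1 e2 x hx]

theorem an_or : (∀ i, An Φ (D i)) ∨
    7 ≤ Fintype.card F ∧ ∀ i, ∃ e ∈ D i, ∃ f ∈ D i, Hyp Φ e f := by
  by_cases hA : ∀ i, An Φ (D i)
  · exact Or.inl hA
  refine Or.inr ⟨h.q.resolve_right fun e => hA e.2, fun j => ?_⟩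
  simp only [An, not_forall] at hA
  obtain ⟨i, v, hv, h1, h0⟩ := hA
  obtain ⟨k, hk, h2⟩ := h.iso i j
  have h3 : k v ∈ D j := h2.le ⟨v, hv, rfl⟩
  exact ⟨_, h3, hyp_of_nd h.nd h.κ (h.pl j).nd h3 (by rw [hk.2, h1]) (by simpa using h0)⟩

omit [FiniteDimensional F V] in
theorem exists_notMem [DecidableEq ι] (S : Finset ι) (hS : #S ≤ 4) : ∃ i, i ∉ S :=
  let ⟨i, _, e⟩ := exists_mem_notMem_of_card_lt_card (s := S) (t := univ)
    (by have := h.five; rw [card_univ]; omega)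
  ⟨i, e⟩

section H

variable (C : Ctx Φ H) (hM : decL D ⊓ Φ.E ≤ H)
include C hM

theorem spread (h1 : ∀ v ∈ D m, Φ.AIn H z v) (hm : π m z = 0) (hl : π l z = 0) :
    ∀ v ∈ D l, Φ.AIn H z v := by
  by_cases e : m = l
  · exact e ▸ h1
  obtain ⟨s, hs, e1, e2⟩ := h.exists_sw e
  intro v hv
  obtain ⟨u, hu, rfl⟩ := e1.ge hv
  have := (h1 u hu).conj (hM hs) (E_le_O hs.2)
  rwa [h.apply_eq (g := s) fun i => by
    by_cases e3 : i = m
    · exact Or.inl (e3 ▸ hm)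
    by_cases e4 : i = l
    · exact Or.inl (e4 ▸ hl)
    · exact Or.inr (e2 i e3 e4)] at this

theorem fin_plus (he : e ∈ D j) (h1 : Φ.Q e = 0) (h0 : e ≠ 0) (hm : m ≠ j)
    (hA : ∀ v ∈ D m, Φ.AIn H e v) : False := by
  obtain ⟨f, hf, hef⟩ := hyp_of_nd h.nd h.κ (h.pl j).nd he h1 h0
  obtain ⟨k, hk, h2⟩ := h.iso j m
  have h3 : Φ.Q (e + f) = 1 := by simpa using hef.Q_smul_add h.κ 1
  have h4 : k (e + f) ∈ D m := h2.le ⟨_, (D j).add_mem he hf, rfl⟩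
  have h5 := h.pair_mem ((D j).add_mem he hf) h4 (by simp [h3]) (t := 1) (by simp [-map_add, hk.2])
  refine C.ne (E_le_of_qIn_of_mem h.nd hef.left (qIn_iff.2 fun v hv => ?_) (hM h5) (E_le_O h5.2) ?_)
  · obtain ⟨s, t, e1⟩ := (h.pl j).span he hf h0 (fun e' => by
      obtain ⟨c, rfl⟩ := Submodule.mem_span_singleton.1 e'
      simpa [hef.left.1] using hef.one) (h.mem j v)
    have e2 := h.B_right he v
    rw [← e1, hv] at e2
    simp only [map_add, map_smul, hef.left.1, hef.one, smul_eq_mul, mul_zero, zero_add, mul_one] at e2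
    have := (h.aIn_of (K := H) (v := v - π j v) h1 fun i => by
      by_cases e3 : i = j
      · exact Or.inl (by simp [e3, h.idem])
      · exact Or.inr (h.spread C hM hA (h.zero _ _ hm e he) (h.zero _ _ e3 e he))).add_smul
        hef.left s
    rwa [← e1, e2, zero_smul, add_zero, sub_add_cancel] at this
  · rw [LinearEquiv.mul_apply, rf_fix _ h4 e (h.perp hm he), refl_apply, h3]
    simp [hef.left.1, hef.one, B_comm_quad h.κ f e]

theorem step_minus (hA : ∀ i, An Φ (D i)) (hz : Φ.Q z = 0) (h1 : ∀ i, i ≠ j → i ≠ m → π i z = 0)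
    (h2 : π j z ≠ 0) (h3 : l ≠ j) (h4 : l ≠ m) (h5 : ∀ v ∈ D l, Φ.AIn H z v) {s : V}
    (hs : Φ.Q s = 0) (h6 : π j s = 0) (h7 : π m s = 0) : ∀ i, π i s = 0 → ∀ v ∈ D i, Φ.AIn H s v := by
  have e1 : ∀ c : F, Φ.AIn H z (c • s) := fun c => h.aIn_of hz fun i => by
    by_cases e1 : i = j
    · exact Or.inl (by simp [e1, h6])
    by_cases e2 : i = m
    · exact Or.inl (by simp [e2, h7])
    · exact Or.inr (h.spread C hM h5 (h1 l h3 h4) (h1 i e1 e2))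
  have h8 : ∀ c : F, Φ.AIn H s (c • z) := fun c => aIn_swap h.κ (by simp [Φ.Q_smul, hz]) hs
    (aIn_smul_left h.κ hz (e1 c) (by simpa using (e1 1).1))
  obtain ⟨τ, hτ, hr⟩ := h.exists_tau j
  have h9 : ∀ {v}, Φ.AIn H s v → Φ.AIn H s (τ v) := fun hv => by
    simpa only [hr.fix s (h.mem_perp h6)] using hv.conj (hM hτ) hr.O
  replace e1 := h.sub_eq hr.fix z
  have e2 : z - τ z ∈ D j := e1 ▸ (D j).sub_mem (h.mem j z) (hr.mem h.nd (h.mem j z))
  have e3 : z - τ z ≠ 0 := fun e => h2 (hr.eig _ (h.mem j z) (Or.inl (sub_eq_zero.1 (e1 ▸ e)).symm))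
  have e4 : ∀ c : F, Φ.AIn H s (c • (z - τ z)) := fun c => by
    simpa [smul_sub] using (h8 c).sub ((sing_quad h.κ).2 hs) (h9 (h8 c))
  refine fun i hi => h.spread C hM (m := j) (fun v hv => ?_) h6 hi
  obtain ⟨c, c', rfl⟩ := (h.pl j).span e2 (hr.mem h.nd e2) e3 (hr.notMem e2 (mt (hA j _ e2) e3)) hv
  exact (e4 c).add ((sing_quad h.κ).2 hs) (map_smul τ c' _ ▸ h9 (e4 c'))

omit C hM in
theorem exists_sing2 (hA : ∀ i, An Φ (D i)) (hij : i ≠ j) : ∃ s, Φ.Q s = 0 ∧ π i s ≠ 0 ∧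
    ∀ l, l ≠ i → l ≠ j → π l s = 0 := by
  obtain ⟨a, ha, h1⟩ := (h.pl i).exists_Q
  obtain ⟨b, hb, h2⟩ := (h.pl j).exists_Q
  obtain ⟨w, hw, w', hw', h3, -, h4⟩ := (h.pl i).exists_opp h.nd (h.pl j) (hA i) (hA j) ha
    (by rintro rfl; simp at h1) hb (by rintro rfl; simp at h2)
  refine ⟨w + w', by simp [Q_add_quad h.κ, h4, h.orth i j hij w hw w' hw'], ?_,
    fun l e1 e2 => by simp [h.zero _ _ e1 w hw, h.zero _ _ e2 w' hw']⟩
  rw [map_add, h.self i w hw, h.zero _ _ hij w' hw', add_zero]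
  rintro rfl
  simp at h3

theorem fin_minus (hA : ∀ i, An Φ (D i)) (hz : Φ.Q z = 0) (h1 : ∀ i, i ≠ j → i ≠ m → π i z = 0)
    (h2 : π j z ≠ 0) (h3 : l ≠ j) (h4 : l ≠ m) (h5 : ∀ v ∈ D l, Φ.AIn H z v) : False := by
  classical
  obtain ⟨l', e⟩ := h.exists_notMem {j, m, l} (card_le_three.trans (by omega))
  simp only [mem_insert, mem_singleton, not_or] at e
  obtain ⟨s, hs, a1, a2⟩ := h.exists_sing2 hA (Ne.symm e.2.2)
  have a3 := a2 j h3.symm (Ne.symm e.1)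
  have a4 := a2 m h4.symm (Ne.symm e.2.1)
  have a5 := h.step_minus C hM hA hz h1 h2 h3 h4 h5 hs a3 a4
  have hs' := (sing_quad h.κ).2 hs
  have a6 := h.step_minus C hM hA hs a2 a1 h3.symm (Ne.symm e.1) (a5 j a3) hz (h1 l h3 h4)
    (h1 l' e.1 e.2.1)
  obtain ⟨v, hv, a7⟩ := h.exists_one h.nd (h.mem j z) h2
  rw [h.B_left hv] at a7
  have a8 : ∀ y, (∀ i, i ≠ l → i ≠ l' → π i y = 0) → Φ.B s y = 0 → Φ.AIn H s y := fun y b1 b2 => by
    obtain ⟨g, hg, hO, b3⟩ := (h.aIn_of (K := H) (v := y) hz fun i => by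
      by_cases e1 : i = l
      · exact Or.inr (a6 i (e1 ▸ h1 l h3 h4))
      by_cases e2 : i = l'
      · exact Or.inr (a6 i (e2 ▸ h1 l' e.1 e.2.1))
      · exact Or.inl (b1 i e1 e2)).apply h.κ hz
    have b4 : Φ.AIn H s z := h.aIn_of hs fun i => by
      by_cases e1 : i = j
      · exact Or.inr (a5 i (e1 ▸ a3))
      by_cases e2 : i = m
      · exact Or.inr (a5 i (e2 ▸ a4))
      · exact Or.inl (h1 i e1 e2)
    have b5 := (a5 j a3 v hv).conj hg hO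
    have b6 : Φ.AIn H s ((Φ.B y v - Φ.Q y) • z) := h.aIn_of hs fun i => by
      by_cases e1 : i = j
      · exact Or.inr (a5 i (e1 ▸ a3))
      by_cases e2 : i = m
      · exact Or.inr (a5 i (e2 ▸ a4))
      · exact Or.inl (by simp [h1 i e1 e2])
    rw [b3, b3, Φ.B_eq_zero_symm b2, Φ.B_eq_zero_symm b4.1, a7] at b5
    simp only [mul_zero, sub_self, zero_smul, add_zero, sub_zero, mul_one, one_smul] at b5
    simpa only [sub_sub_cancel] using ((a5 j a3 v hv).add hs' b6).sub hs' b5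
  obtain ⟨τ, hτ, hr⟩ := h.exists_tau l
  refine C.ne (E_le_of_qIn_of_mem h.nd hs' (qIn_iff.2 fun v hv => ?_) (hM hτ) hr.O fun e1 => ?_)
  · have b1 : Φ.AIn H s (v - π l v - π l' v) := h.aIn_of hs fun i => by
      by_cases e1 : i = l
      · exact Or.inl (by simp [e1, h.idem, h.toPrj.orth (Ne.symm e.2.2)])
      by_cases e2 : i = l'
      · exact Or.inl (by simp [e2, h.idem, h.toPrj.orth e.2.2])
      · exact Or.inr (a5 i (a2 i e1 e2))
    simpa using b1.add hs' (a8 (π l v + π l' v) (fun i e1 e2 => by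
      simp [h.toPrj.orth e1, h.toPrj.orth e2]) (by
        have := b1.1
        simp only [map_sub, map_add, hv] at this ⊢
        linear_combination -this))
  · have e2 := h.sub_eq hr.fix s
    have e3 := hA l _ ((D l).sub_mem (h.mem l s) (hr.mem h.nd (h.mem l s)))
      (by simp [← e2, Φ.Q_sub, hs, hr.O.2, e1])
    exact a1 (hr.eig _ (h.mem l s) (Or.inl (sub_eq_zero.1 e3).symm))

end H

end P2

end H23.Nd
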