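import Cfsg.Agent.H23.P22

/-! Orthogonal decompositions into planes: a new reflection generates everything. -/

set_option autoImplicit false

namespace H23.Nd

open Module H22 Cfsg Cfsg.Geo Form Finset

variable {F V : Type*} [Field F] [Fintype F] [AddCommGroup V] [Module F V]
  {Φ : Form (RingHom.id F) V} {ι : Type*} [Fintype ι] {D : ι → Submodule F V}
  {π : ι → V →ₗ[F] V}

/-- a group containing the reflections of the planes indexed by `J` -/
structure RK (h : P2 Φ D π) (H K : Subgroup (V ≃ₗ[F] V)) (J : Finset ι) : Prop where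
  C : Ctx Φ H
  M : decL D ⊓ Φ.E ≤ H
  O : K ≤ Φ.O
  three : 3 ≤ #J
  refl : ∀ j ∈ J, ∀ v ∈ D j, rf h.κ v ∈ K
  pass : ∀ m ∈ decL D ⊓ Φ.E, (∀ i ∉ J, ∀ v ∈ D i, m v = v) → m ∈ K ∧ ∀ k ∈ K, k * m * k⁻¹ ∈ H

/-- the roots of the reflections in `K` -/
structure RX (h : P2 Φ D π) (K : Subgroup (V ≃ₗ[F] V)) (J : Finset ι) (x : V) : Prop where
  mem : rf h.κ x ∈ K
  Q : Φ.Q x ≠ 0
  supp : ∀ i ∉ J, π i x = 0

namespace RK

variable [FiniteDimensional F V] {h : P2 Φ D π} {H K : Subgroup (V ≃ₗ[F] V)} {J : Finset ι}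
  (r : RK h H K J) {i j l m : ι} {a b e f v w x y z : V} {g : V ≃ₗ[F] V}
include r

omit [FiniteDimensional F V] in
theorem blk (hj : j ∈ J) (hv : v ∈ D j) (h1 : Φ.Q v ≠ 0) : RX h K J v :=
  ⟨r.refl j hj v hv, h1, fun i hi => h.zero _ _ (by rintro rfl; exact hi hj) v hv⟩

omit [FiniteDimensional F V] in
theorem rx (hx : RX h K J x) (hy : RX h K J y) : RX h K J (rf h.κ x y) :=
  ⟨refl_mem_of_map h.κ r.O hx.mem hy.mem, by rw [(rf_O h.κ x).2]; exact hy.Q,
    fun i hi => by simp [refl_apply, hx.supp i hi, hy.supp i hi]⟩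

omit [FiniteDimensional F V] in
theorem conj (hm : m ∈ J) (hz : π m z = 0) (hw : w ∈ D m) (hv : Φ.AIn K z v) :
    Φ.AIn K z (rf h.κ w v) := by
  simpa only [rf_fix h.κ hw z (h.mem_perp hz)] using hv.conj (r.refl m hm w hw) (rf_O _ _)

theorem up (hm : m ∈ J) (hz : π m z = 0) (h1 : Φ.Q z = 0) (h2 : ∀ v ∈ D m, Φ.AIn K z v) :
    ∀ v ∈ D m, Φ.AIn H z v := fun v hv => by
  obtain ⟨τ, hτ, hr⟩ := h.exists_tau m
  obtain ⟨u, hu, rfl⟩ := hr.surj h.nd hv
  exact aIn_pass h.κ h.nd h1 (h2 u hu) (r.M hτ) hr.O (hr.fix z (h.mem_perp hz))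
    (r.pass τ hτ fun i hi v hv => hr.fix v (h.perp (by rintro rfl; exact hi hm) hv)).2

theorem minus3 (hA : ∀ i, An Φ (D i)) (hx : RX h K J x) (hjm : j ≠ m) (h3 : l ≠ j) (h4 : l ≠ m)
    (hj : π j x ≠ 0) (hm : π m x ≠ 0) (hl : π l x ≠ 0) : False := by
  have hJ : ∀ {i}, π i x ≠ 0 → i ∈ J := fun hi => by_contra fun e => hi (hx.supp _ e)
  obtain ⟨w, hw, w', hw', e1, e2, e3⟩ := (h.pl j).exists_opp h.nd (h.pl m) (hA j) (hA m)
    (h.mem j x) hj (h.mem m x) hm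
  rw [h.B_right hw] at e1
  rw [h.B_right hw'] at e2
  have e4 : Φ.Q w ≠ 0 := fun e => by simp [hA j w hw e] at e1
  have e5 := h.orth j m hjm w hw w' hw'
  set u := (-((Φ.Q x)⁻¹ * (Φ.Q w)⁻¹)) • (w - w') with hu
  have e6 : Φ.Q u = 0 := by simp [hu, Φ.Q_smul, Φ.Q_sub, e3, e5, Φ.Q_neg]
  have e7 : ∀ i, i ≠ j → i ≠ m → π i u = 0 := fun i a1 a2 => by
    simp [hu, h.zero _ _ a1 w hw, h.zero _ _ a2 w' hw']
  have e8 : Φ.AIn K u x := aIn_of_refl h.κ h.nd e6 (by simp [hu, e1, e2]) hx.Q (mul_mem (by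
    have := hx.Q
    convert (r.rx (r.blk (hJ hj) hw e4) (r.rx (r.blk (hJ hm) hw' (by simpa [e3])) hx)).mem using 3
    simp only [refl_apply, map_sub, map_smul, e1, e2, e3, e5, hu]
    match_scalars <;> field_simp <;> ring) hx.mem)
  obtain ⟨y, hy, e9⟩ := h.exists_one' h.nd (h.mem l x) hl
  rw [h.B_right hy] at e9
  have e10 : y ≠ 0 := by rintro rfl; simp at e9
  have e11 := mt (hA l y hy) e10
  refine h.fin_minus r.C r.M hA e6 e7 ?_ h3 h4 (r.up (hJ hl) (e7 l h3 h4) e6 fun v hv =>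
    (h.pl l).le_of_an h.nd (hA l) (A := aSub h.κ K e6) (a := (Φ.Q y)⁻¹ • y)
      (fun w hw v hv => r.conj (hJ hl) (e7 l h3 h4) hw hv) ((D l).smul_mem _ hy) (by simp [e10, e11])
      ?_ hv)
  · simp [hu, h.self j w hw, h.zero _ _ hjm w' hw', hx.Q, e4]
    rintro rfl
    simp at e4
  · simpa [refl_apply, e9] using
      (aSub h.κ K e6).sub_mem e8 (r.conj (hJ hl) (e7 l h3 h4) hy e8)

theorem minus (hA : ∀ i, An Φ (D i)) (hx : RX h K J x) (hjm : j ≠ m) (hj : π j x ≠ 0)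
    (hm : π m x ≠ 0) : False := by
  classical
  have hJ : ∀ {i}, π i x ≠ 0 → i ∈ J := fun hi => by_contra fun e => hi (hx.supp _ e)
  by_cases h3 : ∃ l, l ≠ j ∧ l ≠ m ∧ π l x ≠ 0
  · obtain ⟨l, e1, e2, e3⟩ := h3
    exact r.minus3 hA hx hjm e1 e2 hj hm e3
  push Not at h3
  obtain ⟨l, hl, e⟩ := exists_mem_notMem_of_card_lt_card (s := {j, m}) (t := J)
    (card_le_two.trans_lt r.three)
  simp only [mem_insert, mem_singleton, not_or] at e
  obtain ⟨s, hs, e1, e2⟩ := h.exists_sw (Ne.symm e.2)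
  have e3 : x = π j x + π m x := sub_eq_zero.1 (h.eq_zero fun i => by
    by_cases a1 : i = j
    · simp [a1, h.idem, h.toPrj.orth hjm]
    by_cases a2 : i = m
    · simp [a2, h.idem, h.toPrj.orth hjm.symm]
    · simp [h3 i a1 a2, h.toPrj.orth a1, h.toPrj.orth a2])
  have ha := h.mem j x
  have hb := h.mem m x
  have hj' := hJ hj
  have hm' := hJ hm
  generalize π j x = a at *
  generalize π m x = b at *
  subst e3
  obtain ⟨w, hw, a1, -, a2, a3⟩ := (h.pl j).exists_rot h.nd (h.q' j) ha (mt (hA j a ha) hj)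
  have hc : s b ∈ D l := e1.le ⟨b, hb, rfl⟩
  have e4 : s (a + b) = a + s b := by rw [map_add, e2 j hjm (Ne.symm e.1) a ha]
  have e5 := (r.pass s hs fun i hi => e2 i (by rintro rfl; exact hi hm') (by rintro rfl; exact hi hl)).1
  have e6 := r.rx hx (r.rx (r.blk hj' hw a1) (y := s (a + b)) ⟨refl_mem_of_map h.κ r.O e5 hx.mem,
    by rw [(r.O e5).2]; exact hx.Q, fun i hi => by
      rw [e4, map_add, h.zero _ _ (by rintro rfl; exact hi hj') a ha,
        h.zero _ _ (by rintro rfl; exact hi hl) _ hc, add_zero]⟩)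
  have ha' := rf_mem h.κ hw ha
  rw [e4, map_add, rf_fix _ hw _ (h.perp (Ne.symm e.1) hc)] at e6
  generalize rf h.κ w a = a' at *
  have e7 : Φ.B (a + b) (a' + s b) = Φ.B a a' := by
    simp [h.orth _ _ (Ne.symm e.1) a ha _ hc, h.orth _ _ (Ne.symm e.2) b hb _ hc,
      h.orth _ _ hjm.symm b hb a' ha']
  rw [refl_apply, e7] at e6
  refine r.minus3 hA e6 hjm e.1 e.2 ?_ ?_ ?_ <;> simp only [map_sub, map_add, map_smul]
  · rw [h.self _ _ ha', h.self _ _ ha, h.zero _ _ hjm b hb, h.zero _ _ (Ne.symm e.1) _ hc, add_zero,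
      add_zero, sub_ne_zero]
    exact fun e' => a2 (e' ▸ Submodule.smul_mem _ _ (Submodule.mem_span_singleton_self _))
  · simp [h.self _ _ hb, h.zero _ _ hjm.symm a ha, h.zero _ _ hjm.symm a' ha',
      h.zero _ _ (Ne.symm e.2) _ hc, hx.Q, a3, hm]
  · simp [h.self _ _ hc, h.zero _ _ e.1 a ha, h.zero _ _ e.1 a' ha', h.zero _ _ e.2 _ hb, hm]

omit [FiniteDimensional F V] in
theorem hsc_mem (hj : j ∈ J) (he : e ∈ D j) (hf : f ∈ D j) (t : F) : (hsc h.κ e f t).1 ∈ K :=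
  mul_mem (r.refl j hj _ ((D j).add_mem ((D j).smul_mem t he) hf))
    (r.refl j hj _ ((D j).add_mem he hf))

theorem core (hj : j ∈ J) (he : e ∈ D j) (h1 : Φ.Q e = 0) (h0 : e ≠ 0) (hy : y ≠ 0)
    (h2 : π j y = 0) (h3 : ∀ i ∉ J, π i y = 0) (hA : Φ.AIn K e y) : False := by
  obtain ⟨f, hf, hef⟩ := hyp_of_nd h.nd h.κ (h.pl j).nd he h1 h0
  have e1 : ∀ c : F, Φ.AIn K e (c • y) := fun c => by
    by_cases hc : c = 0
    · simpa [hc] using aIn_zero h.κ K e
    have := hA.conj (r.hsc_mem hj he hf c) (hsc h.κ e f c).2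
    rw [hsc_apply h.κ hef hc, hsc_apply h.κ hef hc, h.mem_perp h2 e he, h.mem_perp h2 f hf,
      hef.left.1, hef.B_symm, eps_quad h.κ] at this
    exact AIn.of_smul_left hc (by simpa [sub_smul] using this)
  obtain ⟨m, hm⟩ : ∃ m, π m y ≠ 0 := by
    by_contra! hc
    exact hy (h.eq_zero hc)
  have hmj : m ≠ j := by rintro rfl; exact hm h2
  have hmJ : m ∈ J := by_contra fun e => hm (h3 m e)
  have e2 := h.zero _ _ hmj e he
  obtain ⟨w, hw, e3, e4⟩ : ∃ w ∈ D m, Φ.Q w ≠ 0 ∧ Φ.B w y ≠ 0 := by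
    by_contra! hc
    obtain ⟨a, ha, a1⟩ := (h.pl m).exists_Q
    obtain ⟨w, hw, -, -, a2, -⟩ := (h.pl m).exists_rot h.nd (h.q' m) ha a1
    refine hm (h.eq_zero_of_perp h.nd fun v hv => ?_)
    obtain ⟨s, t, rfl⟩ := (h.pl m).span ha (rf_mem h.κ hw ha) (by rintro rfl; simp at a1) a2 hv
    simp [hc a ha a1, hc _ (rf_mem h.κ hw ha) (by rwa [(rf_O h.κ w).2])]
  have e5 : ∀ c : F, Φ.AIn K e (c • w) := fun c => by
    have := (e1 (c * Φ.Q w / Φ.B w y)).sub hef.left (r.conj hmJ e2 hw (e1 (c * Φ.Q w / Φ.B w y)))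
    rw [refl_apply, sub_sub_cancel, map_smul] at this
    convert this using 2
    rw [smul_eq_mul]; field_simp
  obtain ⟨w', hw', -, -, e6, -⟩ := (h.pl m).exists_rot h.nd (h.q' m) hw e3
  refine h.fin_plus r.C r.M he h1 h0 hmj (r.up hmJ e2 h1 fun v hv => ?_)
  obtain ⟨s, t, rfl⟩ := (h.pl m).span hw (rf_mem h.κ hw' hw) (by rintro rfl; simp at e3) e6 hv
  exact (e5 s).add hef.left (map_smul (rf h.κ w') t w ▸ r.conj hmJ e2 hw' (e5 t))

variable (hq : 7 ≤ Fintype.card F)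
include hq

theorem plus1 (hx : RX h K J x) (hj : π j x ≠ 0) (h1 : Φ.Q (π j x) = 0) : False := by
  have hJ : j ∈ J := by_contra fun e => hj (hx.supp _ e)
  have he := h.mem j x
  obtain ⟨f, hf, hef⟩ := hyp_of_nd h.nd h.κ (h.pl j).nd he h1 hj
  obtain ⟨t, a1, a2, -⟩ := exists_avoid hq 1 0 0 0 0
  have e1 : Φ.B (π j x) x = 0 := by rw [← h.B_right he, hef.left.1]
  have e2 : Φ.B f x = 1 := by rw [← h.B_right hf, hef.B_symm, eps_quad h.κ]
  have e3 : (t - 1) / Φ.Q x ≠ 0 := div_ne_zero (sub_ne_zero.2 a2) hx.Q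
  have e4 : Φ.Q (((t - 1) / Φ.Q x) • π j x) = 0 := by simp [Φ.Q_smul, h1]
  have e5 := aIn_of_refl h.κ h.nd (K := K) e4 (e := x) (by simp [e1]) hx.Q (mul_mem (by
    convert refl_mem_of_map h.κ r.O (r.hsc_mem hJ he hf t) hx.mem using 3
    rw [hsc_apply h.κ hef a1, e1, e2, smul_smul, mul_div_cancel₀ _ hx.Q]
    simp) hx.mem)
  refine r.core hJ ((D j).smul_mem _ he) e4 (smul_ne_zero e3 hj) (y := x - π j x) (fun e => ?_)
    (by simp [h.idem]) (fun i hi => ?_) ?_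
  · exact hx.Q (by rw [sub_eq_zero.1 e, h1])
  · simp [hx.supp i hi, h.toPrj.orth (show i ≠ j by rintro rfl; exact hi hJ)]
  · simpa only [smul_smul, neg_mul, inv_mul_cancel₀ e3, neg_smul, one_smul, ← sub_eq_add_neg] using
      e5.add_smul ((sing_quad h.κ).2 e4) (-((t - 1) / Φ.Q x)⁻¹)

variable (hP : ∀ i, ∃ e ∈ D i, ∃ f ∈ D i, Hyp Φ e f)
include hP

omit r hq in
theorem coord (h : P2 Φ D π) (j : ι) (x : V) : ∃ e ∈ D j, ∃ f ∈ D j, ∃ s t : F, Hyp Φ e f ∧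
    π j x = s • e + t • f ∧ Φ.Q (π j x) = s * t ∧ Φ.B e x = t ∧ Φ.B f x = s := by
  obtain ⟨e, he, f, hf, hef⟩ := hP j
  obtain ⟨s, t, e1⟩ := (h.pl j).span he hf hef.left_ne (fun e' => by
    obtain ⟨c, rfl⟩ := Submodule.mem_span_singleton.1 e'
    simpa [hef.left.1] using hef.one) (h.mem j x)
  refine ⟨e, he, f, hf, s, t, hef, e1.symm, ?_, ?_, ?_⟩
  · simp [← e1, Q_add_quad h.κ, Φ.Q_smul, hef.left.2, hef.right.2, hef.one, mul_comm]
  · rw [← h.B_right he, ← e1]; simp [hef.left.1, hef.one]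
  · rw [← h.B_right hf, ← e1]; simp [hef.right.1, hef.B_symm, eps_quad h.κ]

theorem plusA (hx : RX h K J x) (hj : π j x ≠ 0) (h0 : x - π j x ≠ 0)
    (h2 : Φ.Q x ≠ 2 * Φ.Q (π j x)) : False := by
  have hJ : j ∈ J := by_contra fun e => hj (hx.supp _ e)
  by_cases h1 : Φ.Q (π j x) = 0
  · exact r.plus1 hq hx hj h1
  obtain ⟨e, he, f, hf, s, t, hef, e1, e2, e3, e4⟩ := coord hP h j x
  rw [e2] at h1 h2
  have hs := left_ne_zero_of_mul h1
  have ht := right_ne_zero_of_mul h1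
  have hy : π j (x - π j x) = 0 := by simp [h.idem]
  have e5 : Φ.Q x = s * t + Φ.Q (x - π j x) := by
    rw [← e2, ← add_zero (_ + _), ← h.mem_perp hy _ (h.mem j x), ← Q_add_quad h.κ, add_sub_cancel]
  by_cases h3 : Φ.Q (x - π j x) = 0
  · have e6 : Φ.Q ((s * t)⁻¹ • (x - π j x)) = 0 := by rw [Φ.Q_smul, h3, mul_zero]
    have e7 : π j ((s * t)⁻¹ • (x - π j x)) = 0 := by rw [map_smul, hy, smul_zero]
    have e8 := aIn_of_refl h.κ h.nd (K := K) e6 (e := π j x)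
      (Φ.B_eq_zero_symm (h.mem_perp e7 _ (h.mem j x))) (e2 ▸ h1) (mul_mem (by
        rw [e2, smul_inv_smul₀ h1, add_sub_cancel]; exact hx.mem) (r.refl j hJ _ (h.mem j x)))
    have e9 : ∀ c : F, c ≠ 0 → (c * s) • e + (c⁻¹ * t) • f ∈ aSub h.κ K e6 := fun c hc => by
      have := e8.conj (r.hsc_mem hJ he hf c) (hsc h.κ e f c).2
      rw [hsc_apply h.κ hef hc, hsc_apply h.κ hef hc, h.mem_perp e7 e he, h.mem_perp e7 f hf,
        h.B_right he, h.B_right hf, e3, e4] at this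
      simp only [mul_zero, zero_smul, add_zero] at this
      rwa [show (c * s) • e + (c⁻¹ * t) • f = π j x + ((c - 1) * s) • e + ((c⁻¹ - 1) * t) • f by
        rw [e1]; module]
    obtain ⟨β, a1, a2, a3, -⟩ := exists_avoid hq (-1) 1 1 0 0
    have a4 : 1 + β ≠ 0 := fun e => a2 (by linear_combination e)
    have e10 : Φ.AIn K ((s * t)⁻¹ • (x - π j x))
        (((β ^ 2 + 1 * β + 1) / (β * (1 + β)) * t) • f) := by
      have : Φ.AIn K _ _ := sub_mem (add_mem (e9 1 one_ne_zero) (e9 β a1)) (e9 _ a4)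
      convert this using 1
      match_scalars <;> field_simp <;> ring
    have e11 : Φ.Q (((β ^ 2 + 1 * β + 1) / (β * (1 + β)) * t) • f) = 0 := by
      simp [Φ.Q_smul, hef.right.2]
    exact r.core hJ ((D j).smul_mem _ hf) e11 (smul_ne_zero (mul_ne_zero
      (div_ne_zero a3 (mul_ne_zero a1 a4)) ht) hef.right_ne) (smul_ne_zero (inv_ne_zero h1) h0) e7
      (fun i hi => by simp [hx.supp i hi, h.toPrj.orth (show i ≠ j by rintro rfl; exact hi hJ)])
      (aIn_swap h.κ e6 e11 e10)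
  generalize Φ.Q (x - π j x) = β at *
  have hv := (D j).add_mem ((D j).smul_mem s he) ((D j).smul_mem (s * t / β * t) hf)
  have e6 : π j (rf h.κ x (s • e + (s * t / β * t) • f)) = (s * (1 - s * t / β)) • e := by
    have := hx.Q
    rw [refl_apply, map_sub, map_smul, h.self _ _ hv, e1, B_comm_quad h.κ x]
    simp only [map_add, map_smul, LinearMap.add_apply, LinearMap.smul_apply, e3, e4,
      RingHom.id_apply, smul_eq_mul]
    rw [e5] at this ⊢
    match_scalars <;> field_simp <;> ring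
  refine r.plus1 hq (j := j) (r.rx hx (r.blk hJ hv ?_)) ?_ (by rw [e6, Φ.Q_smul, hef.left.2, mul_zero])
  · simp [Q_add_quad h.κ, Φ.Q_smul, hef.left.2, hef.right.2, hef.one, hs, ht, h3]
  · rw [e6]
    refine smul_ne_zero (mul_ne_zero hs fun e => h2 ?_) hef.left_ne
    field_simp at e
    linear_combination e5 + e

theorem plus (hx : RX h K J x) (hjm : j ≠ m) (hj : π j x ≠ 0) (hm : π m x ≠ 0) : False := by
  have hJ : j ∈ J := by_contra fun e => hj (hx.supp _ e)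
  have key : ∀ {x j m}, j ≠ m → π m x ≠ 0 → x - π j x ≠ 0 := fun {x j m} e1 e2 e3 =>
    e2 (by rw [sub_eq_zero.1 e3, h.toPrj.orth e1.symm])
  by_cases h1 : Φ.Q x = 2 * Φ.Q (π j x)
  swap
  · exact r.plusA hq hP hx hj (key hjm hm) h1
  by_cases h2 : Φ.Q x = 2 * Φ.Q (π m x)
  swap
  · exact r.plusA hq hP hx hm (key hjm.symm hj) h2
  obtain ⟨e, he, f, hf, s, t, hef, e1, e2, e3, e4⟩ := coord hP h j x
  have h3 := hx.Q
  rw [e2] at h1
  have h4 := left_ne_zero_of_mul (h1 ▸ h3)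
  have hs := left_ne_zero_of_mul (right_ne_zero_of_mul (h1 ▸ h3))
  have ht := right_ne_zero_of_mul (right_ne_zero_of_mul (h1 ▸ h3))
  have h1' := mul_ne_zero hs ht
  obtain ⟨c, a1, -, a2, a3⟩ := exists_avoid hq 0 0 1 0 (-1)
  have e5 := r.rx hx (y := (hsc h.κ e f c).1 x) ⟨refl_mem_of_map h.κ r.O (r.hsc_mem hJ he hf c)
    hx.mem, by rwa [O_Q], fun i hi => by
      have : i ≠ j := by rintro rfl; exact hi hJ
      simp [hsc_apply h.κ hef a1, hx.supp i hi, h.zero _ _ this e he, h.zero _ _ this f hf]⟩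
  have e6 : ∀ i, π i (rf h.κ x ((hsc h.κ e f c).1 x)) = (-(c + c⁻¹) / 2) • π i x +
      ((c - 1) * s) • π i e + ((c⁻¹ - 1) * t) • π i f := fun i => by
    rw [refl_apply, hsc_apply h.κ hef a1, e3, e4]
    simp only [map_add, map_smul, map_sub, B_self_quad h.κ, B_comm_quad h.κ x e,
      B_comm_quad h.κ x f, e3, e4, h1, smul_eq_mul]
    match_scalars <;> field_simp <;> ring
  have e7 := e6 m
  rw [h.zero _ _ hjm.symm e he, h.zero _ _ hjm.symm f hf] at e7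
  simp only [smul_zero, add_zero, add_sub_cancel_right] at e7
  refine r.plusA hq hP e5 (j := m) ?_ (key hjm.symm fun e' => ?_) fun e => ?_
  · rw [e7]
    refine smul_ne_zero (div_ne_zero (neg_ne_zero.2 fun e => a2 ?_) h4) hm
    field_simp at e
    linear_combination e
  · rw [e6, h.self _ _ he, h.self _ _ hf, e1] at e'
    have e8 := congrArg (Φ.B e) e'
    have e9 := congrArg (Φ.B f) e'
    simp only [map_add, map_smul, hef.left.1, hef.right.1, hef.one, hef.B_symm, eps_quad h.κ,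
      smul_eq_mul, map_zero] at e8 e9
    field_simp at e8 e9
    refine a3 (mul_left_cancel₀ (mul_ne_zero h4 h1') ?_)
    linear_combination t * e9 - s * e8
  · rw [(rf_O h.κ x).2, O_Q, e7, Φ.Q_smul, h2] at e
    have e8 := right_ne_zero_of_mul (h2 ▸ h3)
    refine a3 (pow_eq_zero_iff two_ne_zero |>.1 ?_)
    field_simp at e
    linear_combination -e

omit hq hP in
theorem mem_blk (hx : RX h K J x) : ∃ j, x ∈ D j := by
  by_contra! hc
  obtain ⟨j, hj⟩ : ∃ j, π j x ≠ 0 := by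
    by_contra! e
    simpa [h.eq_zero e] using hx.Q
  obtain ⟨m, hm, hm'⟩ : ∃ m, m ≠ j ∧ π m x ≠ 0 := by
    by_contra! e
    exact hc j (h.mem_of e)
  rcases h.an_or with hA | ⟨hq, hP⟩
  exacts [r.minus hA hx hm.symm hj hm', r.plus hq hP hx hm.symm hj hm']

end RK

end H23.Nd
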