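import Cfsg.Agent.H23.P23

/-! Orthogonal decompositions into planes: stabilisers in an overgroup. -/

set_option autoImplicit false

namespace H23.Nd

open Module H22 Cfsg Cfsg.Geo Form Finset

variable {F V : Type*} [Field F] [Fintype F] [AddCommGroup V] [Module F V]
  {Φ : Form (RingHom.id F) V} {ι : Type*} [Fintype ι] {D : ι → Submodule F V}
  {π : ι → V →ₗ[F] V}

namespace P2

variable (h : P2 Φ D π) {H K : Subgroup (V ≃ₗ[F] V)} {J : Finset ι} {i j l m : ι}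
  {a b e v w x y z : V} {g k ρ τ : V ≃ₗ[F] V}
include h

theorem ext (h1 : ∀ i, ∀ x ∈ D i, g x = k x) : g = k := LinearEquiv.ext fun z => by
  rw [← h.sum z, map_sum, map_sum]
  exact sum_congr rfl fun i _ => h1 i _ (h.mem i z)

theorem comm (hk : k ∈ Φ.O) (hρ : ρ ∈ Φ.O) (h1 : ∀ i ∉ J, ∀ v ∈ D i, k v = v)
    (h2 : ∀ i ∈ J, ∀ v ∈ D i, ρ v = v) : k * ρ = ρ * k := by
  have key : ∀ {k ρ : V ≃ₗ[F] V} {p : ι → Prop}, k ∈ Φ.O → (∀ i, ¬ p i → ∀ v ∈ D i, k v = v) →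
      (∀ i, p i → ∀ v ∈ D i, ρ v = v) → ∀ j, p j → ∀ v ∈ D j, k (ρ v) = ρ (k v) :=
    fun {k ρ p} hk h1 h2 j hj v hv => by
      rw [h2 j hj v hv, h.apply_eq (g := ρ) fun i => or_iff_not_imp_right.2 fun e =>
        h.eq_zero_of_perp h.nd fun a ha => ?_]
      have e1 := mt (h2 i) e
      rw [← h1 i e1 a ha, hk.1, h.orth i j (by rintro rfl; exact e1 hj) a ha v hv]
  refine h.ext fun i x hx => ?_
  by_cases e : i ∈ J
  · exact key hk h1 h2 i e x hx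
  · exact (key (p := (· ∉ J)) hρ (by simpa using h2) h1 i e x hx).symm

/-- the projection of the stabiliser of the sum of the planes indexed by `J` -/
def KJ (H : Subgroup (V ≃ₗ[F] V)) (J : Finset ι) : Subgroup (V ≃ₗ[F] V) where
  carrier := {k | k ∈ Φ.O ∧ (∀ i ∉ J, ∀ v ∈ D i, k v = v) ∧
    ∃ ρ ∈ Φ.O, (∀ i ∈ J, ∀ v ∈ D i, ρ v = v) ∧ k * ρ ∈ H}
  one_mem' := ⟨one_mem _, fun _ _ _ _ => rfl, 1, one_mem _, fun _ _ _ _ => rfl, by simp⟩
  mul_mem' := by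
    rintro k k' ⟨a1, a2, ρ, a3, a4, a5⟩ ⟨b1, b2, ρ', b3, b4, b5⟩
    refine ⟨mul_mem a1 b1, fun i hi v hv => by simp [a2 i hi v hv, b2 i hi v hv], ρ * ρ',
      mul_mem a3 b3, fun i hi v hv => by simp [a4 i hi v hv, b4 i hi v hv], ?_⟩
    rw [mul_assoc, ← mul_assoc k', h.comm b1 a3 b2 a4, mul_assoc, ← mul_assoc]
    exact mul_mem a5 b5
  inv_mem' := by
    rintro k ⟨a1, a2, ρ, a3, a4, a5⟩
    refine ⟨inv_mem a1, fun i hi v hv => by simpa [LinearEquiv.symm_apply_eq] using (a2 i hi v hv).symm,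
      ρ⁻¹, inv_mem a3, fun i hi v hv => by
        simpa [LinearEquiv.symm_apply_eq] using (a4 i hi v hv).symm, ?_⟩
    rw [← mul_inv_rev, ← h.comm a1 a3 a2 a4]
    exact inv_mem a5

theorem exists_Q_eq' (i j : ι) (hv : v ∈ D i) : ∃ w ∈ D j, Φ.Q v = 1 ^ 2 * Φ.Q w :=
  let ⟨k, hk, e⟩ := h.iso i j
  ⟨k v, e.le ⟨v, hv, rfl⟩, by simp [hk.2]⟩

variable [FiniteDimensional F V]

theorem blk_of (h1 : ∀ v ∈ D j, Φ.Q v ≠ 0 → ∃ m, g v ∈ D m) : ∃ m, ∀ v ∈ D j, g v ∈ D m := by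
  obtain ⟨a, ha, a1⟩ := (h.pl j).exists_Q
  obtain ⟨w, hw, a2, a3, a4, -⟩ := (h.pl j).exists_rot h.nd (h.q' j) ha a1
  have hb := rf_mem h.κ hw ha
  have a0 : a ≠ 0 := by rintro rfl; simp at a1
  obtain ⟨m, hm⟩ := h1 a ha a1
  obtain ⟨l, hl⟩ := h1 _ hb (by rwa [(rf_O h.κ w).2])
  obtain ⟨n, hn⟩ := h1 w hw a2
  obtain rfl : l = m := by_contra fun e => by
    have e1 : g a - g (rf h.κ w a) ∈ D n := by
      rw [refl_apply, map_sub, sub_sub_cancel, map_smul]; exact (D n).smul_mem _ hn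
    by_cases e2 : n = m
    · subst e2
      exact a4 (g.map_eq_zero_iff.1 (by_contra fun e3 => e (h.eq_of_mem e3 hl
        (by simpa using (D n).sub_mem hm e1))) ▸ zero_mem _)
    · have := h.zero _ _ (Ne.symm e2) _ e1
      rw [map_sub, h.self _ _ hm, h.zero _ _ (Ne.symm e) _ hl] at this
      simp [a0] at this
  refine ⟨l, fun v hv => ?_⟩
  obtain ⟨s, t, rfl⟩ := (h.pl j).span ha hb a0 a4 hv
  simpa using (D l).add_mem ((D l).smul_mem s hm) ((D l).smul_mem t hl)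

theorem lemZ {U : Submodule F V} (hU : Pl Φ U) (hr : Rot Φ U τ) (hτ : τ ∈ decL D) :
    ∃ m, U ≤ D m := by
  obtain ⟨s, hs⟩ := hτ
  replace hs : ∀ i, ∀ x ∈ D i, τ x ∈ D (s i) := fun i x hx => (hs i).le ⟨x, hx, rfl⟩
  have h1 : ∀ v, v - τ v ∈ U := fun v => by
    obtain ⟨a, ha, e⟩ := dec h.nd hU.nd v
    have := hr.fix _ e
    rw [map_sub, sub_eq_iff_eq_add] at this
    rw [this, show v - (v - a + τ a) = a - τ a by abel]
    exact U.sub_mem ha (hr.mem h.nd ha)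
  have h2 : ∀ j, s j = j := fun j => by_contra fun e => by
    have e1 : ∀ v ∈ D j, v - τ v = 0 → v = 0 := fun v hv e' => by_contra fun e2 =>
      e (h.eq_of_mem e2 (sub_eq_zero.1 e' ▸ hs j v hv) hv)
    obtain ⟨a, ha, a1⟩ := (h.pl j).exists_Q
    obtain ⟨w, hw, -, -, a4, -⟩ := (h.pl j).exists_rot h.nd (h.q' j) ha a1
    have hb := rf_mem h.κ hw ha
    have a0 : a ≠ 0 := by rintro rfl; simp at a1
    generalize rf h.κ w a = b at *
    obtain ⟨p, q, e2⟩ := hU.span (h1 a) (h1 b) (mt (e1 a ha) a0) (fun e2 => by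
      obtain ⟨c, e3⟩ := Submodule.mem_span_singleton.1 e2
      refine a4 (Submodule.mem_span_singleton.2 ⟨c, sub_eq_zero.1 (e1 _ ((D j).sub_mem
        ((D j).smul_mem c ha) hb) ?_)⟩)
      rw [map_sub, map_smul, sub_sub_sub_comm, ← smul_sub, e3, sub_self]) (h1 (τ a))
    have hc := (D j).add_mem ((D j).smul_mem p ha) ((D j).smul_mem q hb)
    have e3 : p • a + q • b - τ (p • a + q • b) = τ a - τ (τ a) := by
      rw [← e2, map_add, map_smul, map_smul]; module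
    generalize p • a + q • b = c at *
    have e4 := congrArg (π (s j)) e3
    rw [map_sub, map_sub, h.zero _ _ e c hc, h.self _ _ (hs j c hc), h.self _ _ (hs j a ha),
      h.zero _ _ (fun e' => e (s.injective e').symm) _ (hs _ _ (hs j a ha)), zero_sub, sub_zero,
      ← map_neg, τ.injective.eq_iff] at e4
    subst e4
    refine a0 (e1 _ ha (hr.eig _ (h1 _) (Or.inr ?_)))
    rw [map_sub, ← e3]
    simp only [map_neg]
    abel
  have h3 : ∀ j, ∀ u ∈ U, π j u ∈ U := fun j u hu => by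
    obtain ⟨u, -, rfl⟩ := hr.surj h.nd hu
    have : π j (τ u) = τ (π j u) := by
      conv_lhs => rw [← h.sum u, map_sum, map_sum]
      rw [sum_eq_single j (fun i _ e => h.zero _ _ e.symm _ (by simpa [h2] using hs i _ (h.mem i u)))
        (by simp), h.self _ _ (by simpa [h2] using hs j _ (h.mem j u))]
    rw [map_sub, this]
    exact h1 _
  obtain ⟨u, hu, u0⟩ := hU.exists_Q
  obtain ⟨j, hj⟩ : ∃ j, π j u ≠ 0 := by
    by_contra! e
    simp [h.eq_zero e] at u0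
  have hy := h3 j u hu
  have hy' := h.mem j u
  generalize π j u = y at *
  obtain ⟨y', a1, a2, a3⟩ : ∃ y' ∈ U, y' ∈ D j ∧ y' ∉ F ∙ y := by
    by_cases e : Φ.Q y = 0
    · obtain ⟨f, hf, e1⟩ := exists_ne hU.nd hy hj
      refine ⟨_, h3 j f hf, h.mem j f, fun e2 => ?_⟩
      obtain ⟨c, e3⟩ := Submodule.mem_span_singleton.1 e2
      rw [← h.B_right hy', ← e3] at e1
      simp [B_self_quad h.κ, e] at e1
    · exact ⟨_, hr.mem h.nd hy, by simpa [h2] using hs j y hy', hr.notMem hy e⟩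
  refine ⟨j, fun v hv => ?_⟩
  obtain ⟨p, q, rfl⟩ := hU.span hy a1 hj a3 hv
  exact (D j).add_mem ((D j).smul_mem p hy') ((D j).smul_mem q a2)

theorem exists_notMem_dec : ∃ g ∈ Φ.E, g ∉ decL D ⊓ Φ.E := by
  obtain ⟨i⟩ : Nonempty ι := Fintype.card_pos_iff.1 (by have := h.five; omega)
  obtain ⟨u, hu, h1, h0⟩ := exists_sing h.κ (D := Φ.perp (D i)) (by
    have := h.dim
    rw [h.nd.finrank_perp, h.two]; omega)
  obtain ⟨e, he, h2⟩ := (h.pl i).exists_Q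
  obtain ⟨v, hv, h3⟩ := h.exists_one h.nd he (by rintro rfl; simp at h2)
  obtain ⟨t, ht, h4⟩ := exists_eich_apply h.nd h.κ h1 (Φ.B_eq_zero_symm (hu e he))
  refine ⟨t, ht, fun ⟨⟨s, hs⟩, _⟩ => h0 ?_⟩
  have h5 : v + u ∈ D (s i) := by
    simpa [h4, h3, Φ.B_eq_zero_symm (hu v hv)] using (hs i).le ⟨v, hv, rfl⟩
  have h6 : s i = i := by_contra fun e' => by
    have := h.zero _ _ (Ne.symm e') _ h5
    rw [map_add, h.self _ _ hv, h.eq_zero_of_perp h.nd hu, add_zero] at this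
    simp [this] at h3
  rw [h6] at h5
  exact eq_zero (h.pl i).nd ((Submodule.add_mem_iff_right _ hv).1 h5) hu

variable (C : Ctx Φ H) (hM : decL D ⊓ Φ.E ≤ H)
include C hM

theorem rk_KJ (h3 : 3 ≤ #J) (hi : i ∉ J) : RK h H (h.KJ H J) J where
  C := C
  M := hM
  O _ hk := hk.1
  three := h3
  refl j hj v hv := by
    by_cases e : Φ.Q v = 0
    · rw [rf, refl_of_sing h.κ e]; exact one_mem _
    obtain ⟨w, hw, e1⟩ := h.exists_Q_eq' j i hv
    exact ⟨rf_O _ _, fun l hl x hx => rf_fix _ hv x (h.perp (by rintro rfl; exact hl hj) hx), _,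
      rf_O _ _, fun l hl x hx => rf_fix _ hw x (h.perp (by rintro rfl; exact hi hl) hx),
      hM (h.pair_mem hv hw e e1)⟩
  pass m hm h1 := ⟨⟨E_le_O hm.2, h1, 1, one_mem _, fun _ _ _ _ => rfl, by simpa using hM hm⟩, by
    rintro k ⟨-, -, ρ, a3, a4, a5⟩
    have := mul_mem (mul_mem a5 (hM hm)) (inv_mem a5)
    rwa [mul_assoc k, ← h.comm (E_le_O hm.2) a3 h1 a4, mul_inv_rev, ← mul_assoc, ← mul_assoc,
      mul_inv_cancel_right] at this⟩

theorem stJ (h3 : 3 ≤ #J) (hi : i ∉ J) (hg : g ∈ H)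
    (h1 : ∀ j ∈ J, ∀ v ∈ D j, ∀ i ∉ J, π i (g v) = 0) (h2 : ∀ v ∈ D i, ∀ j ∈ J, π j (g v) = 0)
    (hj : j ∈ J) : ∃ m, ∀ v ∈ D j, g v ∈ D m := h.blk_of fun v hv e => by
  obtain ⟨w, hw, e1⟩ := h.exists_Q_eq' j i hv
  refine (h.rk_KJ C hM h3 hi).mem_blk ⟨⟨rf_O _ _, fun l hl x hx => refl_apply_of_perp _
    (Φ.B_eq_zero_symm (h.mem_perp (h1 j hj v hv l hl) x hx)), rf h.κ (g w), rf_O _ _,
    fun l hl x hx => refl_apply_of_perp _ (Φ.B_eq_zero_symm (h.mem_perp (h2 w hw l hl) x hx)), ?_⟩,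
    by rwa [(C.O hg).2], h1 j hj v hv⟩
  simpa [← conj_rf h.κ (C.O hg), mul_assoc] using
    mul_mem (mul_mem hg (hM (h.pair_mem hv hw e e1))) (inv_mem hg)

theorem st (hg : g ∈ H) (h1 : ∀ v ∈ D i, g v ∈ D m) : g ∈ decL D := by
  classical
  have key : ∀ g ∈ H, (∀ v ∈ D i, g v ∈ D i) → g ∈ decL D := fun g hg h1 =>
    h.mem_decL h.two two_pos fun j x hx => by
      by_cases e : j = i
      · exact ⟨i, h1 x (e ▸ hx)⟩
      obtain ⟨m, hm⟩ := h.stJ C hM (J := {i}ᶜ) (i := i) (j := j) (by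
        have := h.five; rw [card_compl, card_singleton]; omega) (by simp) hg
        (fun j hj v hv l hl => by
          obtain rfl : l = i := by simpa using hl
          exact h.eq_zero_of_perp h.nd (perp_apply_mem (C.O hg) (mem_stabL_of_le.2 h1)
            (h.perp (by rintro rfl; simp at hj) hv)))
        (fun v hv j hj => h.zero _ _ (by simpa using hj) _ (h1 v hv)) (by simpa using e)
      exact ⟨m, hm x hx⟩
  by_cases e : m = i
  · exact key g hg (e ▸ h1)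
  obtain ⟨s, hs, e1, -⟩ := h.exists_sw e
  exact (Subgroup.mul_mem_cancel_left _ hs.1).1
    (key _ (mul_mem (hM hs) hg) fun v hv => e1.le ⟨_, h1 v hv, rfl⟩)

theorem of_rot (hg : g ∈ H) (hr : Rot Φ (D i) τ) (h1 : g * τ * g⁻¹ ∈ decL D) : g ∈ decL D :=
  let ⟨_, hm⟩ := h.lemZ ((h.pl i).map (C.O hg)) (hr.map (C.O hg)) h1
  h.st C hM hg fun v hv => hm ⟨v, hv, rfl⟩

theorem of_perp (hg : g ∈ H) (h1 : ∀ v ∈ D i, ∀ w ∈ D j, Φ.B (g v) w = 0) : g ∈ decL D := by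
  obtain ⟨τ, hτ, hr⟩ := h.exists_tau i
  refine h.of_rot C hM hg hr (h.st C hM (mul_mem (mul_mem hg (hM hτ)) (inv_mem hg)) (i := j)
    (m := j) fun w hw => ?_)
  rwa [(hr.map (C.O hg)).fix w (by rintro _ ⟨v, hv, rfl⟩; exact h1 v hv w hw)]

end P2

end H23.Nd
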