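import Cfsg.Agent.H23.P24

/-! Orthogonal decompositions into planes: maximality of the stabiliser. -/

set_option autoImplicit false

namespace H23.Nd

open Module H22 Cfsg Cfsg.Geo Form Finset

variable {F V : Type*} [Field F] [AddCommGroup V] [Module F V]
  {Φ : Form (RingHom.id F) V} {ι : Type*} {D : ι → Submodule F V} {π : ι → V →ₗ[F] V}

variable (D) in
/-- the sign change on the blocks indexed by `S` -/
def IsSg [DecidableEq ι] (S : Finset ι) (k : V ≃ₗ[F] V) : Prop :=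
  ∀ i, ∀ v ∈ D i, k v = if i ∈ S then -v else v

section Sg

variable [DecidableEq ι] {S S' : Finset ι} {k k' m : V ≃ₗ[F] V}

theorem IsSg.mul (h : IsSg D S k) (h' : IsSg D S' k') : IsSg D (symmDiff S S') (k * k') :=
  fun i v hv => by
    rw [LinearEquiv.mul_apply, h' i v hv]
    by_cases e : i ∈ S <;> by_cases e' : i ∈ S' <;> simp [h i v hv, e, e', mem_symmDiff]

theorem IsSg.conj (h : IsSg D S k) {s : Equiv.Perm ι} (hm : ∀ i, (D i).map m.toLinearMap = D (s i)) :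
    IsSg D (S.map s.toEmbedding) (m * k * m⁻¹) := fun i v hv => by
  obtain ⟨i, rfl⟩ := s.surjective i
  obtain ⟨u, hu, rfl⟩ := (hm i).ge hv
  have e' : s i ∈ S.map s.toEmbedding ↔ i ∈ S := by simp
  by_cases e1 : i ∈ S <;> simp [h i u hu, e', e1]

theorem card_symmDiff (S S' : Finset ι) : #(symmDiff S S') + 2 * #(S ∩ S') = #S + #S' := by
  have e1 := card_sdiff_add_card_inter S S'
  have e2 := card_sdiff_add_card_inter S' S
  rw [inter_comm] at e2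
  rw [symmDiff_def, sup_eq_union, card_union_of_disjoint disjoint_sdiff_sdiff]
  omega

end Sg

namespace P2

variable [Fintype F] [Fintype ι] [FiniteDimensional F V] (h : P2 Φ D π) {H : Subgroup (V ≃ₗ[F] V)}
  {i j l : ι} {a b c : V} {g k n : V ≃ₗ[F] V}
include h

omit [FiniteDimensional F V] in
theorem exists_four : ∃ p : Fin 4 → ι, Function.Injective p :=
  let ⟨e⟩ := Function.Embedding.nonempty_of_card_le (α := Fin 4) (β := ι)
    (by have := h.five; simp; omega)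
  ⟨e, e.injective⟩

theorem exists_sw2 {p : Fin 4 → ι} (hp : Function.Injective p) : ∃ m ∈ decL D ⊓ Φ.E,
    ∃ s : Equiv.Perm ι, (∀ i, (D i).map m.toLinearMap = D (s i)) ∧ s (p 0) = p 2 ∧ s (p 1) = p 3 := by
  obtain ⟨m, hm, e1, e2⟩ := h.exists_sw (hp.ne (show (0 : Fin 4) ≠ 2 by decide))
  obtain ⟨m', hm', e3, e4⟩ := h.exists_sw (hp.ne (show (1 : Fin 4) ≠ 3 by decide))
  obtain ⟨s, hs⟩ := mul_mem hm.1 hm'.1
  have key : ∀ i j, (∀ v ∈ D i, m (m' v) ∈ D j) → s i = j := fun i j e => by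
    obtain ⟨v, hv, h0⟩ := (h.pl i).exists_Q
    exact h.eq_of_mem (x := m (m' v)) (by rintro e'; simp_all) ((hs i).le ⟨v, hv, rfl⟩) (e v hv)
  refine ⟨_, mul_mem hm hm', s, hs, key _ _ fun v hv => ?_, key _ _ fun v hv => ?_⟩
  · rw [e4 _ (hp.ne (by decide)) (hp.ne (by decide)) v hv]
    exact e1.le ⟨v, hv, rfl⟩
  · have : m' v ∈ _ := e3.le ⟨v, hv, rfl⟩
    rwa [e2 _ (hp.ne (by decide)) (hp.ne (by decide)) _ this]

section Odd

variable [DecidableEq ι] {S : Finset ι}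

omit [FiniteDimensional F V] in
theorem sg_eq {k' : V ≃ₗ[F] V} (h1 : IsSg D S k) (h2 : IsSg D S k') : k = k' :=
  h.ext fun i x hx => by rw [h1 i x hx, h2 i x hx]

omit [FiniteDimensional F V] in
theorem sg_sq (h1 : IsSg D S k) : k * k = 1 := h.sg_eq (h1.mul h1) fun i v _ => by simp

omit [FiniteDimensional F V] in
theorem sg_apply (h1 : IsSg D S k) (i : ι) (v : V) :
    π i (k v) = if i ∈ S then -π i v else π i v := by
  conv_lhs => rw [← h.sum v, map_sum, map_sum]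
  rw [sum_eq_single i (fun j _ e => ?_) (by simp), h1 i _ (h.mem i v)]
  · split_ifs <;> simp [h.idem]
  · rw [h1 j _ (h.mem j v)]
    split_ifs <;> simp [h.toPrj.orth e.symm]

variable (h2 : (2 : F) ≠ 0)
include h2

theorem exists_sg (hij : i ≠ j) : ∃ d ∈ decL D ⊓ Φ.E, IsSg D {i, j} d := by
  obtain ⟨a, ha, a1⟩ := (h.pl i).exists_Q
  have a0 : a ≠ 0 := by rintro rfl; simp at a1
  obtain ⟨-, -, b, hb, -, a2, a3⟩ := (h.pl i).exists_perp h.nd ha a0
  have key : ∀ i a b, a ∈ D i → b ∈ D i → Φ.Q a ≠ 0 → b ≠ 0 → Φ.B a b = 0 →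
      Φ.Q b ≠ 0 ∧ IsSg D {i} (rf h.κ a * rf h.κ b) := fun i a b ha hb a1 a3 a2 => by
    have a0 : a ≠ 0 := by rintro rfl; simp at a1
    have a4 : b ∉ F ∙ a := fun e' => by
      obtain ⟨s, rfl⟩ := Submodule.mem_span_singleton.1 e'
      simp [B_self_quad h.κ, a1, h2, a0] at a2 a3
      exact a3 a2
    have a5 : Φ.Q b ≠ 0 := fun e' => a3 (eq_zero (h.pl i).nd hb fun w hw => by
      obtain ⟨s, t, rfl⟩ := (h.pl i).span ha hb a0 a4 hw
      simp [a2, B_self_quad h.κ, e'])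
    refine ⟨a5, fun l v hv => ?_⟩
    by_cases e : l = i
    · obtain ⟨s, t, rfl⟩ := (h.pl i).span ha hb a0 a4 (e ▸ hv)
      simp [e, refl_apply_self _ a1, refl_apply_self _ a5, refl_apply_of_perp _ a2,
        refl_apply_of_perp _ (Φ.B_eq_zero_symm a2), add_comm]
    · simp [e, rf_fix _ ha v (h.perp (Ne.symm e) hv), rf_fix _ hb v (h.perp (Ne.symm e) hv)]
  obtain ⟨k, hk, e⟩ := h.iso i j
  have ha' : k a ∈ D j := e.le ⟨a, ha, rfl⟩
  have hb' : k b ∈ D j := e.le ⟨b, hb, rfl⟩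
  obtain ⟨a4, e1⟩ := key i a b ha hb a1 a3 a2
  obtain ⟨-, e2⟩ := key j _ _ ha' hb' (by rwa [hk.2]) (by simpa) (by rwa [hk.1])
  refine ⟨_, mul_mem (h.pair_mem ha ha' a1 (t := 1) (by simp [hk.2]))
    (h.pair_mem hb hb' a4 (t := 1) (by simp [hk.2])), ?_⟩
  rw [mul_assoc, ← mul_assoc (rf _ (k a)), ← rf_comm h.κ (h.orth i j hij b hb _ ha'), mul_assoc,
    ← mul_assoc]
  convert e1.mul e2
  ext p
  simp only [mem_insert, mem_singleton, mem_symmDiff]
  grind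

variable (C : Ctx Φ H) (hM : decL D ⊓ Φ.E ≤ H)
include C hM

theorem pair_fix (hk : IsSg D {i, j} k) (hO : k ∈ Φ.O) (hg : g ∈ H) (h1 : g⁻¹ * k * g ∈ decL D) :
    g ∈ decL D := by
  obtain ⟨l, hl⟩ := exists_fixed h.toODec h.nd (fun i => (h.two i).ge) h1
    (by simp [mul_assoc, ← mul_assoc k, h.sg_sq hk]) (W := (D i ⊔ D j).map (g⁻¹).toLinearMap)
    (fun v => ⟨g v - k (g v), by
      rw [← h.sum (_ - _)]
      refine Submodule.sum_mem _ fun p _ => ?_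
      by_cases e : p ∈ ({i, j} : Finset ι)
      · rcases mem_insert.1 e with rfl | e
        · exact Submodule.mem_sup_left (h.mem _ _)
        · exact Submodule.mem_sup_right (mem_singleton.1 e ▸ h.mem _ _)
      · simp [-mem_insert, h.sg_apply hk, e], by simp⟩) (by
      have := finrank_sup_le (D i) (D j)
      have := h.five
      rw [LinearEquiv.finrank_map_eq]
      rw [h.two, h.two] at *; omega)
  refine h.of_perp C hM hg (i := l) (j := i) fun v hv w hw => mul_left_cancel₀ h2 ?_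
  have := hO.1 (g v) w
  rw [show k (g v) = g v by simpa [LinearEquiv.symm_apply_eq] using hl v hv, hk i w hw,
    if_pos (by simp), map_neg] at this
  linear_combination -this

theorem of_comm (hk : IsSg D S k) (h0 : S.Nonempty) (h1 : S ≠ univ) (hg : g ∈ H)
    (hc : k * g = g * k) : g ∈ decL D := by
  have e1 : ∀ j, ∀ v ∈ D j, ∀ i, (i ∈ S ↔ j ∉ S) → π i (g v) = 0 := fun j v hv i e => by
    have := h.sg_apply hk i (g v)
    rw [← LinearEquiv.mul_apply, hc, LinearEquiv.mul_apply, hk j v hv] at this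
    refine (smul_eq_zero.1 (show (2 : F) • π i (g v) = 0 from ?_)).resolve_left h2
    by_cases e1 : j ∈ S <;> simp only [e, e1, not_true, not_false_eq_true, if_true, if_false,
      map_neg] at this <;> rw [two_smul, ← eq_neg_iff_add_eq_zero]
    exacts [this.symm, this]
  obtain ⟨i, hi⟩ := h0
  obtain ⟨j, hj⟩ : ∃ j, j ∉ S := by
    by_contra! e
    exact h1 (eq_univ_iff_forall.2 e)
  by_cases e : 3 ≤ #S
  · obtain ⟨m, hm⟩ := h.stJ C hM e hj hg (fun j hj v hv i hi => e1 j v hv i (by simp [*]))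
      (fun v hv i hi => e1 j v hv i (by simp [*])) hi
    exact h.st C hM hg hm
  · obtain ⟨m, hm⟩ := h.stJ C hM (J := Sᶜ) (i := i) (j := j)
      (by have := h.five; rw [card_compl]; omega) (by simpa) hg
      (fun j hj v hv i hi => e1 j v hv i (by simp_all))
      (fun v hv j hj => e1 i v hv j (by simp_all)) (by simpa)
    exact h.st C hM hg hm

theorem sg_fix (hk : IsSg D S k) (hH : k ∈ H) (h0 : S.Nonempty) (h1 : S ≠ univ) (hg : g ∈ H)
    (h3 : g⁻¹ * k * g ∈ decL D) : g ∈ decL D := by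
  obtain ⟨s, hs⟩ := h3
  have s2 := invol_of_sq h.toPrj (k := g⁻¹ * k * g)
    (fun i e => by have := h.two i; rw [e] at this; simp at this)
    (by simp [mul_assoc, ← mul_assoc k, h.sg_sq hk]) fun i x hx => (hs i).le ⟨x, hx, rfl⟩
  obtain ⟨i, j, hij, e⟩ : ∃ i j, i ≠ j ∧ ({i, j} : Finset ι).map s.toEmbedding = {i, j} := by
    by_cases e : ∀ i, s i = i
    · obtain ⟨p, hp⟩ := h.exists_four
      exact ⟨p 0, p 1, hp.ne (by decide), by simp [e]⟩
    · push Not at e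
      obtain ⟨i, e⟩ := e
      exact ⟨i, s i, e.symm, by simp [s2, pair_comm]⟩
  obtain ⟨d, hd, e1⟩ := h.exists_sg h2 hij
  have e2 := h.sg_eq (e ▸ e1.conj hs) e1
  refine (decL D).inv_mem_iff.1 (h.pair_fix h2 C hM e1 (E_le_O hd.2) (inv_mem hg)
    (h.of_comm h2 C hM hk h0 h1 (mul_mem (mul_mem (inv_mem (inv_mem hg)) (hM hd)) (inv_mem hg)) ?_))
  conv_rhs => rw [← e2]
  simp [mul_assoc, ← mul_assoc k⁻¹]

omit hM in
theorem le_odd (hZ : Zd.ZD.{u_2}) (h6 : Fintype.card ι ≠ 6) (hM : decL D ⊓ Φ.E ≤ H) :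
    H ≤ decL D ⊓ Φ.E := by
  have : Finite V := Module.finite_of_finite F
  have : Finite (V ≃ₗ[F] V) := Finite.of_injective _ DFunLike.coe_injective
  have h5 := h.five
  obtain ⟨p, hp⟩ := h.exists_four
  obtain ⟨d, hdM, hd⟩ := h.exists_sg h2 (hp.ne (show (0 : Fin 4) ≠ 1 by decide))
  have fix : ∀ {S k}, IsSg D S k → k ∈ decL D ⊓ Φ.E → S.Nonempty → #S ≠ Fintype.card ι →
      ∀ g ∈ H, g⁻¹ * k * g ∈ decL D ⊓ Φ.E → g ∈ decL D ⊓ Φ.E := fun e1 e2 e3 e4 g hg e =>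
    ⟨h.sg_fix h2 C hM e1 (hM e2) e3 (by rintro rfl; exact e4 rfl) hg e.1, C.le hg⟩
  have h01 := card_pair (hp.ne (show (0 : Fin 4) ≠ 1 by decide))
  have cj : ∀ m ∈ decL D ⊓ Φ.E, ∃ S, #S = 2 ∧ IsSg D S (m * d * m⁻¹) :=
    fun m ⟨⟨s, e⟩, _⟩ => ⟨_, (card_map _).trans h01, hd.conj e⟩
  have cm : ∀ m ∈ decL D ⊓ Φ.E, m * d * m⁻¹ ∈ decL D ⊓ Φ.E := fun m hm =>
    mul_mem (mul_mem hm hdM) (inv_mem hm)
  obtain ⟨m₀, hm₀, s, hs, e₀, e₀'⟩ := h.exists_sw2 hp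
  have e₁ : IsSg D {p 2, p 3} (m₀ * d * m₀⁻¹) := by simpa [e₀, e₀'] using hd.conj hs
  refine Zd.le_of hZ hM hdM (h.sg_sq hd) (fix hd hdM (by simp) (by omega)) (fun m hm e _ => ?_) hm₀
    (fun e => ?_) (by rw [sq, h.sg_sq (hd.mul e₁)]) fun m hm e => ?_
  · obtain ⟨S, e1, e2⟩ := cj m hm
    exact fix (hd.mul e2) (mul_mem hdM (cm m hm)) (symmDiff_nonempty.2 fun e' =>
      e (h.sg_eq e2 (e' ▸ hd))) (by have := card_symmDiff {p 0, p 1} S; omega)
  · obtain ⟨v, hv, h0⟩ := (h.pl (p 0)).exists_Q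
    have := (e ▸ e₁) _ v hv
    rw [hd _ v hv, if_pos (by simp), if_neg (by simp [hp.eq_iff]), neg_eq_iff_add_eq_zero,
      ← two_smul F, smul_eq_zero_iff_right h2] at this
    simp [this] at h0
  obtain ⟨S, e1, e2⟩ := cj m hm
  have e3 : #(symmDiff {p 0, p 1} {p 2, p 3}) = 4 := by
    have := card_symmDiff {p 0, p 1} {p 2, p 3}
    rw [h01, card_pair (hp.ne (by decide)), show ({p 0, p 1} ∩ {p 2, p 3} : Finset ι) = ∅ by
      simp [hp.eq_iff]] at this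
    simpa using this
  exact fun g hg => fix ((hd.mul e₁).mul e2) (mul_mem (mul_mem hdM (cm _ hm₀)) (cm m hm))
    (symmDiff_nonempty.2 fun e' => by rw [e'] at e3; omega)
    (by have := card_symmDiff (symmDiff {p 0, p 1} {p 2, p 3}) S; omega) g hg (e g hg)

end Odd

section Even

variable (h2 : (2 : F) = 0)
include h2

theorem pair_two (ha : a ∈ D i) (hb : b ∈ D j) (a1 : Φ.Q a ≠ 0) (b1 : Φ.Q b ≠ 0) :
    rf h.κ a * rf h.κ b ∈ decL D ⊓ Φ.E := by
  obtain ⟨t, ht⟩ := FiniteField.isSquare_of_char_two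
    (CharP.ringChar_of_prime_eq_zero Nat.prime_two (by exact_mod_cast h2)) (Φ.Q a / Φ.Q b)
  exact h.pair_mem ha hb a1 (t := t) (by rw [sq, ← ht, div_mul_cancel₀ _ b1])

variable (C : Ctx Φ H) (hM : decL D ⊓ Φ.E ≤ H)
include C hM

theorem st_two (ha : a ∈ D i) (a1 : Φ.Q a ≠ 0) (hg : g ∈ H) (h1 : g a ∈ D l) : g ∈ decL D := by
  have key : ∀ g ∈ H, ∀ l, g a ∈ D l → g * rf h.κ a * g⁻¹ * rf h.κ a ∈ H := fun g hg l e => by
    rw [conj_rf _ (C.O hg)]
    exact hM (h.pair_two h2 e ha (by rwa [(C.O hg).2]) a1)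
  have r : RK h H (KH H (rf_rf h.κ a) ⊓ Φ.O) univ := ⟨C, hM, inf_le_right,
    by have := h.five; rw [card_univ]; omega, fun j _ v hv => by
      by_cases e : Φ.Q v = 0
      · rw [show rf h.κ v = 1 from congrArg Subtype.val (refl_of_sing h.κ e)]; exact one_mem _
      have := hM (h.pair_two h2 hv ha e a1)
      exact ⟨⟨Or.inr this, by rw [rf_inv, mul_assoc]; exact mul_mem this this⟩, rf_O _ _⟩,
    fun m hm _ =>
      let ⟨s, hs⟩ := hm.1
      have := key m (hM hm) _ ((hs i).le ⟨a, ha, rfl⟩)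
      ⟨⟨⟨Or.inl (hM hm), this⟩, E_le_O hm.2⟩, fun k hk => KH.conj hk.1 (hM hm) this⟩⟩
  refine h.mem_decL h.two two_pos fun j x hx => ?_
  obtain ⟨m, hm⟩ := h.blk_of (g := g) (j := j) fun v hv e => r.mem_blk ⟨refl_mem_of_map h.κ r.O
    ⟨⟨Or.inl hg, key g hg l h1⟩, C.O hg⟩ (r.refl j (mem_univ _) v hv), by rwa [(C.O hg).2], by simp⟩
  exact ⟨m, hm x hx⟩

theorem fix_two (hk : ∀ i, ∀ v ∈ D i, k v ∈ D i) (hO : k ∈ Φ.O) (k2 : k * k = 1) (k1 : k ≠ 1)
    {W : Submodule F V} (hW : ∀ v, v - k v ∈ W) (h4 : finrank F W ≤ 4) (hg : g ∈ H)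
    (h1 : g⁻¹ * k * g ∈ decL D) : g ∈ decL D := by
  obtain ⟨l, hl⟩ := exists_fixed h.toODec h.nd (fun i => (h.two i).ge) h1
    (by simp [mul_assoc, ← mul_assoc k, k2]) (W := W.map (g⁻¹).toLinearMap)
    (fun v => ⟨g v - k (g v), hW _, by simp⟩) (by
      have := h.five
      rw [LinearEquiv.finrank_map_eq]; omega)
  obtain ⟨i, v, hv, e⟩ : ∃ i, ∃ v ∈ D i, k v ≠ v := by
    by_contra! e
    exact k1 (h.ext e)
  obtain ⟨v, hv, e1⟩ := (h.pl i).exists_Q_sub h.nd hO (hk i) hv e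
  obtain ⟨τ, hτ, hr⟩ := h.exists_tau l
  have hc := (D i).sub_mem hv (hk i v hv)
  refine h.of_rot C hM hg hr (h.st_two h2 C hM hc e1
    (mul_mem (mul_mem hg (hM hτ)) (inv_mem hg)) (l := i) ?_)
  rwa [(hr.map (C.O hg)).fix]
  rintro _ ⟨x, hx, rfl⟩
  exact Φ.B_eq_zero_symm (perp_of_fix hO
    (by simpa [LinearEquiv.symm_apply_eq] using hl x hx) v)

theorem core_two (hn : n ∈ H) (h1 : ∀ g ∈ H, g⁻¹ * n * g ∈ decL D ⊓ Φ.E)
    (h3 : ∀ v ∈ D i, n v ∈ D i) {v : V} (hv : v ∈ D i) (h4 : n v ≠ v) (hil : i ≠ l) (hc : c ∈ D l)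
    (c1 : Φ.Q c ≠ 0) (h5 : n c = c) : H ≤ decL D ⊓ Φ.E := by
  obtain ⟨a, ha, a1, a2⟩ : ∃ a ∈ D i, Φ.Q a ≠ 0 ∧ n a ≠ a := by
    by_contra! hc
    obtain ⟨a, ha, a1⟩ := (h.pl i).exists_Q
    obtain ⟨w, hw, -, -, a2, -⟩ := (h.pl i).exists_rot h.nd (h.q' i) ha a1
    obtain ⟨s, t, rfl⟩ := (h.pl i).span ha (rf_mem h.κ hw ha) (by rintro rfl; simp at a1) a2 hv
    exact h4 (by simp [hc a ha a1, hc _ (rf_mem h.κ hw ha) (by rwa [(rf_O h.κ w).2])])
  have a3 := (C.O hn).2 a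
  have hr := (h.pl i).rot (h3 a ha) ha (a3 ▸ a1) a1 (fun e => a2 (by
    obtain ⟨t, ht⟩ := Submodule.mem_span_singleton.1 e
    have e1 := congrArg Φ.Q ht
    rw [Φ.Q_smul, a3] at e1
    have e2 : (t - 1) ^ 2 * Φ.Q a = 0 := by
      linear_combination e1 + (Φ.Q a - t * Φ.Q a) * h2
    obtain rfl : t = 1 := by simpa [a1, sub_eq_zero] using e2
    simpa using ht)) (Or.inl h2)
  have hm := hM (h.pair_two h2 ha hc a1 c1)
  refine fun g hg => ⟨h.of_rot C hM hg hr ?_, C.le hg⟩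
  have e : rf h.κ (n a) * rf h.κ a = n * (rf h.κ a * rf h.κ c * n⁻¹ * (rf h.κ a * rf h.κ c)⁻¹) := by
    have e1 := conj_rf h.κ (C.O hn) c
    rw [h5, mul_inv_eq_iff_eq_mul] at e1
    rw [← conj_rf _ (C.O hn), mul_inv_rev, rf_inv, rf_inv]
    simp only [mul_assoc]
    rw [← mul_assoc (rf _ c), ← (Commute.inv_left e1).eq, mul_assoc, rf_rf']
  have := (decL D).mul_mem (h1 _ (inv_mem hg)).1
    ((decL D).inv_mem (h1 _ (inv_mem (mul_mem hg hm))).1)
  rw [e]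
  simpa [mul_assoc] using this

omit hM in
theorem le_even (hZ : Zd.ZD.{u_2}) (hM : decL D ⊓ Φ.E ≤ H) : H ≤ decL D ⊓ Φ.E := by
  classical
  have : Finite V := Module.finite_of_finite F
  have : Finite (V ≃ₗ[F] V) := Finite.of_injective _ DFunLike.coe_injective
  obtain ⟨p, hp⟩ := h.exists_four
  have h01 := hp.ne (show (0 : Fin 4) ≠ 1 by decide)
  obtain ⟨a, ha, a1⟩ := (h.pl (p 0)).exists_Q
  obtain ⟨b, hb, b1⟩ := (h.pl (p 1)).exists_Q
  have hdM := h.pair_two h2 ha hb a1 b1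
  have st : ∀ {j a}, a ∈ D j → ∀ i, ∀ v ∈ D i, rf h.κ a v ∈ D i := fun {j a} ha i v hv => by
    by_cases e : j = i
    · exact rf_mem _ (e ▸ ha) hv
    · rwa [rf_fix _ ha v (h.perp e hv)]
  have sq : ∀ {i j a b}, i ≠ j → a ∈ D i → b ∈ D j →
      rf h.κ a * rf h.κ b * (rf h.κ a * rf h.κ b) = 1 := fun hij ha hb => by
    nth_rewrite 2 [rf_comm h.κ (h.orth _ _ hij _ ha _ hb)]
    rw [mul_assoc, rf_rf', rf_rf]
  have cj : ∀ m ∈ decL D ⊓ Φ.E, m * (rf h.κ a * rf h.κ b) * m⁻¹ = rf h.κ (m a) * rf h.κ (m b) :=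
    fun m hm => by simp [← conj_rf h.κ (E_le_O hm.2), mul_assoc]
  have ne : ∀ {i a v}, a ∈ D i → Φ.Q a ≠ 0 → Φ.B a v = 1 → rf h.κ a v ≠ v := fun ha a1 e e' => by
    rw [refl_apply, e, sub_eq_self] at e'
    simp only [mul_one, smul_eq_zero, inv_eq_zero, a1, false_or] at e'
    simp [e'] at a1
  have a0 : a ≠ 0 := by rintro rfl; simp at a1
  obtain ⟨v, hv, e0⟩ := h.exists_one h.nd ha a0
  have fix : ∀ x y z w i j k l, x ∈ D i → y ∈ D j → z ∈ D k → w ∈ D l → ∀ n, n = rf h.κ x *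
      rf h.κ y * (rf h.κ z * rf h.κ w) → n * n = 1 → n ≠ 1 → ∀ g ∈ H,
      g⁻¹ * n * g ∈ decL D ⊓ Φ.E → g ∈ decL D ⊓ Φ.E := by
    rintro x y z w i j k l hx hy hz hw _ rfl e1 e2 g hg e
    refine ⟨h.fix_two h2 C hM (fun i v hv => by
        simp only [LinearEquiv.mul_apply]; exact st hx _ _ (st hy _ _ (st hz _ _ (st hw _ _ hv))))
      (mul_mem (mul_mem (rf_O _ _) (rf_O _ _)) (mul_mem (rf_O _ _) (rf_O _ _))) e1 e2
      (W := Submodule.span F {u | u ∈ [x, y, z, w]}) (fun v => ?_) (finrank_span_list_le _) hg e.1,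
      C.le hg⟩
    have key : ∀ u ∈ [x, y, z, w], ∀ v, v - rf h.κ u v ∈ Submodule.span F {u | u ∈ [x, y, z, w]} :=
      fun u hu v => Submodule.span_mono (by simpa using hu) (sub_rf_mem h.κ u v)
    simpa using add_mem (add_mem (add_mem (key w (by simp) v) (key z (by simp) (rf h.κ w v)))
      (key y (by simp) (rf h.κ z (rf h.κ w v)))) (key x (by simp) (rf h.κ y (rf h.κ z (rf h.κ w v))))
  obtain ⟨m₀, hm₀, s, hs, e₀, e₀'⟩ := h.exists_sw2 hp
  have ha' : m₀ a ∈ D (p 2) := e₀ ▸ (hs _).le ⟨a, ha, rfl⟩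
  have hb' : m₀ b ∈ D (p 3) := e₀' ▸ (hs _).le ⟨b, hb, rfl⟩
  have pp : ∀ {i j : Fin 4} {x y}, i ≠ j → x ∈ D (p i) → y ∈ D (p j) → rf h.κ x y = y :=
    fun e hx hy => rf_fix _ hx _ (h.perp (hp.ne e) hy)
  refine Zd.le_of hZ hM hdM (sq h01 ha hb) (fix a b a a _ _ _ _ ha hb ha ha _
    (by rw [rf_rf, mul_one]) (sq h01 ha hb) fun e => ne ha a1 e0 (by
      simpa [pp (by decide) hb hv] using LinearEquiv.congr_fun e v)) (fun m hm e e' => ?_) hm₀
    (fun e => ne ha a1 e0 ?_) ?_ fun m hm e => ?_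
  · obtain ⟨s, hs⟩ := hm.1
    have ha' : m a ∈ D _ := (hs _).le ⟨a, ha, rfl⟩
    have hb' : m b ∈ D _ := (hs _).le ⟨b, hb, rfl⟩
    rw [cj m hm] at e e' ⊢
    set n := rf h.κ a * rf h.κ b * (rf h.κ (m a) * rf h.κ (m b)) with hn
    by_cases e1 : n * n = 1
    · exact fix _ _ _ _ _ _ _ _ ha hb ha' hb' n hn e1 fun e2 => e (mul_left_cancel
        (e2.trans (sq h01 ha hb).symm))
    have e2 : ∀ i, ∀ v ∈ D i, n v ∈ D i := fun i v hv =>
      st ha _ _ (st hb _ _ (st ha' _ _ (st hb' _ _ hv)))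
    obtain ⟨i, v, hv, e3⟩ : ∃ i, ∃ v ∈ D i, (n * n) v ≠ v := by
      by_contra! e
      exact e1 (h.ext e)
    obtain ⟨l, hl⟩ := h.exists_notMem {p 0, p 1, s (p 0), s (p 1)} card_le_four
    simp only [mem_insert, mem_singleton, not_or] at hl
    have e4 : ∀ v ∈ D l, (n * n) v = v := fun v hv => by
      simp [hn, rf_fix _ ha v (h.perp (Ne.symm hl.1) hv), rf_fix _ hb v (h.perp (Ne.symm hl.2.1) hv),
        rf_fix _ ha' v (h.perp (Ne.symm hl.2.2.1) hv), rf_fix _ hb' v (h.perp (Ne.symm hl.2.2.2) hv)]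
    obtain ⟨c, hc, c1⟩ := (h.pl l).exists_Q
    rw [_root_.sq] at e'
    exact fun g hg _ => h.core_two h2 C hM (by simpa using hM (e' 1 (one_mem _))) e'
      (fun v hv => e2 i _ (e2 i v hv)) hv e3 (by rintro rfl; exact e3 (e4 v hv)) hc c1 (e4 c hc) hg
  · simpa [cj _ hm₀, pp (by decide) hb hv, pp (by decide) ha' hv, pp (by decide) hb' hv] using
      (LinearEquiv.congr_fun e v).symm
  · rw [cj _ hm₀, _root_.sq]
    have e1 : ∀ {i j : Fin 4} {x y}, i ≠ j → x ∈ D (p i) → y ∈ D (p j) →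
        Commute (rf h.κ x) (rf h.κ y) := fun e hx hy => rf_comm _ (h.orth _ _ (hp.ne e) _ hx _ hy)
    rw [((e1 (by decide) ha' ha).mul_right (e1 (by decide) ha' hb)).mul_left
      ((e1 (by decide) hb' ha).mul_right (e1 (by decide) hb' hb)) |>.mul_mul_mul_comm,
      sq h01 ha hb, sq (hp.ne (by decide)) ha' hb', mul_one]
  obtain ⟨s, hs⟩ := hm.1
  have ha'' : m a ∈ D _ := (hs _).le ⟨a, ha, rfl⟩
  have hb'' : m b ∈ D _ := (hs _).le ⟨b, hb, rfl⟩
  rw [cj m hm, cj _ hm₀] at e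
  let c : Fin 4 → V := ![a, b, m₀ a, m₀ b]
  have c0 : ∀ i, c i ∈ D (p i) := fun i => by fin_cases i; exacts [ha, hb, ha', hb']
  have c1 : ∀ i, Φ.Q (c i) ≠ 0 := fun i => by
    fin_cases i <;> simp [c, a1, b1, (E_le_O hm₀.2).2]
  have e1 : ∀ i, p i ≠ s (p 0) → p i ≠ s (p 1) → ∀ v ∈ D (p i), (rf h.κ a * rf h.κ b *
      (rf h.κ (m₀ a) * rf h.κ (m₀ b)) * (rf h.κ (m a) * rf h.κ (m b))) v = rf h.κ (c i) v :=
    fun i e1 e2 v hv => by
      have e3 := fun j (e : j ≠ i) => pp e (c0 j) hv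
      have e4 := fun j (e : j ≠ i) => pp e (c0 j) (rf_mem h.κ (c0 i) hv)
      simp only [LinearEquiv.mul_apply, rf_fix _ ha'' v (h.perp e1.symm hv),
        rf_fix _ hb'' v (h.perp e2.symm hv)]
      change rf h.κ (c 0) (rf h.κ (c 1) (rf h.κ (c 2) (rf h.κ (c 3) v))) = _
      fin_cases i
      · rw [e3 3 (by decide), e3 2 (by decide), e3 1 (by decide)]; rfl
      · rw [e3 3 (by decide), e3 2 (by decide)]; exact e4 0 (by decide)
      · rw [e3 3 (by decide)]; exact (congrArg _ (e4 1 (by decide))).trans (e4 0 (by decide))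
      · exact (congrArg _ ((congrArg _ (e4 2 (by decide))).trans (e4 1 (by decide)))).trans
          (e4 0 (by decide))
  obtain ⟨i, j, hi, hj, hij⟩ := one_lt_card_iff.1
    (show 1 < #(({s (p 0), s (p 1)} : Finset ι).preimage p hp.injOn)ᶜ by
      have := card_le_card_of_injOn (s := ({s (p 0), s (p 1)} : Finset ι).preimage p hp.injOn)
        (t := {s (p 0), s (p 1)}) p (fun x hx => mem_preimage.1 hx) hp.injOn
      have := card_le_two (a := s (p 0)) (b := s (p 1))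
      rw [card_compl, Fintype.card_fin]; omega)
  simp only [mem_compl, mem_preimage, mem_insert, mem_singleton, not_or] at hi hj
  obtain ⟨v, hv, e2⟩ := h.exists_one h.nd (c0 i) (fun e => by simpa [e] using c1 i)
  refine h.core_two h2 C hM (by simpa using hM (e 1 (one_mem _))) e
    (fun v hv => e1 i hi.1 hi.2 v hv ▸ rf_mem _ (c0 i) hv) hv
    (e1 i hi.1 hi.2 v hv ▸ ne (c0 i) (c1 i) e2) (hp.ne hij) (c0 j) (c1 j) ?_
  rw [e1 j hj.1 hj.2 _ (c0 j), refl_apply_self _ (c1 j), neg_eq_iff_add_eq_zero, ← two_smul F, h2,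
    zero_smul]

end Even

theorem isMaximalIn (hZ : Zd.ZD.{u_2}) (h6 : (2 : F) = 0 ∨ Fintype.card ι ≠ 6) :
    IsMaximalIn Φ.E (decL D ⊓ Φ.E) := by
  classical
  refine isMaximalIn_of inf_le_right h.exists_notMem_dec fun H hM hH g hg hgM => by_contra fun e => ?_
  have C : Ctx Φ H := ⟨h.κ, h.nd, h.dim, hH, e⟩
  by_cases h2 : (2 : F) = 0
  exacts [hgM (h.le_even h2 C hZ hM hg), hgM (h.le_odd h2 C hZ (h6.resolve_left h2) hM hg)]

end P2

end H23.Nd
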