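import Cfsg.Agent.H23.P25
import Cfsg.Agent.H23.Nd4

/-! Maximality of the stabilisers of orthogonal decompositions in orthogonal groups. -/

set_option autoImplicit false

namespace H23.Nd

open Module H22 Cfsg Cfsg.Geo Form

theorem isMaximalIn_orthDec {F : Type*} [Field F] [Fintype F] {ι : Type} [Fintype ι]
    [DecidableEq ι] (hZ : Zd.ZD.{u_1}) {Q : QuadraticForm F (ι → F)} (hQ : (ofQuad Q).Nondeg)
    (hn : 9 ≤ Fintype.card ι) {t k : ℕ} {D : Fin t → Submodule F (ι → F)}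
    (hD : IsOrthogonalMDecomposition Q k D) (hk : 2 ≤ k)
    (h2 : k = 2 → (7 ≤ Fintype.card F ∨ Fintype.card F ≠ 3 ∧ ∃ i, ¬ IsPlusTypeOn Q (D i)) ∧
      ((2 : F) = 0 ∨ t ≠ 6))
    (h3 : k = 3 → (2 : F) ≠ 0 ∧ Fintype.card F ≠ 3)
    (h4 : k = 4 → Fintype.card F = 2 → ∃ i, ¬ IsPlusTypeOn Q (D i)) :
    IsMaximalIn (omegaGL Q) (decompositionStabilizer D ⊓ omegaGL Q) := by
  obtain ⟨π, h⟩ := exists_oDec (Φ := ofQuad Q) (fun _ _ h => h) hD.decomp
  have h1 := hD.decomp.decomp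
  have hV : finrank F (ι → F) = Fintype.card ι := by simp
  have hiso := fun i j => exists_map_of_isometric hQ (hD.isometric i j)
  have ht : 2 ≤ Fintype.card (Fin t) := by simpa using h1.two_le
  refine isMaximalIn_dec_of_E (fun _ => mem_omegaGL_iff_E hQ (by omega)) ?_
  by_cases e : k = 2
  · subst e
    have := finrank_eq_mul h h1.finrank_eq
    refine P2.isMaximalIn ⟨h, hQ, rfl, h1.finrank_eq, hiso, by omega, (h2 rfl).1.imp_right
      fun ⟨e, i, hi⟩ => ⟨e, fun j v hv e1 => by_contra fun e2 => hi ?_⟩⟩ hZ (by simpa using (h2 rfl).2)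
    obtain ⟨g, hg, e3⟩ := hiso j i
    exact isPlusTypeOn_of_sing (h1.finrank_eq i) ⟨g v, e3.le ⟨v, hv, rfl⟩, by simpa using e2,
      (hg.2 v).trans e1⟩
  by_cases e2 : (2 : F) = 0
  · refine isMaximalIn_oDec_two h hQ rfl h1.finrank_eq (by
      by_contra e3; exact (h3 (by omega)).1 e2) e2 (fun e3 e4 j X e5 e6 e7 => ?_) ht (by omega) hiso
    obtain ⟨i, hi⟩ := h4 e3 e4
    obtain ⟨g, hg, e8⟩ := hiso j i
    refine hi ⟨X.map g.toLinearMap, e8 ▸ Submodule.map_mono e5, ?_, by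
      rw [LinearEquiv.finrank_map_eq, e7, h1.finrank_eq, e3]⟩
    rintro _ ⟨x, hx, rfl⟩
    exact (hg.2 x).trans (e6.2 x hx)
  · exact isMaximalIn_oDec_odd h hQ h1.finrank_eq (by omega) rfl (by omega) e2 ht hiso
      fun e => (h3 e.2).2 e.1

theorem card_ne_six {F : Type*} [Field F] [Fintype F] : Fintype.card F ≠ 6 := fun h =>
  absurd (h ▸ FiniteField.isPrimePow_card F) (by decide)

end H23.Nd
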