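import Cfsg.Agent.H23.P26

/-! Decompositions into two non-isometric subspaces. -/

set_option autoImplicit false

namespace H23.Nd

open Module H22 Cfsg Cfsg.Geo Form

theorem isMaximalIn_noniso {F : Type*} [Field F] [Fintype F] {ι : Type} [Fintype ι]
    [DecidableEq ι] {Q : QuadraticForm F (ι → F)} (hΦ : (ofQuad Q).Nondeg)
    (hn : 9 ≤ Fintype.card ι) {k : ℕ} (hk : 2 * k = Fintype.card ι)
    {D : Fin 2 → Submodule F (ι → F)} (hD : IsNondegenerateMDecomposition (QuadraticMap.polar Q) k D)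
    (hni : ¬ AreIsometricFor Q (D 0) (D 1)) :
    IsMaximalIn (omegaGL Q) (decompositionStabilizer D ⊓ omegaGL Q) := by
  have hW := disjoint_perp_quad (hD.nondegenerate 0)
  have h0 := hD.decomp.finrank_eq 0
  have h1 := hD.decomp.finrank_eq 1
  have h2 := hΦ.finrank_perp_add (D 0)
  have hV : finrank F (ι → F) = Fintype.card ι := by simp
  have hp : D 1 = (ofQuad Q).perp (D 0) := Submodule.eq_of_le_of_finrank_eq
    (fun v hv u hu => hD.orthogonal 0 1 (by simp) u hu v hv) (by omega)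
  have hiso : ∀ g ∈ (ofQuad Q).E, ¬ (D 0).map g.toLinearMap ≤ D 1 := fun g hg h =>
    hni ⟨g.ofSubmodules _ _ (map_eq_of_le h (by omega)), fun w => (E_le_O hg).2 w⟩
  have e : decL D ⊓ (ofQuad Q).E = stabL (D 0) ⊓ (ofQuad Q).E := by
    ext g
    simp only [Subgroup.mem_inf, mem_decL_two]
    refine and_congr_left fun hg => ⟨fun h => h.elim (fun h => h.1) fun h => (hiso g hg h.1.le).elim,
      fun h => Or.inl ⟨h, ?_⟩⟩
    rw [hp, ← perp_map (E_le_O hg), h]
  refine isMaximalIn_dec_of_E (fun _ => mem_omegaGL_iff_E hΦ (by omega)) ?_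
  rw [e]
  refine isMaximalIn_nd' hΦ rfl (.inl (by omega)) hW
    (fun h => by rw [h, finrank_bot] at h0; omega) (fun h => by rw [h, finrank_top] at h0; omega)
    (fun _ => hp ▸ hiso) ?_
  rintro U (rfl | rfl) h <;> omega

end H23.Nd
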