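import Cfsg.Agent.H23.Zd1

/-! Involutions with one fixed point each: the normal closure is transitive on the class. -/

set_option autoImplicit false

namespace H23.Zd

open MulAction Subgroup

universe u

theorem invol (hZ : ZD.{u}) {H : Type u} [Group H] [Finite H] {M : Subgroup H} {d : H}
    (hd : d ∈ M) (d2 : d * d = 1) (fix : ∀ g, g⁻¹ * d * g ∈ M → g ∈ M)
    (prod : ∀ m ∈ M, m * d * m⁻¹ ≠ d → ∀ g, g⁻¹ * (d * (m * d * m⁻¹)) * g ∈ M → g ∈ M)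
    {k : H} (hk : k ∉ M) {x : H} (hx : x ∈ normalClosure {d}) (h₁ : x ^ 2 ∈ M.normalCore)
    (h₂ : x ∉ M.normalCore) : ∃ g, x * (g * d * g⁻¹) ∈ M.normalCore := by
  let φ := (toPermHom H (H ⧸ M)).rangeRestrict
  have hφ : ∀ (x : H) (a : H ⧸ M), φ x • a = x • a := fun _ _ => rfl
  have hs : Function.Surjective φ := MonoidHom.rangeRestrict_surjective _
  have h1 : ∀ x, φ x = 1 ↔ x ∈ M.normalCore := fun x => by
    rw [normalCore_eq_ker, ← MonoidHom.ker_rangeRestrict, MonoidHom.mem_ker]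
  have h2 : ∀ g x : H, (g * d * g⁻¹) • (x : H ⧸ M) = x ↔ (x : H ⧸ M) = g := fun g x => by
    rw [fix_iff, eq_comm, QuotientGroup.eq]
    refine ⟨fun h => fix _ (by simpa [mul_assoc] using h), fun h => ?_⟩
    simpa [mul_assoc] using M.mul_mem (M.mul_mem (M.inv_mem h) hd) h
  have h3 : ∀ x, x ^ 2 ∈ M.normalCore → x ∉ M.normalCore → orderOf (φ x) = 2 := fun x e1 e2 =>
    orderOf_eq_prime (by rw [← map_pow, h1]; exact e1) (mt (h1 x).1 e2)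
  obtain ⟨g, hg⟩ := hZ _ (H ⧸ M) (Set.range fun g => φ (g * d * g⁻¹)) (by
      rintro _ ⟨g, rfl⟩
      refine h3 _ (by simp [sq, mul_assoc, ← mul_assoc d, d2]) fun h => hk (fix k ?_)
      simpa [mul_assoc] using h (g * k)⁻¹)
    (by
      rintro _ ⟨g, rfl⟩ x
      obtain ⟨x, rfl⟩ := hs x
      exact ⟨x * g, by simp [mul_assoc]⟩)
    (by
      rintro _ ⟨g, rfl⟩
      refine ⟨g, (h2 g g).2 rfl, fun a ha => ?_⟩
      obtain ⟨x, rfl⟩ := QuotientGroup.mk_surjective a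
      exact (h2 g x).1 ha)
    (by
      rintro _ ⟨g, rfl⟩ _ ⟨g', rfl⟩ e1 e2
      have e3 : (g : H ⧸ M) = g' := by
        refine (h2 g' g).1 ?_
        obtain ⟨y, hy⟩ := QuotientGroup.mk_surjective ((g' * d * g'⁻¹) • (g : H ⧸ M))
        have e6 : φ (g * d * g⁻¹) * φ (g' * d * g'⁻¹) = φ (g' * d * g'⁻¹) * φ (g * d * g⁻¹) := e2
        rw [← hy, ← h2, hy, ← hφ, ← hφ, ← mul_smul, e6, mul_smul, hφ, hφ, hφ, (h2 g g).2 rfl]
      rw [QuotientGroup.eq] at e3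
      have e4 : g * d * g⁻¹ * (g' * d * g'⁻¹) = g * (d * (g⁻¹ * g' * d * (g⁻¹ * g')⁻¹)) * g⁻¹ := by
        group
      have key : ∀ a : H ⧸ M, (φ (g * d * g⁻¹) * φ (g' * d * g'⁻¹)) • a = a → a = g := fun a ha => by
        obtain ⟨x, rfl⟩ := QuotientGroup.mk_surjective a
        rw [← map_mul, hφ, fix_iff, e4] at ha
        rw [eq_comm, QuotientGroup.eq]
        refine prod _ e3 (fun h => e1 (congrArg φ ?_)) _ (by simpa [mul_assoc] using ha)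
        change g * d * g⁻¹ = g' * d * g'⁻¹
        conv_lhs => rw [← h]
        group
      exact fun a b ha hb => (key a ha).trans (key b hb).symm)
    ⟨fun a b => by
      obtain ⟨x, hx⟩ := exists_smul_eq H a b
      exact ⟨φ x, hx⟩⟩
    ⟨⟨k, (1 : H), fun h => hk (by simpa [QuotientGroup.eq] using h)⟩⟩ ⟨_, 1, rfl⟩
    (fun x hx => Subtype.ext (Equiv.ext hx)) (φ x) (by
      refine (closure_le (comap φ (closure (Set.range fun g => φ (g * d * g⁻¹))))).2 ?_ hx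
      intro y hy
      obtain ⟨_, rfl, e⟩ := Group.mem_conjugatesOfSet_iff.1 hy
      obtain ⟨g, rfl⟩ := isConj_iff.1 e
      exact subset_closure ⟨g, rfl⟩)
    (h3 _ h₁ h₂)
  exact ⟨g, (h1 _).1 (by
    rw [map_mul, ← hg, ← map_mul]
    simp [mul_assoc, ← mul_assoc d, d2])⟩

theorem dih_conj {G : Type*} [Group G] {d e : G} (d2 : d * d = 1) (e2 : e * e = 1) (j : ℕ) :
    d * ((d * e) ^ j)⁻¹ = (d * e) ^ j * d := by
  rw [← inv_pow]
  refine SemiconjBy.pow_right ?_ j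
  rw [SemiconjBy, mul_inv_rev, inv_eq_of_mul_eq_one_right d2, inv_eq_of_mul_eq_one_right e2,
    mul_assoc]

theorem exists_conj (hZ : ZD.{u}) {H : Type u} [Group H] [Finite H] {M : Subgroup H} {d : H}
    (hd : d ∈ M) (d2 : d * d = 1) (fix : ∀ g, g⁻¹ * d * g ∈ M → g ∈ M)
    (prod : ∀ m ∈ M, m * d * m⁻¹ ≠ d → ∀ g, g⁻¹ * (d * (m * d * m⁻¹)) * g ∈ M → g ∈ M)
    {k : H} (hk : k ∉ M) {m : H} (hm : m ∈ M) : ∃ n ∈ normalClosure {d},
      n * (m * d * m⁻¹) * n⁻¹ * (k * d * k⁻¹) ∈ M.normalCore := by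
  let π := QuotientGroup.mk' M.normalCore
  have h1 : ∀ x, π x = 1 ↔ x ∈ M.normalCore := fun x => QuotientGroup.eq_one_iff x
  have h2 : ∀ g, g * d * g⁻¹ * (g * d * g⁻¹) = 1 := fun g => by
    simp [mul_assoc, ← mul_assoc d, d2]
  have h3 : ∀ g, g * d * g⁻¹ ∈ normalClosure {d} := fun g =>
    normalClosure_normal.conj_mem d (subset_normalClosure (Set.mem_singleton d)) g
  have h4 : ∀ g k, Commute (π (g * d * g⁻¹)) (π (k * d * k⁻¹)) → g⁻¹ * k ∈ M := fun g k e => by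
    refine fix (g⁻¹ * k) (fix ((g⁻¹ * k)⁻¹ * d * (g⁻¹ * k)) ?_)
    have := (h1 (g * d * g⁻¹ * (k * d * k⁻¹) * (k * d * k⁻¹ * (g * d * g⁻¹))⁻¹)).1 (by
      rw [map_mul, map_inv, map_mul π (g * d * g⁻¹), map_mul π (k * d * k⁻¹), e.eq]
      exact mul_inv_cancel _)
    refine M.inv_mem_iff.1 ((M.mul_mem_cancel_left hd).1 ?_)
    convert this (g * d * g⁻¹ * k)⁻¹ using 1
    group
  set a := m * d * m⁻¹
  set b := k * d * k⁻¹
  have h5 : ∀ j, (a * b) ^ j ∈ normalClosure {d} := fun j => pow_mem (mul_mem (h3 m) (h3 k)) j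
  have h6 := pow_orderOf_eq_one (π (a * b))
  obtain ⟨j, e | e⟩ := Nat.even_or_odd' (orderOf (π (a * b)))
  · have e1 : π (((a * b) ^ j) ^ 2) = 1 := by rw [← pow_mul, map_pow, mul_comm, ← e, h6]
    have e2 := orderOf_pos (π (a * b))
    obtain ⟨g, hg⟩ := invol hZ hd d2 fix prod hk (h5 j) ((h1 _).1 e1) fun e3 =>
      pow_ne_one_of_lt_orderOf (x := π (a * b)) (n := j) (by omega) (by omega)
        (by rw [← map_pow, h1]; exact e3)
    have e3 : π (g * d * g⁻¹) = π ((a * b) ^ j)⁻¹ := by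
      rw [map_inv, eq_comm, inv_eq_iff_mul_eq_one, ← map_mul, h1]; exact hg
    have e4 : π ((a * b) ^ j)⁻¹ = π ((a * b) ^ j) := by
      rw [map_inv, inv_eq_iff_mul_eq_one, ← map_mul, ← sq, e1]
    have e5 : Commute (π (g * d * g⁻¹)) (π a) := by
      rw [Commute, SemiconjBy, e3, ← map_mul π a, dih_conj (h2 m) (h2 k), map_mul π _ a, e4]
    have e6 : Commute (π (g * d * g⁻¹)) (π b) := by
      have : Commute (π (g * d * g⁻¹)) (π (a * b)) := by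
        rw [e3, e4, map_pow]; exact (Commute.refl _).pow_left j
      have e7 : a * a = 1 := h2 m
      simpa [← mul_assoc, ← map_mul, e7] using e5.mul_right this
    exact absurd (by simpa using M.mul_mem (M.mul_mem hm (M.inv_mem (h4 g m e5))) (h4 g k e6)) hk
  · refine ⟨_, h5 j, (h1 _).1 ?_⟩
    rw [mul_assoc _ a, dih_conj (h2 m) (h2 k), mul_assoc _ _ b, mul_assoc _ a, ← pow_succ,
      ← pow_add, map_pow, ← h6, e, two_mul, add_assoc]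

theorem le_of' (hZ : ZD.{u}) {Γ : Type u} [Group Γ] [Finite Γ] {M H : Subgroup Γ} {d : Γ}
    (hM : M ≤ H) (hd : d ∈ M) (d2 : d * d = 1) (fix : ∀ g ∈ H, g⁻¹ * d * g ∈ M → g ∈ M)
    (prod : ∀ m ∈ M, m * d * m⁻¹ ≠ d → ∀ g ∈ H, g⁻¹ * (d * (m * d * m⁻¹)) * g ∈ M → g ∈ M)
    (bad : ∀ N C : Subgroup Γ, (∀ x ∈ N, ∀ g ∈ M, g * x * g⁻¹ ∈ N) →
      (∀ x ∈ C, ∀ g ∈ H, g * x * g⁻¹ ∈ C) → C ≤ M →
      (∀ m ∈ M, ∃ n ∈ M ⊓ N, n * d * n⁻¹ * (m * d * m⁻¹) ∈ C) →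
      (∀ x ∈ M ⊓ N, x * x = 1 → x ∈ C ∨ ∃ m ∈ M, x * (m * d * m⁻¹) ∈ C) → H ≤ M) : H ≤ M := by
  by_contra hH
  obtain ⟨k, hk, hk'⟩ := SetLike.not_le_iff_exists.1 hH
  have d2' : (⟨d, hM hd⟩ : H) * ⟨d, hM hd⟩ = 1 := Subtype.ext d2
  have fix' : ∀ g : H, g⁻¹ * ⟨d, hM hd⟩ * g ∈ M.subgroupOf H → g ∈ M.subgroupOf H :=
    fun g => fix g g.2
  have prod' : ∀ m ∈ M.subgroupOf H, m * ⟨d, hM hd⟩ * m⁻¹ ≠ ⟨d, hM hd⟩ → ∀ g : H,
      g⁻¹ * (⟨d, hM hd⟩ * (m * ⟨d, hM hd⟩ * m⁻¹)) * g ∈ M.subgroupOf H → g ∈ M.subgroupOf H :=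
    fun m hm e g => prod m hm (fun e' => e (Subtype.ext e')) g g.2
  have hC := (M.subgroupOf H).normalCore_le
  have hd' : (⟨d, hM hd⟩ : H) ∈ M.subgroupOf H := hd
  refine hH (bad ((normalClosure {⟨d, hM hd⟩}).map H.subtype)
    ((M.subgroupOf H).normalCore.map H.subtype) ?_ ?_ ?_ (fun m hm => ?_) ?_)
  · rintro _ ⟨x, hx, rfl⟩ g hg
    exact ⟨_, normalClosure_normal.conj_mem x hx ⟨g, hM hg⟩, rfl⟩
  · rintro _ ⟨x, hx, rfl⟩ g hg
    exact ⟨_, (normalCore_normal _).conj_mem x hx ⟨g, hg⟩, rfl⟩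
  · rintro _ ⟨x, hx, rfl⟩
    exact hC hx
  · obtain ⟨n, hn, e⟩ := exists_conj hZ hd' d2' fix' prod' (k := ⟨k, hk⟩) hk' (one_mem _)
    obtain ⟨n', hn', e'⟩ := exists_conj hZ hd' d2' fix' prod' (k := ⟨k, hk⟩) hk'
      (m := ⟨m, hM hm⟩) hm
    have e1 : n'⁻¹ * n * ⟨d, hM hd⟩ * (n'⁻¹ * n)⁻¹ * (⟨m, hM hm⟩ * ⟨d, hM hd⟩ * ⟨m, hM hm⟩⁻¹) ∈
        (M.subgroupOf H).normalCore := by
      have := (normalCore_normal _).conj_mem _ (mul_mem e (inv_mem e')) n'⁻¹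
      generalize (⟨d, hM hd⟩ : H) = d at *
      generalize (⟨m, hM hm⟩ : H) = m at *
      simpa [mul_assoc, inv_eq_of_mul_eq_one_right d2', ← mul_assoc d d, d2'] using this
    refine ⟨(n'⁻¹ * n : H), ⟨M.inv_mem_iff.1 (fix' (n'⁻¹ * n)⁻¹ ?_), _,
      mul_mem (inv_mem hn') hn, rfl⟩, _, e1, rfl⟩
    rw [inv_inv]
    exact (mul_mem_cancel_right (mul_mem (mul_mem hm hd) (inv_mem hm))).1 (hC e1)
  · rintro _ ⟨hx, x, hx', rfl⟩ e
    refine or_iff_not_imp_left.2 fun e1 => ?_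
    obtain ⟨g, hg⟩ := invol hZ hd' d2' fix' prod' (k := ⟨k, hk⟩) hk' hx'
      (by rw [sq, show x * x = 1 from Subtype.ext e]; exact one_mem _) fun e2 => e1 ⟨x, e2, rfl⟩
    refine ⟨g, M.inv_mem_iff.1 (fix' g⁻¹ ?_), _, hg, rfl⟩
    rw [inv_inv]
    exact ((M.subgroupOf H).mul_mem_cancel_left hx).1 (hC hg)

end H23.Zd
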