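import Cfsg.Agent.H23.P26
import Cfsg.Agent.H23.Zd3

/-! Orthogonal decompositions into planes: odd characteristic, any number of planes. -/

set_option autoImplicit false

namespace H23.Nd

open Module H22 Cfsg Cfsg.Geo Form Finset

namespace P2

variable {F V : Type*} [Field F] [AddCommGroup V] [Module F V]
  {Φ : Form (RingHom.id F) V} {ι : Type*} {D : ι → Submodule F V} {π : ι → V →ₗ[F] V}
  [Fintype F] [Fintype ι] [FiniteDimensional F V] (h : P2 Φ D π) {H : Subgroup (V ≃ₗ[F] V)}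
include h

theorem le_odd' (h2 : (2 : F) ≠ 0) (C : Ctx Φ H) (hZ : Zd.ZD.{u_2}) (hM : decL D ⊓ Φ.E ≤ H) :
    H ≤ decL D ⊓ Φ.E := by
  classical
  have : Finite V := Module.finite_of_finite F
  have : Finite (V ≃ₗ[F] V) := Finite.of_injective _ DFunLike.coe_injective
  have h5 := h.five
  obtain ⟨p, hp⟩ := h.exists_four
  obtain ⟨d, hdM, hd⟩ := h.exists_sg h2 (hp.ne (show (0 : Fin 4) ≠ 1 by decide))
  have fix : ∀ {S k}, IsSg D S k → k ∈ decL D ⊓ Φ.E → S.Nonempty → #S ≠ Fintype.card ι →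
      ∀ g ∈ H, g⁻¹ * k * g ∈ decL D ⊓ Φ.E → g ∈ decL D ⊓ Φ.E := fun e1 e2 e3 e4 g hg e =>
    ⟨h.sg_fix h2 C hM e1 (hM e2) e3 (by rintro rfl; exact e4 rfl) hg e.1, C.le hg⟩
  have h01 := card_pair (hp.ne (show (0 : Fin 4) ≠ 1 by decide))
  have h23 := card_pair (hp.ne (show (2 : Fin 4) ≠ 3 by decide))
  have cj : ∀ m ∈ decL D ⊓ Φ.E, ∃ S, #S = 2 ∧ IsSg D S (m * d * m⁻¹) :=
    fun m ⟨⟨s, e⟩, _⟩ => ⟨_, (card_map _).trans h01, hd.conj e⟩
  obtain ⟨m₀, hm₀, s, hs, e₀, e₀'⟩ := h.exists_sw2 hp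
  have e₁ : IsSg D {p 2, p 3} (m₀ * d * m₀⁻¹) := by simpa [e₀, e₀'] using hd.conj hs
  refine Zd.le_of' hZ hM hdM (h.sg_sq hd) (fix hd hdM (by simp) (by omega)) (fun m hm e => ?_)
    fun N K hN hK hKM h1 h3 => by_contra fun hc => ?_
  · obtain ⟨S, e1, e2⟩ := cj m hm
    exact fix (hd.mul e2) (mul_mem hdM (mul_mem (mul_mem hm hdM) (inv_mem hm)))
      (symmDiff_nonempty.2 fun e' => e (h.sg_eq e2 (e' ▸ hd)))
      (by have := card_symmDiff {p 0, p 1} S; omega)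
  obtain ⟨n, hn, e⟩ := h1 m₀ hm₀
  obtain ⟨hn, hnN⟩ := Subgroup.mem_inf.1 hn
  obtain ⟨s, hs⟩ := hn.1
  have e2 : ({p 0, p 1} : Finset ι).map s.toEmbedding = {p 2, p 3} := by_contra fun e' =>
    hc fun g hg => fix ((hd.conj hs).mul e₁) (hKM e) (symmDiff_nonempty.2 e') (by
      have := card_symmDiff (({p 0, p 1} : Finset ι).map s.toEmbedding) {p 2, p 3}
      rw [card_map] at this; omega) g hg (hKM (by simpa using hK _ e _ (inv_mem hg)))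
  have e3 : ∀ i ∈ ({p 0, p 1} : Finset ι), s i = p 2 ∨ s i = p 3 := fun i hi => by
    simpa using e2.le (mem_map_of_mem _ hi)
  obtain ⟨u, hu, u1⟩ := (h.pl (p 0)).exists_Q
  obtain ⟨a, ha, a1, -, a2, a3⟩ := (h.pl (p 0)).exists_rot h.nd (h.q' _) hu u1
  obtain ⟨b, hb, b1⟩ := h.exists_Q_eq' (p 0) (p 1) ha
  obtain ⟨l, hl⟩ := h.exists_notMem {p 0, p 1, p 2, p 3} card_le_four
  simp only [mem_insert, mem_singleton, not_or] at hl
  obtain ⟨w, hw, w1⟩ := h.exists_Q_eq' (p 0) l hu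
  have hy := h.pair_mem ha hb a1 b1
  have hz := h.pair_mem hu hw u1 w1
  have ha' : n a ∈ D (s (p 0)) := (hs _).le ⟨a, ha, rfl⟩
  have hb' : n b ∈ D (s (p 1)) := (hs _).le ⟨b, hb, rfl⟩
  have n0 : ∀ i ∈ ({p 0, p 1} : Finset ι), s i ≠ p 0 ∧ s i ≠ p 1 ∧ s i ≠ l := fun i hi => by
    rcases e3 i hi with e | e <;> simp [e, hp.eq_iff, Ne.symm hl.2.2.1, Ne.symm hl.2.2.2]
  have n1 := n0 (p 0) (by simp)
  have n2 := n0 (p 1) (by simp)
  have p01 := hp.ne (show (0 : Fin 4) ≠ 1 by decide)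
  have cm : ∀ {i j x y}, i ≠ j → x ∈ D i → y ∈ D j → Commute (rf h.κ x) (rf h.κ y) :=
    fun e hx hy => rf_comm _ (h.orth _ _ e _ hx _ hy)
  have sq : ∀ {i j x y}, i ≠ j → x ∈ D i → y ∈ D j →
      rf h.κ x * rf h.κ y * (rf h.κ x * rf h.κ y) = 1 := fun hij hx hy => by
    rw [(cm hij hx hy).symm.mul_mul_mul_comm, rf_rf, rf_rf, mul_one]
  have e4 : n * (rf h.κ a * rf h.κ b * n⁻¹ * (rf h.κ a * rf h.κ b)⁻¹) =
      rf h.κ (n a) * rf h.κ (n b) * (rf h.κ a * rf h.κ b) := by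
    rw [inv_eq_of_mul_eq_one_right (sq p01 ha hb)]
    simp [← conj_rf h.κ (E_le_O hn.2), mul_assoc]
  obtain ⟨σ, S, e5, e6⟩ : ∃ σ S, IsSg D S σ ∧
      rf h.κ (n a) * rf h.κ (n b) * (rf h.κ a * rf h.κ b) * σ ∈ K := by
    rcases h3 _ (Subgroup.mem_inf.2 ⟨mul_mem hn (mul_mem (mul_mem hy (inv_mem hn)) (inv_mem hy)),
      mul_mem hnN (hN _ (inv_mem hnN) _ hy)⟩) (by
        rw [e4, (((cm n1.1 ha' ha).mul_right (cm n1.2.1 ha' hb)).mul_left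
          ((cm n2.1 hb' ha).mul_right (cm n2.2.1 hb' hb))).symm.mul_mul_mul_comm,
          sq p01 ha hb, sq (s.injective.ne p01) ha' hb', mul_one]) with e | ⟨m, hm, e⟩
    · exact ⟨1, ∅, fun _ _ _ => by simp, by rwa [mul_one, ← e4]⟩
    · obtain ⟨S, -, e'⟩ := cj m hm
      exact ⟨_, S, e', e4 ▸ e⟩
  have hr := rf_mem h.κ ha hu
  have e7 : ∀ x, rf h.κ (-x) = rf h.κ x := fun x => by
    simpa using rf_smul h.κ (c := -1) (by simp) x
  have e8 := mul_mem (hK _ e6 _ (hM hz)) (inv_mem e6)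
  have e9 := E_le_O (hKM e6).2
  generalize hx : rf h.κ (n a) * rf h.κ (n b) * (rf h.κ a * rf h.κ b) = x at e6 e8 e9
  have x1 : x u = rf h.κ a u := by
    simp [← hx, rf_fix _ hb u (h.perp p01.symm hu), rf_fix _ ha' _ (h.perp n1.1 hr),
      rf_fix _ hb' _ (h.perp n2.1 hr)]
  have x2 : x w = w := by
    simp [← hx, rf_fix _ ha w (h.perp (Ne.symm hl.1) hw), rf_fix _ hb w (h.perp (Ne.symm hl.2.1) hw),
      rf_fix _ ha' _ (h.perp n1.2.2 hw), rf_fix _ hb' _ (h.perp n2.2.2 hw)]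
  have x3 : (x * σ) * (rf h.κ u * rf h.κ w)⁻¹ * (x * σ)⁻¹ = rf h.κ w * rf h.κ (rf h.κ a u) := by
    have y1 : rf h.κ ((x * σ) u) = rf h.κ (rf h.κ a u) := by
      rw [LinearEquiv.mul_apply, e5 _ u hu]; split_ifs <;> simp [x1, e7]
    have y2 : rf h.κ ((x * σ) w) = rf h.κ w := by
      rw [LinearEquiv.mul_apply, e5 _ w hw]; split_ifs <;> simp [x2, e7]
    rw [mul_inv_rev (rf h.κ u), rf_inv, rf_inv, ← y1]
    conv_rhs => rw [← y2, ← conj_rf _ e9, ← conj_rf _ e9]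
    group
  rw [mul_assoc, mul_assoc, ← mul_assoc (x * σ), x3, mul_assoc, rf_rf'] at e8
  exact hc fun g hg => ⟨h.of_rot C hM hg ((h.pl _).rot hu hr u1 (by rwa [(rf_O h.κ a).2]) a2
    (Or.inr a3)) (hKM (hK _ e8 g hg)).1, C.le hg⟩

theorem isMaximalIn' (hZ : Zd.ZD.{u_2}) : IsMaximalIn Φ.E (decL D ⊓ Φ.E) := by
  refine isMaximalIn_of inf_le_right h.exists_notMem_dec fun H hM hH g hg hgM => by_contra fun e => ?_
  have C : Ctx Φ H := ⟨h.κ, h.nd, h.dim, hH, e⟩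
  by_cases h2 : (2 : F) = 0
  exacts [hgM (h.le_even h2 C hZ hM hg), hgM (h.le_odd' h2 C hZ hM hg)]

end P2

theorem isMaximalIn_planes {F : Type*} [Field F] [Fintype F] {ι : Type} [Fintype ι]
    [DecidableEq ι] (hZ : Zd.ZD.{u_1}) {Q : QuadraticForm F (ι → F)} (hQ : (ofQuad Q).Nondeg)
    (hn : 9 ≤ Fintype.card ι) {t : ℕ} {D : Fin t → Submodule F (ι → F)}
    (hD : IsOrthogonalMDecomposition Q 2 D)
    (h2 : 7 ≤ Fintype.card F ∨ Fintype.card F ≠ 3 ∧ ∃ i, ¬ IsPlusTypeOn Q (D i)) :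
    IsMaximalIn (omegaGL Q) (decompositionStabilizer D ⊓ omegaGL Q) := by
  obtain ⟨π, h⟩ := exists_oDec (Φ := ofQuad Q) (fun _ _ h => h) hD.decomp
  have h1 := hD.decomp.decomp
  have hV : finrank F (ι → F) = Fintype.card ι := by simp
  have hiso := fun i j => exists_map_of_isometric hQ (hD.isometric i j)
  refine isMaximalIn_dec_of_E (fun _ => mem_omegaGL_iff_E hQ (by omega)) ?_
  have := finrank_eq_mul h h1.finrank_eq
  refine P2.isMaximalIn' ⟨h, hQ, rfl, h1.finrank_eq, hiso, by omega, h2.imp_right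
    fun ⟨e, i, hi⟩ => ⟨e, fun j v hv e1 => by_contra fun e2 => hi ?_⟩⟩ hZ
  obtain ⟨g, hg, e3⟩ := hiso j i
  exact isPlusTypeOn_of_sing (h1.finrank_eq i) ⟨g v, e3.le ⟨v, hv, rfl⟩, by simpa using e2,
    (hg.2 v).trans e1⟩

end H23.Nd
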