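import Cfsg.Agent.H23.Ts1
import Cfsg.Agent.H23.Gu2
import Cfsg.Agent.H23.Nd1

/-! Reflections in planes of a symplectic space. -/

set_option autoImplicit false

namespace H23.Pr

open Module H22 Cfsg Cfsg.Geo Form

variable {F V : Type*} [Field F] [AddCommGroup V] [Module F V]

theorem le_or_le {A B C : Submodule F V} (h : ∀ x ∈ A, x ∈ B ∨ x ∈ C) : A ≤ B ∨ A ≤ C := by
  by_contra! hc
  obtain ⟨x, hx, h1⟩ := SetLike.not_le_iff_exists.1 hc.1
  obtain ⟨y, hy, h2⟩ := SetLike.not_le_iff_exists.1 hc.2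
  rcases h _ (A.add_mem hx hy) with e | e
  · exact h1 ((B.add_mem_iff_left ((h y hy).resolve_right h2)).1 e)
  · exact h2 ((C.add_mem_iff_right ((h x hx).resolve_left h1)).1 e)

/-- A form vanishing off a proper subspace. -/
theorem self_eq_zero {σ : F →+* F} {Φ : Form σ V} (h2 : (2 : F) ≠ 0) {T : AddSubgroup V}
    {φ : V →+ F} (h : ∀ v ∈ T, φ v ≠ 0 → Φ.B v v = 0) {w : V} (hw : w ∈ T) (h0 : φ w ≠ 0) :
    ∀ v ∈ T, Φ.B v v = 0 := fun v hv => by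
  by_cases e : φ v = 0
  · have e1 := h _ (T.add_mem hw hv) (by simpa [e])
    have e2 := h _ (T.sub_mem hw hv) (by simpa [e])
    simp only [map_add, map_sub, LinearMap.add_apply, LinearMap.sub_apply, h w hw h0] at e1 e2
    exact mul_left_cancel₀ h2 (by linear_combination e1 + e2)
  · exact h v hv e

variable {Φ : Form (RingHom.id F) V} {H : Subgroup (V ≃ₗ[F] V)} {ρ ρ' g : V ≃ₗ[F] V}
  {v y p p' r r' t : V} {s s' : F} {U : Submodule F V}

variable (Φ) in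
/-- `ρ` is the reflection in the plane spanned by `v, y` -/
structure IsPr (ρ : V ≃ₗ[F] V) (v y : V) : Prop where
  one : Φ.B v y = 1
  O : ρ ∈ Φ.O
  eq : ∀ z, ρ z = z - (2 * Φ.B v z) • y + (2 * Φ.B y z) • v

theorem IsPr.conj (h : IsPr Φ ρ v y) (hg : g ∈ Φ.O) : IsPr Φ (g * ρ * g⁻¹) (g v) (g y) :=
  ⟨by rw [hg.1, h.one], mul_mem (mul_mem hg h.O) (inv_mem hg), fun z => by
    simp [h.eq, B_O_left hg]⟩

variable (hε : Φ.ε = -1) (hκ : Φ.κ = 0)
include hε hκ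

theorem IsPr.root (h : IsPr Φ ρ v y) (h' : IsPr Φ ρ' p p') (hρ : ρ ∈ H) (hρ' : ρ' ∈ H)
    (h1 : Φ.B p v = 0) (h2 : Φ.B p' v = 0) : ∃ r, Φ.B v r = 0 ∧ Φ.B y r = 0 ∧
      Φ.B p r = 4 * Φ.B p y ∧ Φ.B p' r = 4 * Φ.B p' y ∧ Φ.EIn H v r 0 := by
  have e0 := B_self_alt hε hκ
  have e1 := B_neg_alt hε
  have a1 : ρ' v = v := by simp [h'.eq, h1, h2]
  have a2 := (h.conj h'.O).eq
  refine ⟨(4 * Φ.B p y) • p' - (4 * Φ.B p' y) • p, by simp [e1 p v, e1 p' v, h1, h2],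
    by simp [e1 p y, e1 p' y]; ring, by simp [e0, h'.one], by simp [e0, e1 p p', h'.one],
    _, mul_mem hρ (mul_mem (mul_mem hρ' hρ) (inv_mem hρ')), fun z => ?_⟩
  rw [LinearEquiv.mul_apply, a2, a1, h'.eq y]
  simp [h.eq, eichler_apply, hε, e0, h.one, e1 v y, e1 p v, e1 p' v, h1, h2, e1 p y, e1 p' y]
  module

omit hκ in
theorem eIn_comm (hv : Φ.B v v = 0) (h : Φ.EIn H v r s) (h' : Φ.EIn H v r' s') (h1 : Φ.B v r = 0)
    (h2 : Φ.B v r' = 0) : Φ.EIn H v 0 (2 * Φ.B r' r) := by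
  have := (h.add h' hv h1 h2).add ((h'.add h hv h2 h1).neg hv (by simp [h1, h2])) hv
    (by simp [h1, h2]) (by simp [h1, h2])
  convert this using 1
  · abel
  · simp [B_neg_alt hε r r']; ring

omit hκ in
theorem tr_of_eIn (h : ∀ s, Φ.EIn H v 0 s) : Φ.TR H v := fun c =>
  let ⟨g, h1, h2⟩ := h (-c); ⟨g, h1, fun x => by simp [h2, eichler_apply]⟩

theorem tr_two (h2 : (2 : F) ≠ 0) (h : Φ.TR H v) (h1 : Φ.TR H (v + r)) (h3 : Φ.TR H (v - r))
    (h0 : Φ.B v r = 0) : Φ.TR H r := fun c => by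
  obtain ⟨g₁, a1, a2⟩ := h1 (c / 2)
  obtain ⟨g₂, a3, a4⟩ := h3 (c / 2)
  obtain ⟨g₃, a5, a6⟩ := h (-c)
  refine ⟨_, mul_mem a1 (mul_mem a3 a5), fun x => ?_⟩
  simp only [LinearEquiv.mul_apply, a2, a4, a6, map_add, map_sub, map_smul, LinearMap.add_apply,
    LinearMap.sub_apply, B_self_alt hε hκ, h0, Φ.B_eq_zero_symm h0]
  match_scalars <;> field_simp <;> ring

theorem tr_add (h2 : (2 : F) ≠ 0) (hH : H ≤ Φ.O) (hU : ∀ x ∈ U, Φ.TR H x) (hv : v ∈ U) (hy : y ∈ U)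
    (h0 : Φ.B y v ≠ 0) (ht : Φ.TR H t) (h1 : t ∉ Φ.perp U) : ∀ x ∈ U, Φ.TR H (t + x) := by
  have e0 := B_self_alt hε hκ
  have key : ∀ x ∈ U, t + x ∉ Φ.perp U → Φ.TR H (t + x) := fun x hx e => by
    by_cases a3 : Φ.B x t = 0
    swap
    · simpa using (hU x hx).line hH ht a3 1
    simp only [mem_perp', not_forall, exists_prop] at h1 e
    obtain ⟨z, hz, a1, a2⟩ := exists_ne_ne h1 e
    have := (hU _ (U.sub_mem hx hz)).line hH ((hU z hz).line hH ht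
      (fun e => a1 (Φ.B_eq_zero_symm e)) 1) (fun e => a2 ?_) 1
    · convert this using 1; module
    simp only [map_add, map_sub, LinearMap.sub_apply, LinearMap.add_apply, one_smul, e0, a3,
      B_neg_alt hε t z] at e ⊢
    linear_combination e
  intro x hx
  by_contra e
  have e1 : t + x ∈ Φ.perp U := by_contra fun e1 => e (key x hx e1)
  have e2 : ∀ c : F, c ≠ 0 → Φ.TR H (t + x + c • v) := fun c hc => by
    rw [add_assoc]
    refine key _ (U.add_mem hx (U.smul_mem c hv)) fun e2 => mul_ne_zero hc h0 ?_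
    simpa [← add_assoc, -map_add, map_add _ (t + x), e1 y hy] using e2 y hy
  refine e (tr_two hε hκ h2 (hU v hv) ?_ ?_ (e1 v hv))
  · convert e2 1 one_ne_zero using 1; module
  · convert (e2 (-1) (by simp)).smul (-1) using 1; module

theorem exists_max [FiniteDimensional F V] (h2 : (2 : F) ≠ 0) (hH : H ≤ Φ.O) (hv : Φ.TR H v)
    (hy : Φ.TR H y) (h0 : Φ.B y v ≠ 0) : ∃ U : Submodule F V, v ∈ U ∧ (∀ x ∈ U, Φ.TR H x) ∧
      ∀ t, Φ.TR H t → t ∉ Φ.perp U → t ∈ U := by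
  obtain ⟨U, ⟨a1, a2, a3⟩, a4⟩ := set_has_maximal_iff_noetherian.2 (inferInstance : IsNoetherian F V)
    {U | v ∈ U ∧ y ∈ U ∧ ∀ x ∈ U, Φ.TR H x} ⟨Submodule.span F {v, y},
      Submodule.subset_span (by simp), Submodule.subset_span (by simp), fun x hx => by
        obtain ⟨a, b, rfl⟩ := Submodule.mem_span_pair.1 hx
        by_cases e : a = 0
        · simpa [e] using hy.smul b
        · exact hy.line hH (hv.smul a) (by simp [e, h0]) b⟩
  refine ⟨U, a1, a3, fun t ht h1 => by_contra fun e => a4 (U ⊔ F ∙ t)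
    ⟨Submodule.mem_sup_left a1, Submodule.mem_sup_left a2, fun x hx => ?_⟩
    (SetLike.lt_iff_le_and_exists.2 ⟨le_sup_left, t,
      Submodule.mem_sup_right (Submodule.mem_span_singleton_self t), e⟩)⟩
  obtain ⟨x, hx', _, hz, rfl⟩ := Submodule.mem_sup.1 hx
  obtain ⟨c, rfl⟩ := Submodule.mem_span_singleton.1 hz
  by_cases hc : c = 0
  · simpa [hc] using a3 x hx'
  rw [add_comm]
  exact tr_add hε hκ h2 hH a3 a1 a2 h0 (ht.smul c) (by rwa [Submodule.smul_mem_iff _ hc]) x hx'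

theorem isMaximalIn_nondeg_alt [FiniteDimensional F V] (hΦ : Φ.Nondeg) {W : Submodule F V}
    (hW : Disjoint W (Φ.perp W)) (h0 : W ≠ ⊥) (hd : 2 * finrank F W < finrank F V) :
    IsMaximalIn Φ.E (stabL W ⊓ Φ.E) := by
  rw [E_alt hΦ hε hκ]
  have h1 := hΦ.finrank_perp_add W
  have hW' : Disjoint (Φ.perp W) (Φ.perp (Φ.perp W)) := by rw [hΦ.perp_perp]; exact hW.symm
  have hdec : ∀ v, ∃ a ∈ W, ∃ b ∈ Φ.perp W, a + b = v := fun v =>
    Submodule.mem_sup.1 ((hΦ.isCompl_perp hW).sup_eq_top ▸ Submodule.mem_top)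
  have t1 : ∀ a ∈ W, Φ.TR (stabL W ⊓ Φ.O) a := fun a ha => tr_inf hΦ hε hκ fun c g hg =>
    mem_stabL_of_le.2 fun u hu => hg u ▸ W.add_mem hu (W.smul_mem _ ha)
  have t2 : ∀ a ∈ Φ.perp W, Φ.TR (stabL W ⊓ Φ.O) a := fun a ha => tr_inf hΦ hε hκ fun c g hg =>
    mem_stabL_of_le.2 fun u hu => by simpa [hg, Φ.mem_perp'.1 ha u hu] using hu
  refine isMaximalIn_of inf_le_right ?_ fun H hM hH g hg hgM => O_le_of_tr hΦ hε hκ ?_
  · obtain ⟨a, ha, a0⟩ := (Submodule.ne_bot_iff W).1 h0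
    obtain ⟨b, hb, b0⟩ := (Submodule.ne_bot_iff (Φ.perp W)).1 (by
      intro e; rw [e, finrank_bot] at h1; omega)
    obtain ⟨x, hx, e⟩ := Nd.exists_ne hW ha a0
    obtain ⟨g, hg, e1⟩ := exists_tv_alt hΦ hε hκ (a + b) 1
    refine ⟨g, hg, fun h => b0 (Submodule.disjoint_def.1 hW b ?_ hb)⟩
    have := apply_mem_of_mem_stabL h.1 hx
    rw [e1, W.add_mem_iff_right hx] at this
    simpa [e, Φ.mem_perp'.1 hb x hx, W.add_mem_iff_right ha] using this
  by_cases e : ∃ x, (x ∈ W ∨ x ∈ Φ.perp W) ∧ g x ∉ W ∧ g x ∉ Φ.perp W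
  · obtain ⟨x, hx, e1, e2⟩ := e
    obtain ⟨a, ha, b, hb, e3⟩ := hdec (g x)
    have e4 : Φ.TR H (a + b) := e3 ▸ ((hx.elim (t1 x) (t2 x)).mono hM).conj hg (hH hg)
    intro w
    obtain ⟨a', ha', b', hb', rfl⟩ := hdec w
    by_cases h3 : a' = 0
    · simpa [h3] using (t2 _ hb').mono hM
    by_cases h4 : b' = 0
    · simpa [h4] using (t1 _ ha').mono hM
    have := TR.repl hε hκ hH hW (fun a ha => (t1 a ha).mono hM) ha ha'
      (by rintro rfl; exact e2 (by simpa [← e3])) h3 hb e4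
    rw [add_comm] at this ⊢
    exact TR.repl hε hκ hH hW' (fun a ha => (t2 a ha).mono hM) hb hb'
      (by rintro rfl; exact e1 (by simpa [← e3])) h4 (Φ.le_perp_perp W ha') this
  exfalso
  simp only [not_exists, not_and, not_not] at e
  have e1 : ∀ {A : Submodule F V}, (∀ x ∈ A, x ∈ W ∨ x ∈ Φ.perp W) →
      A.map g.toLinearMap ≤ W ∨ A.map g.toLinearMap ≤ Φ.perp W := fun hA => le_or_le (by
    rintro _ ⟨x, hx, rfl⟩; exact or_iff_not_imp_left.2 (e x (hA x hx)))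
  rcases e1 (A := Φ.perp W) fun _ => Or.inr with e2 | e2
  · have := Submodule.finrank_mono e2
    rw [LinearEquiv.finrank_map_eq] at this; omega
  rw [← perp_map (hH hg), hΦ.perp_le_perp_iff] at e2
  exact hgM ⟨(Submodule.eq_of_le_of_finrank_le e2 (LinearEquiv.finrank_map_eq _ _).le).symm, hH hg⟩

end H23.Pr
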