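import Cfsg.Agent.H23.Pr1

/-! Maximality of the unitary group in the symplectic group: small dimensions. -/

set_option autoImplicit false

namespace H23.Pr

open Module H22 Cfsg Cfsg.Geo Form Tn

variable {F E V : Type*} [Field F] [Field E] [Algebra F E] [Finite E] [AddCommGroup V] [Module F V]
  [Module E V] [IsScalarTower F E V] {τ : E →+* E}

theorem quad_norm (h2 : finrank F E = 2) (hτ : τ ≠ RingHom.id E)
    (ha : ∀ c, τ (algebraMap F E c) = algebraMap F E c) (x : E) :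
    algebraMap F E (Algebra.norm F x) = x * τ x := by
  classical
  have : Finite F := Finite.of_injective _ (algebraMap F E).injective
  have : FiniteDimensional F E := Module.Finite.of_finite
  let t : Gal(E/F) := AlgEquiv.ofBijective ⟨τ, ha⟩ (Finite.injective_iff_bijective.1 τ.injective)
  have h1 : (1 : Gal(E/F)) ≠ t := fun h => hτ (RingHom.ext fun y => congr($h.symm y))
  have h3 : ({1, t} : Finset Gal(E/F)) = Finset.univ := Finset.eq_univ_of_card _ (by
    rw [Finset.card_pair h1, ← Nat.card_eq_fintype_card, IsGalois.card_aut_eq_finrank, h2])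
  rw [Algebra.norm_eq_prod_automorphisms, ← h3, Finset.prod_pair h1]; rfl

omit [Finite E] in
theorem totSing_of_self {Ψ : Form τ V} (hτ : τ ≠ RingHom.id E) (h2 : (2 : E) ≠ 0)
    {T : Submodule E V} (h : ∀ v ∈ T, Ψ.B v v = 0) : Ψ.TotSing T := by
  refine ⟨fun u hu v hv => ?_, fun v _ => Q_of_κ (κ_of_ne_id hτ) v⟩
  obtain ⟨d, h0, hd⟩ := exists_skew_ne hτ Ψ.invol
  have e1 := h _ (T.add_mem hu hv)
  have e2 := h _ (T.add_mem hu (T.smul_mem d hv))
  simp only [map_add, LinearMap.add_apply, B_smul_left, B_smul_right, h u hu, h v hv, hd] at e1 e2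
  exact mul_left_cancel₀ (mul_ne_zero h2 h0) (by linear_combination d * e1 + e2)

omit [Finite E] in
theorem exists_ns [FiniteDimensional E V] {Ψ : Form τ V} (hτ : τ ≠ RingHom.id E) (h2 : (2 : E) ≠ 0)
    {T : Submodule E V} (hT : Disjoint T (Ψ.perp T)) (h0 : T ≠ ⊥) : ∃ v ∈ T, Ψ.B v v ≠ 0 := by
  by_contra! h
  exact h0 (disjoint_self.1 (hT.mono_right (totSing_of_self hτ h2 h).le_perp))

theorem sing_skew [FiniteDimensional E V] {Ψ : Form τ V} (hτ : τ ≠ RingHom.id E)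
    (hε : Ψ.ε = -1) {T : Submodule E V} (hT : 2 ≤ finrank E T) : ∃ u ∈ T, u ≠ 0 ∧ Sing Ψ u := by
  obtain ⟨d, h0, hd⟩ := exists_skew_ne hτ Ψ.invol
  have hκ := Ψ.κ_of_ne_id hτ
  obtain ⟨u, h1, h2, h3⟩ := exists_sing_of_herm (Φ := ⟨1, 0, d • Ψ.B, fun _ => 0, Ψ.invol, by simp,
    fun x y => by simp [Ψ.symm x y, hε, hd], by simp, by simp, by simp, by simp, fun v => by
      obtain ⟨s, hs, -⟩ := Ψ.trace v
      exact ⟨d * s, by simp [hs, hε, hd]; ring, by simp⟩⟩) hτ rfl hT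
  exact ⟨u, h1, h2, by simpa [h0] using h3.1, Q_of_κ hκ u⟩

omit [Finite E] in
theorem disjoint_perp_one {Ψ : Form τ V} {v : V} (hv : Ψ.B v v ≠ 0) :
    Disjoint (E ∙ v) (Ψ.perp (E ∙ v)) := Submodule.disjoint_def.2 fun x hx h => by
  obtain ⟨c, rfl⟩ := Submodule.mem_span_singleton.1 hx
  rw [mem_perp_span_singleton] at h
  simp_all

omit [Finite E] in
theorem exists_one {Ψ : Form τ V} {D : Submodule E V} (h : Disjoint D (Ψ.perp D)) {x : V}
    (h1 : x ∈ D) (h0 : x ≠ 0) : ∃ d ∈ D, Ψ.B x d = 1 := by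
  obtain ⟨d, hd, h2⟩ : ∃ d ∈ D, Ψ.B x d ≠ 0 := by
    by_contra! hc
    exact h0 (Submodule.disjoint_def.1 h x h1 (Ψ.mem_perp'.2 hc))
  exact ⟨(Ψ.B x d)⁻¹ • d, D.smul_mem _ hd, by simp [h2]⟩

omit [Algebra F E] [IsScalarTower F E V] in
theorem scalar_of_ns [FiniteDimensional E V] {Ψ : Form τ V} (hΨ : Ψ.Nondeg)
    (hτ : τ ≠ RingHom.id E) (h2 : (2 : E) ≠ 0) (h3 : 2 ≤ finrank E V) (θ : V →ₗ[F] V)
    (h1 : ∀ w, Ψ.B w w ≠ 0 → θ w ∈ E ∙ w) : ∃ a : E, ∀ v, θ v = a • v := by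
  have k1 : ∀ (a : E) u w, Ψ.B u u ≠ 0 → Ψ.B w w ≠ 0 → w ∉ E ∙ u → θ u = a • u →
      Ψ.B (u + w) (u + w) ≠ 0 → θ w = a • w := fun a u w hu hw e ha h => by
    obtain ⟨c, hc⟩ := Submodule.mem_span_singleton.1 (h1 w hw)
    obtain ⟨d, hd⟩ := Submodule.mem_span_singleton.1 (h1 _ h)
    have a4 : LinearIndependent E ![u, w] :=
      (LinearIndependent.pair_iff' (by rintro rfl; simp at hu)).2 fun a e' =>
        e (e' ▸ Submodule.smul_mem _ a (Submodule.mem_span_singleton_self u))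
    obtain ⟨e1, e2⟩ := LinearIndependent.pair_iff.1 a4 (d - a) (d - c) (by
      rw [map_add, ha, ← hc] at hd; linear_combination (norm := module) hd)
    rw [← hc, show c = a by linear_combination e1 - e2]
  have k2 : ∀ (a : E) u w, Ψ.B u u ≠ 0 → Ψ.B w w ≠ 0 → w ∉ E ∙ u → θ u = a • u →
      Ψ.B u w + Ψ.B w u ≠ 0 → θ w = a • w := fun a u w hu hw e ha h => by
    by_cases e1 : Ψ.B (u + w) (u + w) = 0
    · have := k1 a u (-w) hu (by simpa) (by simpa) ha fun e2 => mul_ne_zero h2 h (by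
        simp only [map_add, map_neg, LinearMap.add_apply, LinearMap.neg_apply] at e1 e2
        linear_combination e1 - e2)
      simpa using this
    · exact k1 a u w hu hw e ha e1
  have := Fintype.ofFinite E
  obtain ⟨μ, hμ⟩ := exists_norm_eq_of_invol hτ Ψ.invol (μ := -1) (by simp)
  have k3 : ∀ (x y : E), y ≠ 0 → ∃ c : E, c ≠ 0 ∧ x + τ c * c * y ≠ 0 := fun x y hy => by
    by_contra! e
    have e1 := e μ (by rintro rfl; simp at hμ)
    have e2 := e 1 one_ne_zero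
    rw [hμ] at e1
    exact mul_ne_zero h2 hy (by simp only [map_one] at e2; linear_combination e2 - e1)
  obtain ⟨u, -, hu⟩ := exists_ns hτ h2 (T := ⊤) (Ψ := Ψ) (by simp [perp_top _ hΨ])
    (by intro e; rw [← finrank_top, e] at h3; simp at h3)
  obtain ⟨a, ha⟩ := Submodule.mem_span_singleton.1 (h1 u hu)
  have u0 : u ≠ 0 := by rintro rfl; simp at hu
  have hD := disjoint_perp_one hu
  obtain ⟨k, hk, k0⟩ := exists_ns hτ h2 (T := Ψ.perp (E ∙ u)) (by rw [hΨ.perp_perp]; exact hD.symm)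
    (by intro e; have := hΨ.finrank_perp (E ∙ u); rw [e, finrank_span_singleton u0] at this
        simp at this; omega)
  rw [mem_perp_span_singleton] at hk
  have nm : ∀ {k} (b c : E), Ψ.B u k = 0 → Ψ.B k k ≠ 0 → ∀ e : E, e ≠ 0 → b • u + e • k ∉ E ∙ c • u :=
    fun {k} b c hk k0 e e0 h => by
      obtain ⟨s, hs⟩ := Submodule.mem_span_singleton.1 h
      simpa [Ψ.B_eq_zero_symm hk, e0, k0] using congrArg (Ψ.B k) hs
  have k4 : ∀ c : E, θ (c • u) = a • c • u := fun c => by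
    by_cases c0 : c = 0
    · simp [c0]
    obtain ⟨b, b1, b2⟩ : ∃ b : E, b + τ b ≠ 0 ∧ τ c * b + τ b * c ≠ 0 := by
      by_cases e : τ c + c = 0
      · refine ⟨1 + c, ?_, ?_⟩ <;> simp only [map_add, map_one]
        · exact fun e' => h2 (by linear_combination e' - e)
        · exact fun e' => mul_ne_zero h2 (mul_ne_zero ((map_ne_zero τ).2 c0) c0)
            (by linear_combination e' - e)
      · exact ⟨1, by simpa [one_add_one_eq_two] using h2, by simpa using e⟩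
    obtain ⟨e, e0, e1⟩ := k3 (τ b * b * Ψ.B u u) _ k0
    have z0 : Ψ.B (b • u + e • k) (b • u + e • k) ≠ 0 := by
      simpa [B_smul_left, hk, Ψ.B_eq_zero_symm hk, mul_assoc, mul_left_comm] using e1
    refine k2 a _ _ z0 (by simp [B_smul_left, c0, hu]) (fun h => ?_)
      (k2 a u _ hu z0 (by simpa using nm b 1 hk k0 e e0) ha.symm (by
        simpa [B_smul_left, hk, Ψ.B_eq_zero_symm hk, ← add_mul, hu] using b1)) (by
        simp only [B_smul_left, B_smul_right, map_add, LinearMap.add_apply, hk,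
          Ψ.B_eq_zero_symm hk]
        exact fun e' => mul_ne_zero b2 hu (by linear_combination e'))
    obtain ⟨s, hs⟩ := Submodule.mem_span_singleton.1 h
    have s0 : s ≠ 0 := by rintro rfl; simp [eq_comm, c0, u0] at hs
    exact nm b c hk k0 e e0 (hs ▸ Submodule.mem_span_singleton.2 ⟨s⁻¹, by simp [s0]⟩)
  have k5 : ∀ w, Ψ.B u w = 0 → Ψ.B w w ≠ 0 → θ w = a • w := fun w hw w0 => by
    obtain ⟨e, e0, e1⟩ := k3 (Ψ.B w w) _ hu
    exact k1 a (e • u) w (by simp [B_smul_left, e0, hu]) w0 (by simpa using nm 0 e hw w0 1 one_ne_zero)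
      (k4 e) (by simpa [B_smul_left, hw, Ψ.B_eq_zero_symm hw, mul_assoc, mul_left_comm, add_comm]
        using e1)
  have k6 : ∀ w, Ψ.B u w = 0 → θ w = a • w := fun w hw => by
    by_cases w0 : Ψ.B w w = 0
    swap
    · exact k5 w hw w0
    by_cases e : Ψ.B (w + k) (w + k) = 0
    · have := k5 (w - k) (by simp [hw, hk]) fun e' => mul_ne_zero h2 k0 (by
        simp only [map_add, map_sub, LinearMap.add_apply, LinearMap.sub_apply, w0] at e e'
        linear_combination e + e')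
      simpa [k5 k hk k0, smul_sub] using this
    · simpa [k5 k hk k0] using k5 (w + k) (by simp [hw, hk]) e
  refine ⟨a, fun v => ?_⟩
  have := k6 (v - (Ψ.B u v / Ψ.B u u) • u) (by simp [hu])
  simpa [k4, smul_sub] using this

/-- A skew-hermitian form over a quadratic extension inducing an alternating form. -/
structure Gp (Φ : Form (RingHom.id F) V) (Ψ : Form τ V) : Prop extends Lift Φ Ψ where
  ε : Φ.ε = -1
  kap : Φ.κ = 0
  ne : τ ≠ RingHom.id E
  two : finrank F E = 2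
  odd : (2 : E) ≠ 0
  dim : 3 ≤ finrank E V

namespace Gp

variable {Φ : Form (RingHom.id F) V} {Ψ : Form τ V} (h : Gp Φ Ψ) {H : Subgroup (V ≃ₗ[F] V)}
  {u v w x p r : V} {μ : E} {s : F}
include h

omit [Finite E] [IsScalarTower F E V] in
theorem ε' : Ψ.ε = -1 := by simp [h.eps, h.ε]

theorem trB (u v : V) : algebraMap F E (Φ.B u v) = Ψ.B u v + τ (Ψ.B u v) := by
  rw [h.B_eq, (quad_ext h.two h.ne h.alg _).1]

theorem B_iff {c : F} : Φ.B u v = c ↔ Ψ.B u v + τ (Ψ.B u v) = algebraMap F E c := by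
  rw [← h.trB, (algebraMap F E).injective.eq_iff]

omit [Finite E] [IsScalarTower F E V] in
theorem fd : FiniteDimensional E V := Module.finite_of_finrank_pos (by have := h.dim; omega)

omit [Finite E] in
theorem fdF : FiniteDimensional F V :=
  have := h.fd
  have : FiniteDimensional F E := Module.finite_of_finrank_pos (by rw [h.two]; omega)
  Module.Finite.trans E V

omit [Finite E] in
theorem mem_O {k : V ≃ₗ[E] V} (hk : k ∈ Ψ.O) : k.restrictScalars F ∈ Φ.O :=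
  ⟨fun x y => by simp [h.B_eq, hk.1], fun x => by simp [Q_of_κ h.kap]⟩

omit [Finite E] [IsScalarTower F E V] in
theorem skew (v : V) : τ (Ψ.B v v) = -Ψ.B v v := by
  have := Ψ.symm v v
  rw [h.ε'] at this; linear_combination this

theorem decomp {d : E} (h0 : d ≠ 0) (hd : τ d = -d) (k : E) :
    ∃ a b : F, k = algebraMap F E a + algebraMap F E b * d := by
  have h2 := h.odd
  obtain ⟨a, ha⟩ := (quad_ext h.two h.ne h.alg ((k + τ k) / 2)).2 (by
    simp [h.invol, add_comm, map_ofNat])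
  obtain ⟨b, hb⟩ := (quad_ext h.two h.ne h.alg ((k - τ k) / 2 / d)).2 (by
    simp only [map_div₀, map_sub, h.invol, map_ofNat, hd]; field_simp; ring)
  exact ⟨a, b, by rw [ha, hb]; field_simp; ring⟩

omit [Finite E] [IsScalarTower F E V] in
theorem exists_qr (hv : Ψ.B v v ≠ 0) (hμ : μ * τ μ = 1) :
    ∃ k ∈ Ψ.O, ∀ x, k x = x + ((μ - 1) / Ψ.B v v * Ψ.B v x) • v := by
  have := h.fd
  have h1 := Ψ.qrefl_B (d := v) (c := (μ - 1) / Ψ.B v v) (by
    simp only [h.ε', map_div₀, map_sub, map_one, h.skew]; field_simp; linear_combination -hμ)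
  exact ⟨equivOfIsometry h.nondeg _ h1, ⟨h1, fun x => by simp [Q_of_κ (κ_of_ne_id h.ne)]⟩,
    fun x => Ψ.qrefl_apply v _ x⟩

omit [Finite E] [IsScalarTower F E V] in
theorem exists_sc (hμ : μ * τ μ = 1) : ∃ k ∈ Ψ.O, ∀ x, k x = μ • x :=
  ⟨LinearEquiv.smulOfNeZero E V μ (left_ne_zero_of_mul_eq_one hμ), ⟨fun x y => by
    simp only [LinearEquiv.smulOfNeZero_apply, B_smul_left, B_smul_right]
    linear_combination Ψ.B x y * hμ, fun x => by simp [Q_of_κ (κ_of_ne_id h.ne)]⟩, fun _ => rfl⟩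

theorem of_norm (Λ : Subring E) (h1 : ∀ μ, μ * τ μ = 1 → μ ∈ Λ) (c : E) : c ∈ Λ :=
  mem_of_norm (F := F) (by rw [h.two]; omega) Λ (fun μ e => h1 μ (by
    rw [← quad_norm h.two h.ne h.alg, e, map_one])) c

theorem B_zero (hv : Ψ.B v v ≠ 0) (h1 : Φ.B p v = 0) (h2 : Φ.B p ((2 * Ψ.B v v)⁻¹ • v) = 0) :
    Ψ.B p v = 0 := by
  have := h.odd
  rw [h.B_iff] at h1 h2
  simp only [B_smul_right, map_mul, map_inv₀, map_ofNat, h.skew, map_zero] at h1 h2
  field_simp at h2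
  exact mul_left_cancel₀ this (by linear_combination h1 + h2)

variable (hM : ∀ k ∈ Ψ.O, k.restrictScalars F ∈ H)
include hM

theorem exists_pr (hv : Ψ.B v v ≠ 0) : ∃ ρ ∈ H, IsPr Φ ρ v ((2 * Ψ.B v v)⁻¹ • v) := by
  have := h.odd
  obtain ⟨k, hk, e⟩ := h.exists_qr hv (μ := -1) (by simp)
  refine ⟨_, hM k hk, h.B_iff.2 ?_, h.mem_O hk, fun z => ?_⟩
  · simp only [B_smul_right, map_mul, map_inv₀, map_ofNat, h.skew, map_one]; field_simp; ring
  rw [← algebraMap_smul E (2 * _ : F), ← algebraMap_smul E (2 * _ : F), map_mul, map_mul, h.trB,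
    h.trB]
  simp only [LinearEquiv.restrictScalars_apply, e, B_smul_left, map_mul, map_inv₀, map_ofNat,
    h.skew, map_neg]
  match_scalars <;> field_simp; ring

theorem win (hv : Ψ.B v v ≠ 0) (hr : Ψ.B v r = 0) (h0 : r ≠ 0) (h1 : Φ.EIn H v r s) : Φ.O ≤ H := by
  have := h.fd
  have := h.fdF
  have h2 := h.odd
  have e0 := B_self_alt h.ε h.kap
  have pp : ∀ {r}, Ψ.B v r = 0 → Φ.B v r = 0 := fun e => by simp [h.B_iff, e]
  let R₀ : AddSubgroup V :=
    { carrier := {r | Ψ.B v r = 0 ∧ ∃ s, Φ.EIn H v r s}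
      add_mem' := fun ⟨a1, _, a2⟩ ⟨a3, _, a4⟩ => ⟨by simp [a1, a3], _, a2.add a4 (e0 v) (pp a1) (pp a3)⟩
      zero_mem' := ⟨by simp, 0, eIn_zero H v⟩
      neg_mem' := fun ⟨a1, _, a2⟩ => ⟨by simp [a1], _, a2.neg (e0 v) (pp a1)⟩ }
  have cj : ∀ k ∈ Ψ.O, k v = v → ∀ r ∈ R₀, k r ∈ R₀ := fun k hk e r ⟨a1, s, a2⟩ =>
    ⟨by rw [← e, hk.1, a1], s, by simpa [e] using a2.conj (hM k hk) (h.mem_O hk)⟩
  let R : Submodule E V :=
    { R₀ with
      smul_mem' := fun c r => h.of_norm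
        { carrier := {c | ∀ r ∈ R₀, c • r ∈ R₀}
          mul_mem' := fun ha hb r hr => by rw [mul_smul]; exact ha _ (hb r hr)
          one_mem' := fun r hr => by simpa
          add_mem' := fun ha hb r hr => by rw [add_smul]; exact add_mem (ha r hr) (hb r hr)
          zero_mem' := fun r _ => by simp
          neg_mem' := fun ha r hr => by rw [neg_smul]; exact neg_mem (ha r hr) } (fun μ hμ r hr => by
            obtain ⟨k, hk, e⟩ := h.exists_sc hμ
            obtain ⟨k', hk', e'⟩ := h.exists_qr hv (μ := τ μ) (by rw [h.invol, mul_comm, hμ])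
            simpa [e, e', hr.1] using cj _ (mul_mem hk hk') (by
              simp only [LinearEquiv.mul_apply, e, e']
              match_scalars; field_simp; linear_combination hμ) r hr) c r }
  have hD := disjoint_perp_one hv
  have hD' : Disjoint (Ψ.perp (E ∙ v)) (Ψ.perp (Ψ.perp (E ∙ v))) := by
    rw [h.nondeg.perp_perp]; exact hD.symm
  have a1 : R = Ψ.perp (E ∙ v) := irr_of_hasTv h.nondeg
    ⟨1, one_ne_zero, by simp [h.ε'], by simp [κ_of_ne_id h.ne]⟩ hD' (sing_skew h.ne h.ε')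
    (fun r hr => Ψ.mem_perp_span_singleton.2 hr.1)
    ((Submodule.ne_bot_iff _).2 ⟨r, ⟨hr, s, h1⟩, h0⟩) fun k hk => cj k (ED_le_O _ hk)
      (ED_fix hk (Ψ.le_perp_perp _ (Submodule.mem_span_singleton_self v)))
  have a2 : ∀ r, Ψ.B v r = 0 → ∃ s, Φ.EIn H v r s := fun r e =>
    (a1.ge (Ψ.mem_perp_span_singleton.2 e)).2
  have a3 : Φ.AIn H v 0 := ⟨by simp, fun c _ => by
    obtain ⟨r', b1, b2⟩ := exists_one hD' (Ψ.mem_perp_span_singleton.2 hr) h0
    rw [mem_perp_span_singleton] at b1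
    have b3 : Ψ.B v ((algebraMap F E c / 4) • r') = 0 := by simp [b1]
    obtain ⟨s', b4⟩ := a2 _ b3
    convert eIn_comm h.ε (e0 v) b4 h1 (pp b3) (pp hr) using 1
    refine (algebraMap F E).injective ?_
    have h4 : (4 : E) ≠ 0 := by rw [show (4 : E) = 2 * 2 by norm_num]; exact mul_ne_zero h2 h2
    simp only [map_mul, h.trB, B_smul_right, b2, map_div₀, map_ofNat, h.alg, map_one,
      RingHom.id_apply]
    field_simp; ring⟩
  obtain ⟨μ, b1, b2⟩ : ∃ μ, μ * τ μ = 1 ∧ τ μ ≠ μ := by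
    by_contra! e
    exact h.ne (RingHom.ext (h.of_norm (τ.eqLocus (RingHom.id E)) e))
  obtain ⟨k, hk, e⟩ := h.exists_sc b1
  rw [← E_alt h.nd h.ε h.kap]
  refine E_le_of_qIn_of_mem h.nd (sing_alt h.ε h.kap v) (qIn_iff.2 fun z hz => ?_) (hM k hk)
    (h.mem_O hk) fun e' => ?_
  · rw [h.B_iff, map_zero] at hz
    obtain ⟨c, hc⟩ := (quad_ext h.two h.ne h.alg (Ψ.B v z / Ψ.B v v)).2 (by
      rw [map_div₀, h.skew]; field_simp; linear_combination -hz)
    have b3 : Ψ.B v (z - c • v) = 0 := by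
      rw [← algebraMap_smul E c, hc]; simp [hv]
    obtain ⟨s', b4⟩ := a2 _ b3
    simpa using (a3.of_eIn ⟨sing_alt h.ε h.kap v, pp b3, by rw [e0]; simp [h.ε],
      by simp [h.kap, Q_of_κ h.kap]⟩ b4).add_smul (sing_alt h.ε h.kap v) c
  · rw [h.B_iff] at e'
    simp only [LinearEquiv.restrictScalars_apply, e, B_smul_right, map_mul, h.skew, map_zero] at e'
    exact mul_ne_zero (sub_ne_zero.2 b2) hv (by linear_combination -e')

theorem line (hH : H ≤ Φ.O) (hN : ¬ Φ.O ≤ H) {g : V ≃ₗ[F] V} (hg : g ∈ H) (hw : Ψ.B w w ≠ 0)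
    (y : E) : g (y • w) ∈ E ∙ g w := by
  have := h.fd
  have h2 := h.odd
  obtain ⟨ρ, a1, a2⟩ := h.exists_pr hM hw
  suffices e : g ((2 * Ψ.B w w)⁻¹ • w) ∈ E ∙ g w by
    obtain ⟨a, b, rfl⟩ := h.decomp (d := (2 * Ψ.B w w)⁻¹) (by simp [hw, h2])
      (by simp [map_ofNat, h.skew]) y
    rw [add_smul, mul_smul, algebraMap_smul, algebraMap_smul, map_add, map_smul, map_smul]
    exact add_mem (Submodule.smul_of_tower_mem _ a (Submodule.mem_span_singleton_self _))
      (Submodule.smul_of_tower_mem _ b e)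
  have a3 := a2.conj (hH hg)
  have a4 := mul_mem (mul_mem hg a1) (inv_mem hg)
  have a5 : g w ≠ 0 := by simpa using fun e : w = 0 => by simp [e] at hw
  generalize g ((2 * Ψ.B w w)⁻¹ • w) = p' at *
  generalize g w = p at *
  by_contra e
  obtain ⟨z, b1, b2⟩ := h.nondeg.exists_perp_eq_one e
  obtain ⟨d, d0, hd⟩ := exists_skew_ne h.ne h.invol
  have b3 := h.nondeg.two_mul_finrank_le (totSing_of_self h.ne h2 (T := Ψ.perp (E ∙ p))
    (self_eq_zero h2 (T := (Ψ.perp (E ∙ p)).toAddSubgroup) (φ := (Ψ.B p').toAddMonoidHom)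
      (fun v hv e1 => by_contra fun e2 => ?_) (Ψ.mem_perp'.2 b1)
      fun e => by simp [Ψ.B_eq_zero_symm e] at b2))
  · have := h.dim
    rw [h.nondeg.finrank_perp, finrank_span_singleton a5] at b3
    omega
  replace hv : Ψ.B p v = 0 := Ψ.mem_perp_span_singleton.1 hv
  replace e1 : Ψ.B p' v ≠ 0 := e1
  have e3 : Ψ.B ((d / Ψ.B p' v) • v) ((d / Ψ.B p' v) • v) ≠ 0 := by simp [B_smul_left, *]
  obtain ⟨ρ', c1, c2⟩ := h.exists_pr hM e3
  have e4 : Φ.B p' ((d / Ψ.B p' v) • v) = 0 := by simp [h.B_iff, e1, hd]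
  obtain ⟨r, c3, c4, -, c5, c6⟩ := c2.root h.ε h.kap a3 c1 a4 (by simp [h.B_iff, hv]) e4
  obtain rfl : r = 0 := by_contra fun r0 => hN (h.win hM e3 (Ψ.B_eq_zero_symm
    (h.B_zero e3 (Φ.B_eq_zero_symm c3) (Φ.B_eq_zero_symm c4))) r0 c6)
  have h4 : (4 : F) ≠ 0 := fun e => mul_ne_zero h2 h2 (by
    have := congrArg (algebraMap F E) e
    simp only [map_ofNat, map_zero] at this; linear_combination this)
  have := h.B_zero e3 e4 (by simpa [h4] using c5.symm)
  simp [e1, d0] at this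

omit hM in
theorem isMaximalIn : IsMaximalIn Φ.O (Tg F (ls E V) ⊓ Φ.O) := by
  have := h.fd
  have := h.fdF
  have := h.nt
  have := h.dim
  have : FiniteDimensional F E := Module.finite_of_finrank_pos (by rw [h.two]; omega)
  refine isMaximalIn_of inf_le_right ?_ fun H h1 h2 g hg hg' => ?_
  · obtain ⟨u, -, hu0, hu⟩ := sing_skew h.ne h.ε' (T := ⊤) (by simp; omega)
    obtain ⟨f, hf⟩ := exists_hyp h.nondeg hu hu0
    obtain ⟨d, d0, hd⟩ := exists_skew_ne h.ne h.invol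
    obtain ⟨t, ht, a1⟩ := exists_tv_alt h.nd h.ε h.kap u 1
    refine ⟨t, ht, fun h1 => ?_⟩
    obtain ⟨α, hα⟩ := exists_semi (semi_of_Tg h1.1)
    have a2 := h.B_semi ht.1 hα ((1 + d) • f) ((1 + d) • f)
    rw [a1, ← algebraMap_smul E (1 * _ : F), one_mul, h.trB] at a2
    simp only [map_add, LinearMap.add_apply, B_smul_left, B_smul_right, hf.one, hf.B_symm, hu.1,
      hf.right.1, h.ε', hd, map_one, mul_one, map_neg, map_zero, mul_zero] at a2
    exact mul_ne_zero (mul_ne_zero h.odd h.odd) d0 (by linear_combination a2)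
  have hM : ∀ k ∈ Ψ.O, k.restrictScalars F ∈ H := fun k hk =>
    h1 ⟨mem_Tg_of_semi fun y => ⟨y, k.map_smul y⟩, h.mem_O hk⟩
  by_contra h3
  refine hg' ⟨mem_Tg_of_semi fun y => ?_, h2 hg⟩
  obtain ⟨a, ha⟩ := scalar_of_ns h.nondeg h.ne h.odd (by omega) (g.toLinearMap ∘ₗ
    (LinearMap.lsmul E V y).restrictScalars F ∘ₗ g.symm.toLinearMap) fun w hw => by
      have w0 : w ≠ 0 := by rintro rfl; simp at hw
      obtain ⟨l, hl⟩ := exists_coord (m := g⁻¹) (u := w) (w := g⁻¹ w) (by simpa)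
        (h.line hM h2 h3 (inv_mem hg) hw)
      obtain ⟨c, rfl⟩ := Finite.injective_iff_surjective.1 ((injective_iff_map_eq_zero l).2
        fun c hc => by simpa [hc, w0] using hl c) y
      exact Submodule.mem_span_singleton.2 ⟨c, (g.symm_apply_eq.1 (hl c))⟩
  exact ⟨a, fun v => by simpa using ha (g v)⟩

end Gp

theorem isMaximalIn_gp [Fintype F] {m : ℕ} (hm : 3 ≤ m) (h2 : (2 : F) ≠ 0)
    {K : Subalgebra F (Matrix (Fin m ⊕ Fin m) (Fin m ⊕ Fin m) F)} (hK : IsFieldSubalgebra 2 K)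
    (hac : IsAdjointClosedFor (sympForm m F) K) (hnsa : ¬ IsSelfAdjointFor (sympForm m F) K) :
    IsMaximalIn (spGL m F) (subalgebraNormalizer K ⊓ spGL m F) := by
  have : Nonempty (Fin m) := ⟨⟨0, by omega⟩⟩
  letI := (As.IsFieldSubalgebra.isField hK).toField
  have : Finite K := Subtype.finite
  obtain ⟨τ, h⟩ := exists_adjE (spForm_nondeg m) hK fun k hk =>
    let ⟨k', a, b⟩ := hac k hk; ⟨k', a, fun u v => by simpa only [spForm_B] using b u v⟩
  have h1 := finrank_mul_finrank F K (Fin m ⊕ Fin m → F)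
  rw [hK.finrank_eq, finrank_fintype_fun_eq_card] at h1
  have h4 : (2 : K) ≠ 0 := by
    rw [← map_ofNat (algebraMap F K)]; exact (map_ne_zero _).2 h2
  obtain ⟨Ψ, h5, -⟩ := h.exists_lift (.inl ⟨2⁻¹, by simp [map_ofNat, ← two_mul, h4]⟩)
  have h3 : ∀ g, g ∈ spGL m F ↔ glE _ F g ∈ (spForm m F).O := fun g => by
    rw [mem_spGL_iff_E, E_alt (spForm_nondeg m) rfl rfl]
  exact isMaximalIn_of_iff (glE _ F) (Gp.isMaximalIn ⟨h5, rfl, rfl, by
    rintro rfl; exact hnsa fun k hk u v => by simp only [← spForm_B]; exact h.adj ⟨k, hk⟩ u v, hK.finrank_eq, h4,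
    by simp at h1; omega⟩) h3 fun g => and_congr
      (mem_normalizer_iff_semi.trans ⟨mem_Tg_of_semi, semi_of_Tg⟩) (h3 g)

end H23.Pr
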