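import Cfsg.Agent.H23.Pr1
import Cfsg.Agent.H23.P21

/-! The tensor product of a symplectic plane and an orthogonal space. -/

set_option autoImplicit false

namespace H23.Pr

open Module H22 Cfsg Cfsg.Geo Form Tn Nd

variable {F S W V : Type*} [Field F] [AddCommGroup S] [Module F S] [AddCommGroup W] [Module F W]
  [AddCommGroup V] [Module F V]

theorem exists_tens {t : S →ₗ[F] W →ₗ[F] V} (ht : IsTensorProduct t) (a : S ≃ₗ[F] S)
    (b : W ≃ₗ[F] W) : ∃ m ∈ Tg F t, ∀ x y, m (t x y) = t (a x) (b y) := by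
  have e : ∀ x y, (ht.equiv.symm ≪≫ₗ TensorProduct.congr a b ≪≫ₗ ht.equiv) (t x y) =
      t (a x) (b y) := fun x y => by simp
  exact ⟨_, ⟨a, b, e⟩, e⟩

theorem ns_ne [FiniteDimensional F W] {h : Form (RingHom.id F) W} (hn : h.Nondeg) (hk : h.κ = 1)
    (h2 : (2 : F) ≠ 0) {Z : Submodule F W} (hZ : ¬ h.perp Z ≤ Z) {φ : W →ₗ[F] F}
    {w : W} (hw : w ∈ h.perp Z) (h0 : φ w ≠ 0) : ∃ z ∈ h.perp Z, φ z ≠ 0 ∧ h.Q z ≠ 0 := by
  by_contra! e
  obtain ⟨z, h1, h3⟩ := exists_Q_ne_zero_perp hk hn hZ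
  exact mul_ne_zero h2 h3 (B_self_quad hk z ▸ self_eq_zero h2 (T := (h.perp Z).toAddSubgroup)
    (φ := φ.toAddMonoidHom) (fun v hv e1 => by rw [B_self_quad hk, e v hv e1, mul_zero]) hw h0 z h1)

/-- The alternating form on the tensor product of a symplectic plane and an orthogonal space. -/
structure So (Φ : Form (RingHom.id F) V) (f : Form (RingHom.id F) S) (h : Form (RingHom.id F) W)
    (t : S →ₗ[F] W →ₗ[F] V) : Prop where
  ht : IsTensorProduct t
  nd : Φ.Nondeg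
  ε : Φ.ε = -1
  kap : Φ.κ = 0
  fn : f.Nondeg
  fe : f.ε = -1
  fk : f.κ = 0
  hn : h.Nondeg
  hk : h.κ = 1
  odd : (2 : F) ≠ 0
  two : finrank F S = 2
  B : ∀ x w y w', Φ.B (t x w) (t y w') = f.B x y * h.B w w'

namespace So

variable {Φ : Form (RingHom.id F) V} {f : Form (RingHom.id F) S} {h : Form (RingHom.id F) W}
  {t : S →ₗ[F] W →ₗ[F] V} (p : So Φ f h t) {H : Subgroup (V ≃ₗ[F] V)} {u w w₁ z : W} {x y : S}
  {r v : V} {g : V ≃ₗ[F] V} {s : F}
include p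

/-- The contraction with `h u`. -/
noncomputable abbrev cv (u : W) : V →ₗ[F] S := cov F p.ht (h.B u)

/-- The contraction with `f x`. -/
noncomputable abbrev cs (x : S) : V →ₗ[F] W := cov F (isTP_flip p.ht) (f.B x)

@[simp] theorem cs_t (x y : S) (u : W) : p.cs x (t y u) = f.B x y • u :=
  cov_t (isTP_flip p.ht) _ u y

theorem B_t (x : S) (u : W) (v : V) : Φ.B (t x u) v = f.B x (p.cv u v) :=
  ext_t p.ht (f := Φ.B (t x u)) (f' := f.B x ∘ₗ p.cv u) (by simp [p.B, mul_comm]) v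

theorem B_t' (x : S) (u : W) (v : V) : Φ.B (t x u) v = h.B u (p.cs x v) :=
  ext_t p.ht (f := Φ.B (t x u)) (f' := h.B u ∘ₗ p.cs x) (by simp [p.B]) v

theorem f0 (x : S) : f.B x x = 0 := B_self_alt p.fe p.fk x

theorem fd : FiniteDimensional F S := Module.finite_of_finrank_pos (by rw [p.two]; omega)

theorem nt : Nontrivial S := Module.nontrivial_of_finrank_pos (R := F) (by rw [p.two]; omega)

theorem span (h0 : f.B x y ≠ 0) (s : S) : ∃ a b : F, a • x + b • y = s := by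
  have := p.fd
  have h1 : LinearIndependent F ![x, y] :=
    (LinearIndependent.pair_iff' (by rintro rfl; simp at h0)).2 fun a e => by
      simp [← e, p.f0] at h0
  have h2 := h1.span_eq_top_of_card_eq_finrank' (by simp [p.two])
  rw [← Submodule.mem_span_pair, show ({x, y} : Set S) = Set.range ![x, y] by simp [Set.pair_comm],
    h2]
  trivial

theorem expand (h1 : f.B x y = 1) (s : S) : s = f.B x s • y - f.B y s • x := by
  obtain ⟨a, b, rfl⟩ := p.span (x := x) (y := y) (by simp [h1]) s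
  simp [p.f0, h1, B_neg_alt p.fe x y, add_comm]

theorem dec (h1 : f.B x y = 1) (v : V) : v = t y (p.cs x v) - t x (p.cs y v) :=
  ext_t p.ht (f := LinearMap.id) (f' := t y ∘ₗ p.cs x - t x ∘ₗ p.cs y) (fun s u => by
    conv_lhs => rw [p.expand h1 s]
    simp) v

theorem tens {a : S ≃ₗ[F] S} {b : W ≃ₗ[F] W} (ha : a ∈ f.O) (hb : b ∈ h.O) :
    ∃ m ∈ Tg F t ⊓ Φ.O, ∀ x y, m (t x y) = t (a x) (b y) := by
  obtain ⟨m, h1, h2⟩ := exists_tens p.ht a b
  refine ⟨m, ⟨h1, fun v => p.ht.inductionOn v (by simp) (fun x u => ext_t p.ht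
    (f := Φ.B (m (t x u)) ∘ₗ m.toLinearMap) (f' := Φ.B (t x u)) fun y w => ?_)
    fun v v' a1 a2 z => by simp [a1, a2], fun v => by simp [Q_of_κ p.kap]⟩, h2⟩
  simp [h2, p.B, ha.1, hb.1]

variable [FiniteDimensional F W] [FiniteDimensional F V] (hM : Tg F t ⊓ Φ.O ≤ H)
include hM

omit [FiniteDimensional F W] [FiniteDimensional F V] in
theorem exists_pr (hw : h.Q w ≠ 0) : ∃ ρ ∈ H, ∀ x y, f.B x y = 1 →
    IsPr Φ ρ (t x w) (t ((2 * h.Q w)⁻¹ • y) w) := by
  obtain ⟨m, h1, h2⟩ := p.tens (one_mem _) (rf_O p.hk w)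
  have := p.odd
  refine ⟨m, hM h1, fun x y e => ⟨by simp [p.B, e, B_self_quad p.hk]; field_simp, h1.2, fun z =>
    p.ht.inductionOn z (by simp) (fun s u => ?_) fun a b a1 a2 => by
      simp only [map_add, a1, a2]; module⟩⟩
  rw [h2, refl_apply, map_sub, map_smul]
  nth_rewrite 2 [p.expand e s]
  simp only [p.B, LinearEquiv.coe_one, id, map_sub, map_smul, LinearMap.sub_apply,
    LinearMap.smul_apply, smul_eq_mul]
  match_scalars <;> field_simp

omit [FiniteDimensional F V] in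
theorem conj (hx : Φ.EIn H (t x w) (t x z) s) {b : W ≃ₗ[F] W} (hb : b ∈ h.O) :
    Φ.EIn H (t x (b w)) (t x (b z)) s := by
  obtain ⟨m, h1, h2⟩ := p.tens (one_mem _) hb
  simpa [h2] using hx.conj (hM h1) h1.2

theorem top_of_tr [Finite F] (hH : H ≤ Φ.O) (hx : x ≠ 0) (hu : h.Q u = 0) (h0 : u ≠ 0)
    (h1 : Φ.TR H (t x u)) : Φ.O ≤ H := by
  have := p.fd
  have a1 : ∀ y w, h.Q w = 0 → Φ.TR H (t y w) := fun y w hw => by
    by_cases e : y = 0 ∨ w = 0
    · rcases e with rfl | rfl <;> simpa using tr_zero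
    push Not at e
    obtain ⟨a, ha, rfl⟩ := p.fn.witt_one hx e.1 (by simp [p.f0]) (by simp [Q_of_κ p.fk])
    obtain ⟨b, hb, rfl⟩ := p.hn.witt_one h0 e.2 (by simp [B_self_quad p.hk, hu, hw]) (hu.trans hw.symm)
    obtain ⟨m, h2, h3⟩ := p.tens ha hb
    exact h3 x u ▸ h1.conj (hM h2) h2.2
  obtain ⟨e, he⟩ := exists_hyp p.hn ((sing_quad p.hk).2 hu) h0
  obtain ⟨y, hy⟩ := p.fn.exists_ne hx
  obtain ⟨U, a2, a3, a4⟩ := exists_max p.ε p.kap p.odd hH h1 (a1 y e he.right.2) (by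
    simp [p.B, B_neg_alt p.fe x y, hy, B_comm_quad p.hk e u, he.one])
  have a5 : ∀ w w', t x w ∈ U → h.Q w' = 0 → h.B w w' ≠ 0 → ∀ s, t s w' ∈ U :=
    fun w w' b1 b2 b3 s => by
      have b4 : ∀ s, f.B x s ≠ 0 → t s w' ∈ U := fun s hs => a4 _ (a1 s w' b2) fun e =>
        mul_ne_zero hs b3 (p.B x w s w' ▸ e _ b1)
      by_cases e : f.B x s = 0
      · simpa using U.sub_mem (b4 (s + y) (by simp [e, hy])) (b4 y (by simp [hy]))
      · exact b4 s e
  have a6 := a5 u e a2 he.right.2 (by simp [he.one])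
  have a7 := a5 e u (a6 x) hu (by simp [B_comm_quad p.hk e u, he.one])
  have a8 : ∀ w s, t s w ∈ U := he.sing_induction (fun w hw s => by
    by_cases e1 : h.B u w = 0
    · by_cases e2 : h.B e w = 0
      · simpa using U.sub_mem (a5 e (w + u) (a6 x) (by
          simp [Q_add_quad p.hk, hw.2, hu, h.B_eq_zero_symm e1])
          (by simp [e2, B_comm_quad p.hk e u, he.one]) s) (a7 s)
      · exact a5 e w (a6 x) hw.2 e2 s
    · exact a5 u w a2 hw.2 e1 s) fun w w' b1 b2 s => by simpa using U.add_mem (b1 s) (b2 s)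
  exact O_le_of_tr p.nd p.ε p.kap fun v => a3 v
    (p.ht.inductionOn v U.zero_mem (fun s w => a8 w s) fun _ _ => U.add_mem)

omit [FiniteDimensional F V] in
theorem exists_diag (hx : x ≠ 0) (hw : h.Q w ≠ 0) (hr : p.cv w r = 0)
    (h0 : r ≠ 0) (h1 : Φ.EIn H (t x w) r s) :
    ∃ z, h.B w z = 0 ∧ h.Q z ≠ 0 ∧ Φ.EIn H (t x w) (t x z) 0 := by
  have := p.fd
  have h2 := p.odd
  have e0 := B_self_alt p.ε p.kap
  have e1 : ∀ a b, Φ.B (t x a) (t x b) = 0 := fun a b => by simp [p.B, p.f0]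
  obtain ⟨a, a1, a2, s, a3⟩ : ∃ a ≠ 0, h.B w a = 0 ∧ ∃ s, Φ.EIn H (t x w) (t x a) s := by
    obtain ⟨y, hy⟩ := p.fn.exists_ne hx
    by_cases e : p.cs x r = 0
    · have := p.dec hy r
      rw [e, map_zero, zero_sub, ← map_neg] at this
      exact ⟨_, by rintro e'; simp [e'] at this; exact h0 this,
        by simp [← p.B_t', p.B_t, hr], s, this ▸ h1⟩
    obtain ⟨a, ha, b1⟩ := exists_tv_alt p.fn p.fe p.fk x 1
    obtain ⟨m, b2, b3⟩ := p.tens ha (one_mem _)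
    have b4 : m r = r + t x (p.cs x r) := ext_t p.ht (f := m.toLinearMap)
      (f' := LinearMap.id + t x ∘ₗ p.cs x) (by simp [b3, b1]) r
    have b5 := h1.conj (hM b2) b2.2
    rw [b3, b1, b4] at b5
    simp only [p.f0, mul_zero, zero_smul, add_zero, LinearEquiv.coe_one, id] at b5
    have b6 : Φ.B (t x w) r = 0 := by simp [p.B_t, hr]
    have := b5.add (h1.neg (e0 _) b6) (e0 _) (by simp [b6, e1]) (by simp [b6])
    exact ⟨_, e, by rw [← p.B_t', b6], _, by simpa using this⟩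
  have hD : Disjoint (F ∙ w) (h.perp (F ∙ w)) := Submodule.disjoint_def.2 fun x hx e => by
    obtain ⟨c, rfl⟩ := Submodule.mem_span_singleton.1 hx
    simp_all [mem_perp_span_singleton, B_self_quad p.hk]
  obtain ⟨d, b1, b2⟩ := exists_ne (D := h.perp (F ∙ w)) (by rw [p.hn.perp_perp]; exact hD.symm)
    (h.mem_perp_span_singleton.2 a2) a1
  obtain ⟨z, b3, b4, b5⟩ := ns_ne p.hn p.hk h2 (Z := F ∙ w) (fun e => a1
    (eq_zero hD (e (h.mem_perp_span_singleton.2 a2)) (h.mem_perp_span_singleton.2 a2)))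
    (φ := h.B a) b1 (by simp [b2])
  rw [mem_perp_span_singleton] at b3
  have b6 := p.conj hM a3 (rf_O p.hk z)
  rw [refl_apply_of_perp _ (h.B_eq_zero_symm b3)] at b6
  exact ⟨((h.Q z)⁻¹ * h.B z a) • z, by simp [b3], by simp [h.Q_smul, b5, B_comm_quad p.hk z a, b4],
    by simpa [e1, refl_apply] using a3.add (b6.neg (e0 _) (e1 _ _)) (e0 _) (e1 _ _) (by simp [e1])⟩

omit [FiniteDimensional F V] in
theorem tr_of_sing (hw : h.Q w ≠ 0) (hu : h.Q u = 0) (h1 : h.B w u = 0)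
    (h2 : Φ.EIn H (t x w) (t x u) 0) : Φ.TR H (t x u) := by
  have e0 := B_self_alt p.ε p.kap
  have e1 : ∀ a b, Φ.B (t x a) (t x b) = 0 := fun a b => by simp [p.B, p.f0]
  have e2 : ∀ {a}, Φ.EIn H (t x a) (t x u) 0 → Φ.EIn H (t x u) (t x a) 0 := fun ⟨g, a1, a2⟩ =>
    ⟨g, a1, fun v => by simp [a2, eichler_apply, p.ε]; abel⟩
  have e3 : ∀ {a}, h.Q a ≠ 0 → a ∉ F ∙ u := fun ha e => by
    obtain ⟨c, rfl⟩ := Submodule.mem_span_singleton.1 e
    simp [h.Q_smul, hu] at ha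
  refine tr_of_eIn p.ε fun c => ?_
  have a1 : h.Q (w + (-c / 2) • u) = h.Q w := by simp [h.Q_add_smul, hu, h1]
  obtain ⟨b, hb, a2, a3⟩ := p.hn.exists_step (H := F ∙ u) (e3 hw) (e3 (a1 ▸ hw)) (fun v hv => by
    obtain ⟨c, rfl⟩ := Submodule.mem_span_singleton.1 hv
    simp [B_self_quad p.hk, hu]) (by simp only [B_self_quad p.hk, a1]) a1.symm
  have a4 := p.conj hM h2 hb
  rw [a2, a3 u (Submodule.mem_span_singleton_self u)] at a4
  have a5 := e2 a4
  rw [map_add, map_smul, eIn_add_smul] at a5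
  convert a5.add ((e2 h2).neg (e0 _) (e1 _ _)) (e0 _) (e1 _ _) (by simp [e1]) using 1
  · simp
  · have := p.odd
    simp [e1, p.ε]; field_simp; ring

variable [Finite F] (hH : H ≤ Φ.O) (h5 : 5 ≤ finrank F W)
include hH h5

theorem win (hx : x ≠ 0) (hw : h.Q w ≠ 0) (hr : p.cv w r = 0) (h0 : r ≠ 0)
    (h1 : Φ.EIn H (t x w) r s) : Φ.O ≤ H := by
  obtain ⟨z, a1, a2, a3⟩ := p.exists_diag hM hx hw hr h0 h1
  obtain ⟨u, -, hu, a4, a5⟩ := (iso3_quad p.hk).exists_perp p.hn (T := ⊤) (S := ⊥) [w, z]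
    (by simpa)
  have a6 := a5 w (by simp)
  have a7 := a5 z (by simp)
  have a8 : h.Q (z - u) = h.Q z := by simp [h.Q_sub, hu.2, a7]
  have e3 : ∀ {a}, h.B w a = 0 → h.Q a ≠ 0 → a ∉ F ∙ w := fun e ha e' => by
    obtain ⟨c, rfl⟩ := Submodule.mem_span_singleton.1 e'
    have := p.odd
    simp_all [h.Q_smul, B_self_quad p.hk]
  obtain ⟨b, hb, b1, b2⟩ := p.hn.exists_step (H := F ∙ w) (e3 a1 a2)
    (e3 (by simp [a1, a6]) (a8 ▸ a2)) (fun v hv => by
    obtain ⟨c, rfl⟩ := Submodule.mem_span_singleton.1 hv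
    simp [h.B_eq_zero_symm a6]) (by simp only [B_self_quad p.hk, a8]) a8.symm
  have b3 := p.conj hM a3 hb
  rw [b1, b2 w (Submodule.mem_span_singleton_self w)] at b3
  have e0 := B_self_alt p.ε p.kap
  have e1 : ∀ a b, Φ.B (t x a) (t x b) = 0 := fun a b => by simp [p.B, p.f0]
  exact p.top_of_tr hM hH hx hu.2 (by simpa using a4) (p.tr_of_sing hM hw hu.2 a6 (by
    simpa [e1] using a3.add (b3.neg (e0 _) (e1 _ _)) (e0 _) (e1 _ _) (by simp [e1])))

end So

end H23.Pr
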