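import Cfsg.Agent.H23.Pr3

/-! Maximality of `Sp₂ ∘ GO_n` in `Sp_{2n}`, `n ≥ 5`, in odd characteristic. -/

set_option autoImplicit false

namespace H23.Pr

open Module H22 Cfsg Cfsg.Geo Form Tn Nd

variable {F S W V : Type*} [Field F] [AddCommGroup S] [Module F S] [AddCommGroup W] [Module F W]
  [AddCommGroup V] [Module F V]

theorem not_perp_le [FiniteDimensional F W] {h : Form (RingHom.id F) W} (hn : h.Nondeg)
    (h5 : 5 ≤ finrank F W) (a b : W) :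
    ¬ h.perp (Submodule.span F {x | x ∈ [a, b]}) ≤ Submodule.span F {x | x ∈ [a, b]} := fun e => by
  have h1 := Submodule.finrank_mono e
  have h2 := hn.finrank_perp_add (Submodule.span F {x | x ∈ [a, b]})
  have h3 := finrank_span_list_le (F := F) [a, b]
  simp only [List.length_cons, List.length_nil] at h3
  omega

theorem mem_perp_pair {h : Form (RingHom.id F) W} {a b z : W} :
    z ∈ h.perp (Submodule.span F {x | x ∈ [a, b]}) ↔ h.B a z = 0 ∧ h.B b z = 0 :=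
  ⟨fun e => ⟨e a (Submodule.subset_span (by simp)), e b (Submodule.subset_span (by simp))⟩,
    fun e v hv => by
      induction hv using Submodule.span_induction <;> simp_all
      grind⟩

theorem exists_witt [Finite F] [FiniteDimensional F W] {h : Form (RingHom.id F) W} (hn : h.Nondeg)
    (hk : h.κ = 1) (h2 : (2 : F) ≠ 0) (h5 : 5 ≤ finrank F W) {u₀ u₁ : W} (h0 : h.Q u₀ ≠ 0)
    (h1 : u₁ ≠ 0) (h3 : h.B u₀ u₁ = 0) {c : F} (hc : c ≠ 0) : ∃ b ∈ h.O,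
      h.B (b u₀) u₀ = h.B u₀ u₀ ∧ h.B (b u₀) u₁ = 0 ∧ h.B (b u₁) u₀ = c ∧ h.B (b u₁) u₁ = -c := by
  have e0 := B_self_quad hk
  have e1 := B_comm_quad hk
  obtain ⟨k, v, a1, a2, a3, a4, a5, a6⟩ : ∃ k v, h.Q k = 0 ∧ h.B k u₀ = 0 ∧ h.B k u₁ = 0 ∧
      h.B v u₀ = c ∧ h.B v u₁ = -c ∧ h.B v k = -c := by
    by_cases e : h.Q u₁ = 0
    · obtain ⟨y, hy⟩ := hn.exists_ne h1
      refine ⟨u₁, (-c) • y + ((c + c * h.B y u₀) / (2 * h.Q u₀)) • u₀, e, e1 u₀ u₁ ▸ h3,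
        by simp [e0, e], by simp [e0]; field_simp; ring, ?_, ?_⟩ <;> simp [h3, e1 y u₁, hy]
    obtain ⟨k, -, b1, b2, b3⟩ := (iso3_quad hk).exists_perp hn (T := ⊤) (S := ⊥) [u₀, u₁]
      (by simpa)
    obtain ⟨y, hy⟩ := hn.exists_ne (by simpa using b2 : k ≠ 0)
    have b4 := b3 u₀ (by simp)
    have b5 := b3 u₁ (by simp)
    exact ⟨k, (-c) • y + ((c + c * h.B y u₀) / (2 * h.Q u₀)) • u₀ +
      ((c * h.B y u₁ - c) / (2 * h.Q u₁)) • u₁, b1.2, e1 u₀ k ▸ b4, e1 u₁ k ▸ b5,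
      by simp [e0, e1 u₁ u₀, h3]; field_simp; ring, by simp [e0, h3]; field_simp; ring,
      by simp [b4, b5, e1 y k, hy]⟩
  set v' := v + ((h.Q v - h.Q u₁) / c) • k with hv
  have a7 : h.Q v' = h.Q u₁ := by simp [hv, h.Q_add_smul, a1, a6, hk]; field_simp; ring
  have a8 : h.Q (u₀ + k) = h.Q u₀ := by simp [Q_add_quad hk, a1, e1 u₀ k, a2]
  obtain ⟨b, b1, b2⟩ := hn.witt_one (x := u₀) (y := u₀ + k) (fun e => h0 (by simp [e]))
    (fun e => h0 (by rw [← a8, e]; simp)) (by rw [e0, e0, a8]) a8.symm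
  have a9 : ∀ {z}, z ≠ 0 → h.B z (u₀ + k) = 0 → z ∉ F ∙ (u₀ + k) := fun hz e e' => by
    obtain ⟨d, rfl⟩ := Submodule.mem_span_singleton.1 e'
    rw [map_smulₛₗ, LinearMap.smul_apply, e0, a8] at e
    simp_all
  have b3 : h.B (b u₁) (u₀ + k) = 0 := by rw [← b2, b1.1, e1, h3]
  have b4 : h.B v' (u₀ + k) = 0 := by simp [hv, a4, a6, a2, e0, a1]
  have b5 : h.B v' u₀ = c := by simp [hv, a4, a2]
  obtain ⟨b', c1, c2, c3⟩ := hn.exists_step (H := F ∙ (u₀ + k)) (a9 (by simpa) b3)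
    (a9 (by rintro e; simp [e, hc.symm] at b5) b4) (fun z hz => by
      obtain ⟨d, rfl⟩ := Submodule.mem_span_singleton.1 hz
      simp only [map_smul, b3, b4]) (by rw [e0, e0, a7, b1.2]) (by rw [a7, b1.2])
  have c4 := c3 _ (Submodule.mem_span_singleton_self _)
  exact ⟨b' * b, mul_mem c1 b1, by simp [b2, c4, -map_add, map_add h.B, a2],
    by simp [b2, c4, -map_add, map_add h.B, a3, h3], by simp [c2, b5], by simp [c2, hv, a5, a3]⟩

namespace So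

variable {Φ : Form (RingHom.id F) V} {f : Form (RingHom.id F) S} {h : Form (RingHom.id F) W}
  {t : S →ₗ[F] W →ₗ[F] V} (p : So Φ f h t) {H : Subgroup (V ≃ₗ[F] V)} {u w w₁ z : W} {x y : S}
  {r v : V} {g : V ≃ₗ[F] V} {s : F}
  [FiniteDimensional F W] [FiniteDimensional F V] (hM : Tg F t ⊓ Φ.O ≤ H)
  [Finite F] (hH : H ≤ Φ.O) (h5 : 5 ≤ finrank F W) (hN : ¬ Φ.O ≤ H)
include p hM hH h5 hN

theorem perp_ns (hg : g ∈ H) (hw : h.Q w ≠ 0) (hw₁ : h.Q w₁ ≠ 0) (hx : x ≠ 0)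
    (h0 : ∀ s, Φ.B (t x w₁) (g (t s w)) = 0) (y s : S) : Φ.B (t y w₁) (g (t s w)) = 0 := by
  have := p.fd
  have h2 := p.odd
  obtain ⟨x', hx'⟩ := p.fn.exists_ne hx
  obtain ⟨ρ, a1, a2⟩ := p.exists_pr hM hw
  obtain ⟨ρ', a3, a4⟩ := p.exists_pr hM hw₁
  obtain ⟨r, b1, b2, b3, b4, b5⟩ := (a4 x x' hx').root p.ε p.kap ((a2 x x' hx').conj (hH hg)) a3
    (mul_mem (mul_mem hg a1) (inv_mem hg)) (Φ.B_eq_zero_symm (h0 _)) (Φ.B_eq_zero_symm (h0 _))
  have b6 : r = 0 := by_contra fun e => hN (p.win hM hH h5 hx hw₁ (p.fn.eq_of_forall' fun s => by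
    rw [p.expand hx' s]
    simp_all [p.B_t]) e b5)
  have b7 : (4 : F) ≠ 0 := by simpa [show (2 : F) * 2 = 4 by norm_num] using mul_ne_zero h2 h2
  rw [p.expand hx' y, p.expand hx' s]
  simp only [b6, map_zero, zero_eq_mul, b7, false_or, map_smul, LinearMap.smul_apply, smul_eq_mul,
    mul_eq_zero, inv_eq_zero, h2, hw, hw₁] at b3 b4
  simp [h0, Φ.B_eq_zero_symm b3, Φ.B_eq_zero_symm b4]

theorem perp_any (hg : g ∈ H) (hw : h.Q w ≠ 0) (hx : x ≠ 0)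
    (h0 : ∀ s, Φ.B (t x u) (g (t s w)) = 0) (y s : S) : Φ.B (t y u) (g (t s w)) = 0 := by
  have := p.fd
  obtain ⟨x', hx'⟩ := p.fn.exists_ne hx
  by_contra e
  obtain ⟨z, a1, a2, a3⟩ := ns_ne p.hn p.hk p.odd
    (not_perp_le p.hn h5 (p.cs x (g (t x w))) (p.cs x (g (t x' w))))
    (φ := Φ.B.flip (g (t s w)) ∘ₗ t y) (w := u)
    (mem_perp_pair.2 ⟨h.B_eq_zero_symm (by rw [← p.B_t', h0]),
      h.B_eq_zero_symm (by rw [← p.B_t', h0])⟩) e
  rw [mem_perp_pair] at a1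
  refine a2 (p.perp_ns hM hH h5 hN hg hw a3 hx (fun s => ?_) y s)
  rw [p.expand hx' s]
  simp [p.B_t', h.B_eq_zero_symm a1.1, h.B_eq_zero_symm a1.2]

theorem range (hg : g ∈ H) (hw : h.Q w ≠ 0) (hx : x ≠ 0) (y s : S) :
    ∃ s', p.cs x (g (t s' w)) = p.cs y (g (t s w)) := by
  have : p.cs y (g (t s w)) ∈ LinearMap.range (p.cs x ∘ₗ g.toLinearMap ∘ₗ vec F t w) := by
    rw [← p.hn.perp_perp (LinearMap.range _)]
    intro u hu
    rw [← p.B_t']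
    exact p.perp_any hM hH h5 hN hg hw hx (fun s => by
      rw [p.B_t']; exact h.B_eq_zero_symm (hu _ ⟨s, rfl⟩)) y s
  exact this

theorem not_inj (hg : g ∈ H) (hw : h.Q w ≠ 0) :
    ∃ x ≠ 0, ∃ s ≠ 0, p.cs x (g (t s w)) = 0 := by
  have := p.fd
  have := p.nt
  have h2 := p.odd
  have e0 := B_self_quad p.hk
  have e1 := B_comm_quad p.hk
  by_contra! hc
  replace hc : ∀ x s, p.cs x (g (t s w)) = 0 → x = 0 ∨ s = 0 := fun x s e => by
    by_contra! e'; exact hc x e'.1 s e'.2 e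
  have c1 : ∀ (x y : S) (c : F) v, p.cs (x - c • y) v = p.cs x v - c • p.cs y v := fun x y c v => by
    rw [cs, map_sub, cov_sub, map_smul, cov_smul_left]
  obtain ⟨x, hx⟩ := exists_ne (0 : S)
  obtain ⟨y', hy'⟩ := p.fn.exists_ne hx
  obtain ⟨s₀, a1⟩ : ∃ s₀, h.Q (p.cs x (g (t s₀ w))) ≠ 0 := by
    by_contra! e
    have b1 : ∀ z s z' s', h.B (p.cs z (g (t s w))) (p.cs z' (g (t s' w))) = 0 := fun z s z' s' => by
      obtain ⟨s₁, b2⟩ := p.range hM hH h5 hN hg hw hx z s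
      obtain ⟨s₂, b3⟩ := p.range hM hH h5 hN hg hw hx z' s'
      simpa [Q_add_quad p.hk, e, ← b2, ← b3] using e (s₁ + s₂)
    have b2 := (hH hg).1 (t x w) (t y' w)
    rw [p.dec hy' (g (t x w)), p.dec hy' (g (t y' w))] at b2
    simp [p.B, b1, hy', e0, h2, hw] at b2
  set u₀ := p.cs x (g (t s₀ w)) with hu₀
  set y := y' - (h.B u₀ (p.cs y' (g (t s₀ w))) / (2 * h.Q u₀)) • x
  have hy : f.B x y = 1 := by simp [y, hy', p.f0]
  have hy0 : ∀ c : F, y - c • x ≠ 0 := fun c e => by simpa [hy, p.f0] using congrArg (f.B x) e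
  set u₁ := p.cs y (g (t s₀ w)) with hu₁
  have a2 : h.B u₀ u₁ = 0 := by simp [hu₁, y, c1, ← hu₀, e0]; field_simp; ring
  have a3 : s₀ ≠ 0 := by rintro rfl; simp [hu₀] at a1
  obtain ⟨s₁, a4⟩ := p.range hM hH h5 hN hg hw hx y s₀
  rw [← hu₁] at a4
  have a5 : ∀ c : F, s₁ - c • s₀ ≠ 0 := fun c e => by
    simpa [hy0, a3] using hc (y - c • x) s₀ (by rw [c1, ← hu₁, ← a4, sub_eq_zero.1 e]; simp)
  obtain ⟨s₂, a6⟩ := p.range hM hH h5 hN hg hw hx y s₁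
  obtain ⟨N, τ, rfl⟩ := p.span (x := s₀) (y := s₁) (fun e => by
    obtain ⟨s, hs⟩ := p.fn.exists_ne a3
    exact a5 (-f.B s s₁) (by nth_rewrite 1 [p.expand hs s₁]; simp [e])) s₂
  simp only [map_add, map_smul, LinearMap.add_apply, LinearMap.smul_apply, ← hu₀, a4] at a6
  have a7 : N ≠ 0 := by
    rintro rfl
    simpa [a5, show y ≠ 0 by simpa using hy0 0] using hc y (s₁ - τ • s₀) (by simp [← a6, ← hu₁])
  have a8 : h.B u₀ u₀ ≠ 0 := by simp [e0, h2, a1]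
  obtain ⟨b, hb, b1, b2, b3, b4⟩ := exists_witt p.hn p.hk h2 h5 a1 (fun e => by
    simpa [a3, show y ≠ 0 by simpa using hy0 0] using hc y s₀ e) a2
    (c := -N * h.B u₀ u₀) (by simp [a7, a8])
  obtain ⟨a, ha, b5⟩ := exists_tv_alt p.fn p.fe p.fk x (-N)
  obtain ⟨m, b6, b7⟩ := p.tens ha hb
  have b8 : ∀ s s', Φ.B (t s w) ((g⁻¹ * m⁻¹ * g) (t s' w)) =
      h.B (b (p.cs x (g (t s w)))) (p.cs y (g (t s' w)) - N • p.cs x (g (t s' w))) -
        h.B (b (p.cs y (g (t s w)))) (p.cs x (g (t s' w))) := fun s s' => by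
    rw [LinearEquiv.mul_apply, LinearEquiv.mul_apply, ← B_O_left (hH hg), ← B_O_left b6.2]
    conv_lhs => rw [p.dec hy (g (t s w)), p.dec hy (g (t s' w))]
    simp [b7, b5, p.B, hy, p.f0, B_neg_alt p.fe x y]
    ring
  have b9 := p.perp_ns hM hH h5 hN (mul_mem (mul_mem (inv_mem hg) (inv_mem (hM b6))) hg) hw hw a3
    (fun s => by
      obtain ⟨α, β, rfl⟩ := p.span (x := s₀) (y := s₁) (fun e => by
        obtain ⟨s, hs⟩ := p.fn.exists_ne a3
        exact a5 (-f.B s s₁) (by nth_rewrite 1 [p.expand hs s₁]; simp [e])) s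
      rw [b8]
      simp [← hu₀, ← hu₁, a4, ← a6, b1, b2, b3, b4]
      ring) s₁ s₁
  rw [b8] at b9
  simp [a4, ← a6, b2, b3, b4] at b9
  exact mul_ne_zero h2 (mul_ne_zero (pow_ne_zero 2 a7) a8) (by linear_combination -b9)

theorem block (hg : g ∈ H) (hw : h.Q w ≠ 0) :
    ∃ u, ∃ a : S ≃ₗ[F] S, ∀ s, g (t s w) = t (a s) u := by
  have := p.fd
  obtain ⟨x, hx, s₀, a1, a2⟩ := p.not_inj hM hH h5 hN hg hw
  obtain ⟨y, hy⟩ := p.fn.exists_ne hx
  obtain ⟨s₁, a3⟩ := p.fn.exists_ne a1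
  have a4 : ∀ z s, ∃ c : F, p.cs z (g (t s w)) = c • p.cs x (g (t s₁ w)) := fun z s => by
    obtain ⟨s', b1⟩ := p.range hM hH h5 hN hg hw hx z s
    exact ⟨f.B s₀ s', by rw [← b1, p.expand a3 s']; simp [a2, a3, p.f0]⟩
  refine ⟨_, exists_blockEquiv p.ht (by rintro rfl; simp at hw) (w := p.cs x (g (t s₁ w))) fun s => ?_⟩
  obtain ⟨c, b1⟩ := a4 x s
  obtain ⟨d, b2⟩ := a4 y s
  exact ⟨c • y - d • x, by rw [p.dec hy (g (t s w)), b1, b2]; simp⟩

theorem mem_Tg (hg : g ∈ H) : g ∈ Tg F t := by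
  have := p.fd
  have := p.nt
  have h2 := p.odd
  have e0 := B_self_quad p.hk
  have : Finite W := Module.finite_of_finite F
  obtain ⟨w₀, -, h0⟩ := exists_Q_ne_zero_perp p.hk p.hn (not_perp_le p.hn h5 0 0)
  obtain ⟨u₀, a, a1⟩ := p.block hM hH h5 hN hg h0
  let X : Submodule F W :=
    { carrier := {w | ∃ w', ∀ s, g (t s w) = t (a s) w'}
      add_mem' := fun ⟨u, hu⟩ ⟨u', hu'⟩ => ⟨u + u', by simp [hu, hu']⟩
      zero_mem' := ⟨0, by simp⟩
      smul_mem' := fun c _ ⟨u, hu⟩ => ⟨c • u, by simp [hu]⟩ }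
  have a2 : w₀ ∈ X := ⟨u₀, a1⟩
  have a3 : ∀ w, h.Q w ≠ 0 → h.Q (w₀ + w) ≠ 0 → w ∈ X := fun w b1 b2 => by
    by_cases e : w ∈ F ∙ w₀
    · exact (Submodule.span_singleton_le_iff_mem _ _).2 a2 e
    obtain ⟨u, b, b3⟩ := p.block hM hH h5 hN hg b1
    obtain ⟨u', b', b4⟩ := p.block hM hH h5 hN hg b2
    obtain ⟨x, hx⟩ := exists_ne (0 : S)
    have b5 : u ∉ F ∙ u₀ := fun e' => by
      obtain ⟨c, rfl⟩ := Submodule.mem_span_singleton.1 e'
      obtain ⟨y, c1, c2⟩ := p.hn.exists_perp_eq_one e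
      have := congrArg (p.cv y) (g.injective ((b3 x).trans
        (show _ = g (t (a⁻¹ (c • b x)) w₀) by simp [a1])))
      simp [c1 w₀ (Submodule.mem_span_singleton_self _), c2, hx] at this
    have b6 : u₀ ≠ 0 := by
      rintro rfl
      exact hx (t_eq_zero p.ht (u := w₀) (by rintro rfl; simp at h0) (by simpa using a1 x))
    obtain ⟨y, c1, c2⟩ := p.hn.exists_perp_eq_one b5
    obtain ⟨y', c3, c4⟩ := p.hn.exists_perp_eq_one (notMem_sup_span_swap (S := ⊥) (by simpa)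
      (by simpa) : u₀ ∉ ⊥ ⊔ F ∙ u)
    replace c1 := c1 u₀ (Submodule.mem_span_singleton_self _)
    replace c3 := c3 u (Submodule.mem_sup_right (Submodule.mem_span_singleton_self u))
    have c5 : ∀ s, t (a s) u₀ + t (b s) u = t (b' s) u' := fun s => by simp [← a1, ← b3, ← b4]
    have c6 : ∀ s, b s = h.B y u' • b' s := fun s => by
      simpa [c1, c2] using congrArg (p.cv y) (c5 s)
    have c7 : ∀ s, a s = h.B y' u' • b' s := fun s => by
      simpa [c3, c4] using congrArg (p.cv y') (c5 s)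
    have c8 : h.B y' u' ≠ 0 := fun e => by simpa [e, hx] using c7 x
    exact ⟨(h.B y u' / h.B y' u') • u, fun s => by simp [b3, c6, c7, smul_smul, c8]⟩
  have a4 : ∀ w, h.Q w ≠ 0 → h.B w₀ w ≠ 0 → w ∈ X := fun w b1 b2 => by
    by_cases e : h.Q (w₀ + w) = 0
    · refine X.neg_mem_iff.1 (a3 _ (by rwa [h.Q_neg]) fun e' => mul_ne_zero h2 b2 ?_)
      simp only [Q_add_quad p.hk, map_neg, h.Q_neg] at e e'
      linear_combination e - e'
    · exact a3 w b1 e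
  have a5 : ∀ w, h.B w₀ w = 0 → w ∈ X := fun w b1 => by
    rw [← X.add_mem_iff_right a2]
    by_cases e : h.Q (w₀ + w) = 0
    swap
    · exact a4 _ e (by simp [b1, e0, h2, h0])
    obtain ⟨z, b2, b3⟩ := exists_Q_ne_zero_perp p.hk p.hn (not_perp_le p.hn h5 w₀ w)
    rw [mem_perp_pair] at b2
    have b4 := X.add_mem (a4 (w₀ + w + z) (by simp [Q_add_quad p.hk _ z, e, b2, b3])
      (by simp [b1, e0, h2, h0, b2])) (a4 (w₀ + w - z) (by simp [h.Q_sub, e, b2, b3])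
      (by simp [b1, e0, h2, h0, b2]))
    rwa [show w₀ + w + z + (w₀ + w - z) = (2 : F) • (w₀ + w) by module, X.smul_mem_iff h2] at b4
  refine mem_Tg_of p.ht a fun w => (?_ : w ∈ X)
  simpa using X.add_mem (a5 (w - (h.B w₀ w / (2 * h.Q w₀)) • w₀) (by simp [e0, h2, h0]))
    (X.smul_mem (h.B w₀ w / (2 * h.Q w₀)) a2)

omit hM hH hN in
theorem isMaximalIn : IsMaximalIn Φ.E (Tg F t ⊓ Φ.E) := by
  have := p.fd
  have := p.nt
  rw [E_alt p.nd p.ε p.kap]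
  refine isMaximalIn_of inf_le_right ?_ fun H h1 h3 g hg hg' => by_contra fun h4 =>
    hg' ⟨p.mem_Tg h1 h3 h5 h4 hg, h3 hg⟩
  obtain ⟨u, -, a1, a2, -⟩ := (iso3_quad p.hk).exists_perp p.hn (T := ⊤) (S := ⊥) []
    (by simp; omega)
  obtain ⟨w, a3⟩ := p.hn.exists_ne (by simpa using a2 : u ≠ 0)
  obtain ⟨x, hx⟩ := exists_ne (0 : S)
  obtain ⟨y, hy⟩ := p.fn.exists_ne hx
  obtain ⟨T, a4, a5⟩ := exists_tv_alt p.nd p.ε p.kap (t x u) 1
  refine ⟨T, a4, fun ⟨⟨α, β, b2⟩, _⟩ => ?_⟩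
  have b3 := congrArg (p.cs x) (b2 y w)
  have b4 := congrArg (p.cs y) (b2 y w)
  simp [a5, p.B, p.f0, hy, a3, B_neg_alt p.fe x y] at b3 b4
  have b5 := congrArg (h.B u) b3
  have b6 := congrArg (h.B u) b4
  simp [a3, a1.1] at b5 b6
  rcases b6 with b6 | b6
  · exact a2 (by simpa [b6] using b4)
  · simp [b6] at b5

end So

theorem isMaximalIn_so_tensor [Fintype F] {m n : ℕ} (h2 : (2 : F) ≠ 0) (h5 : 5 ≤ n)
    {e : (Fin m ⊕ Fin m) ≃ Fin 2 × Fin n} {P : GL (Fin m ⊕ Fin m) F} {f₁ f₂}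
    (hf₁ : IsSymplecticForm f₁) (hf₂ : IsSymmetricForm f₂)
    (hT : IsTensorFormStructure id (sympForm m F) f₁ f₂ e P) :
    IsMaximalIn (spGL m F) (tensorProductSubgroup 2 n e P ⊓ spGL m F) := by
  obtain ⟨c, a1, a2⟩ := As.tensor_pure (σ := RingHom.id F) hT
  obtain ⟨f, b1, b2, b3, b4⟩ := exists_form_of_isSymplecticForm hf₁
  let β : LinearMap.BilinMap F (Fin n → F) F := LinearMap.mk₂ F f₂ hf₂.bilinear.add_left hf₂.bilinear.smul_left hf₂.bilinear.add_right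
    hf₂.bilinear.smul_right
  have c1 : ∀ u v, (ofQuad ((2 : F)⁻¹ • β).toQuadraticMap).B u v = f₂ u v := fun u v => by
    refine (LinearMap.BilinMap.polar_toQuadraticMap ..).trans ?_
    simp [β, hf₂.symm v u]
    field_simp; ring
  refine isMaximalIn_of_iff (glE _ F) (So.isMaximalIn
    (f := ofAlt (c • f.B) fun x => by simp [B_self_alt b2 b3])
    (h := ofQuad ((2 : F)⁻¹ • β).toQuadraticMap)
    ⟨isTensorProduct_tP e P, spForm_nondeg m, rfl, rfl,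
      fun x hx => b1 x fun y => by simpa [ofAlt, a1] using hx y, rfl, rfl, fun x hx => ?_, rfl, h2,
      by simp, fun x w y w' => ((spForm_B ..).trans (a2 x w y w')).trans ?_⟩ (by simpa))
    (fun g => mem_spGL_iff_E) fun g =>
      and_congr (mem_tensorProductSubgroup_iff_Tg two_pos) mem_spGL_iff_E
  · by_contra h0
    obtain ⟨y, hy⟩ := (hf₂.nondegenerate x h0).2
    exact hy (c1 x y ▸ hx y)
  rw [c1, ← As.eq_fog_of_bilin hf₁.bilinear, ← As.eq_fog_of_bilin hf₂.bilinear, b4]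
  rfl

end H23.Pr
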