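import Cfsg.Agent.H23.Tn2

/-! Pairs of quadratic elements in odd characteristic. -/

set_option autoImplicit false

namespace H23.Qp

open Module Polynomial
open scoped MatrixGroups TensorProduct

theorem mem_of_nilpotent {G : Type*} [Group G] {M H : Subgroup G} {x y : G} (hx : x ∈ M)
    (hxH : x ∈ H) (hy : y ∈ H) (h : ∀ k ∈ H, k⁻¹ * x * k ∈ M → k ∈ M)
    (hn : Group.IsNilpotent (Subgroup.closure {x, y})) : y ∈ M := by
  have h1 : Subgroup.closure {x, y} ≤ H := (Subgroup.closure_le _).2 (by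
    rintro _ (rfl | rfl) <;> assumption)
  have hx' : x ∈ Subgroup.closure {x, y} := Subgroup.subset_closure (by simp)
  have h2 := normalizerCondition_iff_only_full_group_self_normalizing.1
    (Group.normalizerCondition_of_isNilpotent (G := Subgroup.closure {x, y}))
    (M.subgroupOf (Subgroup.closure {x, y})) (le_antisymm (fun (k : Subgroup.closure {x, y}) hk => h k.1 (h1 k.2)
      ((Subgroup.mem_normalizer_iff''.1 hk ⟨x, hx'⟩).1 hx)) Subgroup.le_normalizer)
  exact (h2 ▸ Subgroup.mem_top _ : (⟨y, Subgroup.subset_closure (by simp)⟩ :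
    Subgroup.closure {x, y}) ∈ M.subgroupOf _)

variable {F V : Type*} [Field F] [AddCommGroup V] [Module F V] {x y : V ≃ₗ[F] V} {N N' : End F V}

theorem inv_eq (hx : x.toLinearMap = 1 + N) (hN : N * N = 0) : x⁻¹.toLinearMap = 1 - N :=
  LinearMap.ext fun v => Tn.symm_apply_of_sq (g := x) (X := N) (fun v => DFunLike.congr_fun hx v)
    (fun v => DFunLike.congr_fun hN v) v

theorem add_inv (hx : x.toLinearMap = 1 + N) (hy : y.toLinearMap = 1 + N') (hN : N * N = 0)
    (hN' : N' * N' = 0) {g : V ≃ₗ[F] V} (hg : g ∈ Subgroup.closure {x, y}) :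
    ∃ e : End F V, Commute e N ∧ Commute e N' ∧
      g.toLinearMap + g⁻¹.toLinearMap = 2 + e * (N * N' + N' * N) := by
  have h1 : ∀ A, N * (N * A) = 0 := fun A => by rw [← mul_assoc, hN, zero_mul]
  have h2 : ∀ A, N' * (N' * A) = 0 := fun A => by rw [← mul_assoc, hN', zero_mul]
  have hτ : Commute (N * N' + N' * N) N ∧ Commute (N * N' + N' * N) N' := by
    constructor <;> simp [Commute, SemiconjBy, mul_add, add_mul, mul_assoc, h1, h2, hN, hN']
  let C : Subring (End F V) := Subring.centralizer {N, N'}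
  have hC : ∀ a, a ∈ C ↔ Commute a N ∧ Commute a N' := fun a => by
    simp only [C, Subring.mem_centralizer_iff, Set.mem_insert_iff, Set.mem_singleton_iff,
      forall_eq_or_imp, forall_eq]
    exact and_congr eq_comm eq_comm
  let P : (V ≃ₗ[F] V) → Prop := fun g => ∃ a ∈ C, ∃ b ∈ C, ∃ c ∈ C, ∃ d ∈ C,
    g.toLinearMap = 1 + a * (N * N' + N' * N) + b * N + c * N' + d * (N * N') ∧
    g⁻¹.toLinearMap = 1 + a * (N * N' + N' * N) - b * N - c * N' + d * (N' * N)
  have e1 : ∀ a ∈ C, ∀ A, N * (a * A) = a * (N * A) := fun a ha A => by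
    rw [← mul_assoc, ← ((hC a).1 ha).1.eq, mul_assoc]
  have e2 : ∀ a ∈ C, ∀ A, N' * (a * A) = a * (N' * A) := fun a ha A => by
    rw [← mul_assoc, ← ((hC a).1 ha).2.eq, mul_assoc]
  have s1 : ∀ g k : V ≃ₗ[F] V, ∀ ε : ℤ, k.toLinearMap = 1 + ε • N →
      k⁻¹.toLinearMap = 1 - ε • N → P g → P (g * k) := by
    rintro g k ε k1 k2 ⟨a, ha, b, hb, c, hc, d, hd, a1, a2⟩
    refine ⟨a + ε • c, add_mem ha (zsmul_mem hc _), b + ε • (1 + (a + d) * (N * N' + N' * N)),
      add_mem hb (zsmul_mem (add_mem (one_mem _) (mul_mem (add_mem ha hd) ((hC _).2 hτ))) _),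
      c, hc, d - ε • c, sub_mem hd (zsmul_mem hc _), ?_, ?_⟩
    · rw [LinearEquiv.coe_toLinearMap_mul, a1, k1]
      simp only [mul_add, add_mul, sub_mul, mul_assoc, mul_smul_comm, smul_mul_assoc, hN, h1,
        mul_one, one_mul, mul_zero, smul_add]
      module
    · rw [mul_inv_rev, LinearEquiv.coe_toLinearMap_mul, a2, k2]
      simp only [mul_add, add_mul, sub_mul, mul_sub, mul_assoc, mul_smul_comm, smul_mul_assoc, hN,
        h1, mul_one, one_mul, mul_zero, smul_add, e1 a ha, e1 b hb, e1 c hc, e1 d hd]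
      module
  have s2 : ∀ g k : V ≃ₗ[F] V, ∀ ε : ℤ, k.toLinearMap = 1 + ε • N' →
      k⁻¹.toLinearMap = 1 - ε • N' → P g → P (g * k) := by
    rintro g k ε k1 k2 ⟨a, ha, b, hb, c, hc, d, hd, a1, a2⟩
    refine ⟨a, ha, b, hb, c + ε • (1 + a * (N * N' + N' * N)),
      add_mem hc (zsmul_mem (add_mem (one_mem _) (mul_mem ha ((hC _).2 hτ))) _),
      d + ε • b, add_mem hd (zsmul_mem hb _), ?_, ?_⟩
    · rw [LinearEquiv.coe_toLinearMap_mul, a1, k1]
      simp only [mul_add, add_mul, sub_mul, mul_assoc, mul_smul_comm, smul_mul_assoc, hN', h2,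
        mul_one, one_mul, mul_zero, smul_add]
      module
    · rw [mul_inv_rev, LinearEquiv.coe_toLinearMap_mul, a2, k2]
      simp only [mul_add, add_mul, sub_mul, mul_sub, mul_assoc, mul_smul_comm, smul_mul_assoc, hN',
        h2, mul_one, one_mul, mul_zero, smul_add, e2 a ha, e2 b hb, e2 c hc, e2 d hd]
      module
  have key : P g := by
    induction hg using Subgroup.closure_induction_right with
    | one => exact ⟨0, zero_mem _, 0, zero_mem _, 0, zero_mem _, 0, zero_mem _, by simp; rfl,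
        by simp; rfl⟩
    | mul_right g _ k hk ih =>
      rcases hk with rfl | rfl
      · exact s1 g k 1 (by simpa) (by simpa using inv_eq hx hN) ih
      · exact s2 g k 1 (by simpa) (by simpa using inv_eq hy hN') ih
    | mul_inv_cancel g _ k hk ih =>
      rcases hk with rfl | rfl
      · exact s1 g _ (-1) (by simpa [sub_eq_add_neg] using inv_eq hx hN) (by simpa) ih
      · exact s2 g _ (-1) (by simpa [sub_eq_add_neg] using inv_eq hy hN') (by simpa) ih
  obtain ⟨a, ha, b, -, c, -, d, hd, a1, a2⟩ := key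
  have h3 := (hC _).1 (add_mem (add_mem ha ha) hd)
  refine ⟨_, h3.1, h3.2, ?_⟩
  rw [a1, a2, ← one_add_one_eq_two]
  simp only [mul_add, add_mul]
  abel

theorem cube_eq {E : Type*} [Field E] {l : E} (h : l ^ 2 = -1) :
    (H4.loT 1 * H4.upT l * (H4.loT 1)⁻¹ * (H4.upT l)⁻¹) ^ 3 = -1 := by
  rw [H4.loT_inv, H4.upT_inv]
  apply H4.sl2_ext <;> simp [pow_succ, H4.sl2_mul_apply, H4.coe_upT, H4.coe_loT] <;> grind

theorem exists_neg {K U : Type*} [Field K] [AddCommGroup U] [Module K U] (h2 : (2 : K) ≠ 0)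
    {G : Type*} [Group G] (ρ : G →* End K U) {H : Subgroup G} {x y : G} (hx : x ∈ H) (hy : y ∈ H)
    {v w : U} {l : K} (hl : l ≠ 0) (hf : Finite (Subfield.closure {l})) (a1 : ρ x v = v)
    (a2 : ρ x w = w + l • v) (a3 : ρ y v = v + w) (a4 : ρ y w = w) : ∃ g ∈ H, ρ g v = -v := by
  let E : Subfield K := Subfield.closure {l}
  let l' : E := ⟨l, Subfield.subset_closure rfl⟩
  have := Fintype.ofFinite E
  let R : G → SL(2, E) → Prop := fun g A => ρ g v = (A.1 0 0 : K) • v + (A.1 1 0 : K) • w ∧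
      ρ g w = (A.1 0 1 : K) • v + (A.1 1 1 : K) • w
  have hmul : ∀ g k A B, R g A → R k B → R (g * k) (A * B) := fun g k A B h1 h2 => by
    constructor <;> simp only [map_mul, Module.End.mul_apply, h2.1, h2.2, map_add, map_smul, h1.1,
      h1.2, H4.sl2_mul_apply, Subfield.coe_add, Subfield.coe_mul] <;> module
  have hone : R 1 1 := by simp [R]
  have hpow : ∀ g A, R g A → ∀ n : ℕ, R (g ^ n) (A ^ n) := fun g A h n => by
    induction n with
    | zero => simpa using hone
    | succ n ih => simpa [pow_succ] using hmul _ _ _ _ ih h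
  let S : Subgroup SL(2, E) :=
    { carrier := {A | ∃ g ∈ H, R g A}
      mul_mem' := fun ⟨g, hg, hA⟩ ⟨k, hk, hB⟩ => ⟨g * k, mul_mem hg hk, hmul _ _ _ _ hA hB⟩
      one_mem' := ⟨1, one_mem _, hone⟩
      inv_mem' := fun {A} ⟨g, hg, hA⟩ => ⟨_, pow_mem hg (orderOf A - 1), by
        rw [← (isOfFinOrder_of_finite A).orderOf_pos.ne' |> fun h => (eq_inv_of_mul_eq_one_left
          (by rw [← pow_succ, Nat.sub_add_cancel (Nat.pos_of_ne_zero h), pow_orderOf_eq_one]) :
            A ^ (orderOf A - 1) = A⁻¹)]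
        exact hpow _ _ hA _⟩ }
  have hgen : Subfield.closure ({l'} : Set E) = ⊤ := eq_top_iff.2 fun x _ => by
    have h4 : E ≤ (Subfield.closure ({l'} : Set E)).map E.subtype :=
      Subfield.closure_le.2 (Set.singleton_subset_iff.2 ⟨l', Subfield.subset_closure rfl, rfl⟩)
    obtain ⟨y, hy, h5⟩ := h4 x.2
    rwa [← Subtype.ext h5]
  have b1 : H4.loT 1 ∈ S := ⟨y, hy, by simp [R, H4.coe_loT, a3, a4]⟩
  have b2 : H4.upT l' ∈ S := ⟨x, hx, by simp [R, H4.coe_upT, a1, a2, l', add_comm]⟩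
  have b3 : -1 ∈ S := by
    rcases H4.gen_cases (S := S) (l := l') (fun h => h2 (congrArg Subtype.val h))
      (fun h => hl (congrArg Subtype.val h)) hgen b1 b2 with h | ⟨-, h'⟩
    · exact h ▸ Subgroup.mem_top _
    exact cube_eq h' ▸ pow_mem (mul_mem (mul_mem (mul_mem b1 b2) (inv_mem b1)) (inv_mem b2)) 3
  obtain ⟨g, hg, h, -⟩ := b3
  exact ⟨g, hg, by simpa using h⟩

theorem exists_eig [FiniteDimensional F V] {τ : End F V} (h : ¬ IsNilpotent τ) :
    ∃ l : AlgebraicClosure F, l ≠ 0 ∧ ∃ v : AlgebraicClosure F ⊗[F] V, v ≠ 0 ∧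
      τ.baseChange _ v = l • v := by
  by_contra! h1
  refine h ((LinearMap.isNilpotent_iff_charpoly τ).2
    (map_injective (algebraMap F (AlgebraicClosure F)) (RingHom.injective _) ?_))
  have hm := τ.charpoly_monic.map (algebraMap F (AlgebraicClosure F))
  have hs := IsAlgClosed.splits (τ.charpoly.map (algebraMap F (AlgebraicClosure F)))
  have h2 := Multiset.eq_replicate_card.2 fun l
      (hl : l ∈ (τ.charpoly.map (algebraMap F (AlgebraicClosure F))).roots) => by_contra fun h0 => by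
    rw [mem_roots hm.ne_zero, ← LinearMap.charpoly_baseChange,
      ← Module.End.hasEigenvalue_iff_isRoot_charpoly] at hl
    obtain ⟨v, hv⟩ := hl.exists_hasEigenvector
    exact h1 l h0 v hv.2 hv.apply_eq_smul
  rw [hs.eq_prod_roots_of_monic hm, h2, ← hs.natDegree_eq_card_roots, natDegree_map,
    τ.charpoly_natDegree]
  simp

theorem isPGroup_of_nilp (p : ℕ) [Fact p.Prime] [CharP F p] {K : Subgroup (V ≃ₗ[F] V)}
    (h : ∀ g ∈ K, IsNilpotent (g.toLinearMap - 1)) : IsPGroup p K := fun ⟨g, hg⟩ => by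
  rcases subsingleton_or_nontrivial V with hV | hV
  · exact ⟨0, Subsingleton.elim _ _⟩
  have : CharP (End F V) p := charP_of_injective_algebraMap (RingHom.injective (algebraMap F _)) p
  obtain ⟨n, a7⟩ := h g hg
  refine ⟨n, Subtype.ext (LinearEquiv.toLinearMap_injective ?_)⟩
  have a8 := pow_eq_zero_of_le (Nat.lt_pow_self (n := n) (Fact.out : p.Prime).one_lt).le a7
  rw [sub_pow_char_pow_of_commute _ _ (Commute.one_right _), one_pow, sub_eq_zero] at a8
  exact (map_pow LinearEquiv.automorphismGroup.toLinearMapMonoidHom g _).trans a8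

/-- Conjugation of an endomorphism. -/
def cn (g : V ≃ₗ[F] V) : End F (End F V) :=
  LinearMap.mulLeft F g.toLinearMap ∘ₗ LinearMap.mulRight F g.symm.toLinearMap

@[simp] theorem cn_apply (g : V ≃ₗ[F] V) (z : End F V) (v : V) : cn g z v = g (z (g.symm v)) := rfl

theorem exists_fixed [Finite F] [FiniteDimensional F V] {K : Subgroup (V ≃ₗ[F] V)}
    (hK : ∀ g ∈ K, IsNilpotent (g.toLinearMap - 1)) {Λ : Submodule F (End F V)}
    (hΛ : ∀ g ∈ K, ∀ z ∈ Λ, cn g z ∈ Λ) {z : End F V} (hz : z ∈ Λ) (h0 : z ∉ F ∙ 1) :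
    ∃ z ∈ Λ, z ∉ F ∙ 1 ∧ ∀ g ∈ K, ∃ c : F, ∀ v, g (z v) = z (g v) + c • g v := by
  obtain ⟨p, hp⟩ := CharP.exists F
  have : Fact p.Prime := ⟨CharP.char_is_prime F p⟩
  have h1 : ∀ g : V ≃ₗ[F] V, (F ∙ (1 : End F V)) ≤ (F ∙ (1 : End F V)).comap (cn g) := fun g =>
    (Submodule.span_singleton_le_iff_mem _ _).2 (by
      rw [Submodule.mem_comap, show cn g 1 = 1 from LinearMap.ext fun v => by simp]
      exact Submodule.mem_span_singleton_self _)
  let X := Λ.map (F ∙ (1 : End F V)).mkQ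
  let _ : MulAction K X :=
    { smul := fun g x => ⟨Submodule.mapQ _ _ (cn g.1) (h1 g) x, by
        obtain ⟨_, z, hz, rfl⟩ := x
        exact ⟨_, hΛ g g.2 z hz, rfl⟩⟩
      one_smul := by rintro ⟨_, z, hz, rfl⟩; rfl
      mul_smul := by rintro a b ⟨_, z, hz, rfl⟩; rfl }
  have : Finite (End F V) := Module.finite_of_finite F
  have : Finite (End F V ⧸ F ∙ (1 : End F V)) := Module.finite_of_finite F
  have : Nontrivial X := ⟨⟨_, z, hz, rfl⟩, 0, fun h =>
    h0 ((Submodule.Quotient.mk_eq_zero _).1 (congrArg Subtype.val h))⟩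
  have h2 : p ∣ Nat.card X := by
    have := Fintype.ofFinite F
    obtain ⟨n, -, hn⟩ := FiniteField.card F p
    rw [Module.natCard_eq_pow_finrank (K := F), Nat.card_eq_fintype_card, hn, ← pow_mul]
    exact dvd_pow_self _ (mul_ne_zero n.ne_zero finrank_pos.ne')
  obtain ⟨⟨_, w, hw, rfl⟩, a1, a2⟩ :=
    (isPGroup_of_nilp p hK).exists_fixed_point_of_prime_dvd_card_of_fixed_point X h2 (a := 0)
      fun g => Subtype.ext (map_zero _)
  refine ⟨w, hw, fun h => a2 (Subtype.ext ((Submodule.Quotient.mk_eq_zero _).2 h).symm),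
    fun g hg => ?_⟩
  obtain ⟨c, hc⟩ := Submodule.mem_span_singleton.1
    ((Submodule.Quotient.eq _).1 (congrArg Subtype.val (a1 ⟨g, hg⟩)))
  refine ⟨c, fun v => ?_⟩
  have := DFunLike.congr_fun hc (g v)
  simp at this
  simp [this]

theorem quad_pair [Finite F] [FiniteDimensional F V] (h2 : (2 : F) ≠ 0)
    (hx : ∀ v, x v = v + N v) (hy : ∀ v, y v = v + N' v) (hN : ∀ v, N (N v) = 0)
    (hN' : ∀ v, N' (N' v) = 0) : Group.IsNilpotent (Subgroup.closure {x, y}) ∨
      ∃ z ∈ Subgroup.closure {x, y}, (∀ v, z (z v) = v) ∧ z ≠ 1 ∧ (∀ v, z (N v) = N (z v)) ∧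
        (∀ v, z (N' v) = N' (z v)) ∧ ∀ v, z v = -v → (N v = 0 → ∃ w, N w = v) ∧
          (N' v = 0 → ∃ w, N' w = v) := by
  have hx' : x.toLinearMap = 1 + N := LinearMap.ext hx
  have hy' : y.toLinearMap = 1 + N' := LinearMap.ext hy
  have hN1 : N * N = 0 := LinearMap.ext hN
  have hN2 : N' * N' = 0 := LinearMap.ext hN'
  have := Module.finite_of_finite F (M := V)
  have := Sf.finite_equiv (F := F) (V := V)
  by_cases hτ : IsNilpotent (N * N' + N' * N)
  · left
    obtain ⟨p, hp⟩ := CharP.exists F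
    have : Fact p.Prime := ⟨CharP.char_is_prime F p⟩
    refine (isPGroup_of_nilp p fun g hg => ?_).isNilpotent
    obtain ⟨e, a1, a2, a3⟩ := add_inv hx' hy' hN1 hN2 hg
    have a4 : IsNilpotent (e * (N * N' + N' * N)) :=
      ((a1.mul_right a2).add_right (a2.mul_right a1)).isNilpotent_mul_left hτ
    have a5 : g.toLinearMap * g⁻¹.toLinearMap = 1 := by
      rw [← LinearEquiv.coe_toLinearMap_mul]; simp; rfl
    have a6 : g⁻¹.toLinearMap * g.toLinearMap = 1 := by
      rw [← LinearEquiv.coe_toLinearMap_mul]; simp; rfl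
    rw [← sub_eq_iff_eq_add'] at a3
    refine IsNilpotent.of_pow (m := 2) ?_
    rw [show (g.toLinearMap - 1) ^ 2 = g.toLinearMap * (e * (N * N' + N' * N)) by
      rw [← a3, mul_sub, mul_add, a5]; noncomm_ring]
    refine Commute.isNilpotent_mul_left ?_ a4
    rw [← a3]
    exact ((Commute.refl _).add_right (a5.trans a6.symm)).sub_right (Commute.ofNat_right _ 2)
  right
  obtain ⟨l, hl, v₀, a1, a2⟩ := exists_eig hτ
  let K := AlgebraicClosure F
  let β : End F V →ₐ[F] End K (K ⊗[F] V) := Module.End.baseChangeHom F K V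
  have b1 : ∀ v, β N (β N v) = 0 := fun v => by rw [← Module.End.mul_apply, ← map_mul, hN1]; simp
  have b2 : ∀ v, β N' (β N' v) = 0 := fun v => by rw [← Module.End.mul_apply, ← map_mul, hN2]; simp
  replace a2 : β N (β N' v₀) + β N' (β N v₀) = l • v₀ := by
    rw [← a2]; change _ = β _ v₀; simp
  obtain ⟨v, a3, a4, a5⟩ : ∃ v : K ⊗[F] V, v ≠ 0 ∧ β N v = 0 ∧ β N (β N' v) = l • v := by
    by_cases h : β N v₀ = 0
    · exact ⟨v₀, a1, h, by simpa [h] using a2⟩
    · exact ⟨_, h, b1 _, by simpa [b1] using congrArg (β N) a2⟩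
  let ρ : (V ≃ₗ[F] V) →* End K (K ⊗[F] V) :=
    (β : End F V →* _).comp LinearEquiv.automorphismGroup.toLinearMapMonoidHom
  have c1 : ∀ v, ρ x v = v + β N v := fun v => by
    change β x.toLinearMap v = _; rw [hx']; simp
  have c2 : ∀ v, ρ y v = v + β N' v := fun v => by
    change β y.toLinearMap v = _; rw [hy']; simp
  have hK : (2 : K) ≠ 0 := fun h => h2 ((algebraMap F K).injective (by rw [map_ofNat, h, map_zero]))
  obtain ⟨g, hg, c3⟩ := exists_neg (H := Subgroup.closure {x, y}) hK ρ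
    (x := x) (y := y) (Subgroup.subset_closure (by simp)) (Subgroup.subset_closure (by simp)) hl (v := v)
    (w := β N' v) (by
      have := IntermediateField.adjoin.finiteDimensional (Algebra.IsIntegral.isIntegral (R := F) l)
      have : Finite (IntermediateField.adjoin F {l}) := Module.finite_of_finite F
      exact Set.Finite.subset (s := IntermediateField.adjoin F {l}) (Set.toFinite _)
        (Subfield.closure_le (t := (IntermediateField.adjoin F {l}).toSubfield) |>.2
          (IntermediateField.subset_adjoin F {l}))) (by rw [c1, a4, add_zero]) (by rw [c1, a5])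
    (c2 v) (by rw [c2, b2, add_zero])
  obtain ⟨k, c4⟩ : Even (orderOf g) := by
    by_contra h
    have c4 : ∀ n : ℕ, ρ (g ^ n) v = (-1 : K) ^ n • v := fun n => by
      induction n with
      | zero => simp
      | succ n ih => rw [pow_succ', map_mul, Module.End.mul_apply, ih, map_smul, c3, pow_succ, mul_smul, neg_one_smul]
    have c5 := c4 (orderOf g)
    rw [pow_orderOf_eq_one, (Nat.not_even_iff_odd.1 h).neg_one_pow, map_one,
      Module.End.one_apply, ← sub_eq_zero] at c5
    exact (smul_eq_zero.1 ((show (2 : K) • v = _ by module).trans c5)).elim hK a3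
  have c5 := orderOf_pos g
  have c6 : g ^ k * g ^ k = 1 := by rw [← pow_add, ← c4, pow_orderOf_eq_one]
  have c7 : g ^ k ≠ 1 := pow_ne_one_of_lt_orderOf (by omega) (by omega)
  have c8 := pow_mem hg k
  generalize g ^ k = z at c6 c7 c8
  obtain ⟨e, d1, d2, d3⟩ := add_inv hx' hy' hN1 hN2 c8
  rw [inv_eq_of_mul_eq_one_right c6] at d3
  have d4 : ∀ v, (2 : F) • z v = (2 : F) • v + e (N (N' v) + N' (N v)) := fun v => by
    rw [two_smul, two_smul]
    simpa [← one_add_one_eq_two] using DFunLike.congr_fun d3 v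
  have d5 : ∀ v, e (N v) = N (e v) := DFunLike.congr_fun d1.eq
  have d6 : ∀ v, e (N' v) = N' (e v) := DFunLike.congr_fun d2.eq
  have d7 : (4 : F) ≠ 0 := by rw [show (4 : F) = 2 * 2 by norm_num]; exact mul_ne_zero h2 h2
  refine ⟨z, c8, DFunLike.congr_fun c6, c7, fun v => smul_right_injective V h2 ?_,
    fun v => smul_right_injective V h2 ?_, fun v hv => ⟨fun h => ⟨-(4 : F)⁻¹ • e (N' v), ?_⟩,
      fun h => ⟨-(4 : F)⁻¹ • e (N v), ?_⟩⟩⟩
  · simp only [d4, ← map_smul N]; simp [hN, d5, d6]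
  · simp only [d4, ← map_smul N']; simp [hN', d5, d6]
  all_goals
    have := d4 v
    simp only [hv, h, map_zero, add_zero, zero_add, d5, d6] at this
    rw [map_smul, neg_smul, neg_eq_iff_eq_neg, inv_smul_eq_iff₀ d7]
    simp only [d5, d6]
    linear_combination (norm := module) -this

end H23.Qp
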