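import Cfsg.Agent.H23.Qp1
import Cfsg.Agent.H23.Pr4

/-! Invariant subspaces of the endomorphism algebra of an orthogonal space. -/

set_option autoImplicit false

namespace H23.Qp

open Module H22 Form Nd

variable {F S : Type*} [Field F] [AddCommGroup S] [Module F S] {f : Form (RingHom.id F) S}

theorem eps_one (hk : f.κ = 1) : f.ε = 1 := by simpa [hk] using f.kε

theorem eich_q (hk : f.κ = 1) (a e v : S) : f.eichler a e (f.Q e) v =
    v + (f.B e v - f.Q e * f.B a v) • a - f.B a v • e := by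
  simp [eichler_apply, eps_one hk, sub_eq_add_neg]

theorem exists_eq [FiniteDimensional F S] (hn : f.Nondeg) (hk : f.κ = 1) {a e : S}
    (ha : f.Q a = 0) (he : f.B a e = 0) : ∃ g ∈ f.E, ∀ v,
      g v = v + (f.B e v - f.Q e * f.B a v) • a - f.B a v • e := by
  have h1 := H22.eichData_quad hk ha he
  obtain ⟨g, hg⟩ := exists_eich hn h1
  exact ⟨g, Form.mem_E h1 hg, fun v => (hg v).trans (eich_q hk ..)⟩

theorem exists_sq_ne_one [Fintype F] (h : 4 ≤ Fintype.card F) : ∃ t : F, t ≠ 0 ∧ t ^ 2 ≠ 1 := by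
  classical
  by_contra! hc
  have : (Finset.univ : Finset F) ⊆ {0, 1, -1} := fun a _ => by
    by_cases h0 : a = 0
    · simp [h0]
    · rcases sq_eq_one_iff.1 (hc a h0) with h | h <;> simp [h]
  have := (Finset.card_le_card this).trans Finset.card_le_three
  simp at this; omega

theorem fixed_form [Fintype F] [FiniteDimensional F S] (hn : f.Nondeg) (hk : f.κ = 1)
    (h2 : (2 : F) ≠ 0) (hq : 4 ≤ Fintype.card F ∨ 4 ≤ finrank F S) (h3 : 3 ≤ finrank F S)
    {a b : S} (hab : Hyp f a b) {Λ : Submodule F (End F S)} (h1 : 1 ∈ Λ)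
    (hΛ : ∀ g ∈ f.E, ∀ z ∈ Λ, cn g z ∈ Λ) {z : End F S} (hz : z ∈ Λ) (h0 : z ∉ F ∙ 1) :
    ∃ y ≠ 0, f.B a y = 0 ∧ ∃ z ∈ Λ, ∀ v,
      z v = f.B a v • y - f.B y v • a + (f.B b y * f.B a v) • a := by
  have e0 := B_self_quad hk
  have e1 := B_comm_quad hk
  have aa := hab.left.1
  have bb := hab.right.1
  have ab := hab.one
  have ba : f.B b a = 1 := e1 a b ▸ ab
  let K : Subgroup (S ≃ₗ[F] S) :=
    { carrier := {g | g ∈ f.E ∧ g a = a ∧ ∀ v, f.B a v = 0 → g v - v ∈ F ∙ a}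
      mul_mem' := fun {g k} ⟨a1, a2, a3⟩ ⟨b1, b2, b3⟩ => ⟨mul_mem a1 b1, by simp [a2, b2],
        fun v hv => by
          simpa using add_mem (a3 (k v) (by rw [← b2, (E_le_O b1).1, hv])) (b3 v hv)⟩
      one_mem' := ⟨one_mem _, rfl, by simp⟩
      inv_mem' := fun {g} ⟨a1, a2, a3⟩ => ⟨inv_mem a1, g.symm_apply_eq.2 a2.symm, fun v hv => by
        simpa using neg_mem (a3 (g⁻¹ v) (by rw [← (E_le_O a1).1, a2]; simpa))⟩ }
  obtain ⟨z, hz, h0, h4⟩ := exists_fixed (K := K) (fun g ⟨a1, a2, a3⟩ => ⟨3, by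
    ext v
    obtain ⟨c, hc⟩ := Submodule.mem_span_singleton.1 (a3 (g v - v) (by
      rw [map_sub, ← (E_le_O a1).1 a v, a2, sub_self]))
    have := congrArg g hc
    rw [map_smul, a2, hc] at this
    simp only [map_sub] at this
    simp [pow_succ]
    linear_combination (norm := module) -this⟩) (fun g hg => hΛ g hg.1) hz h0
  have k0 : ∀ e, f.B a e = 0 → ∃ c : F, ∀ v,
      (f.B e (z v) - f.Q e * f.B a (z v)) • a - f.B a (z v) • e =
        (f.B e v - f.Q e * f.B a v) • z a - f.B a v • z e +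
          c • (v + (f.B e v - f.Q e * f.B a v) • a - f.B a v • e) := fun e he => by
    obtain ⟨g, a1, a2⟩ := exists_eq hn hk hab.left.2 he
    obtain ⟨c, hc⟩ := h4 g ⟨a1, by simp [a2, aa, e1 e a, he], fun v hv => by
      simp [a2, hv, Submodule.smul_mem, Submodule.mem_span_singleton_self]⟩
    refine ⟨c, fun v => ?_⟩
    have := hc v
    simp only [a2, map_add, map_sub, map_smul] at this
    linear_combination (norm := module) this
  obtain ⟨e₀, -, c1, c2, c3⟩ := exists_third (D := ⊤) hn hk (by simp [perp_top _ hn]) (by simpa)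
    hab trivial trivial
  have k1 : f.B a (z a) = 0 := by
    obtain ⟨c, hc⟩ := k0 e₀ c1
    simpa [aa, e1 e₀ a, c1, e0, h2, c3] using congrArg (f.B e₀) (hc a)
  replace k0 : ∀ e, f.B a e = 0 → ∀ v,
      (f.B e (z v) - f.Q e * f.B a (z v)) • a - f.B a (z v) • e =
        (f.B e v - f.Q e * f.B a v) • z a - f.B a v • z e +
          f.B e (z a) • (v + (f.B e v - f.Q e * f.B a v) • a - f.B a v • e) := fun e he => by
    obtain ⟨c, hc⟩ := k0 e he
    obtain rfl : f.B e (z a) = c := by simpa [aa, e1 e a, he, k1, ba] using congrArg (f.B b) (hc a)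
    exact hc
  have k2 : ∀ e, f.B a e = 0 → f.B a (z e) = f.B e (z a) := fun e he => by
    have := congrArg (f.B a) (k0 e he b)
    simp [aa, he, k1, ab] at this
    linear_combination this
  have k3 : ∀ e d, f.B a e = 0 → f.B a d = 0 →
      -f.B e (z a) * f.B d e = f.Q e * f.B d (z a) := fun e d he hd => by
    have := congrArg (f.B d) (k0 e he e)
    simp [he, k2 e he, e1 d a, hd, e0] at this
    exact mul_left_cancel₀ h2 (by linear_combination this)
  have dec : ∀ x, f.B a (x - f.B b x • a - f.B a x • b) = 0 ∧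
      f.B b (x - f.B b x • a - f.B a x • b) = 0 := fun x => by simp [aa, ab, ba, bb]
  have k4 : f.B e₀ (z a) = 0 := by
    rcases hq with hq | hq
    · obtain ⟨μ, m0, m1⟩ := exists_sq_ne_one hq
      have b1 : ∀ μ : F, μ * (f.B e₀ (z b) + f.B b (z e₀)) + μ ^ 2 * (f.Q e₀ * (f.B b (z a) -
          f.B a (z b))) + μ ^ 3 * (f.B e₀ (z a) * f.Q e₀) = 0 := fun μ => by
        have := congrArg (f.B b) (k0 (μ • e₀) (by simp [c1]) b)
        simp [ab, ba, bb, c2, e1 e₀ b, f.Q_smul] at this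
        linear_combination this
      have := mul_left_cancel₀ (mul_ne_zero (mul_ne_zero (mul_ne_zero h2 m0) (sub_ne_zero.2 m1)) c3)
        (show _ * f.B e₀ (z a) = _ * 0 by
          linear_combination b1 μ - b1 (-μ) - μ * b1 1 + μ * b1 (-1))
      exact this
    obtain ⟨d, -, d0, d1⟩ := hn.exists_perp_notMem (T := ⊤) (S := ⊥) [a, b, e₀] (by simp; omega)
    have d2 := d1 a (by simp)
    have d3 := d1 b (by simp)
    have d4 := d1 e₀ (by simp)
    obtain ⟨x, hx⟩ := hn.exists_ne (by simpa using d0 : d ≠ 0)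
    have d5 : f.B d (z a) = 0 := by simpa [e1 d e₀, d4, c3] using k3 e₀ d c1 d2
    have d6 := k3 (e₀ + d) _ (by simp [c1, d2]) (dec x).1
    have d7 := k3 e₀ _ c1 (dec x).1
    have d8 := k3 d _ d2 (dec x).1
    generalize_proofs at d6 d7 d8
    have d9 : f.B (x - f.B b x • a - f.B a x • b) d = 1 := by simp [d2, d3, e1 x d, hx]
    rw [Q_add_quad hk, map_add (f.B (x - f.B b x • a - f.B a x • b)), map_add f.B,
      LinearMap.add_apply, d4, d5, d9] at d6
    rw [d5] at d8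
    linear_combination -d6 + d7 + d8
  have k5 : ∀ d, f.B a d = 0 → f.B d (z a) = 0 := fun d hd => by
    simpa [k4, c3] using k3 e₀ d c1 hd
  have k6 : z a = f.B b (z a) • a := hn.eq_of_forall' fun x => by
    have := k5 _ (dec x).1
    simp [k1] at this
    simp [e1 x a]
    linear_combination this
  set l := f.B b (z a)
  set y := z b - l • b with hy
  have k7 : ∀ e, f.B a e = 0 → z e - l • e = f.B a y • e - (f.B e y - f.Q e * f.B a y) • a :=
    fun e he => by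
      have := k0 e he b
      rw [k5 e he, k6] at this
      simp only [hy, map_sub, map_smul, ab, smul_eq_mul] at this ⊢
      linear_combination (norm := module) this
  have k8 : f.B a y = 0 := by
    have := congrArg (f.B b) (k0 e₀ c1 e₀)
    have b1 := congrArg (f.B e₀) (k7 e₀ c1)
    simp [k2 e₀ c1, k4, ba, c1, e0, e1 e₀ a] at this b1
    exact mul_left_cancel₀ (mul_ne_zero h2 c3) (by linear_combination this - b1)
  have k9 : ∀ v, (z - l • 1) v = f.B a v • y - f.B y v • a + (f.B b y * f.B a v) • a := fun v => by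
    have := k7 _ (dec v).1
    rw [map_sub, map_sub, map_smul, map_smul, k6, map_sub f.B, map_sub f.B] at this
    simp only [k8, map_smul, LinearMap.sub_apply, LinearMap.smul_apply, smul_eq_mul,
      End.one_apply, e1 v y, map_smulₛₗ, RingHom.id_apply] at this ⊢
    have b1 : z b = y + l • b := by simp [hy]
    rw [b1] at this
    linear_combination (norm := module) this
  refine ⟨y, fun h => h0 (Submodule.mem_span_singleton.2 ⟨l, (sub_eq_zero.1 ?_).symm⟩), k8, _,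
    sub_mem hz (Λ.smul_mem l h1), k9⟩
  ext v
  simp [-LinearMap.sub_apply, k9, h]

variable [Fintype F] [FiniteDimensional F S] (hn : f.Nondeg) (hk : f.κ = 1)
  (h2 : (2 : F) ≠ 0) (hq : 4 ≤ Fintype.card F ∨ 4 ≤ finrank F S) (h3 : 3 ≤ finrank F S)
  {Λ : Submodule F (End F S)} (h1 : 1 ∈ Λ) {z : End F S} (hz : z ∈ Λ) (h0 : z ∉ F ∙ 1)
include hn hk h2 hq h3 h1 hz h0

theorem so_pi (hΛ : ∀ g ∈ f.O, ∀ z ∈ Λ, cn g z ∈ Λ) {Z : Submodule F (End F S)}
    (hZ : ∀ z ∈ Λ, ∀ z' ∈ Λ, ∀ s s' : End F S, (∀ x y, f.B (z x) y = f.B x (s y)) →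
      (∀ x y, f.B (z' x) y = f.B x (s' y)) → z * s' + z' * s ∈ Z) {a : S} (ha : f.Q a = 0)
    (a0 : a ≠ 0) : (f.B a).smulRight a ∈ Z := by
  have e0 := B_self_quad hk
  have e1 := B_comm_quad hk
  obtain ⟨b, hab⟩ := exists_hyp hn ((sing_quad hk).2 ha) a0
  obtain ⟨y, y0, a1, z, hz, a2⟩ := fixed_form hn hk h2 hq h3 hab h1
    (fun g hg => hΛ g (E_le_O hg)) hz h0
  have aa := hab.left.1
  have a3 : ∀ {z : End F S} {c : F}, c ≠ 0 → z ∈ Z → (∀ v, z v = (c * f.B a v) • a) →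
      (f.B a).smulRight a ∈ Z := fun {z c} hc hz h => by
    convert Z.smul_mem c⁻¹ hz using 1
    ext v; simp [h, smul_smul, hc]
  by_cases hc : f.B b y = 0
  swap
  · refine a3 (mul_ne_zero h2 hc) (hZ z hz 1 h1 ((f.B y).smulRight a - (f.B a).smulRight y +
      f.B b y • (f.B a).smulRight a) 1 (fun v w => ?_) fun _ _ => rfl) fun v => ?_
    · simp [a2, e1 v a, e1 v y]; ring
    · simp [a2]; module
  obtain ⟨g, b1, b2, b3⟩ : ∃ g ∈ f.O, g a = a ∧ f.B y (g y) ≠ 0 := by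
    by_cases e : f.Q y = 0
    swap
    · exact ⟨1, one_mem _, rfl, by simp [e0, h2, e]⟩
    obtain ⟨x, hx⟩ := hn.exists_ne y0
    obtain ⟨d, b1, b2, b3⟩ := Pr.ns_ne hn hk h2 (Z := Submodule.span F {x | x ∈ [a, b]})
      (fun e => by
        obtain ⟨c, d, rfl⟩ := Submodule.mem_span_pair.1
          (by simpa [Set.insert_def] using e (Pr.mem_perp_pair.2 ⟨a1, hc⟩) :
            y ∈ Submodule.span F {a, b})
        simp [aa, hab.one, hab.right.1, e1 b a] at a1 hc
        simp [a1, hc] at y0) (φ := f.B y) (w := x - f.B b x • a - f.B a x • b)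
      (Pr.mem_perp_pair.2 (by simp [aa, hab.one, hab.right.1, e1 b a]))
      (by simp [hx, e1 y a, e1 y b, a1, hc])
    exact ⟨_, rf_O hk d, refl_apply_of_perp hk (e1 a d ▸ (Pr.mem_perp_pair.1 b1).1), by
      simp [refl_apply, e0, e, b3, b2, e1 d y]⟩
  have b4 : ∀ v, cn g z v = f.B a v • g y - f.B (g y) v • a := fun v => by
    obtain ⟨v, rfl⟩ := g.surjective v
    simp [a2, hc, b2, b1.1, show f.B a (g v) = f.B a v by rw [← b1.1 a v, b2]]
  have b5 : f.B a (g y) = 0 := by rw [← b2, b1.1, a1]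
  refine a3 (mul_ne_zero h2 b3) (hZ z hz _ (hΛ g b1 z hz) (-z) (-cn g z) (fun v w => ?_)
    fun v w => ?_) fun v => ?_
  · simp [a2, hc, e1 v a, e1 v y]; ring
  · simp [-cn_apply, b4, e1 v a, e1 v (g y)]; ring
  · simp [-cn_apply, a2, b4, hc, aa, a1, b5, e1 y a, e1 (g y) a, e1 (g y) y]; module

theorem so_rank_one (hΛ : ∀ g ∈ f.E, ∀ z ∈ Λ, cn g z ∈ Λ) (hm : ∀ z ∈ Λ, ∀ z' ∈ Λ, z * z' ∈ Λ)
    (h5 : 5 ≤ finrank F S ∨ ∀ a e, f.Q a = 0 → f.Q e = 0 → f.B a e = 0 → a ≠ 0 → e ∈ F ∙ a)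
    (x x' : S) : (f.B x).smulRight x' ∈ Λ := by
  have e0 := B_self_quad hk
  have e1 := B_comm_quad hk
  obtain ⟨a, -, a0, ha⟩ := iso3_quad hk ⊤ (by simpa)
  obtain ⟨b, hab⟩ := exists_hyp hn ha a0
  obtain ⟨y, y0, a1, z, hz, a2⟩ := fixed_form hn hk h2 hq h3 hab h1 hΛ hz h0
  have aa := hab.left.1
  have a3 : ∀ {z z' : End F S} {c : F}, c ≠ 0 → z ∈ Λ → (∀ v, z v = c • z' v) → z' ∈ Λ :=
    fun {z z' c} hc hz h => by
      convert Λ.smul_mem c⁻¹ hz using 1
      ext v; simp [h, hc]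
  have a4 : ∀ g ∈ f.E, ∀ x y, (f.B x).smulRight y ∈ Λ → (f.B (g x)).smulRight (g y) ∈ Λ :=
    fun g hg x y h => a3 one_ne_zero (hΛ g hg _ h) fun v => by simp [B_O_left (E_le_O hg)]
  have a5 : (f.B a).smulRight a ∈ Λ := by
    by_cases e : f.Q y = 0
    swap
    · exact a3 (neg_ne_zero.2 (mul_ne_zero h2 e)) (hm z hz z hz) fun v => by
        simp [a2, aa, a1, e1 y a, e0 y]; module
    by_cases e' : y ∈ F ∙ a
    · obtain ⟨c, rfl⟩ := Submodule.mem_span_singleton.1 e'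
      exact a3 (left_ne_zero_of_smul y0) hz fun v => by simp [a2, e1 b a, hab.one]; module
    obtain ⟨D, d1, d2, d3⟩ := nd_hyp (D := ⊤) hn (by simp [perp_top _ hn]) hab trivial trivial
    have d4 : y - f.B b y • a ∈ D := (d3 _).2 (by simp [a1, aa, e1 b a, hab.one])
    obtain ⟨u, d5, d6⟩ := hyp_of_nd hn hk d1 d4 (by simp [f.Q_sub, f.Q_smul, e, ha.2, e1 y a, a1])
      fun h => e' (sub_eq_zero.1 h ▸ Submodule.smul_mem _ _ (Submodule.mem_span_singleton_self a))
    obtain ⟨d, d7, d8, d9, c1⟩ := exists_third hn hk d1 (by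
      have := h5.resolve_right fun h => e' (h a y ha.2 e a1 a0)
      simp at d2; omega) d6 d4 d5
    obtain ⟨g, c2, c3⟩ := exists_eq hn hk d6.right.2 d9
    have c4 := ((d3 u).1 d5).2.1
    have c5 := ((d3 d).1 d7).2.1
    have c6 : f.B y u = 1 := by simpa [c4] using d6.one
    have c7 : f.B y d = 0 := by simpa [c5] using d8
    have c8 : g a = a := by simp [c3, e1 d a, e1 u a, c4, c5]
    have c9 : f.B y (g y) = -f.Q d := by simp [c3, e0, e, c6, c7, e1 d y, e1 u y]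
    refine a3 c1 (hm z hz _ (hΛ g c2 z hz)) fun v => ?_
    obtain ⟨v, rfl⟩ := g.surjective v
    have b1 : ∀ v, f.B a (g v) = f.B a v := fun v => by rw [← (E_le_O c2).1 a v, c8]
    simp [a2, c8, aa, a1, e1 y a, b1, c9]
    module
  have a6 : ∀ a, a ≠ 0 → Sing f a → (f.B a).smulRight a ∈ Λ → ∃ a', f.B a a' ≠ 0 ∧ Sing f a' ∧
      (f.B a').smulRight a' ∈ Λ ∧ ∀ y, (f.B a).smulRight y ∈ Λ ∧ (f.B y).smulRight a ∈ Λ := by
    intro a a0 ha a5
    obtain ⟨b, hab⟩ := exists_hyp hn ha a0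
    have aa := ha.1
    have ab := hab.one
    obtain ⟨e, -, c1, c2, c3⟩ := exists_third (D := ⊤) hn hk (by simp [perp_top _ hn]) (by simpa)
      hab trivial trivial
    have b1 : ∀ e, f.B a e = 0 → f.B b e = 0 → Sing f (a - f.Q e • b - e) ∧
        (f.B (a - f.Q e • b - e)).smulRight (a - f.Q e • b - e) ∈ Λ := fun e c1 c2 => by
      obtain ⟨g, b1, b2⟩ := exists_eq hn hk hab.right.2 c2
      have : g a = a - f.Q e • b - e := by simp [b2, e1 e a, e1 b a, c1, ab, sub_eq_add_neg]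
      exact this ▸ ⟨ha.mapO (E_le_O b1), a4 g b1 a a a5⟩
    have b2 := (b1 e c1 c2).2
    have b3 := (b1 (-e) (by simp [c1]) (by simp [c2])).2
    have b4 : f.Q e * f.Q e * 2 ≠ 0 := by simp [c3, h2]
    have b5 : (f.B a).smulRight b ∈ Λ := a3 b4 (add_mem (add_mem (hm _ b2 _ a5) (hm _ b3 _ a5))
      (Λ.smul_mem (2 * f.Q e) a5)) fun v => by
        simp [aa, e1 b a, e1 e a, ab, c1, f.Q_neg]; module
    have b6 : (f.B b).smulRight a ∈ Λ := a3 b4 (add_mem (add_mem (hm _ a5 _ b2) (hm _ a5 _ b3))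
      (Λ.smul_mem (2 * f.Q e) a5)) fun v => by
        simp [aa, ab, c1, f.Q_neg]; module
    refine ⟨_, by simp [aa, ab, c1, c3], (b1 e c1 c2).1, b2, fun y => ?_⟩
    obtain ⟨α, β, w, c4, c5, rfl⟩ := hab.decomp y
    obtain ⟨g, b7, b8⟩ := exists_eq hn hk ha.2 c4
    have b9 : g a = a := by simp [b8, aa, e1 w a, c4]
    have d1 : g b = b - f.Q w • a - w := by simp [b8, e1 w b, c5, ab, sub_eq_add_neg]
    have d2 := a4 g b7 _ _ b5
    have d3 := a4 g b7 _ _ b6
    rw [b9, d1] at d2 d3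
    exact ⟨a3 one_ne_zero (sub_mem (add_mem (Λ.smul_mem (α - f.Q w) a5) (Λ.smul_mem (β + 1) b5))
      d2) fun v => by simp; module, a3 one_ne_zero (sub_mem (add_mem (Λ.smul_mem (α - f.Q w) a5)
        (Λ.smul_mem (β + 1) b6)) d3) fun v => by simp; module⟩
  obtain ⟨a', b1, b2, b3, b4⟩ := a6 a a0 ha a5
  obtain ⟨-, -, -, -, b5⟩ := a6 a' (by rintro rfl; simp at b1) b2 b3
  exact a3 b1 (hm _ (b4 x').1 _ (b5 x).2) fun v => by simp; module

end H23.Qp
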