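import Cfsg.Agent.H23.Qp2

/-! The tensor product of an orthogonal and a symplectic space: local analysis. -/

set_option autoImplicit false

namespace H23.Qp

open Module H22 Cfsg Cfsg.Geo Form Tn Nd

variable {F S W V : Type*} [Field F] [AddCommGroup S] [Module F S] [AddCommGroup W] [Module F W]
  [AddCommGroup V] [Module F V]

/-- The alternating form on the tensor product of an orthogonal and a symplectic space. -/
structure Sy (Φ : Form (RingHom.id F) V) (f : Form (RingHom.id F) S) (h : Form (RingHom.id F) W)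
    (t : S →ₗ[F] W →ₗ[F] V) : Prop where
  ht : IsTensorProduct t
  nd : Φ.Nondeg
  ε : Φ.ε = -1
  kap : Φ.κ = 0
  fn : f.Nondeg
  fk : f.κ = 1
  hn : h.Nondeg
  he : h.ε = -1
  hk : h.κ = 0
  odd : (2 : F) ≠ 0
  B : ∀ x w y w', Φ.B (t x w) (t y w') = f.B x y * h.B w w'

namespace Sy

variable {Φ : Form (RingHom.id F) V} {f : Form (RingHom.id F) S} {h : Form (RingHom.id F) W}
  {t : S →ₗ[F] W →ₗ[F] V} (p : Sy Φ f h t) {H : Subgroup (V ≃ₗ[F] V)} {u w e : W}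
  {φ φ' : V →ₗ[F] S}
include p

/-- The contraction with `h u`. -/
noncomputable abbrev cv (u : W) : V →ₗ[F] S := cov F p.ht (h.B u)

/-- The contraction with `f x`. -/
noncomputable abbrev cs (x : S) : V →ₗ[F] W := cov F (isTP_flip p.ht) (f.B x)

@[simp] theorem cs_t (x y : S) (u : W) : p.cs x (t y u) = f.B x y • u :=
  cov_t (isTP_flip p.ht) _ u y

theorem B_t (x : S) (u : W) (v : V) : Φ.B (t x u) v = f.B x (p.cv u v) :=
  ext_t p.ht (f := Φ.B (t x u)) (f' := f.B x ∘ₗ p.cv u) (by simp [p.B, mul_comm]) v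

theorem B_t' (x : S) (u : W) (v : V) : Φ.B (t x u) v = h.B u (p.cs x v) :=
  ext_t p.ht (f := Φ.B (t x u)) (f' := h.B u ∘ₗ p.cs x) (by simp [p.B]) v

theorem cv_add (u w : W) (v : V) : p.cv (u + w) v = p.cv u v + p.cv w v := by
  rw [cv, map_add, cov_add]

theorem cv_smul (u : W) (c : F) (v : V) : p.cv (c • u) v = c • p.cv u v := by
  rw [cv, map_smul, cov_smul_left]

theorem h0 (u : W) : h.B u u = 0 := B_self_alt p.he p.hk u

theorem tens {a : S ≃ₗ[F] S} {b : W ≃ₗ[F] W} (ha : a ∈ f.O) (hb : b ∈ h.O) :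
    ∃ m ∈ Tg F t ⊓ Φ.O, ∀ x y, m (t x y) = t (a x) (b y) := by
  obtain ⟨m, h1, h2⟩ := Pr.exists_tens p.ht a b
  refine ⟨m, ⟨h1, fun v => p.ht.inductionOn v (by simp) (fun x u => ext_t p.ht
    (f := Φ.B (m (t x u)) ∘ₗ m.toLinearMap) (f' := Φ.B (t x u)) fun y w => ?_)
    fun v v' a1 a2 z => by simp [a1, a2], fun v => by simp [Q_of_κ p.kap]⟩, h2⟩
  simp [h2, p.B, ha.1, hb.1]

variable [FiniteDimensional F W]

theorem exists_tv (u : W) (c : F) : ∃ g ∈ Tg F t ⊓ Φ.O, ∀ v, g v = v + c • t (p.cv u v) u := by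
  obtain ⟨b, a1, a2⟩ := exists_tv_alt p.hn p.he p.hk u c
  obtain ⟨g, a3, a4⟩ := p.tens (one_mem _) a1
  exact ⟨g, a3, ext_t p.ht (f := g.toLinearMap) (f' := LinearMap.id + c • (vec F t u ∘ₗ p.cv u))
    fun x w => by simp [a4, a2, mul_smul]⟩

variable (hM : Tg F t ⊓ Φ.O ≤ H)
include hM

theorem tv (u : W) (c : F) : ∃ g ∈ H, ∀ v, g v = v + c • t (p.cv u v) u :=
  have ⟨g, a1, a2⟩ := p.exists_tv u c
  ⟨g, hM a1, a2⟩

theorem trans (hu : u ≠ 0) (hw : w ≠ 0) : ∃ m ∈ H, ∃ b ∈ h.O, (∀ x y, m (t x y) = t x (b y)) ∧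
    b u = w := by
  obtain ⟨b, a1, a2⟩ := p.hn.witt_one hu hw (by simp [p.h0]) (by simp [Q_of_κ p.hk])
  obtain ⟨m, a3, a4⟩ := p.tens (one_mem _) a1
  exact ⟨m, hM a3, b, a1, a4, a2⟩

theorem top_of_tr [Finite F] [FiniteDimensional F S] [FiniteDimensional F V] (hH : H ≤ Φ.O)
    {a : S} (ha : f.Q a = 0) (a0 : a ≠ 0) (hu : u ≠ 0) (h1 : Φ.TR H (t a u)) : Φ.O ≤ H := by
  have a1 : ∀ w y, f.Q w = 0 → Φ.TR H (t w y) := fun w y hw => by
    by_cases e : y = 0 ∨ w = 0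
    · rcases e with rfl | rfl <;> simpa using tr_zero
    push Not at e
    obtain ⟨b, hb, rfl⟩ := p.hn.witt_one hu e.1 (by simp [p.h0]) (by simp [Q_of_κ p.hk])
    obtain ⟨c, hc, rfl⟩ := p.fn.witt_one a0 e.2 (by simp [B_self_quad p.fk, ha, hw])
      (ha.trans hw.symm)
    obtain ⟨m, h2, h3⟩ := p.tens hc hb
    exact h3 a u ▸ h1.conj (hM h2) h2.2
  obtain ⟨e, he⟩ := exists_hyp p.fn ((sing_quad p.fk).2 ha) a0
  obtain ⟨y, hy⟩ := p.hn.exists_ne hu
  obtain ⟨U, a2, a3, a4⟩ := Pr.exists_max p.ε p.kap p.odd hH h1 (a1 e y he.right.2) (by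
    simp [p.B, B_neg_alt p.he u y, hy, B_comm_quad p.fk e a, he.one])
  have a5 : ∀ w w', t w u ∈ U → f.Q w' = 0 → f.B w w' ≠ 0 → ∀ s, t w' s ∈ U :=
    fun w w' b1 b2 b3 s => by
      have b4 : ∀ s, h.B u s ≠ 0 → t w' s ∈ U := fun s hs => a4 _ (a1 w' s b2) fun e =>
        mul_ne_zero b3 hs (p.B w u w' s ▸ e _ b1)
      by_cases e : h.B u s = 0
      · simpa using U.sub_mem (b4 (s + y) (by simp [e, hy])) (b4 y (by simp [hy]))
      · exact b4 s e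
  have a6 := a5 a e a2 he.right.2 (by simp [he.one])
  have a7 := a5 e a (a6 u) ha (by simp [B_comm_quad p.fk e a, he.one])
  have a8 : ∀ w s, t w s ∈ U := he.sing_induction (fun w hw s => by
    by_cases e1 : f.B a w = 0
    · by_cases e2 : f.B e w = 0
      · simpa using U.sub_mem (a5 e (w + a) (a6 u) (by
          simp [Q_add_quad p.fk, hw.2, ha, f.B_eq_zero_symm e1])
          (by simp [e2, B_comm_quad p.fk e a, he.one]) s) (a7 s)
      · exact a5 e w (a6 u) hw.2 e2 s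
    · exact a5 a w a2 hw.2 e1 s) fun w w' b1 b2 s => by simpa using U.add_mem (b1 s) (b2 s)
  exact O_le_of_tr p.nd p.ε p.kap fun v => a3 v
    (p.ht.inductionOn v U.zero_mem (fun s w => a8 s w) fun _ _ => U.add_mem)

omit hM

variable (H u φ) in
/-- Elements of the unipotent radical of the stabiliser of a block, modulo its centre. -/
def RT : Prop := ∃ r ∈ H, (∀ x, φ (t x u) = 0) ∧ ∀ v, p.cv u v = 0 → r v = v + t (φ v) u

variable (H) in
/-- The coefficients occurring in `H`. -/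
def Lz (z : End F S) : Prop := ∀ u ≠ 0, ∀ e, h.B u e = 0 → p.RT H u (z ∘ₗ p.cv e)

omit [FiniteDimensional F W]

variable (H) in
/-- The coefficients of the central elements. -/
def Cz [Finite F] : Submodule F (End F S) where
  carrier := {z | ∀ u, ∃ g ∈ H, ∀ v, g v = v + t (z (p.cv u v)) u}
  add_mem' := fun ha hb u =>
    have ⟨g, a1, a2⟩ := ha u
    have ⟨k, a3, a4⟩ := hb u
    ⟨g * k, mul_mem a1 a3, fun v => by simp [a2, a4, p.h0]; abel⟩
  zero_mem' := fun _ => ⟨1, one_mem _, by simp⟩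
  smul_mem' := fun c z hz u => by
    obtain ⟨a, b, rfl⟩ := exists_sq_sub c
    obtain ⟨g, a1, a2⟩ := hz (a • u)
    obtain ⟨k, a3, a4⟩ := hz (b • u)
    refine ⟨k⁻¹ * g, mul_mem (inv_mem a3) a1, fun v => k.symm_apply_eq.2 ?_⟩
    simp [a2, a4, p.h0, cv_smul]
    module

variable {p}

theorem RT.congr (h1 : p.RT H u φ) (h2 : ∀ v, p.cv u v = 0 → φ v = φ' v) : p.RT H u φ' :=
  have ⟨r, a1, a2, a3⟩ := h1
  ⟨r, a1, fun x => by rw [← h2 _ (by simp [p.h0]), a2], fun v hv => by rw [a3 v hv, h2 v hv]⟩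

theorem rt_zero (h2 : ∀ v, p.cv u v = 0 → φ v = 0) : p.RT H u φ :=
  RT.congr (φ := 0) ⟨1, one_mem _, by simp⟩ fun v hv => (h2 v hv).symm

theorem RT.add (h1 : p.RT H u φ) (h2 : p.RT H u φ') : p.RT H u (φ + φ') :=
  have ⟨r, a1, a2, a3⟩ := h1
  have ⟨r', a4, a5, a6⟩ := h2
  ⟨r * r', mul_mem a1 a4, by simp [a2, a5], fun v hv => by
    simp [a6 v hv, a3 v hv, a3 (t _ u) (by simp [p.h0]), a2, add_assoc]⟩

theorem RT.neg (h1 : p.RT H u φ) : p.RT H u (-φ) :=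
  have ⟨r, a1, a2, a3⟩ := h1
  ⟨r⁻¹, inv_mem a1, by simp [a2], fun v hv => r.symm_apply_eq.2 (by
    simp [a3 v hv, a3 (t _ u) (by simp [p.h0]), a2])⟩

theorem RT.sub (h1 : p.RT H u φ) (h2 : p.RT H u φ') : p.RT H u (φ - φ') :=
  sub_eq_add_neg φ φ' ▸ h1.add h2.neg

theorem RT.conj (hH : H ≤ Φ.O) (h1 : p.RT H u φ) {m : V ≃ₗ[F] V} (hm : m ∈ H) {a : S ≃ₗ[F] S}
    (h2 : ∀ x, m (t x u) = t (a x) w) :
    p.RT H w (a.toLinearMap ∘ₗ φ ∘ₗ m.symm.toLinearMap) := by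
  obtain ⟨r, a1, a2, a3⟩ := h1
  refine ⟨m * r * m⁻¹, mul_mem (mul_mem hm a1) (inv_mem hm), fun x => ?_, fun v hv => ?_⟩
  · obtain ⟨x, rfl⟩ := a.surjective x
    simp [← h2, a2]
  · have : p.cv u (m.symm v) = 0 := p.fn.eq_of_forall' fun x => by
      rw [← p.B_t, ← (hH hm).1, h2, p.B_t]; simp [hv]
    simp [a3 _ this, h2]

theorem Lz.comm [Finite F] [FiniteDimensional F W] (hH : H ≤ Φ.O) (h3 : 3 ≤ finrank F W)
    {z z' s s' : End F S} (h1 : p.Lz H z) (h2 : p.Lz H z') (hs : ∀ x y, f.B (z x) y = f.B x (s y))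
    (hs' : ∀ x y, f.B (z' x) y = f.B x (s' y)) : z * s' + z' * s ∈ p.Cz H := fun u => by
  by_cases hu : u = 0
  · exact ⟨1, one_mem _, by simp [hu]⟩
  obtain ⟨e', -, a1, a2⟩ := p.hn.exists_perp_notMem (T := ⊤) (S := F ∙ u) [u]
    (by simp [finrank_span_singleton hu]; omega)
  obtain ⟨e, a3, a4⟩ := p.hn.exists_perp_eq_one a1
  replace a2 := a2 u (by simp)
  replace a3 := h.B_eq_zero_symm (a3 u (Submodule.mem_span_singleton_self u))
  have key : ∀ {z s : End F S} {e : W} {r : V ≃ₗ[F] V}, r ∈ H → h.B u e = 0 →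
      (∀ x y, f.B (z x) y = f.B x (s y)) → (∀ v, p.cv u v = 0 → r v = v + t (z (p.cv e v)) u) →
      ∀ y, h.B u y = 0 → ∀ v, p.cv y (r v) = p.cv y v - h.B e y • s (p.cv u v) := by
    intro z s e r b1 b2 b3 b4
    have b5 : ∀ v, p.cv u (r v) = p.cv u v := fun v => p.fn.eq_of_forall' fun x => by
      rw [← p.B_t, ← p.B_t, ← (hH b1).1 _ v, b4 (t x u) (by simp [p.h0])]
      simp [h.B_eq_zero_symm b2]
    refine fun y hy v => p.fn.eq_of_forall' fun x => ?_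
    have := (hH b1).1 (t x y) v
    rw [b4 _ (by simp [hy])] at this
    simp [p.B_t, b5, b3] at this ⊢
    linear_combination this
  obtain ⟨r, b1, -, b2⟩ := h1 u hu e a3
  obtain ⟨r', b3, -, b4⟩ := h2 u hu e' a2
  have c1 := key b1 a3 hs b2
  have c2 := key b3 a2 hs' b4
  refine ⟨r * r' * (r' * r)⁻¹, mul_mem (mul_mem b1 b3) (inv_mem (mul_mem b3 b1)), fun v => ?_⟩
  obtain ⟨v, rfl⟩ := (r' * r).surjective v
  have d1 := b2 (r' v - v) (by simp [c2 u (p.h0 u), h.B_eq_zero_symm a2])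
  have d2 := b4 (r v - v) (by simp [c1 u (p.h0 u), h.B_eq_zero_symm a3])
  simp [c1 e' a2, c2 e a3, a4, B_neg_alt p.he e e'] at d1 d2
  simp [c1 u (p.h0 u), c2 u (p.h0 u), h.B_eq_zero_symm a2, h.B_eq_zero_symm a3]
  linear_combination (norm := module) d1 - d2

variable [FiniteDimensional F W] (hM : Tg F t ⊓ Φ.O ≤ H) (hH : H ≤ Φ.O)
include hM

theorem rt_rat (he : h.B u e = 0) : p.RT H u (p.cv e) := by
  obtain ⟨g, a1, a2⟩ := p.tv hM (u + e) 1
  obtain ⟨k, a3, a4⟩ := p.tv hM e (-1)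
  have a5 := h.B_eq_zero_symm he
  exact ⟨g * k, mul_mem a1 a3, by simp [a5], fun v hv => by
    simp [a2, a4, cv_add, hv, he, a5, p.h0]; abel⟩

include hH

theorem RT.proj (h1 : p.RT H u φ) (he : h.B u e = 0) (c : F) :
    p.RT H u (c • (φ ∘ₗ vec F t e ∘ₗ p.cv e)) := by
  obtain ⟨m, a1, a2⟩ := p.tv hM e c
  refine ((h1.conj hH (inv_mem a1) (a := 1) (w := u) fun x => m.symm_apply_eq.2 ?_).sub h1).congr
    fun v _ => ?_
  · simp [a2, h.B_eq_zero_symm he]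
  · change φ (m v) - φ v = _
    simp [a2]

theorem RT.spread (h1 : p.RT H u φ) (he : h.B u e = 0) (hw : h.B u w = 0) :
    p.RT H u ((φ ∘ₗ vec F t e) ∘ₗ p.cv w) := by
  by_cases h0 : e ∈ F ∙ u
  · obtain ⟨c, rfl⟩ := Submodule.mem_span_singleton.1 h0
    obtain ⟨-, -, a1, -⟩ := h1
    exact rt_zero fun v _ => by simp [a1]
  have a1 : ∀ w, h.B u w = 0 → h.B e w ≠ 0 → p.RT H u ((φ ∘ₗ vec F t e) ∘ₗ p.cv w) :=
    fun w h2 h3 => ((h1.proj hM hH he 1).proj hM hH h2 (h.B e w)⁻¹).congr fun v _ => by simp [h3]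
  by_cases h2 : h.B e w = 0
  · obtain ⟨y, a2, a3⟩ := p.hn.exists_perp_eq_one h0
    replace a2 := h.B_eq_zero_symm (a2 u (Submodule.mem_span_singleton_self u))
    have a4 : h.B e y ≠ 0 := by simp [B_neg_alt p.he y e, a3]
    exact ((a1 (w + y) (by simp [hw, a2]) (by simp [h2, a4])).sub (a1 y a2 a4)).congr
      fun v _ => by simp [cv_add]
  · exact a1 w hw h2

theorem RT.lz (h1 : p.RT H u φ) (hu : u ≠ 0) (he : h.B u e = 0) : p.Lz H (φ ∘ₗ vec F t e) := by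
  intro w hw y hy
  obtain ⟨m, a1, b, a2, a3, rfl⟩ := p.trans hM hu hw
  obtain ⟨y, rfl⟩ := b.surjective y
  refine ((h1.spread hM hH he (w := y) (by rw [← a2.1, hy])).conj hH a1 (a := 1)
    fun x => a3 x u).congr fun v _ => ?_
  obtain ⟨v, rfl⟩ := m.surjective v
  simpa using congrArg (fun x => φ (t x e)) (ext_t p.ht (f := p.cv y)
    (f' := p.cv (b y) ∘ₗ m.toLinearMap) (by simp [a3, a2.1]) v)

variable [Fintype F] [FiniteDimensional F S] [FiniteDimensional F V]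
  (hq : 4 ≤ Fintype.card F ∨ 4 ≤ finrank F S) (hs : 3 ≤ finrank F S)
  (h5 : 3 ≤ finrank F W) (hN : ¬ Φ.O ≤ H)
include hq hs h5 hN

theorem RT.rat (h1 : p.RT H u φ) (hu : u ≠ 0) (he : h.B u e = 0) :
    ∃ c : F, ∀ x, φ (t x e) = c • x := by
  by_contra hc
  let Λ : Submodule F (End F S) :=
    { carrier := {z | p.Lz H z}
      add_mem' := fun ha hb u hu e he => (ha u hu e he).add (hb u hu e he)
      zero_mem' := fun u _ e _ => rt_zero (by simp)
      smul_mem' := fun c z hz u hu e he => (hz u hu (c • e) (by simp [he])).congr fun v _ => by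
        simp [cv_smul] }
  obtain ⟨a, -, a0, ha⟩ := iso3_quad p.fk ⊤ (by simpa)
  have a1 := so_pi (Λ := Λ) p.fn p.fk p.odd hq hs (fun u _ e he => rt_rat hM he)
    (h1.lz hM hH hu he) (fun h => hc ((Submodule.mem_span_singleton.1 h).imp fun c hc x =>
      (DFunLike.congr_fun hc x).symm)) (fun b hb z hz u hu e he => ?_) (Z := p.Cz H)
    (fun z hz z' hz' s s' => Lz.comm hH h5 hz hz') ha.2 a0
  · refine hN (p.top_of_tr hM hH ha.2 a0 hu fun c => ?_)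
    obtain ⟨g, b1, b2⟩ := (p.Cz H).smul_mem c a1 u
    exact ⟨g, b1, fun v => by simp [b2, p.B_t, mul_smul]⟩
  obtain ⟨m, a1, a2⟩ := p.tens hb (one_mem _)
  refine ((hz u hu e he).conj hH (hM a1) (a := b) fun x => a2 x u).congr fun v _ => ?_
  obtain ⟨v, rfl⟩ := m.surjective v
  have a4 := ext_t p.ht (f := p.cv e ∘ₗ m.toLinearMap) (f' := b.toLinearMap ∘ₗ p.cv e)
    (by simp [a2]) v
  simp only [LinearMap.comp_apply, LinearEquiv.coe_coe] at a4
  simp [a4]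

variable [Nontrivial S]

theorem step {g : V ≃ₗ[F] V} (hg : g ∈ H) {a : S ≃ₗ[F] S} (hu : u ≠ 0) (hw : w ≠ 0)
    (h1 : ∀ x, g (t x u) = t (a x) w) (he : h.B u e = 0) : ∃ e', ∀ x, g (t x e) = t (a x) e' := by
  by_cases h0 : e ∈ F ∙ u
  · obtain ⟨c, rfl⟩ := Submodule.mem_span_singleton.1 h0
    exact ⟨c • w, by simp [h1]⟩
  have h2 : ∀ x, g⁻¹ (t x w) = t (a⁻¹ x) u := fun x => g.symm_apply_eq.2 (by simp [h1])
  obtain ⟨w₀, a1⟩ := p.hn.exists_ne hw
  obtain ⟨e', a2⟩ := exists_vec p.ht (e := fun x => g (t x e) + t (p.cv w₀ (g (t x e))) w)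
    (a := a) (F := F) fun ψ => by
      obtain ⟨y, hy⟩ := p.hn.exists_repr (ψ + ψ w • h.B w₀)
      obtain ⟨c, hc⟩ := ((rt_rat (p := p) hM (e := y) (h.B_eq_zero_symm (by
        simp [hy, B_neg_alt p.he w w₀, a1]))).conj hH (inv_mem hg) h2).rat hM hH hq hs h5 hN hu he
      refine ⟨c, fun x => ?_⟩
      have := congrArg a (hc x)
      rw [cv, LinearMap.ext hy] at this
      simpa [cov_add, cov_smul_left, cv, show g⁻¹.symm = g from rfl] using this
  set z : S →ₗ[F] S := -(p.cv w₀ ∘ₗ g.toLinearMap ∘ₗ vec F t e)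
  replace a2 : ∀ x, g (t x e) = t (a x) e' + t (z x) w := fun x => by simp [z, ← a2]
  obtain ⟨x₀, a3⟩ := exists_ne (0 : S)
  have a4 : e' ∉ F ∙ w := fun h3 => by
    obtain ⟨c, rfl⟩ := Submodule.mem_span_singleton.1 h3
    obtain ⟨y, b1, b2⟩ := p.hn.exists_perp_eq_one h0
    have := congrArg (p.cv y) (g.injective ((a2 x₀).trans (show _ = g (t (a⁻¹ (c • a x₀ + z x₀)) u)
      by simp [h1])))
    simp [b1 u (Submodule.mem_span_singleton_self u), b2, a3] at this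
  have a5 : h.B w e' = 0 := by
    obtain ⟨y, hy⟩ := p.fn.exists_ne a3
    simpa [h1, a2, p.B, he, p.h0, hy] using (hH hg).1 (t (a⁻¹ x₀) u) (t (a⁻¹ y) e)
  obtain ⟨e₁, a6, a7⟩ := p.hn.exists_perp_eq_one a4
  replace a6 := h.B_eq_zero_symm (a6 w (Submodule.mem_span_singleton_self w))
  obtain ⟨μ, a8⟩ := ((rt_rat (p := p) hM he).conj hH hg h1).rat hM hH hq hs h5 hN hw a6
  replace a8 : ∀ x, a (p.cv e (g.symm (t x e₁))) = μ • x := a8
  have a9 : ∀ v, p.cv w v = 0 → ∀ x, f.B x (p.cv e (g.symm v)) = f.B (a x) (p.cv e' v) :=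
    fun v hv x => by rw [← p.B_t, ← (hH hg).1, a2]; simp [p.B_t, hv]
  have b1 : ∀ v, p.cv w v = 0 → a (p.cv e (g.symm v)) = -μ • p.cv e' v := fun v hv => by
    rw [neg_smul, ← smul_neg, ← a8]
    exact congrArg a (p.fn.eq_of_forall' fun x => by
      simp [a9 v hv, a9 (t _ e₁) (by simp [a6]), B_neg_alt p.he e₁ e', a7])
  obtain ⟨k, b2, b3⟩ := p.tv hM e 1
  obtain ⟨k', b4, b5⟩ := p.tv hM e' μ
  obtain ⟨ν, b6⟩ := RT.rat (p := p) hM hH hq hs h5 hN (φ := z ∘ₗ p.cv e ∘ₗ g.symm.toLinearMap)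
    ⟨k' * (g * k * g⁻¹), mul_mem b4 (mul_mem (mul_mem hg b2) (inv_mem hg)), fun x => by
      simp [show g.symm (t x w) = _ from h2 x, h.B_eq_zero_symm he], fun v hv => by
      simp [b3, b5, a2, b1 v hv, p.h0, h.B_eq_zero_symm a5]; abel⟩ hw a6
  have b7 : μ ≠ 0 := by
    rintro rfl
    obtain ⟨y, hy⟩ := p.fn.exists_ne a3
    have := a9 (t y e₁) (by simp [a6]) (a⁻¹ x₀)
    simp [show p.cv e (g.symm (t y e₁)) = 0 by simpa using a8 y, hy, B_neg_alt p.he e₁ e', a7]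
      at this
  refine ⟨e' + (ν / μ) • w, fun x => ?_⟩
  have b8 : p.cv e (g.symm (t (a x) e₁)) = μ • x := a.injective (by simp [a8])
  have b9 : μ • z x = ν • a x := by simpa [b8] using b6 (a x)
  rw [a2, ← inv_smul_smul₀ b7 (z x), b9]
  simp [div_eq_inv_mul, mul_smul]

theorem block {g : V ≃ₗ[F] V} (hg : g ∈ H) (hu : u ≠ 0) (h1 : ∀ x, ∃ y, g (t x u) = t y w) :
    g ∈ Tg F t := by
  have : Finite W := Module.finite_of_finite F
  obtain ⟨a, h2⟩ := exists_blockEquiv p.ht hu h1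
  obtain ⟨x₀, a3⟩ := exists_ne (0 : S)
  have a0 : ∀ {u w}, u ≠ 0 → (∀ x, g (t x u) = t (a x) w) → w ≠ 0 := fun hu h => by
    rintro rfl
    exact a3 (t_eq_zero p.ht hu (by simpa using h x₀))
  obtain ⟨u', -, a1, a2⟩ := p.hn.exists_perp_notMem (T := ⊤) (S := F ∙ u) [u]
    (by simp [finrank_span_singleton hu]; omega)
  obtain ⟨y, a4, a5⟩ := p.hn.exists_perp_eq_one a1
  replace a4 := h.B_eq_zero_symm (a4 u (Submodule.mem_span_singleton_self u))
  have a6 : u' ≠ 0 := by rintro rfl; simp at a1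
  obtain ⟨w', a7⟩ := step (p := p) hM hH hq hs h5 hN hg hu (a0 hu h2) h2 (a2 u (by simp))
  refine mem_Tg_of p.ht a fun e => ?_
  obtain ⟨e₁, b1⟩ := step (p := p) hM hH hq hs h5 hN hg hu (a0 hu h2) h2 (e := h.B u' e • y)
    (by simp [a4])
  obtain ⟨e₂, b2⟩ := step (p := p) hM hH hq hs h5 hN hg a6 (a0 a6 a7) a7 (e := e + h.B u' e • y)
    (by simp [B_neg_alt p.he y u', a5])
  exact ⟨e₂ - e₁, fun x => by simp [← b1, ← b2]⟩

end Sy

end H23.Qp
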