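import Cfsg.Agent.H23.Qp3

/-! Maximality of `Sp_m ∘ GO_n` in `Sp_{mn}` in odd characteristic. -/

set_option autoImplicit false

namespace H23.Qp

open Module H22 Cfsg Cfsg.Geo Form Tn Nd

variable {F S W V : Type*} [Field F] [AddCommGroup S] [Module F S] [AddCommGroup W] [Module F W]
  [AddCommGroup V] [Module F V] {t : S →ₗ[F] W →ₗ[F] V}

theorem mem_span_of_t (ht : IsTensorProduct t) {x y : S} {w u : W} (hx : x ≠ 0)
    (h : t x w = t y u) : w ∈ F ∙ u := by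
  obtain ⟨χ, h1⟩ := exists_dual_one (F := F) hx
  have h2 := congrArg (cov F (isTP_flip ht) χ) h
  rw [show cov F (isTP_flip ht) χ (t x w) = _ from cov_t (isTP_flip ht) χ w x,
    show cov F (isTP_flip ht) χ (t y u) = _ from cov_t (isTP_flip ht) χ u y, h1, one_smul] at h2
  exact Submodule.mem_span_singleton.2 ⟨_, h2.symm⟩

theorem quad_tens (ht : IsTensorProduct t) [Nontrivial S] (h2 : (2 : F) ≠ 0) {g : V ≃ₗ[F] V}
    (hg : g ∈ Tg F t) {N : V →ₗ[F] V} (h1 : ∀ v, g v = v + N v) (h0 : ∀ v, N (N v) = 0) :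
    (∃ n : W →ₗ[F] W, ∀ x w, N (t x w) = t x (n w)) ∨
      ∃ n : S →ₗ[F] S, ∀ x w, N (t x w) = t (n x) w := by
  obtain ⟨a, b, h⟩ := exists_linear_of_Tg ht hg
  have a1 : ∀ x w, N (t x w) = t (a x) (b w) - t x w := fun x w => by simp [← h, h1]
  rcases scalar_or a.toLinearMap with ⟨c, hc⟩ | ⟨x, hx⟩
  · exact Or.inl ⟨c • b.toLinearMap - 1, fun x w => by simp [a1, show a x = c • x from hc x]⟩
  obtain ⟨χ, a2, a3⟩ := exists_dual_pair hx
  have a4 : ∀ x w, cov F (isTP_flip ht) χ (t x w) = χ x • w := fun x w =>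
    cov_t (isTP_flip ht) χ w x
  have a5 : ∀ w, b w = (2 / χ (a (a x))) • w := fun w => by
    obtain ⟨w, rfl⟩ := b.surjective w
    have a6 := congrArg (cov F (isTP_flip ht) χ) (h0 (t x w))
    simp only [a1, map_sub, a4, a2, show χ (a x) = 1 from a3, map_zero] at a6
    by_cases e : χ (a (a x)) = 0
    · have : b w = 0 := smul_right_injective W h2 (by
        simp only [e] at a6 ⊢; linear_combination (norm := module) -a6)
      simp [this]
    · rw [div_eq_inv_mul, mul_smul, eq_inv_smul_iff₀ e]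
      linear_combination (norm := module) a6
  exact Or.inr ⟨(2 / χ (a (a x))) • a.toLinearMap - 1, fun x w => by simp [a1, a5]⟩

theorem mem_Tg_flip (ht : IsTensorProduct t) [Nontrivial S] [Nontrivial W] {g : V ≃ₗ[F] V} :
    g ∈ Tg F t ↔ g ∈ Tg F t.flip :=
  ⟨fun h => have ⟨a, b, h⟩ := exists_linear_of_Tg ht h; ⟨b, a, fun w x => h x w⟩,
    fun h => have ⟨a, b, h⟩ := exists_linear_of_Tg (isTP_flip ht) h; ⟨b, a, fun w x => h x w⟩⟩

theorem exists_form_symm {ι : Type} [Fintype ι] (h2 : (2 : F) ≠ 0) {f : (ι → F) → (ι → F) → F}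
    (hf : IsSymmetricForm f) {c : F} (hc : c ≠ 0) : ∃ Ψ : Form (RingHom.id F) (ι → F),
      Ψ.Nondeg ∧ Ψ.κ = 1 ∧ ∀ u v, Ψ.B u v = c * f u v := by
  let β : LinearMap.BilinMap F (ι → F) F := LinearMap.mk₂ F f hf.bilinear.add_left
    hf.bilinear.smul_left hf.bilinear.add_right hf.bilinear.smul_right
  have c1 : ∀ u v, (ofQuad ((c / 2) • β).toQuadraticMap).B u v = c * f u v := fun u v => by
    refine (LinearMap.BilinMap.polar_toQuadraticMap ..).trans ?_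
    simp [β, hf.symm v u]
    field_simp; ring
  refine ⟨_, fun x hx => ?_, rfl, c1⟩
  by_contra h0
  obtain ⟨y, hy⟩ := (hf.nondegenerate x h0).2
  exact mul_ne_zero hc hy (c1 x y ▸ hx y)

namespace Sy

variable {Φ : Form (RingHom.id F) V} {f : Form (RingHom.id F) S} {h : Form (RingHom.id F) W}
  (p : Sy Φ f h t) {H : Subgroup (V ≃ₗ[F] V)} {u w e : W} [FiniteDimensional F W]
include p

theorem mem_of_cv {X : Submodule F V} {v : V} (h1 : ∀ w w', t (p.cv w v) w' ∈ X) : v ∈ X := by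
  rw [← sum_cov (F := F) p.ht (Module.finBasis F W) v]
  refine X.sum_mem fun i _ => ?_
  obtain ⟨y, hy⟩ := p.hn.exists_repr ((Module.finBasis F W).coord i)
  exact LinearMap.ext hy ▸ h1 y _

theorem inv_neg [Nontrivial S] (h5 : 3 ≤ finrank F W) (hu : u ≠ 0) {z : V ≃ₗ[F] V}
    (hz : z ∈ Tg F t) (h1 : ∀ v, z (z v) = v) (h2 : z ≠ 1)
    (h3 : ∀ v, z (t (p.cv u v) u) = t (p.cv u (z v)) u)
    (h4 : ∀ v, z v = -v → p.cv u v = 0 → ∃ x, t x u = v) :
    ∃ b : W →ₗ[F] W, (∀ x w, z (t x w) = -t x (b w)) ∧ b u = u := by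
  obtain ⟨x₀, hx⟩ := exists_ne (0 : S)
  obtain ⟨w₀, hw⟩ := p.hn.exists_ne hu
  obtain ⟨a, b, a1, a2⟩ : ∃ (a : S →ₗ[F] S) (b : W →ₗ[F] W), (∀ x w, z (t x w) = t (a x) (b w)) ∧
      b u = u := by
    obtain ⟨a, b, a1⟩ := exists_linear_of_Tg p.ht hz
    have a2 := h3 (t x₀ w₀)
    rw [cov_t, hw, one_smul, a1] at a2
    obtain ⟨c, hc⟩ := Submodule.mem_span_singleton.1 (mem_span_of_t p.ht (by simpa) a2)
    have a3 : c ≠ 0 := by rintro rfl; exact hu (by simpa using hc.symm)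
    exact ⟨c • a.toLinearMap, c⁻¹ • b.toLinearMap, fun x w => by simp [a1, smul_smul, a3],
      by simp [← hc, a3]⟩
  have a3 : ∀ x, a (a x) = x := fun x => sub_eq_zero.1 (t_eq_zero p.ht hu (by
    simpa [a1, a2, sub_eq_zero] using h1 (t x u)))
  have a4 : ∀ w, b (b w) = w := fun w => t_inj p.ht hx (by simpa [a1, a3] using h1 (t x₀ w))
  refine ⟨b, fun x w => ?_, a2⟩
  by_contra hc
  have a5 : x + a x ≠ 0 := fun e => hc (by simp [a1, eq_neg_of_add_eq_zero_right e])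
  have a6 : a (x + a x) = x + a x := by simp [a3, add_comm]
  generalize x + a x = y at a5 a6
  have a7 : ∀ w, b w = w := fun w => by
    have b1 : h.B u (b w) = h.B u w := by
      have := h3 (t y w)
      simp only [cov_t, a1, a2, map_smul, a6, LinearMap.smul_apply] at this
      exact (smul_left_injective F (fun e => a5 (t_eq_zero p.ht hu e)) this).symm
    obtain ⟨x', b2⟩ := h4 (t y (w - b w)) (by simp [a1, a6, a4]) (by simp [b1])
    obtain ⟨c, b3⟩ := Submodule.mem_span_singleton.1 (mem_span_of_t p.ht a5 b2.symm)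
    have b4 := congrArg b b3
    rw [map_smul, a2, b3, map_sub, a4] at b4
    exact smul_right_injective W p.odd (by simp only; linear_combination (norm := module) -b4)
  obtain ⟨x', b1⟩ : ∃ x', x' - a x' ≠ 0 := by
    by_contra! e
    exact h2 (LinearEquiv.ext (ext_t p.ht (f := z.toLinearMap) (f' := LinearMap.id) fun x w => by
      simp [a1, a7, ← sub_eq_zero.1 (e x)]))
  obtain ⟨e, -, b2, b3⟩ := p.hn.exists_perp_notMem (T := ⊤) (S := F ∙ u) [u]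
    (by simp [finrank_span_singleton hu]; omega)
  obtain ⟨x'', b4⟩ := h4 (t (x' - a x') e) (by simp [a1, a7, a3]) (by simp [b3 u (by simp)])
  exact b2 (mem_span_of_t p.ht b1 b4.symm)

variable (hM : Tg F t ⊓ Φ.O ≤ H) (hH : H ≤ Φ.O)
  [Fintype F] [FiniteDimensional F S] [FiniteDimensional F V]
  (hq : 4 ≤ Fintype.card F ∨ 4 ≤ finrank F S) (hs : 3 ≤ finrank F S)
  (h5 : 3 ≤ finrank F W) (hN : ¬ Φ.O ≤ H) [Nontrivial S]
include hM hH hq hs h5 hN

theorem mem_of_conj {k y : V ≃ₗ[F] V} (hk : k ∈ H) (hu : u ≠ 0) (hy : y ∈ Tg F t ⊓ Φ.O)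
    (h1 : ∀ v, y v = v + k.symm (t (p.cv u (k v)) u)) : k ∈ Tg F t := by
  obtain ⟨x₀, hx⟩ := exists_ne (0 : S)
  obtain ⟨w₀, hw⟩ := p.hn.exists_ne hu
  let N : V →ₗ[F] V := k.symm.toLinearMap ∘ₗ vec F t u ∘ₗ p.cv u ∘ₗ k.toLinearMap
  have a0 : ∀ v, k (N v) = t (p.cv u (k v)) u := fun v => by simp [N]
  have a1 : ∀ x, N (k.symm (t x w₀)) = k.symm (t x u) := fun x => by simp [N, hw]
  have a2 : ¬ ∀ x w, N (t x w) = 0 := fun e => hx (t_eq_zero p.ht hu (by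
    simpa [a1] using ext_t p.ht (f := N) (f' := 0) e (k.symm (t x₀ w₀))))
  rcases quad_tens p.ht p.odd hy.1 (N := N) h1 (by simp [N, p.h0]) with ⟨n, hn⟩ | ⟨n, hn⟩
  · obtain ⟨w, b1⟩ : ∃ w, n w ≠ 0 := by
      by_contra! e
      exact a2 (by simp [hn, e])
    exact block (p := p) hM hH hq hs h5 hN hk b1 fun x => ⟨_, (congrArg k (hn x w).symm).trans (a0 _)⟩
  exfalso
  obtain ⟨x₁, b1⟩ : ∃ x, n x ≠ 0 := by
    by_contra! e
    exact a2 (by simp [hn, e])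
  have b2 : ∀ x w, k (t (n x) w) = t (p.cv u (k (t x w))) u := fun x w => by rw [← hn, a0]
  have b3 : ∀ x x', f.B (n x) (n x') = 0 := fun x x' => by
    simpa [b2, p.B, p.h0, hw] using ((hH hk).1 (t (n x) u) (t (n x') w₀)).symm
  obtain ⟨e, -, b4, b5⟩ := p.hn.exists_perp_notMem (T := ⊤) (S := F ∙ u) [u]
    (by simp [finrank_span_singleton hu]; omega)
  replace b5 := b5 u (by simp)
  obtain ⟨e₀, b6, b7⟩ : ∃ e₀, (∀ x, f.B (n x) e₀ = 0) ∧ p.cs e₀ (k.symm (t x₀ e)) ≠ 0 := by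
    by_contra! hc
    obtain ⟨v, hv⟩ := p.mem_of_cv (X := LinearMap.range N) (v := k.symm (t x₀ e)) fun w w' => by
      obtain ⟨x, hx⟩ : p.cv w (k.symm (t x₀ e)) ∈ LinearMap.range n := by
        rw [← p.fn.perp_perp (LinearMap.range n)]
        intro y hy
        rw [← p.B_t, p.B_t', hc y fun x => hy _ ⟨x, rfl⟩, map_zero]
      exact ⟨t x w', by rw [hn, hx]⟩
    exact b4 (mem_span_of_t p.ht hx (by rw [← a0, hv, k.apply_symm_apply]))
  obtain ⟨g, c1, c2⟩ := exists_eq p.fn p.fk (a := n x₁) (e := e₀)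
    (mul_left_cancel₀ p.odd (by rw [← B_self_quad p.fk, b3, mul_zero])) (b6 x₁)
  obtain ⟨r, c3, c4⟩ := p.tens (E_le_O c1) (one_mem _)
  have c5 : ∀ v, r v = v + t (n x₁) (p.cs e₀ v - f.Q e₀ • p.cs (n x₁) v) - t e₀ (p.cs (n x₁) v) :=
    ext_t p.ht (f := r.toLinearMap) (f' := LinearMap.id + t (n x₁) ∘ₗ (p.cs e₀ - f.Q e₀ • p.cs (n x₁))
      - t e₀ ∘ₗ p.cs (n x₁)) fun x w => by simp [c4, c2, sub_smul, mul_smul]
  obtain ⟨c, c6⟩ := RT.rat (p := p) hM hH hq hs h5 hN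
    (φ := p.cv u ∘ₗ k.toLinearMap ∘ₗ t x₁ ∘ₗ p.cs e₀ ∘ₗ k.symm.toLinearMap)
    ⟨k * r * k⁻¹, mul_mem (mul_mem hk (hM c3)) (inv_mem hk), fun x => by
      have := ext_t p.ht (f := p.cs e₀ ∘ₗ N) (f' := 0) (fun x w => by
        simp [hn, f.B_eq_zero_symm (b6 x)]) (k.symm (t x w₀))
      simp only [LinearMap.comp_apply, a1] at this
      simp [this], fun v hv => by
      obtain ⟨v, rfl⟩ := k.surjective v
      have : p.cs (n x₁) v = 0 := p.hn.eq_of_forall' fun w => by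
        rw [← p.B_t', ← (hH hk).1, b2, p.B_t, hv]; simp
      simp [c5, this, b2]⟩ hu b5
  replace c6 : ∀ x, k (t (n x₁) (p.cs e₀ (k.symm (t x e)))) = c • t x u := fun x => by
    rw [b2]; exact (congrArg (t · u) (c6 x)).trans (by simp)
  have c7 : c ≠ 0 := by
    rintro rfl
    exact b1 (t_eq_zero p.ht b7 (by simpa using c6 x₀))
  have c8 : ∀ x, n x ∈ F ∙ n x₁ := fun x => mem_span_of_t (isTP_flip p.ht) hu
    (y := c⁻¹ • p.cs e₀ (k.symm (t (p.cv u (k (t x u))) e))) (k.injective (by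
      rw [LinearMap.flip_apply, LinearMap.flip_apply, map_smul, map_smul, c6, b2]; simp [c7]))
  obtain ⟨a', d1⟩ := p.fn.exists_ne b1
  obtain ⟨x, -, d2, d3⟩ := exists_ne_ne (W := ⊤) (φ := f.B a' ∘ₗ n) (ψ := f.B (n x₁))
    ⟨x₁, trivial, by simp [B_comm_quad p.fk a', d1]⟩ ⟨a', trivial, by simp [d1]⟩
  obtain ⟨d, d4⟩ := Submodule.mem_span_singleton.1 (c8 x)
  have d5 := hy.2.1 (t x u) (t x w₀)
  rw [h1, h1] at d5
  change Φ.B (_ + N _) (_ + N _) = _ at d5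
  simp [hn, p.B, hw, b3, B_comm_quad p.fk (n x) x] at d5
  simp [← d4, B_comm_quad p.fk x (n x₁)] at d5 d2
  exact mul_ne_zero p.odd (mul_ne_zero d2.1 d3) (by linear_combination d5)

theorem mem_Tg {g : V ≃ₗ[F] V} (hg : g ∈ H) : g ∈ Tg F t := by
  by_contra hc
  obtain ⟨x₀, hx⟩ := exists_ne (0 : S)
  obtain ⟨u', hu'⟩ := (finrank_pos_iff_exists_ne_zero (R := F) (M := W)).1 (by omega)
  obtain ⟨x₁, a1⟩ : ∃ x, p.cs x (g (t x₀ u')) ≠ 0 := by
    by_contra! e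
    refine hx (t_eq_zero p.ht hu' (g.injective (p.nd.eq_of_forall' fun v => ?_)))
    exact ext_t p.ht (f := Φ.B.flip _) (f' := Φ.B.flip _) (fun x w => by simp [p.B_t', e]) v
  obtain ⟨u, -, a2, a3⟩ := p.hn.exists_perp_notMem (T := ⊤) (S := F ∙ p.cs x₁ (g (t x₀ u')))
    [p.cs x₁ (g (t x₀ u'))] (by simp [finrank_span_singleton a1]; omega)
  have hu : u ≠ 0 := by rintro rfl; simp at a2
  obtain ⟨x, b1, b2⟩ := p.exists_tv u 1
  obtain ⟨x', b3, b4⟩ := p.exists_tv u' 1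
  simp only [one_smul] at b2 b4
  have D : ∀ {u x}, u ≠ 0 → (∀ v, x v = v + t (p.cv u v) u) → ∀ k ∈ H,
      k⁻¹ * x * k ∈ Tg F t ⊓ Φ.O → k ∈ Tg F t ⊓ Φ.O := fun hu hx k hk h =>
    ⟨p.mem_of_conj hM hH hq hs h5 hN hk hu h fun v => by simp [hx], hH hk⟩
  have b5 : g * x' * g⁻¹ ∈ H := mul_mem (mul_mem hg (hM b3)) (inv_mem hg)
  rcases quad_pair (x := x) (y := g * x' * g⁻¹) p.odd (N := vec F t u ∘ₗ p.cv u)
    (N' := g.toLinearMap ∘ₗ vec F t u' ∘ₗ p.cv u' ∘ₗ g.symm.toLinearMap) b2 (by simp [b4])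
    (by simp [p.h0]) (by simp [p.h0]) with e | ⟨z, c1, c2, c3, c4, c5, c6⟩
  · exact hc (by simpa using (Tg F t).inv_mem (D hu' b4 g⁻¹ (inv_mem hg)
      (by simpa using mem_of_nilpotent b1 (hM b1) b5 (D hu b2) e)).1)
  have c7 : z ∈ H := (Subgroup.closure_le H).2 (by
    rintro _ (rfl | rfl)
    exacts [hM b1, b5]) c1
  simp only [LinearMap.comp_apply, vec_apply, LinearEquiv.coe_coe] at c4 c5 c6
  obtain ⟨b, d1, d2⟩ := p.inv_neg h5 hu (D hu b2 z c7 (by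
    rwa [show z⁻¹ * x * z = x from LinearEquiv.ext fun v => z.symm_apply_eq.2 (by
      simp [b2, c4])])).1 c2 c3 c4 fun v e1 e2 => ((c6 v e1).1 (by simp [e2])).elim fun w e => ⟨_, e⟩
  obtain ⟨b', d3, d4⟩ := p.inv_neg h5 hu' (z := g⁻¹ * z * g) (D hu' b4 _
    (mul_mem (mul_mem (inv_mem hg) c7) hg) (by
      rwa [show (g⁻¹ * z * g)⁻¹ * x' * (g⁻¹ * z * g) = x' from LinearEquiv.ext fun v => by
        have := c5 (g v)
        simp at this
        simp [b4, ← this]])).1 (by simp [c2]) (fun e => c3 (by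
          rw [show z = g * (g⁻¹ * z * g) * g⁻¹ by group, e]; simp))
    (fun v => g.symm_apply_eq.2 (by simpa using c5 (g v))) fun v e1 e2 => by
      obtain ⟨w, e⟩ := (c6 (g v) (by simpa using congrArg g e1)).2 (by simp [e2])
      exact ⟨_, g.injective e⟩
  have d5 : z (g (t x₀ u')) = -g (t x₀ u') := by simpa [d4] using congrArg g (d3 x₀ u')
  have d6 := ext_t p.ht (f := p.cs x₁ ∘ₗ z.toLinearMap) (f' := -b ∘ₗ p.cs x₁)
    (fun x w => by simp [d1]) (g (t x₀ u'))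
  simp only [LinearMap.comp_apply, LinearEquiv.coe_coe, d5, map_neg, LinearMap.neg_apply,
    neg_inj] at d6
  obtain ⟨w, d7⟩ := (c6 (t x₀ (p.cs x₁ (g (t x₀ u')))) (by rw [d1, ← d6])).1
    (by simp [h.B_eq_zero_symm (a3 _ (List.mem_singleton_self _))])
  obtain ⟨c, d8⟩ := Submodule.mem_span_singleton.1 (mem_span_of_t p.ht hx d7.symm)
  rw [← d8] at a1 a2
  exact a2 (Submodule.mem_span_singleton.2 ⟨c⁻¹, by simp [left_ne_zero_of_smul a1]⟩)

omit hM hH hN in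
theorem isMaximalIn : IsMaximalIn Φ.E (Tg F t ⊓ Φ.E) := by
  rw [E_alt p.nd p.ε p.kap]
  refine isMaximalIn_of inf_le_right ?_ fun H h1 h3 g hg hg' => by_contra fun h4 =>
    hg' ⟨p.mem_Tg h1 h3 hq hs h5 h4 hg, h3 hg⟩
  obtain ⟨x, hx⟩ := exists_ne (0 : S)
  obtain ⟨u, hu⟩ := (finrank_pos_iff_exists_ne_zero (R := F) (M := W)).1 (by omega)
  obtain ⟨y, hy⟩ := p.fn.exists_ne hx
  obtain ⟨w, hw⟩ := p.hn.exists_ne hu
  obtain ⟨T, a4, a5⟩ := exists_tv_alt p.nd p.ε p.kap (t x u) 1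
  refine ⟨T, a4, fun hT => ?_⟩
  rcases quad_tens p.ht p.odd hT.1 (N := (Φ.B (t x u)).smulRight (t x u)) (by simpa using a5)
    (by simp [p.B, p.h0]) with ⟨n, hn⟩ | ⟨n, hn⟩
  · obtain ⟨y', -, b1, b2⟩ := p.fn.exists_perp_notMem (T := ⊤) (S := ⊥) [x] (by simp; omega)
    have b3 := hn y w
    have b4 := hn y' w
    simp [p.B, hy, hw, b2 x (by simp)] at b3 b4
    exact b1 (t_eq_zero p.ht (fun e => hx (t_eq_zero p.ht hu (by simpa [e] using b3))) b4.symm)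
  · obtain ⟨w', -, b1, b2⟩ := p.hn.exists_perp_notMem (T := ⊤) (S := ⊥) [u] (by simp; omega)
    have b3 := hn y w
    have b4 := hn y w'
    simp [p.B, hy, hw, b2 u (by simp)] at b3 b4
    exact hx (t_eq_zero p.ht hu (by
      simpa [t_eq_zero p.ht (by simpa using b1) b4.symm] using b3))

end Sy

theorem isMaximalIn_sy_tensor [Fintype F] {m n₁ n₂ : ℕ} (h2 : (2 : F) ≠ 0) (h1 : 3 ≤ n₁)
    (h3 : 3 ≤ n₂) (hq : 4 ≤ Fintype.card F ∨ 4 ≤ n₂)
    {e : (Fin m ⊕ Fin m) ≃ Fin n₁ × Fin n₂} {P : GL (Fin m ⊕ Fin m) F} {f₁ f₂}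
    (hf₁ : IsSymplecticForm f₁) (hf₂ : IsSymmetricForm f₂)
    (hT : IsTensorFormStructure id (sympForm m F) f₁ f₂ e P) :
    IsMaximalIn (spGL m F) (tensorProductSubgroup n₁ n₂ e P ⊓ spGL m F) := by
  obtain ⟨c, a1, a2⟩ := As.tensor_pure (σ := RingHom.id F) hT
  obtain ⟨h, b1, b2, b3, b4⟩ := exists_form_of_isSymplecticForm hf₁
  obtain ⟨f, c1, c2, c3⟩ := exists_form_symm h2 hf₂ a1
  have : Nonempty (Fin n₁) := ⟨⟨0, by omega⟩⟩
  have : Nonempty (Fin n₂) := ⟨⟨0, by omega⟩⟩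
  refine isMaximalIn_of_iff (glE _ F) (Sy.isMaximalIn (f := f) (h := h)
    ⟨isTP_flip (isTensorProduct_tP e P), spForm_nondeg m, rfl, rfl, c1, c2, b1, b2, b3, h2,
      fun x w y w' => ((spForm_B ..).trans (a2 w x w' y)).trans ?_⟩ (by simpa) (by simpa) (by simpa))
    (fun g => mem_spGL_iff_E) fun g => and_congr ((mem_tensorProductSubgroup_iff_Tg (by omega)).trans
      (mem_Tg_flip (isTensorProduct_tP e P))) mem_spGL_iff_E
  rw [c3, ← As.eq_fog_of_bilin hf₁.bilinear, ← As.eq_fog_of_bilin hf₂.bilinear, b4]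
  ring

end H23.Qp
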