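import Cfsg.Agent.H23.Qp4

/-! The tensor product of two orthogonal spaces: local analysis. -/

set_option autoImplicit false

namespace H23.Qp

open Module H22 Cfsg Cfsg.Geo Form Tn Nd

variable {F S W V : Type*} [Field F] [AddCommGroup S] [Module F S] [AddCommGroup W] [Module F W]
  [AddCommGroup V] [Module F V]

theorem mem_E_of_unip [Finite F] [FiniteDimensional F V] {Φ : Form (RingHom.id F) V}
    (hn : Φ.Nondeg) (hk : Φ.κ = 1) (h2 : (2 : F) ≠ 0) (h5 : 5 ≤ finrank F V) {g : V ≃ₗ[F] V}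
    (hg : g ∈ Φ.O) (h : IsNilpotent (g.toLinearMap - 1)) : g ∈ Φ.E := by
  obtain ⟨p, hp⟩ := CharP.exists F
  have : Fact p.Prime := ⟨CharP.char_is_prime F p⟩
  have : Nontrivial V := Module.nontrivial_of_finrank_pos (R := F) (by omega)
  have : CharP (End F V) p := charP_of_injective_algebraMap (RingHom.injective (algebraMap F _)) p
  obtain ⟨n, a7⟩ := h
  have a8 := pow_eq_zero_of_le (Nat.lt_pow_self (n := n) (Fact.out : p.Prime).one_lt).le a7
  rw [sub_pow_char_pow_of_commute _ _ (Commute.one_right _), one_pow, sub_eq_zero] at a8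
  have a1 : (⟨g, hg⟩ : Φ.O) ^ p ^ n = 1 := Subtype.ext (LinearEquiv.toLinearMap_injective
    ((map_pow LinearEquiv.automorphismGroup.toLinearMapMonoidHom g _).trans a8))
  have a2 : Odd (p ^ n) := ((Fact.out : p.Prime).odd_of_ne_two (by
    rintro rfl; exact h2 (CharP.cast_eq_zero F 2))).pow
  have a3 : ∀ χ : Φ.O →* ℤˣ, χ ⟨g, hg⟩ = 1 := fun χ => by
    have := congrArg χ a1
    rw [map_pow, map_one] at this
    rcases Int.units_eq_one_or (χ ⟨g, hg⟩) with e | e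
    · exact e
    · rw [e, a2.neg_one_pow] at this; exact e.trans this
  exact mem_E_of hn hk h5 (g := ⟨g, hg⟩) (a3 _) (a3 _)

/-- The quadratic form on the tensor product of two orthogonal spaces. -/
structure Oo (Φ : Form (RingHom.id F) V) (f : Form (RingHom.id F) S) (h : Form (RingHom.id F) W)
    (t : S →ₗ[F] W →ₗ[F] V) : Prop where
  ht : IsTensorProduct t
  nd : Φ.Nondeg
  kap : Φ.κ = 1
  fn : f.Nondeg
  fk : f.κ = 1
  hn : h.Nondeg
  hk : h.κ = 1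
  odd : (2 : F) ≠ 0
  five : 5 ≤ finrank F V
  B : ∀ x w y w', Φ.B (t x w) (t y w') = f.B x y * h.B w w'

namespace Oo

variable {Φ : Form (RingHom.id F) V} {f : Form (RingHom.id F) S} {h : Form (RingHom.id F) W}
  {t : S →ₗ[F] W →ₗ[F] V} (p : Oo Φ f h t) {H : Subgroup (V ≃ₗ[F] V)} {u w e : W}
  {φ φ' : V →ₗ[F] S}
include p

theorem flip : Oo Φ h f t.flip :=
  ⟨isTP_flip p.ht, p.nd, p.kap, p.hn, p.hk, p.fn, p.fk, p.odd, p.five,
    fun _ _ _ _ => (p.B ..).trans (mul_comm ..)⟩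

/-- The contraction with `h u`. -/
noncomputable abbrev cv (u : W) : V →ₗ[F] S := cov F p.ht (h.B u)

theorem B_t (x : S) (u : W) (v : V) : Φ.B (t x u) v = f.B x (p.cv u v) :=
  ext_t p.ht (f := Φ.B (t x u)) (f' := f.B x ∘ₗ p.cv u) (by simp [p.B, mul_comm]) v

theorem cv_add (u w : W) (v : V) : p.cv (u + w) v = p.cv u v + p.cv w v := by
  rw [cv, map_add, cov_add]

theorem cv_sub (u w : W) (v : V) : p.cv (u - w) v = p.cv u v - p.cv w v := by
  rw [cv, map_sub, cov_sub]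

theorem cv_smul (u : W) (c : F) (v : V) : p.cv (c • u) v = c • p.cv u v := by
  rw [cv, map_smul, cov_smul_left]

theorem h0 (hu : h.Q u = 0) : h.B u u = 0 := by rw [B_self_quad p.hk, hu, mul_zero]

theorem hc (u w : W) : h.B u w = h.B w u := B_comm_quad p.hk u w

theorem sing (x : S) (hu : h.Q u = 0) : Sing Φ (t x u) := (sing_quad p.kap).2
  (mul_left_cancel₀ p.odd (by rw [← B_self_quad p.kap, p.B, p.h0 hu]; simp))

theorem mem_perp {v : V} : v ∈ Φ.perp (LinearMap.range (vec F t u)) ↔ p.cv u v = 0 :=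
  ⟨fun h1 => p.fn.eq_of_forall' fun x => by simpa [p.B_t] using h1 (t x u) ⟨x, rfl⟩,
    fun h1 _ ⟨x, hx⟩ => by simp [← hx, p.B_t, h1]⟩

variable [FiniteDimensional F W] [FiniteDimensional F V] [Finite F]

theorem exists_ei (hu : h.Q u = 0) (he : h.B u e = 0) : ∃ m ∈ Tg F t ⊓ Φ.E, ∀ v,
    m v = v + t (p.cv e v - h.Q e • p.cv u v) u - t (p.cv u v) e := by
  obtain ⟨b, a1, a2⟩ := exists_eq p.hn p.hk hu he
  obtain ⟨m, h1, h2⟩ := Pr.exists_tens p.ht 1 b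
  have h3 : ∀ v, m v = v + t (p.cv e v - h.Q e • p.cv u v) u - t (p.cv u v) e :=
    ext_t p.ht (f := m.toLinearMap) (f' := LinearMap.id + vec F t u ∘ₗ (p.cv e - h.Q e • p.cv u) -
      vec F t e ∘ₗ p.cv u) fun x w => by simp [h2, a2, sub_smul, mul_smul]
  refine ⟨m, ⟨h1, mem_E_of_unip p.nd p.kap p.odd p.five (mem_O_quad p.kap fun v =>
    mul_left_cancel₀ p.odd ?_) ⟨3, ?_⟩⟩, h3⟩
  · rw [← B_self_quad p.kap, ← B_self_quad p.kap]
    suffices ∀ v v', Φ.B (m v) (m v') = Φ.B v v' from this v v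
    exact fun v => p.ht.inductionOn v (by simp) (fun x u => ext_t p.ht
      (f := Φ.B (m (t x u)) ∘ₗ m.toLinearMap) (f' := Φ.B (t x u)) fun y w => by
        simp [h2, p.B, (E_le_O a1).1]) fun v v' a1 a2 z => by simp [a1, a2]
  · ext v
    simp [pow_succ, h3, p.h0 hu, he, p.hc e u]

theorem tensE {b : W ≃ₗ[F] W} (hb : b ∈ h.E) :
    ∃ m ∈ Tg F t ⊓ Φ.E, ∀ x y, m (t x y) = t x (b y) := by
  let K : Subgroup (W ≃ₗ[F] W) :=
    { carrier := {b | ∃ m ∈ Tg F t ⊓ Φ.E, ∀ x y, m (t x y) = t x (b y)}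
      mul_mem' := fun ⟨m, a1, a2⟩ ⟨m', a3, a4⟩ => ⟨m * m', mul_mem a1 a3, by simp [a2, a4]⟩
      one_mem' := ⟨1, one_mem _, by simp⟩
      inv_mem' := fun ⟨m, a1, a2⟩ => ⟨m⁻¹, inv_mem a1, fun x y => m.symm_apply_eq.2 (by simp [a2])⟩ }
  refine ED_le' (H := K) (fun u _ e _ s hs g hg => ?_) hb
  obtain ⟨m, a1, a2⟩ := p.exists_ei hs.sing.2 hs.perp
  obtain rfl : s = h.Q e := by simpa [p.hk] using hs.trQ
  exact ⟨m, a1, fun x y => by simp [a2, hg, eich_q p.hk, sub_smul, mul_smul]⟩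

theorem exists_ns (h5 : 5 ≤ finrank F W) (u e : W) : ∃ d, h.Q d ≠ 0 ∧ h.B u d = 0 ∧ h.B e d = 0 :=
  have ⟨d, a1, a2⟩ := exists_Q_ne_zero_perp p.hk p.hn (Pr.not_perp_le p.hn h5 u e)
  ⟨d, a2, Pr.mem_perp_pair.1 a1⟩

theorem exists_sg (h5 : 5 ≤ finrank F W) (hu : u ≠ 0) :
    ∃ e, h.Q e = 0 ∧ e ∉ F ∙ u ∧ h.B u e = 0 :=
  have ⟨e, _, a1, a2, a3⟩ := (iso3_quad p.hk).exists_perp p.hn (T := ⊤) (S := F ∙ u) [u]
    (by simp [finrank_span_singleton hu]; omega)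
  ⟨e, a1.2, a2, a3 u (by simp)⟩

omit [FiniteDimensional F V] [Finite F] in
theorem exists_hy (hu : h.B u e = 0) (he : h.Q e = 0) (h0 : e ∉ F ∙ u) :
    ∃ y, h.Q y = 0 ∧ h.B u y = 0 ∧ h.B e y = 1 :=
  have ⟨y, a1, a2⟩ := exists_hyp_mem p.hn (D := h.perp (F ∙ u)) ((sing_quad p.hk).2 he)
    (h.mem_perp_span_singleton.2 hu) (by rwa [p.hn.perp_perp])
  ⟨y, a2.right.2, h.mem_perp_span_singleton.1 a1, a2.one⟩

theorem perp_ind (h5 : 5 ≤ finrank F W) (hu : u ≠ 0) {P : W → Prop}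
    (h1 : ∀ e, h.B u e = 0 → h.Q e = 0 → P e) (h2 : ∀ e e', P e → P e' → P (e + e'))
    (he : h.B u e = 0) : P e := by
  obtain ⟨a, a1, a2, a3⟩ := p.exists_sg h5 hu
  obtain ⟨y, b1, b2, b3⟩ := p.exists_hy a3 a1 a2
  set w := e + (1 - h.B a e) • y with hw
  have := h2 _ _ (h2 _ _ (h1 (w - h.Q w • a) (by simp [hw, he, b2, a3]) (by
    simp [h.Q_sub, h.Q_smul, a1, p.hk, hw, p.hc e a, p.hc y a, b3])) (h1 (h.Q w • a) (by simp [a3])
    (by simp [h.Q_smul, a1]))) (h1 ((h.B a e - 1) • y) (by simp [b2]) (by simp [h.Q_smul, b1]))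
  convert this using 1
  rw [hw]; module

omit [FiniteDimensional F W] [FiniteDimensional F V] [Finite F]

variable (H u φ) in
/-- Elements of the unipotent radical of the stabiliser of a block, modulo its centre. -/
def RT : Prop := ∃ r ∈ H, (∀ x, φ (t x u) = 0) ∧ ∀ v, p.cv u v = 0 → r v = v + t (φ v) u

variable (H) in
/-- The coefficients occurring in `H`. -/
def Lz (z : End F S) : Prop :=
  ∀ u ≠ 0, h.Q u = 0 → ∀ e, h.B u e = 0 → p.RT H u (z ∘ₗ p.cv e)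

variable {p} (hs : h.Q u = 0)
include hs

theorem RT.congr (h1 : p.RT H u φ) (h2 : ∀ v, p.cv u v = 0 → φ v = φ' v) : p.RT H u φ' :=
  have ⟨r, a1, a2, a3⟩ := h1
  ⟨r, a1, fun x => by rw [← h2 _ (by simp [p.h0 hs]), a2], fun v hv => by rw [a3 v hv, h2 v hv]⟩

theorem rt_zero (h2 : ∀ v, p.cv u v = 0 → φ v = 0) : p.RT H u φ :=
  RT.congr hs (φ := 0) ⟨1, one_mem _, by simp⟩ fun v hv => (h2 v hv).symm

theorem RT.add (h1 : p.RT H u φ) (h2 : p.RT H u φ') : p.RT H u (φ + φ') :=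
  have ⟨r, a1, a2, a3⟩ := h1
  have ⟨r', a4, a5, a6⟩ := h2
  ⟨r * r', mul_mem a1 a4, by simp [a2, a5], fun v hv => by
    simp [a6 v hv, a3 v hv, a3 (t _ u) (by simp [p.h0 hs]), a2, add_assoc]⟩

theorem RT.neg (h1 : p.RT H u φ) : p.RT H u (-φ) :=
  have ⟨r, a1, a2, a3⟩ := h1
  ⟨r⁻¹, inv_mem a1, by simp [a2], fun v hv => r.symm_apply_eq.2 (by
    simp [a3 v hv, a3 (t _ u) (by simp [p.h0 hs]), a2])⟩

theorem RT.sub (h1 : p.RT H u φ) (h2 : p.RT H u φ') : p.RT H u (φ - φ') :=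
  sub_eq_add_neg φ φ' ▸ h1.add hs (h2.neg hs)

omit hs in
theorem RT.conj (hH : H ≤ Φ.O) (h1 : p.RT H u φ) {m : V ≃ₗ[F] V} (hm : m ∈ H) {a : S ≃ₗ[F] S}
    (h2 : ∀ x, m (t x u) = t (a x) w) :
    p.RT H w (a.toLinearMap ∘ₗ φ ∘ₗ m.symm.toLinearMap) := by
  obtain ⟨r, a1, a2, a3⟩ := h1
  refine ⟨m * r * m⁻¹, mul_mem (mul_mem hm a1) (inv_mem hm), fun x => ?_, fun v hv => ?_⟩
  · obtain ⟨x, rfl⟩ := a.surjective x
    simp [← h2, a2]
  · have : p.cv u (m.symm v) = 0 := p.fn.eq_of_forall' fun x => by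
      rw [← p.B_t, ← (hH hm).1, h2, p.B_t]; simp [hv]
    simp [a3 _ this, h2]

theorem RT.diff (hH : H ≤ Φ.O) (h1 : p.RT H u φ) {m : V ≃ₗ[F] V} (hm : m ∈ H)
    (h2 : ∀ x, m (t x u) = t x u) : p.RT H u (φ ∘ₗ (m.toLinearMap - 1)) :=
  ((h1.conj hH (inv_mem hm) (a := 1) (w := u) fun x => m.symm_apply_eq.2 (h2 x).symm).sub hs
    h1).congr hs fun v _ => (map_sub φ (m v) v).symm

variable [FiniteDimensional F V] [Finite F] [FiniteDimensional F W]
  (hM : Tg F t ⊓ Φ.E ≤ H) (hH : H ≤ Φ.O) (h5 : 5 ≤ finrank F W)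
include hM

theorem rt_rat (he : h.B u e = 0) : p.RT H u (p.cv e) := by
  obtain ⟨g, a1, a2⟩ := p.exists_ei hs he
  exact ⟨g, hM a1, by simp [p.hc e u, he], fun v hv => by simp [a2, hv]⟩

include hH h5

theorem RT.proj (h1 : p.RT H u φ) (he : h.B u e = 0) (h2 : h.Q e = 0) (c : F) :
    p.RT H u (c • (φ ∘ₗ vec F t e ∘ₗ p.cv e)) := by
  obtain ⟨d, a1, a2, a3⟩ := p.exists_ns h5 u e
  have a4 : ∀ a : F, p.RT H u ((a ^ 2 * (-2 * h.Q d)) • (φ ∘ₗ vec F t e ∘ₗ p.cv e)) := fun a => by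
    obtain ⟨m, b1, b2⟩ := p.exists_ei h2 (e := a • d) (by simp [a3])
    have b3 : ∀ x, m (t x u) = t x u := by simp [b2, p.hc e u, p.hc d u, he, a2]
    refine ((h1.diff hs hH (hM b1) b3).diff hs hH (hM b1) b3).congr hs fun v _ => ?_
    simp [b2, p.h0 h2, a3, p.hc d e, B_self_quad p.hk d, smul_smul]
    module
  obtain ⟨a, b, hc⟩ := exists_sq_sub (c / (-2 * h.Q d))
  refine ((a4 a).sub hs (a4 b)).congr hs fun v _ => ?_
  rw [← sub_smul, ← sub_mul, ← hc, div_mul_cancel₀ _ (by simp [a1, p.odd])]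

theorem RT.spread (h1 : p.RT H u φ) (hu : u ≠ 0) (he : h.B u e = 0) (hw : h.B u w = 0) :
    p.RT H u ((φ ∘ₗ vec F t e) ∘ₗ p.cv w) := by
  refine p.perp_ind h5 hu (P := fun e => p.RT H u ((φ ∘ₗ vec F t e) ∘ₗ p.cv w)) (fun e he h2 => ?_)
    (fun e e' a1 a2 => (a1.add hs a2).congr hs fun v _ => by simp) he
  by_cases h0 : e ∈ F ∙ u
  · obtain ⟨c, rfl⟩ := Submodule.mem_span_singleton.1 h0
    obtain ⟨-, -, a1, -⟩ := h1
    exact rt_zero hs fun v _ => by simp [a1]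
  obtain ⟨y, b1, b2, b3⟩ := p.exists_hy he h2 h0
  have a1 : ∀ w, h.B u w = 0 → h.B e w = 1 → h.Q w = 0 → ∀ c : F,
      p.RT H u (c • (φ ∘ₗ vec F t e) ∘ₗ p.cv w) := fun w h3 h4 h6 c =>
    ((h1.proj hs hM hH h5 he h2 1).proj hs hM hH h5 h3 h6 c).congr hs fun v _ => by simp [h4]
  set w' := w + (1 - h.B e w) • y with hw'
  refine (((a1 (w' - h.Q w' • e) (by simp [hw', he, b2, hw]) (by simp [hw', b3, p.h0 h2]) (by
    simp [h.Q_sub, h.Q_smul, h2, p.hk, p.hc w e, p.hc y e, hw', b3]) 1).add hs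
      (h1.proj hs hM hH h5 he h2 (h.Q w'))).sub hs (a1 y b2 b3 b1 (1 - h.B e w))).congr hs
        fun v _ => ?_
  simp [cv_sub, cv_smul, hw', cv_add]

theorem RT.lz (h1 : p.RT H u φ) (hu : u ≠ 0) (he : h.B u e = 0) : p.Lz H (φ ∘ₗ vec F t e) := by
  intro w hw hw' y hy
  obtain ⟨g, a1, rfl⟩ := p.hn.witt_one hu hw (by rw [p.h0 hs, p.h0 hw']) (hs.trans hw'.symm)
  obtain ⟨r, -, a2, -, a3⟩ := exists_corr (D := ⊤) p.hn p.hk h5 (by simp [perp_top _ p.hn])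
    (by simp; omega) trivial hs hu a1
  obtain ⟨c, a3⟩ := Submodule.mem_span_singleton.1 a3
  have a4 : c ≠ 0 := by rintro rfl; exact hu (by simpa using a3.symm)
  obtain ⟨m, a5, a6⟩ := p.tensE a2
  have a7 : (g * r) u = c • g u := by simp [← a3]
  generalize g * r = b at a2 a6 a7
  obtain ⟨y, rfl⟩ := b.surjective y
  refine ((h1.spread hs hM hH h5 hu he (w := c⁻¹ • y) (by
    simp [← (E_le_O a2).1 u y, a7, hy])).conj hH (hM a5) (a := LinearEquiv.smulOfNeZero F S c a4)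
    fun x => by simp [a6, a7]).congr hw' fun v _ => ?_
  obtain ⟨v, rfl⟩ := m.surjective v
  simpa [cv_smul, a4] using congrArg (fun x => φ (t x e)) (ext_t p.ht (f := p.cv y)
    (f' := p.cv (b y) ∘ₗ m.toLinearMap) (by simp [a6, (E_le_O a2).1]) v)

omit hs

theorem Lz.mul {z z' : End F S} (h1 : p.Lz H z) (h2 : p.Lz H z') : p.Lz H (z * z') := by
  obtain ⟨u, -, hu, hs⟩ := iso3_quad p.hk ⊤ (by simp; omega)
  obtain ⟨w, a0, a1, a2⟩ := p.exists_sg h5 hu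
  obtain ⟨w', a3, a4⟩ := p.hn.exists_perp_eq_one a1
  obtain ⟨e, -, a5, a6⟩ := p.hn.exists_perp_notMem (T := ⊤) (S := Submodule.span F {x | x ∈ [u, w]})
    [u, w] (by have := finrank_span_list_le (F := F) [u, w]; simp at this ⊢; omega)
  obtain ⟨y, a7, a8⟩ := p.hn.exists_perp_eq_one a5
  replace a3 := a3 u (Submodule.mem_span_singleton_self u)
  have a9 := a7 u (Submodule.subset_span (by simp))
  obtain ⟨r, b1, -, b2⟩ := h2 w (by rintro rfl; simp at a1) a0 y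
    (h.B_eq_zero_symm (a7 w (Submodule.subset_span (by simp))))
  have b3 := h1 u hu hs.2 w' (h.B_eq_zero_symm a3)
  have b4 := h.B_eq_zero_symm a2
  convert (b3.diff hs.2 hH b1 fun x => by simp [b2 (t x u) (by simp [b4]), a9]).lz hs.2 hM hH h5 hu
    (a6 u (by simp)) using 1
  ext x
  simp [b2 (t x e) (by simp [a6 w (by simp)]), a4, a8]

omit hM in
theorem win [Nontrivial S] (h1 : ∀ x y, p.Lz H ((f.B x).smulRight y)) : Φ.E ≤ H := by
  obtain ⟨x, hx⟩ := exists_ne (0 : S)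
  obtain ⟨y, hy⟩ := p.fn.exists_ne hx
  have a1 : ∀ a, ∀ u ≠ 0, h.Q u = 0 → ∀ e, p.cv u e = 0 → Φ.AIn H (t a u) e :=
    fun a u hu hs e he => by
    refine aIn_of_mod p.nd p.kap (L := LinearMap.range (vec F t u)) ⟨?_, ?_⟩ hH ?_ ?_ ⟨a, rfl⟩ (p.mem_perp.2 he)
    · rintro _ ⟨x, rfl⟩ _ ⟨y, rfl⟩; simp [p.B, p.h0 hs]
    · rintro _ ⟨x, rfl⟩; exact (p.sing x hs).2
    · obtain ⟨w, b1, b2, b3⟩ := p.exists_sg h5 hu
      obtain ⟨w', -, b4, b5⟩ := p.exists_hy b3 b1 b2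
      exact ⟨t x w, p.mem_perp.2 (by simp [b3]), t y w', p.mem_perp.2 (by simp [b4]),
        by simp [p.B, hy, b5]⟩
    rintro _ ⟨a, rfl⟩ e he
    obtain ⟨w₀, b1⟩ := p.hn.exists_ne hu
    have b2 : ∀ e, p.RT H u ((Φ.B (e - t (p.cv u e) w₀)).smulRight a) := fun e =>
      p.ht.inductionOn e (rt_zero hs (by simp)) (fun b w => (h1 b a u hu hs (w - h.B u w • w₀)
        (by simp [b1])).congr hs fun v _ => by simp [p.B_t, cv_sub, cv_smul])
        fun e e' b2 b3 => (b2.add hs b3).congr hs fun v _ => by simp; module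
    obtain ⟨r, b3, -, b4⟩ := b2 e
    exact ⟨r, b3, fun x hx => by simp [b4 x (p.mem_perp.1 hx), p.mem_perp.1 he]⟩
  have a2 : ∀ a ≠ 0, ∀ u ≠ 0, h.Q u = 0 → Φ.QIn H (t a u) := fun a ha u hu hs =>
    qIn_iff.2 fun e he => by
    obtain ⟨b', b1⟩ := p.fn.exists_ne ha
    obtain ⟨w₀, b2⟩ := p.hn.exists_ne hu
    have b3 : ∀ b w, f.B a b = 0 → Φ.AIn H (t a u) (t b w) := fun b w hb => by
      by_cases e0 : h.B u w = 0
      · exact a1 a u hu hs _ (by simp [e0])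
      obtain ⟨w₁, -, c0, c1, c4⟩ := (iso3_quad p.hk).exists_perp p.hn (T := ⊤) (S := ⊥) [u, w]
        (by simpa)
      have c5 := c4 u (by simp)
      have c6 := h.B_eq_zero_symm (c4 w (by simp))
      obtain ⟨w', -, c2, c3⟩ := p.exists_hy c5 c0.2 fun e => by
        obtain ⟨c, rfl⟩ := Submodule.mem_span_singleton.1 e
        simp [e0] at c6
        simp [c6] at c1
      obtain ⟨T, c7, c8⟩ := (a1 a w₁ (by simpa using c1) c0.2 (t b w) (by simp [c6])).2 _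
        (H23.eichData_quad p.kap (p.sing a c0.2) (by simp [p.B, c6]))
      have c9 := a1 a u hu hs (t b' w') (by simp [c2])
      have d1 := c9.conj c7 (hH c7)
      rw [c8, c8, eich_q p.kap, eich_q p.kap] at d1
      simp only [p.B, f.B_eq_zero_symm hb, b1, c3, h.B_eq_zero_symm c5] at d1
      convert ((c9.add (p.sing a hs) (a1 a u hu hs ((f.B b b' * h.B w w' - Φ.Q (t b w)) • t a w₁)
        (by simp [c5]))).sub (p.sing a hs) (by simpa using d1 : Φ.AIn H (t a u) (t b' w' +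
          (f.B b b' * h.B w w' - Φ.Q (t b w)) • t a w₁ - t b w))) using 1
      abel
    have b4 : ∀ e, Φ.AIn H (t a u) (e - Φ.B (t a u) e • t b' w₀) := fun e =>
      p.ht.inductionOn e (by simpa using a1 a u hu hs 0 (by simp)) (fun x w => by
        convert (b3 (x - f.B a x • b') w (by simp [b1])).add (p.sing a hs)
          (a1 a u hu hs (t (f.B a x • b') (w - h.B u w • w₀)) (by simp [b2])) using 1
        simp [p.B]; module)
        fun e e' b4 b5 => by convert b4.add (p.sing a hs) b5 using 1; simp; module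
    simpa [he] using b4 e
  obtain ⟨u, -, hu, hs⟩ := iso3_quad p.hk ⊤ (by simp; omega)
  obtain ⟨w, hw⟩ := exists_hyp p.hn hs hu
  exact E_le_of_qIn p.nd (p.sing x hs.2) (p.sing y hw.right.2) (by simp [p.B, hw.one, hy])
    (a2 x hx u hu hs.2) (a2 y (by rintro rfl; simp at hy) w
      (fun e => by simpa [e] using hw.one) hw.right.2)

end Oo

end H23.Qp
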