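import Cfsg.Agent.H23.Qp5

/-! Maximality of `GO_m ∘ GO_n` in `Ω_{mn}` in odd characteristic. -/

set_option autoImplicit false

namespace H23.Qp

open Module H22 Cfsg Cfsg.Geo Form Tn Nd

variable {F S W V : Type*} [Field F] [AddCommGroup S] [Module F S] [AddCommGroup W] [Module F W]
  [AddCommGroup V] [Module F V] {t : S →ₗ[F] W →ₗ[F] V}

theorem mem_pair_of_t (ht : IsTensorProduct t) {x y z : S} {w u e : W} (hx : x ≠ 0)
    (h : t x w = t y u - t z e) : ∃ a b : F, w = a • u + b • e := by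
  obtain ⟨χ, h1⟩ := exists_dual_one (F := F) hx
  have a4 : ∀ x w, cov F (isTP_flip ht) χ (t x w) = χ x • w := fun x w =>
    cov_t (isTP_flip ht) χ w x
  exact ⟨χ y, -χ z, by simpa [a4, h1, sub_eq_add_neg] using congrArg (cov F (isTP_flip ht) χ) h⟩

namespace Oo

variable {Φ : Form (RingHom.id F) V} {f : Form (RingHom.id F) S} {h : Form (RingHom.id F) W}
  (p : Oo Φ f h t) {H : Subgroup (V ≃ₗ[F] V)} {u w e : W} {φ : V →ₗ[F] S}
  [FiniteDimensional F W] [FiniteDimensional F V] [Fintype F] [Nontrivial S]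
include p

omit [FiniteDimensional F V] [Fintype F] [Nontrivial S] in
theorem exists_dual (hu : u ≠ 0) (he : e ∉ F ∙ u) : ∃ u' e', h.B u u' = 1 ∧ h.B e u' = 0 ∧
    h.B u e' = 0 ∧ h.B e e' = 1 := by
  obtain ⟨e', a1, a2⟩ := p.hn.exists_perp_eq_one he
  obtain ⟨u', a3, a4⟩ := p.hn.exists_perp_eq_one (notMem_sup_span_swap (S := ⊥) (by simpa)
    (by simpa) : u ∉ ⊥ ⊔ F ∙ e)
  exact ⟨u', e', p.hc u u' ▸ a4, h.B_eq_zero_symm (a3 e (Submodule.mem_sup_right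
    (Submodule.mem_span_singleton_self e))),
    h.B_eq_zero_symm (a1 u (Submodule.mem_span_singleton_self u)), p.hc e e' ▸ a2⟩

theorem inv_neg (h5 : 5 ≤ finrank F W) (hu : u ≠ 0) (hs : h.Q u = 0) (he : h.Q e = 0)
    (h0 : e ∉ F ∙ u) (hue : h.B u e = 0) {z : V ≃ₗ[F] V} (hz : z ∈ Tg F t ⊓ Φ.E)
    (h1 : ∀ v, z (z v) = v) (h2 : z ≠ 1)
    (h3 : ∀ v, z (t (p.cv e v) u - t (p.cv u v) e) = t (p.cv e (z v)) u - t (p.cv u (z v)) e)
    (h4 : ∀ v, z v = -v → p.cv u v = 0 → p.cv e v = 0 → ∃ x y, v = t x u - t y e) :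
    ∃ b : W →ₗ[F] W, (∀ x w, z (t x w) = t x (b w)) ∧ b u = -u := by
  obtain ⟨x₀, hx⟩ := exists_ne (0 : S)
  obtain ⟨y₀, hy⟩ := p.fn.exists_ne hx
  obtain ⟨u', e', a1, a2, a3, a4⟩ := p.exists_dual hu h0
  have a5 : ∀ v, p.cv u v = 0 → p.cv e v = 0 → ∃ x y, v - z v = t x u - t y e := fun v b1 b2 => by
    have b3 := h3 v
    simp only [b1, b2, map_zero, LinearMap.zero_apply, sub_zero] at b3
    have b4 := congrArg (p.cv u') b3
    have b5 := congrArg (p.cv e') b3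
    simp [p.hc u', p.hc e', a1, a2, a3, a4] at b4 b5
    exact h4 _ (by simp [h1]) (by simp [b1, b5]) (by simp [b2, ← b4])
  obtain ⟨b, a6⟩ : ∃ b : W →ₗ[F] W, ∀ x w, z (t x w) = t x (b w) := by
    obtain ⟨a, b, a6⟩ := exists_linear_of_Tg p.ht hz.1
    obtain ⟨d, b1, b2, b3⟩ := p.exists_ns h5 u e
    have b4 : ∀ x, (2 * h.Q d) • x = h.B d (b d) • a x := fun x => by
      obtain ⟨y, y', b4⟩ := a5 (t x d) (by simp [b2]) (by simp [b3])
      simpa [a6, p.hc d u, p.hc d e, b2, b3, B_self_quad p.hk d, sub_eq_zero] using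
        congrArg (p.cv d) b4
    have b5 : h.B d (b d) ≠ 0 := fun e => by simpa [e, b1, hx, p.odd] using b4 x₀
    refine ⟨(2 * h.Q d / h.B d (b d)) • b.toLinearMap, fun x w => ?_⟩
    rw [a6, ← inv_smul_smul₀ b5 (a x), ← b4]
    simp [smul_smul, div_eq_inv_mul]
  have a7 : ∀ w, b (b w) = w := fun w => t_inj p.ht hx (by simpa [a6] using h1 (t x₀ w))
  have a8 : ∀ w w', h.B (b w) w' = h.B w (b w') := fun w w' => by
    simpa [a6, p.B, hy, a7] using (E_le_O hz.2).1 (t x₀ w) (t y₀ (b w'))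
  have a9 : ∀ w, h.B e w • b u - h.B u w • b e = h.B e (b w) • u - h.B u (b w) • e := fun w =>
    t_inj p.ht hx (by simpa [a6] using h3 (t x₀ w))
  have b1 := a9 e'
  have b2 := a9 u'
  simp only [a1, a2, a3, a4, one_smul, zero_smul, sub_zero, zero_sub] at b1 b2
  have b3 : h.B u (b e') = 0 := mul_left_cancel₀ p.odd (by
    have := a8 u e'
    rw [b1] at this
    simp [a3, a4] at this
    linear_combination -this)
  have b4 : h.B e (b u') = 0 := mul_left_cancel₀ p.odd (by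
    have := a8 e u'
    rw [← neg_neg (b e), b2] at this
    simp [a1, a2] at this
    linear_combination -this)
  have b5 : h.B u (b u') = h.B e (b e') := by rw [← a8, b1]; simp [a1, a2]
  simp only [b3, b4, b5, zero_smul, sub_zero, zero_sub, neg_inj] at b1 b2
  have b6 : h.B e (b e') ^ 2 = 1 := smul_left_injective F hu (by
    simpa [b1, smul_smul, sq] using a7 u)
  rcases sq_eq_one_iff.1 b6 with b6 | b6
  swap
  · exact ⟨b, a6, by simp [b1, b6]⟩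
  simp only [b6, one_smul] at b1 b2
  refine (h2 (LinearEquiv.ext (ext_t p.ht (f := z.toLinearMap) (f' := LinearMap.id)
    fun x w => ?_))).elim
  obtain ⟨y, y', c1⟩ := h4 (t x (w - b w)) (by simp [a6, a7]) (by simp [← a8, b1])
    (by simp [← a8, b2])
  have c2 := congrArg z c1
  rw [map_sub z, a6, a6, a6, b1, b2, ← c1] at c2
  simp only [map_sub, a7] at c2
  exact smul_right_injective V p.odd (by simp [a6]; linear_combination (norm := module) c2)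

variable (hM : Tg F t ⊓ Φ.E ≤ H) (hH : H ≤ Φ.O) [FiniteDimensional F S]
  (hq : 4 ≤ Fintype.card F ∨ 4 ≤ finrank F S) (h3 : 3 ≤ finrank F S)
  (h4 : 5 ≤ finrank F S ∨ ∀ a e, f.Q a = 0 → f.Q e = 0 → f.B a e = 0 → a ≠ 0 → e ∈ F ∙ a)
  (h5 : 5 ≤ finrank F W) (hN : ¬ Φ.E ≤ H)
include hM hH hq h3 h4 h5 hN

theorem rat (h1 : p.RT H u φ) (hu : u ≠ 0) (hs : h.Q u = 0) (he : h.B u e = 0) :
    ∃ c : F, ∀ x, φ (t x e) = c • x := by
  by_contra hc
  let Λ : Submodule F (End F S) :=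
    { carrier := {z | p.Lz H z}
      add_mem' := fun ha hb u hu hs e he => (ha u hu hs e he).add hs (hb u hu hs e he)
      zero_mem' := fun u _ hs e _ => rt_zero hs (by simp)
      smul_mem' := fun c z hz u hu hs e he => (hz u hu hs (c • e) (by simp [he])).congr hs
        fun v _ => by simp [cv_smul] }
  refine hN (win (p := p) hH h5 (so_rank_one (Λ := Λ) p.fn p.fk p.odd hq h3
    (fun u _ hs e he => rt_rat hs hM he) (h1.lz hs hM hH h5 hu he)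
    (fun h => hc ((Submodule.mem_span_singleton.1 h).imp fun c hc x =>
      (DFunLike.congr_fun hc x).symm)) (fun b hb z hz u hu hs e he => ?_)
    (fun z hz z' hz' => Lz.mul hM hH h5 hz hz') h4))
  obtain ⟨m, a1, a2⟩ := p.flip.tensE hb
  have : Nontrivial W := ⟨u, 0, hu⟩
  replace a2 : ∀ x y, m (t x y) = t (b x) y := fun x y => a2 y x
  refine ((hz u hu hs e he).conj hH (hM ⟨(mem_Tg_flip p.ht).2 a1.1, a1.2⟩) (a := b)
    fun x => a2 x u).congr hs fun v _ => ?_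
  obtain ⟨v, rfl⟩ := m.surjective v
  have a4 := ext_t p.ht (f := p.cv e ∘ₗ m.toLinearMap) (f' := b.toLinearMap ∘ₗ p.cv e)
    (by simp [a2]) v
  simp only [LinearMap.comp_apply, LinearEquiv.coe_coe] at a4
  simp [a4]

theorem step {g : V ≃ₗ[F] V} (hg : g ∈ H) {a : S ≃ₗ[F] S} (hu : u ≠ 0) (hs : h.Q u = 0)
    (h1 : ∀ x, g (t x u) = t (a x) w) (he : h.B u e = 0) : ∃ e', ∀ x, g (t x e) = t (a x) e' := by
  obtain ⟨x₀, a3⟩ := exists_ne (0 : S)
  obtain ⟨y₀, a4⟩ := p.fn.exists_ne a3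
  have hw : w ≠ 0 := by
    rintro rfl
    exact a3 (t_eq_zero p.ht hu (by simpa using h1 x₀))
  have hs' : h.Q w = 0 := by
    simpa [h1, p.B, a4, B_self_quad p.hk, hs, p.odd] using (hH hg).1 (t (a⁻¹ x₀) u) (t (a⁻¹ y₀) u)
  have h2 : ∀ x, g⁻¹ (t x w) = t (a⁻¹ x) u := fun x => g.symm_apply_eq.2 (by simp [h1])
  obtain ⟨w₀, a1⟩ := p.hn.exists_ne hw
  have P1 : ∀ e, h.B u e = 0 → ∃ e', ∃ z : S →ₗ[F] S, h.B w e' = 0 ∧
      ∀ x, g (t x e) = t (a x) e' + t (z x) w := fun e he => by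
    obtain ⟨e', a2⟩ := exists_vec p.ht (e := fun x => g (t x e) - t (p.cv w₀ (g (t x e))) w)
      (a := a) (F := F) fun ψ => by
        obtain ⟨y, hy⟩ := p.hn.exists_repr (ψ - ψ w • h.B w₀)
        obtain ⟨c, hc⟩ := p.rat hM hH hq h3 h4 h5 hN ((rt_rat (p := p) hs' hM (e := y)
          (h.B_eq_zero_symm (by simp [hy, p.hc w₀ w, a1]))).conj hH (inv_mem hg) h2) hu hs he
        refine ⟨c, fun x => ?_⟩
        have := congrArg a (hc x)
        rw [cv, LinearMap.ext hy] at this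
        simpa [cov_sub, cov_smul_left, cv, show g⁻¹.symm = g from rfl] using this
    replace a2 : ∀ x, g (t x e) = t (a x) e' + t (p.cv w₀ (g (t x e))) w := fun x => by
      simp [← a2]
    refine ⟨e', p.cv w₀ ∘ₗ g.toLinearMap ∘ₗ vec F t e, ?_, a2⟩
    have := (hH hg).1 (t (a⁻¹ x₀) u) (t (a⁻¹ y₀) e)
    rw [a2] at this
    simpa [h1, p.B, he, p.h0 hs', a4] using this
  refine p.perp_ind h5 hu (P := fun e => ∃ e', ∀ x, g (t x e) = t (a x) e') (fun e he hse => ?_)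
    (fun e e' ⟨u, hu⟩ ⟨u', hu'⟩ => ⟨u + u', by simp [hu, hu']⟩) he
  obtain ⟨d, b1, b2, b3⟩ := p.exists_ns h5 u e
  obtain ⟨e', z, c1, c2⟩ := P1 e he
  obtain ⟨d', z', c3, c4⟩ := P1 d b2
  have c5 : ∀ x y, f.B (a x) (a y) * h.Q d' = f.B x y * h.Q d := fun x y =>
    mul_left_cancel₀ p.odd (by
      have := (hH hg).1 (t x d) (t y d)
      simp [c4, p.B, c3, p.hc d' w, p.h0 hs', B_self_quad p.hk] at this
      linear_combination this)
  have c6 : h.Q d' ≠ 0 := fun e => b1 (by simpa [e, a4] using (c5 x₀ y₀).symm)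
  obtain ⟨μ, c7⟩ : ∃ μ, h.Q d = μ * h.Q d' := ⟨_, (div_mul_cancel₀ _ c6).symm⟩
  replace c5 : ∀ x y, f.B (a x) (a y) = μ * f.B x y := fun x y =>
    mul_right_cancel₀ c6 (by rw [c5, c7]; ring)
  have c8 : ∀ {e e'} {z : S →ₗ[F] S}, (∀ x, g (t x e) = t (a x) e' + t (z x) w) → ∀ v,
      p.cv w v = 0 → a (p.cv e (g.symm v)) = μ • p.cv e' v := fun c2 v hv =>
    p.fn.eq_of_forall' fun x => by
      obtain ⟨x, rfl⟩ := a.surjective x
      rw [c5, ← p.B_t, ← (hH hg).1, c2]; simp [p.B_t, hv]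
  have c9 : h.Q e' = 0 := by
    simpa [c2, p.B, a4, B_self_quad p.hk, hse, p.odd, c1, p.hc e' w, hs'] using
      (hH hg).1 (t (a⁻¹ x₀) e) (t (a⁻¹ y₀) e)
  have d1 : h.B e' d' = 0 := by
    simpa [c2, c4, p.B, a4, b3, c1, c3, p.hc e' w, p.h0 hs'] using
      (hH hg).1 (t (a⁻¹ x₀) e) (t (a⁻¹ y₀) d)
  obtain ⟨k, d2, d3⟩ := p.exists_ei hse b3
  obtain ⟨k', d4, d5⟩ := p.exists_ei c9 (e := -μ • d') (by simp [d1])
  obtain ⟨ν, d6⟩ := p.rat hM hH hq h3 h4 h5 hN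
    (φ := (z ∘ₗ (p.cv d - h.Q d • p.cv e) - z' ∘ₗ p.cv e) ∘ₗ g.symm.toLinearMap)
    ⟨k' * (g * k * g⁻¹), mul_mem (hM d4) (mul_mem (mul_mem hg (hM d2)) (inv_mem hg)), fun x => by
      simp [show g.symm (t x w) = _ from h2 x, p.hc e u, p.hc d u, he, b2], fun v hv => by
      simp [-neg_smul, d3, d5, c2, c4, c8 c2 v hv, c8 c4 v hv, p.h0 c9, d1, p.hc d' e', p.hc d' w, p.hc e' w,
        c1, c3, cv_smul, h.Q_smul, h.Q_neg, B_self_quad p.hk d', c7]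
      module⟩ hw hs' c3
  refine ⟨e' + (ν / (2 * h.Q d)) • w, fun x => ?_⟩
  have d7 := d6 (a x)
  rw [show t (a x) d' = g (t x d - t (a⁻¹ (z' x)) u) by simp [c4, h1]] at d7
  simp [b3, p.hc e u, p.hc d u, he, b2, B_self_quad p.hk d] at d7
  rw [c2, ← inv_smul_smul₀ (mul_ne_zero p.odd b1) (z x), d7]
  simp [div_eq_inv_mul, mul_smul]

theorem block {g : V ≃ₗ[F] V} (hg : g ∈ H) (hu : u ≠ 0) (hs : h.Q u = 0)
    (h1 : ∀ x, ∃ y, g (t x u) = t y w) : g ∈ Tg F t := by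
  have : Finite W := Module.finite_of_finite F
  obtain ⟨a, h2⟩ := exists_blockEquiv p.ht hu h1
  obtain ⟨u', a0, a1, a2⟩ := p.exists_sg h5 hu
  obtain ⟨y, a4, a5⟩ := p.hn.exists_perp_eq_one a1
  replace a4 := h.B_eq_zero_symm (a4 u (Submodule.mem_span_singleton_self u))
  have a6 : u' ≠ 0 := by rintro rfl; simp at a1
  obtain ⟨w', a7⟩ := p.step hM hH hq h3 h4 h5 hN hg hu hs h2 a2
  refine mem_Tg_of p.ht a fun e => ?_
  obtain ⟨e₁, b1⟩ := p.step hM hH hq h3 h4 h5 hN hg hu hs h2 (e := h.B u' e • y) (by simp [a4])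
  obtain ⟨e₂, b2⟩ := p.step hM hH hq h3 h4 h5 hN hg a6 a0 a7 (e := e - h.B u' e • y)
    (by simp [p.hc u' y, a5])
  exact ⟨e₂ + e₁, fun x => by simp [← b1, ← b2]⟩

theorem block2 {k : V ≃ₗ[F] V} (hk : k ∈ H) {u' d : W} (hu' : u' ≠ 0) (hs' : h.Q u' = 0)
    (hu : u ≠ 0) (hs : h.Q u = 0) (hd : h.Q d ≠ 0) (hud : h.B u d = 0)
    (h1 : ∀ x, p.cv u (k (t x u')) = 0) (h2 : ∀ x, p.cv d (k (t x u')) = 0) : k ∈ Tg F t := by
  obtain ⟨x₀, hx⟩ := exists_ne (0 : S)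
  obtain ⟨y₀, hy⟩ := p.fn.exists_ne hx
  obtain ⟨r, a1, a2⟩ := p.exists_ei hs hud
  have a3 : ∀ x, (k⁻¹ * r * k) (t x u') = t x u' := fun x => by simp [a2, h1, h2]
  obtain ⟨a, b, a4⟩ := exists_linear_of_Tg p.ht (p.block hM hH hq h3 h4 h5 hN
    (mul_mem (mul_mem (inv_mem hk) (hM a1)) hk) hu' hs' fun x => ⟨x, a3 x⟩)
  obtain ⟨w₀, a5⟩ := p.hn.exists_ne hu'
  have a6 : ∀ x, x = h.B w₀ (b u') • a x := fun x => by
    simpa [p.hc w₀ u', a5] using congrArg (p.cv w₀) ((a3 x).symm.trans (a4 x u'))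
  have a7 : h.B w₀ (b u') ≠ 0 := fun e => hx (by simpa [e] using a6 x₀)
  obtain ⟨n, a8⟩ : ∃ n : W →ₗ[F] W, ∀ x w, r (k (t x w)) - k (t x w) = k (t x (n w)) :=
    ⟨(h.B w₀ (b u'))⁻¹ • b.toLinearMap - 1, fun x w => by
      have := congrArg k (a4 x w)
      simp only [LinearEquiv.mul_apply, LinearEquiv.coe_inv, LinearEquiv.apply_symm_apply] at this
      rw [this, ← inv_smul_smul₀ a7 (a x), ← a6]
      simp⟩
  have a9 : ∀ x w, k (t x (n (n w))) = t ((-2 * h.Q d) • p.cv u (k (t x w))) u := fun x w => by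
    rw [← a8, ← a8]
    simp [a2, p.h0 hs, hud, p.hc d u, B_self_quad p.hk d]
  obtain ⟨w, b1⟩ : ∃ w, n (n w) ≠ 0 := by
    by_contra! e
    obtain ⟨w₁, b1⟩ := p.hn.exists_ne hu
    simpa [b1, hx] using ext_t p.ht (f := p.cv u ∘ₗ k.toLinearMap) (f' := 0) (fun x w => by
      simpa [hd, p.odd] using t_eq_zero p.ht hu ((a9 x w).symm.trans (by simp [e])))
      (k.symm (t x₀ w₁))
  refine p.block hM hH hq h3 h4 h5 hN hk b1 ?_ fun x => ⟨_, a9 x w⟩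
  have := (hH hk).1 (t x₀ (n (n w))) (t y₀ (n (n w)))
  rw [a9, a9, p.B, p.B, p.h0 hs, hy, B_self_quad p.hk] at this
  simpa [p.odd] using this

variable (h6 : finrank F S < finrank F W)
include h6

theorem mem_of_conj {k y : V ≃ₗ[F] V} (hk : k ∈ H) (hu : u ≠ 0) (hs : h.Q u = 0) (he : h.Q e = 0)
    (h0 : e ∉ F ∙ u) (hue : h.B u e = 0) (hy : y ∈ Tg F t ⊓ Φ.E)
    (h1 : ∀ v, y v = v + k.symm (t (p.cv e (k v)) u - t (p.cv u (k v)) e)) : k ∈ Tg F t := by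
  obtain ⟨x₀, hx⟩ := exists_ne (0 : S)
  obtain ⟨y₀, hy₀⟩ := p.fn.exists_ne hx
  obtain ⟨u', e', a1, a2, a3, a4⟩ := p.exists_dual hu h0
  let N : V →ₗ[F] V := k.symm.toLinearMap ∘ₗ (vec F t u ∘ₗ p.cv e - vec F t e ∘ₗ p.cv u) ∘ₗ
    k.toLinearMap
  have a0 : ∀ v, k (N v) = t (p.cv e (k v)) u - t (p.cv u (k v)) e := fun v => by simp [N]
  have a5 : ¬ ∀ x w, N (t x w) = 0 := fun e => hx (t_eq_zero p.ht hu (by
    simpa [N, a3, a4] using ext_t p.ht (f := N) (f' := 0) e (k.symm (t x₀ e'))))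
  have a6 : ∀ v v', Φ.B (N v) (N v') = 0 := fun v v' => by
    rw [← (hH hk).1, a0, a0]; simp [p.B, p.h0 hs, p.h0 he, hue, p.hc e u]
  rcases quad_tens p.ht p.odd hy.1 (N := N) h1 (by simp [N, p.h0 hs, p.h0 he, hue, p.hc e u]) with
    ⟨n, hn⟩ | ⟨n, hn⟩
  · obtain ⟨w, b1⟩ : ∃ w, n w ≠ 0 := by
      by_contra! e
      exact a5 (by simp [hn, e])
    obtain ⟨d, b2, b3, b4⟩ := p.exists_ns h5 u e
    exact p.block2 hM hH hq h3 h4 h5 hN hk b1 (by
      simpa [hn, p.B, hy₀, B_self_quad p.hk, p.odd] using a6 (t x₀ w) (t y₀ w)) hu hs b2 b3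
      (fun x => by simp [← hn, a0, p.h0 hs, hue])
      fun x => by simp [← hn, a0, p.hc d u, p.hc d e, b3, b4]
  exfalso
  obtain ⟨x₁, b1⟩ : ∃ x, n x ≠ 0 := by
    by_contra! e
    exact a5 (by simp [hn, e])
  have c8 : ∀ x, n x ∈ F ∙ n x₁ := fun x => by
    by_contra e1
    obtain ⟨⟨w₁, w₂⟩, c1, c2⟩ := exists_ker_ne ((p.cv u ∘ₗ k.toLinearMap).prod
      (p.cv e ∘ₗ k.toLinearMap) ∘ₗ (t x₁).coprod (t x)) (by simp; omega)
    replace c2 : p.cv u (k (t x₁ w₁ + t x w₂)) = 0 ∧ p.cv e (k (t x₁ w₁ + t x w₂)) = 0 :=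
      Prod.ext_iff.1 c2
    have c3 := a0 (t x₁ w₁ + t x w₂)
    rw [c2.1, c2.2, map_add, hn, hn] at c3
    simp only [map_zero, LinearMap.zero_apply, sub_zero, EmbeddingLike.map_eq_zero_iff] at c3
    obtain ⟨χ, c4, c5⟩ := exists_dual_pair e1
    have c6 : ∀ x w, cov F (isTP_flip p.ht) χ (t x w) = χ x • w := fun x w =>
      cov_t (isTP_flip p.ht) χ w x
    obtain rfl : w₂ = 0 := by simpa [c6, c4, c5] using congrArg (cov F (isTP_flip p.ht) χ) c3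
    exact b1 (t_eq_zero p.ht (u := w₁) (fun e => c1 (by simp [e])) (by simpa using c3))
  obtain ⟨a', d1⟩ := p.fn.exists_ne b1
  obtain ⟨x, -, d2, d3⟩ := exists_ne_ne (W := ⊤) (φ := f.B a' ∘ₗ n) (ψ := f.B (n x₁))
    ⟨x₁, trivial, by simp [B_comm_quad p.fk a', d1]⟩ ⟨a', trivial, by simp [d1]⟩
  obtain ⟨d, d4⟩ := Submodule.mem_span_singleton.1 (c8 x)
  have d5 := (E_le_O hy.2).1 (t x u) (t x u')
  rw [h1, h1] at d5
  change Φ.B (_ + N _) (_ + N _) = _ at d5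
  simp only [map_add, LinearMap.add_apply, a6] at d5
  simp [hn, p.B, a1, B_comm_quad p.fk (n x) x] at d5
  simp [← d4, B_comm_quad p.fk x (n x₁)] at d5 d2
  exact mul_ne_zero p.odd (mul_ne_zero d2.1 d3) (by linear_combination d5)

end Oo

end H23.Qp
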