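import Cfsg.Agent.H23.Qp6

/-! Maximality of `GO_m ∘ GO_n` in `Ω_{mn}` in odd characteristic: the global argument. -/

set_option autoImplicit false

namespace H23.Qp

open Module H22 Cfsg Cfsg.Geo Form Tn Nd

variable {F S W V : Type*} [Field F] [AddCommGroup S] [Module F S] [AddCommGroup W] [Module F W]
  [AddCommGroup V] [Module F V] {t : S →ₗ[F] W →ₗ[F] V}

namespace Oo

variable {Φ : Form (RingHom.id F) V} {f : Form (RingHom.id F) S} {h : Form (RingHom.id F) W}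
  (p : Oo Φ f h t) {H : Subgroup (V ≃ₗ[F] V)}
  [FiniteDimensional F W] [FiniteDimensional F V] [Fintype F] [Nontrivial S]
include p

omit [Nontrivial S] in
theorem exists_small (h5 : 5 ≤ finrank F W) {Y : Submodule F W}
    (hY : ∀ u e, u ≠ 0 → h.Q u = 0 → h.Q e = 0 → e ∉ F ∙ u → h.B u e = 0 → ∀ y ∈ Y,
      h.B u y = 0 → h.B e y = 0 → ∃ a b : F, y = a • u + b • e) :
    ∃ u ∈ h.perp Y, ∃ d ∈ h.perp Y, u ≠ 0 ∧ h.Q u = 0 ∧ h.Q d ≠ 0 ∧ h.B u d = 0 := by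
  have a0 := p.hn.finrank_perp_add Y
  by_cases a1 : finrank F Y ≤ 2
  · by_cases a2 : Disjoint Y (h.perp Y)
    · have a3 : Disjoint (h.perp Y) (h.perp (h.perp Y)) := by rw [p.hn.perp_perp]; exact a2.symm
      obtain ⟨u, b1, b2, b3⟩ := exists_sing (D := h.perp Y) p.hk (by omega)
      obtain ⟨u', b4, b5⟩ := hyp_of_nd p.hn p.hk a3 b1 b2 b3
      obtain ⟨d, b6, b7, -, b8⟩ := exists_third p.hn p.hk a3 (by omega) b5 b1 b4
      exact ⟨u, b1, d, b6, b3, b2, b8, b7⟩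
    rw [Submodule.disjoint_def] at a2
    push Not at a2
    obtain ⟨u, b1, b2, b3⟩ := a2
    obtain ⟨d, b4, b5⟩ := exists_Q_ne_zero_perp p.hk p.hn (Z := Y) fun e => by
      have := Submodule.finrank_mono e; omega
    exact ⟨u, b2, d, b4, b3, mul_left_cancel₀ p.odd (by
      rw [← B_self_quad p.hk, b2 u b1, mul_zero]), b5, b4 u b1⟩
  exfalso
  obtain ⟨u, hu, hs, a2⟩ : ∃ u ≠ 0, h.Q u = 0 ∧ ∀ e, h.B u e = 0 → ∃ c : F, e + c • u ∈ Y := by
    by_cases a2 : ∃ u, h.Q u = 0 ∧ u ∉ Y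
    swap
    · push Not at a2
      obtain ⟨u, -, hu, hs⟩ := iso3_quad p.hk ⊤ (by simp; omega)
      obtain ⟨w, hw⟩ := exists_hyp p.hn hs hu
      exact ⟨u, hu, hs.2, fun e _ => ⟨0, by
        simpa using hw.sing_induction (P := (· ∈ Y)) (fun x hx => a2 x hx.2)
          (fun _ _ => Y.add_mem) e⟩⟩
    obtain ⟨u, hs, a2⟩ := a2
    have hu : u ≠ 0 := by rintro rfl; simp at a2
    refine ⟨u, hu, hs, fun e he => p.perp_ind h5 hu (P := fun e => ∃ c : F, e + c • u ∈ Y)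
      (fun e he hse => ?_) (fun e e' ⟨c, hc⟩ ⟨c', hc'⟩ => ⟨c + c', by
        convert Y.add_mem hc hc' using 1; module⟩) he⟩
    by_cases a3 : e ∈ F ∙ u
    · obtain ⟨c, rfl⟩ := Submodule.mem_span_singleton.1 a3
      exact ⟨-c, by simp⟩
    obtain ⟨y, b1, b2, b3⟩ := p.hn.exists_perp_notMem (T := Y) (S := ⊥) [u, e] (by simp; omega)
    obtain ⟨a, b, rfl⟩ := hY u e hu hs hse a3 he y b1 (b3 u (by simp)) (b3 e (by simp))
    have b4 : b ≠ 0 := by
      rintro rfl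
      simp only [zero_smul, add_zero, Submodule.mem_bot] at b1 b2
      exact a2 ((Y.smul_mem_iff (left_ne_zero_of_smul b2)).1 b1)
    exact ⟨a / b, by
      convert Y.smul_mem b⁻¹ b1 using 1
      simp [smul_smul, b4, div_eq_inv_mul, add_comm]⟩
  obtain ⟨e, b1, b2, b3⟩ := p.exists_sg h5 hu
  obtain ⟨d, b4, b5, b6⟩ := p.exists_ns h5 u e
  obtain ⟨c, b7⟩ := a2 d b5
  obtain ⟨a, b, b8⟩ := hY u e hu hs b1 b2 b3 _ b7 (by simp [b5, p.h0 hs]) (by simp [b6, p.hc e u, b3])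
  have := congrArg h.Q b8
  simp [Q_add_quad p.hk, h.Q_smul, hs, b1, b3, p.hc d u, b5, b4] at this

variable (hM : Tg F t ⊓ Φ.E ≤ H) (hH : H ≤ Φ.E) [FiniteDimensional F S]
  (hq : 4 ≤ Fintype.card F ∨ 4 ≤ finrank F S) (h3 : 3 ≤ finrank F S)
  (h4 : 5 ≤ finrank F S ∨ ∀ a e, f.Q a = 0 → f.Q e = 0 → f.B a e = 0 → a ≠ 0 → e ∈ F ∙ a)
  (h5 : 5 ≤ finrank F W) (hN : ¬ Φ.E ≤ H) (h6 : finrank F S < finrank F W)
include hM hH hq h3 h4 h5 hN h6

theorem mem_Tg {g : V ≃ₗ[F] V} (hg : g ∈ H) : g ∈ Tg F t := by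
  by_contra hc
  have hO := hH.trans E_le_O
  obtain ⟨x₀, hx⟩ := exists_ne (0 : S)
  obtain ⟨u', -, hu', hs'⟩ := iso3_quad p.hk ⊤ (by simp; omega)
  replace hs' := hs'.2
  obtain ⟨e', a1, a2, a3⟩ := p.exists_sg h5 hu'
  obtain ⟨x', b3, b4⟩ := p.exists_ei hs' a3
  simp only [a1, zero_smul, sub_zero, add_sub_assoc] at b4
  have D : ∀ {u e x}, u ≠ 0 → h.Q u = 0 → h.Q e = 0 → e ∉ F ∙ u → h.B u e = 0 →
      (∀ v, x v = v + (t (p.cv e v) u - t (p.cv u v) e)) → ∀ k ∈ H,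
      k⁻¹ * x * k ∈ Tg F t ⊓ Φ.E → k ∈ Tg F t ⊓ Φ.E := fun hu hs he h0 hue hx k hk h =>
    ⟨p.mem_of_conj hM hO hq h3 h4 h5 hN h6 hk hu hs he h0 hue h fun v => by simp [hx], hH hk⟩
  have b5 : g * x' * g⁻¹ ∈ H := mul_mem (mul_mem hg (hM b3)) (inv_mem hg)
  refine (p.exists_small h5 (Y := Submodule.span F {y | ∃ x x', y = p.flip.cv x (g (t x' u'))})
    ?_).elim fun u ⟨c1, d, c2, c3, c4, c5, c6⟩ => ?_
  swap
  · have c7 : ∀ y ∈ h.perp (Submodule.span F {y | ∃ x x', y = p.flip.cv x (g (t x' u'))}), ∀ x,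
        p.cv y (g (t x u')) = 0 := fun y hy x => p.fn.eq_of_forall' fun x' => by
      rw [← p.B_t, map_zero]
      exact (p.flip.B_t y x' _).trans
        (h.B_eq_zero_symm (hy _ (Submodule.subset_span ⟨x', x, rfl⟩)))
    exact hc (p.block2 hM hO hq h3 h4 h5 hN hg hu' hs' c3 c4 c5 c6 (c7 u c1) (c7 d c2))
  intro u e hu hs he h0 hue
  obtain ⟨x, b1, b2⟩ := p.exists_ei hs hue
  simp only [he, zero_smul, sub_zero, add_sub_assoc] at b2
  rcases quad_pair (x := x) (y := g * x' * g⁻¹) p.odd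
    (N := vec F t u ∘ₗ p.cv e - vec F t e ∘ₗ p.cv u) (N' := g.toLinearMap ∘ₗ
      (vec F t u' ∘ₗ p.cv e' - vec F t e' ∘ₗ p.cv u') ∘ₗ g.symm.toLinearMap) b2 (by simp [b4])
    (by simp [p.h0 hs, p.h0 he, hue, p.hc e u]) (by simp [p.h0 hs', p.h0 a1, a3, p.hc e' u']) with
      e | ⟨z, c1, c2, c3, c4, c5, c6⟩
  · exact (hc (by simpa using (Tg F t).inv_mem (D hu' hs' a1 a2 a3 b4 g⁻¹ (inv_mem hg)
      (by simpa using mem_of_nilpotent b1 (hM b1) b5 (D hu hs he h0 hue b2) e)).1)).elim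
  have c7 : z ∈ H := (Subgroup.closure_le H).2 (by
    rintro _ (rfl | rfl)
    exacts [hM b1, b5]) c1
  simp only [LinearMap.comp_apply, vec_apply, LinearEquiv.coe_coe, LinearMap.sub_apply] at c4 c5 c6
  obtain ⟨b, d1, -⟩ := p.inv_neg h5 hu hs he h0 hue (D hu hs he h0 hue b2 z c7 (by
    rwa [show z⁻¹ * x * z = x from LinearEquiv.ext fun v => z.symm_apply_eq.2 (by
      rw [b2 v, map_add, c4]; exact b2 _)])) c2 c3 c4 fun v e1 e2 e3 =>
        ((c6 v e1).1 (by simp [e2, e3])).elim fun w e => ⟨_, _, e.symm⟩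
  obtain ⟨b', d3, d4⟩ := p.inv_neg h5 hu' hs' a1 a2 a3 (z := g⁻¹ * z * g) (D hu' hs' a1 a2 a3 b4 _
    (mul_mem (mul_mem (inv_mem hg) c7) hg) (by
      rwa [show (g⁻¹ * z * g)⁻¹ * x' * (g⁻¹ * z * g) = x' from LinearEquiv.ext fun v => by
        have := c5 (g v)
        rw [g.symm_apply_apply] at this
        simp only [mul_inv_rev, inv_inv, LinearEquiv.mul_apply, LinearEquiv.coe_inv, b4, map_add,
          LinearEquiv.apply_symm_apply, LinearEquiv.symm_apply_apply, ← this]]))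
    (by simp [c2]) (fun e => c3 (by rw [show z = g * (g⁻¹ * z * g) * g⁻¹ by group, e]; simp))
    (fun v => g.symm_apply_eq.2 (by simpa using c5 (g v))) fun v e1 e2 e3 => by
      obtain ⟨w, e⟩ := (c6 (g v) (by simpa using congrArg g e1)).2 (by simp [e2, e3])
      exact ⟨_, _, (g.injective e).symm⟩
  intro y hy e1 e2
  have d5 : b y = -y := by
    clear e1 e2
    induction hy using Submodule.span_induction with
    | mem y hy =>
      obtain ⟨x₁, x₂, rfl⟩ := hy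
      have d5 : z (g (t x₂ u')) = -g (t x₂ u') := by simpa [d4] using congrArg g (d3 x₂ u')
      have d6 := ext_t p.ht (f := p.flip.cv x₁ ∘ₗ z.toLinearMap) (f' := b ∘ₗ p.flip.cv x₁)
        (fun x w => by
          have : ∀ x w, p.flip.cv x₁ (t x w) = _ := fun x w => cov_t p.flip.ht _ w x
          simp [d1, this]) (g (t x₂ u'))
      simpa [d5] using d6.symm
    | zero => simp
    | add y y' _ _ a b => simp [a, b, add_comm]
    | smul c y _ a => simp [a]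
  obtain ⟨w, d7⟩ := (c6 (t x₀ y) (by simp [d1, d5])).1 (by simp [e1, e2])
  exact mem_pair_of_t p.ht hx d7.symm

omit hM hH hN in
theorem isMaximalIn : IsMaximalIn Φ.E (Tg F t ⊓ Φ.E) := by
  refine isMaximalIn_of inf_le_right ?_ fun H h1 h2 g hg hg' => by_contra fun h7 =>
    hg' ⟨p.mem_Tg h1 h2 hq h3 h4 h5 h7 h6 hg, h2 hg⟩
  obtain ⟨x, hx⟩ := exists_ne (0 : S)
  obtain ⟨y, hy⟩ := p.fn.exists_ne hx
  obtain ⟨u, -, hu, hs⟩ := iso3_quad p.hk ⊤ (by simp; omega)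
  obtain ⟨e, a1, a2, a3⟩ := p.exists_sg h5 hu
  obtain ⟨u', e', b1, b2, b3, b4⟩ := p.exists_dual hu a2
  obtain ⟨T, a4, a5⟩ := exists_eq p.nd p.kap (p.sing x hs.2).2 (e := t x e) (by simp [p.B, a3])
  refine ⟨T, a4, fun hT => ?_⟩
  rcases quad_tens p.ht p.odd hT.1 (N := (Φ.B (t x e)).smulRight (t x u) -
    (Φ.B (t x u)).smulRight (t x e)) (by simp [a5, (p.sing x a1).2, add_sub_assoc])
    (by simp [p.B, p.h0 a1, hs.1, a3, p.hc e u]) with ⟨n, hn⟩ | ⟨n, hn⟩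
  · obtain ⟨y', -, c1, c2⟩ := p.fn.exists_perp_notMem (T := ⊤) (S := ⊥) [x] (by simp; omega)
    have c3 := hn y e'
    have c4 := hn y' e'
    simp [p.B, hy, b3, b4, c2 x (by simp)] at c3 c4
    exact c1 (t_eq_zero p.ht (fun e => hx (t_eq_zero p.ht hu (by simpa [e] using c3))) c4.symm)
  · have c3 := hn y e'
    have c4 := hn y u
    simp [p.B, hy, b3, b4, hs.1, p.hc e u, a3] at c3 c4
    exact hx (t_eq_zero p.ht hu (by simpa [t_eq_zero p.ht hu c4.symm] using c3))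

end Oo

theorem isMaximalIn_oo_aux {ι κ μ : Type} [Fintype κ] [Fintype μ] [Fintype ι] [DecidableEq ι]
    [Fintype F] (h2 : (2 : F) ≠ 0) {Q : QuadraticForm F (ι → F)} (hQ : (ofQuad Q).Nondeg)
    {t : (κ → F) →ₗ[F] (μ → F) →ₗ[F] (ι → F)} (ht : IsTensorProduct t) {f₁ f₂}
    (hf₁ : IsSymmetricForm f₁) (hf₂ : IsSymmetricForm f₂) {c : F} (hc : c ≠ 0)
    (hB : ∀ x w y w', QuadraticMap.polar Q (t x w) (t y w') = c * f₁ x y * f₂ w w')
    (h0 : 5 ≤ Fintype.card ι) (h3 : 3 ≤ Fintype.card κ) (h5 : 5 ≤ Fintype.card μ)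
    (h6 : Fintype.card κ < Fintype.card μ) (hq : 4 ≤ Fintype.card F ∨ 4 ≤ Fintype.card κ)
    (h4 : Fintype.card κ = 4 → ¬ IsPlusTypeOn (fun v => f₁ v v) ⊤) :
    IsMaximalIn (ofQuad Q).E (Tg F t ⊓ (ofQuad Q).E) := by
  obtain ⟨f, a1, a2, a3⟩ := exists_form_symm h2 hf₁ hc
  obtain ⟨h, b1, b2, b3⟩ := exists_form_symm h2 hf₂ one_ne_zero
  have : Nonempty κ := Fintype.card_pos_iff.1 (by omega)
  refine Oo.isMaximalIn (f := f) (h := h) ⟨ht, hQ, rfl, a1, a2, b1, b2, h2, by simpa,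
    fun x w y w' => (hB x w y w').trans (by rw [a3, b3, one_mul])⟩ (by simpa) (by simpa) ?_
    (by simpa) (by simpa)
  refine or_iff_not_imp_left.2 fun h7 a e c1 c2 c3 c4 => by_contra fun c5 => ?_
  have c6 : ∀ x ∈ Submodule.span F {a, e}, ∀ y ∈ Submodule.span F {a, e}, f.B x y = 0 := by
    intro x hx y hy
    obtain ⟨_, _, rfl⟩ := Submodule.mem_span_pair.1 hx
    obtain ⟨_, _, rfl⟩ := Submodule.mem_span_pair.1 hy
    simp [B_self_quad a2, c1, c2, c3, B_comm_quad a2 e a]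
  have c7 : finrank F (Submodule.span F {a, e}) = 2 := by
    have := finrank_span_eq_card ((LinearIndependent.pair_iff' c4).2 fun d hd =>
      c5 (Submodule.mem_span_singleton.2 ⟨d, hd⟩))
    rwa [show Set.range ![a, e] = {a, e} by simp [Set.pair_comm], Fintype.card_fin] at this
  have c8 := Submodule.finrank_mono (show Submodule.span F {a, e} ≤ f.perp (Submodule.span F {a, e})
    from fun x hx y hy => c6 y hy x hx)
  have c9 := a1.finrank_perp_add (Submodule.span F {a, e})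
  simp only [finrank_fintype_fun_eq_card] at c9 h7
  exact h4 (by omega) ⟨_, le_top, fun x hx => by simpa [a3, hc] using c6 x hx x hx,
    by simp [c7]; omega⟩

theorem isMaximalIn_oo_tensor {ι : Type} [Fintype ι] [DecidableEq ι] [Fintype F] {n₁ n₂ : ℕ}
    (h2 : (2 : F) ≠ 0) (h1 : 3 ≤ n₁) (h3 : 3 ≤ n₂) (h5 : 5 ≤ n₁ ∨ 5 ≤ n₂) (h6 : n₁ ≠ n₂)
    (hq : 4 ≤ Fintype.card F ∨ (4 ≤ n₁ ∧ 4 ≤ n₂))
    {Q : (ι → F) → F} (hQ : IsNondegenerateQuadraticForm Q) {e : ι ≃ Fin n₁ × Fin n₂} {P : GL ι F}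
    {f₁ f₂} (hf₁ : IsSymmetricForm f₁) (hf₂ : IsSymmetricForm f₂)
    (h4 : n₁ = 4 → ¬ IsPlusTypeOn (fun v => f₁ v v) ⊤)
    (h4' : n₂ = 4 → ¬ IsPlusTypeOn (fun v => f₂ v v) ⊤)
    (hT : IsTensorFormStructure id (QuadraticMap.polar Q) f₁ f₂ e P) :
    IsMaximalIn (omegaGL Q) (tensorProductSubgroup n₁ n₂ e P ⊓ omegaGL Q) := by
  obtain ⟨Q, rfl, hΦ⟩ := exists_quad hQ
  obtain ⟨c, a1, a2⟩ := As.tensor_pure (σ := RingHom.id F) hT
  simp only [← As.eq_fog_of_bilin hf₁.bilinear, ← As.eq_fog_of_bilin hf₂.bilinear] at a2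
  have h0 : 5 ≤ Fintype.card ι := by rw [Fintype.card_congr e]; simp; nlinarith
  have h7 := fun g => mem_omegaGL_iff_E (g := g) hΦ h0
  have : Nonempty (Fin n₁) := ⟨⟨0, by omega⟩⟩
  have : Nonempty (Fin n₂) := ⟨⟨0, by omega⟩⟩
  rcases h6.lt_or_gt with h6 | h6
  · exact isMaximalIn_of_iff (glE _ F) (isMaximalIn_oo_aux h2 hΦ (isTensorProduct_tP e P) hf₁ hf₂
      a1 a2 h0 (by simpa) (by simp; omega) (by simpa) (by simp; omega) (by simpa)) h7
      fun g => and_congr (mem_tensorProductSubgroup_iff_Tg (by omega)) (h7 g)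
  · exact isMaximalIn_of_iff (glE _ F) (isMaximalIn_oo_aux h2 hΦ
      (isTP_flip (isTensorProduct_tP e P)) hf₂ hf₁ a1 (fun x w y w' => (a2 w x w' y).trans (by ring))
      h0 (by simpa) (by simp; omega) (by simpa) (by simp; omega) (by simpa)) h7
      fun g => and_congr ((mem_tensorProductSubgroup_iff_Tg (by omega)).trans
        (mem_Tg_flip (isTensorProduct_tP e P))) (h7 g)

end H23.Qp
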