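import Cfsg.Agent.H23.Qp7
import Cfsg.Agent.H23.Disc
import Cfsg.Agent.H1.Coprime2

/-! Small lemmas on involutions and on orthogonal spaces of dimension three and four. -/

set_option autoImplicit false

namespace H23.Qv

open Module H22 Cfsg Cfsg.Geo Form Tn Nd Qp Zd

section grp

variable {G : Type*} [Group G] [Finite G]

open Pointwise in
theorem exists_fix_p {p : ℕ} [Fact p.Prime] {U N : Subgroup G} (hU : IsPGroup p U)
    (h : U ≤ Subgroup.normalizer (N : Set G)) (hp : p ∣ Nat.card N) :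
    ∃ x ∈ N, x ≠ 1 ∧ (∃ k, x ^ p ^ k = 1) ∧ ∀ u ∈ U, u * x = x * u := by
  let φ : U →* MulAut N := N.normalizerMonoidHom.comp (Subgroup.inclusion h)
  let _ : MulAction U (Sylow p N) := MulAction.compHom _ φ
  obtain ⟨P, hP⟩ := hU.nonempty_fixed_point_of_prime_not_dvd_card (Sylow p N)
    (not_dvd_card_sylow p N)
  have a1 : ∀ g : U, ∀ x ∈ P, φ g x ∈ P := fun g x hx => by
    have : φ g • P = P := hP g
    rw [← this]
    exact Subgroup.smul_mem_pointwise_smul x (φ g) P hx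
  let _ : MulAction U P :=
    { smul := fun g x => ⟨φ g x, a1 g x x.2⟩
      one_smul := fun x => Subtype.ext (by change φ 1 x = x; simp)
      mul_smul := fun g k x => Subtype.ext (by change φ (g * k) x = φ g (φ k x); simp) }
  obtain ⟨x, a2, a3⟩ := hU.exists_fixed_point_of_prime_dvd_card_of_fixed_point P
    (P.dvd_card_of_dvd_card hp) (a := 1) fun g => Subtype.ext (map_one (φ g))
  obtain ⟨k, hk⟩ := P.isPGroup' x
  refine ⟨x.1.1, x.1.2, fun e => a3 (Subtype.ext (Subtype.ext e.symm)),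
    ⟨k, congrArg (fun y : P => y.1.1) hk⟩, fun u hu => ?_⟩
  exact mul_inv_eq_iff_eq_mul.1 (congrArg (fun y : P => y.1.1) (a2 ⟨u, hu⟩))

theorem dihedral {H : Subgroup G} {x y : G} (hx : x ∈ H) (hy : y ∈ H) (h1 : x * x = 1)
    (h2 : y * y = 1) : (∃ k ∈ H, k * y * k⁻¹ = x) ∨ ∃ z ∈ H, z ≠ 1 ∧ z * z = 1 ∧ z * x = x * z ∧
      z * y = y * z ∧ ∃ k ∈ H, z * x = k * x * k⁻¹ ∨ z * x = k * y * k⁻¹ := by
  have a1 : x⁻¹ = x := inv_eq_of_mul_eq_one_right h1
  have a2 : y⁻¹ = y := inv_eq_of_mul_eq_one_right h2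
  have a3 : ∀ n : ℕ, x * ((x * y) ^ n)⁻¹ = (x * y) ^ n * x := fun n => by
    have : x * (x * y)⁻¹ * x⁻¹ = x * y := by rw [mul_inv_rev, a1, a2, mul_assoc, mul_assoc, h1, mul_one]
    rw [← inv_pow, ← this, conj_pow, this]; group
  have a4 : ∀ n : ℕ, y * (x * y) ^ n = ((x * y) ^ n)⁻¹ * y := fun n => by
    have : y * (x * y) * y⁻¹ = (x * y)⁻¹ := by rw [mul_inv_rev, a1, a2, mul_assoc, mul_assoc, h2, mul_one]
    rw [← inv_pow, ← this, conj_pow]; group
  have a5 := pow_orderOf_eq_one (x * y)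
  have a6 : ∀ n : ℕ, (x * y) ^ n ∈ H := fun n => pow_mem (mul_mem hx hy) n
  rcases Nat.even_or_odd' (orderOf (x * y)) with ⟨m, e | e⟩
  · have a7 : ((x * y) ^ m)⁻¹ = (x * y) ^ m := inv_eq_of_mul_eq_one_right (by
      rw [← pow_add, ← two_mul, ← e, a5])
    have a8 := orderOf_pos (x * y)
    refine .inr ⟨_, a6 m, pow_ne_one_of_lt_orderOf (by omega) (by omega), by
      rw [← pow_add, ← two_mul, ← e, a5], by rw [← a3, a7], by rw [a4, a7], ?_⟩
    rcases Nat.even_or_odd' m with ⟨j, e' | e'⟩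
    · exact ⟨_, a6 j, .inl (by rw [mul_assoc, a3, ← mul_assoc, ← pow_add, e', two_mul])⟩
    · refine ⟨(x * y) ^ j * x, mul_mem (a6 j) hx, .inr ?_⟩
      rw [mul_inv_rev, a1, mul_assoc, a3, e', two_mul, add_right_comm, pow_add, pow_succ]
      simp only [mul_assoc]
  · refine .inl ⟨(x * y) ^ (m + 1), a6 _, ?_⟩
    have a7 : y * ((x * y) ^ (m + 1))⁻¹ = (x * y) ^ (m + 1) * y := by
      rw [mul_inv_eq_iff_eq_mul, mul_assoc, a4, mul_inv_cancel_left]
    rw [mul_assoc, a7, ← mul_assoc, ← pow_add, show m + 1 + (m + 1) = 2 * m + 1 + 1 by ring,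
      pow_succ, ← e, a5, one_mul, mul_assoc, h2, mul_one]

end grp

variable {F S W V : Type*} [Field F] [AddCommGroup S] [Module F S] [AddCommGroup W] [Module F W]
  [AddCommGroup V] [Module F V]

theorem pow_of_nil {p : ℕ} [Fact p.Prime] [CharP F p] {g : V ≃ₗ[F] V}
    (h : IsNilpotent (g.toLinearMap - 1)) : ∃ k, g ^ p ^ k = 1 := by
  rcases subsingleton_or_nontrivial V with _ | _
  · exact ⟨0, Subsingleton.elim ..⟩
  have : CharP (End F V) p := charP_of_injective_algebraMap (RingHom.injective (algebraMap F _)) p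
  obtain ⟨n, a7⟩ := h
  have a8 := pow_eq_zero_of_le (Nat.lt_pow_self (n := n) (Fact.out : p.Prime).one_lt).le a7
  rw [sub_pow_char_pow_of_commute _ _ (Commute.one_right _), one_pow, sub_eq_zero] at a8
  exact ⟨n, LinearEquiv.toLinearMap_injective
    ((map_pow LinearEquiv.automorphismGroup.toLinearMapMonoidHom g _).trans a8)⟩

theorem nil_of_pow {p k : ℕ} [Fact p.Prime] [CharP F p] {g : End F V} (h : g ^ p ^ k = 1) :
    IsNilpotent (g - 1) := by
  rcases subsingleton_or_nontrivial V with _ | _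
  · exact ⟨1, Subsingleton.elim ..⟩
  have : CharP (End F V) p := charP_of_injective_algebraMap (RingHom.injective (algebraMap F _)) p
  exact ⟨p ^ k, by rw [sub_pow_char_pow_of_commute _ _ (Commute.one_right _), one_pow, h, sub_self]⟩

theorem tr_det [FiniteDimensional F S] [FiniteDimensional F W] {t : S →ₗ[F] W →ₗ[F] V}
    (ht : IsTensorProduct t) {a : End F S} {b : End F W} {m : End F V}
    (h : ∀ x w, m (t x w) = t (a x) (b w)) :
    LinearMap.trace F V m = LinearMap.trace F S a * LinearMap.trace F W b ∧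
      LinearMap.det m = LinearMap.det a ^ finrank F W * LinearMap.det b ^ finrank F S := by
  have e : m = ht.equiv.conj (TensorProduct.map a b) := LinearMap.ext (ext_t ht fun x w => by
    simp [h, LinearEquiv.conj_apply])
  refine ⟨by rw [e, LinearMap.trace_conj', LinearMap.trace_tensorProduct'], ?_⟩
  rw [e]
  refine (LinearMap.det_conj (TensorProduct.map a b) ht.equiv).trans ?_
  rw [← LinearMap.det_toMatrix ((finBasis F S).tensorProduct (finBasis F W)),
    TensorProduct.toMatrix_map, Matrix.det_kronecker]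
  simp

theorem exp3 [FiniteDimensional F S] (h3 : finrank F S = 3) {a b c : S} {α β γ : S →ₗ[F] F}
    (h1 : α a = 1 ∧ α b = 0 ∧ α c = 0) (h2 : β a = 0 ∧ β b = 1 ∧ β c = 0)
    (h4 : γ a = 0 ∧ γ b = 0 ∧ γ c = 1) (y : S) : y = α y • a + β y • b + γ y • c := by
  have a1 : LinearIndependent F ![a, b, c] := Fintype.linearIndependent_iff.2 fun g hg i => by
    have b1 := congrArg α hg
    have b2 := congrArg β hg
    have b3 := congrArg γ hg
    simp [Fin.sum_univ_three, h1, h2, h4] at b1 b2 b3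
    fin_cases i <;> assumption
  obtain ⟨g, rfl⟩ := (Submodule.mem_span_range_iff_exists_fun F).1
    ((a1.span_eq_top_of_card_eq_finrank' (by simp [h3])).ge (Submodule.mem_top (x := y)))
  simp [Fin.sum_univ_three, h1, h2, h4]

variable {f : Form (RingHom.id F) S} (hn : f.Nondeg) (hk : f.κ = 1) (h2 : (2 : F) ≠ 0)
  [FiniteDimensional F S]
include hn hk h2

omit hn in
theorem exp_hyp (h3 : finrank F S = 3) {s s' c : S} (hs : Hyp f s s') (hc : f.Q c ≠ 0)
    (h1 : f.B s c = 0) (h4 : f.B s' c = 0) (y : S) :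
    y = f.B s' y • s + f.B s y • s' + ((2 * f.Q c)⁻¹ * f.B c y) • c := by
  have e1 := B_comm_quad hk
  exact exp3 h3 (α := f.B s') (β := f.B s) (γ := (2 * f.Q c)⁻¹ • f.B c)
    ⟨e1 s s' ▸ hs.one, hs.right.1, h4⟩ ⟨hs.left.1, hs.one, h1⟩
    (by simp [e1 c s, e1 c s', h1, h4, B_self_quad hk, h2, hc]; field_simp) y

omit h2 in
theorem exists_third' (h3 : 3 ≤ finrank F S) {s s' : S} (hs : Hyp f s s') :
    ∃ c, f.Q c ≠ 0 ∧ f.B s c = 0 ∧ f.B s' c = 0 :=
  have ⟨e, _, c1, c2, c3⟩ := exists_third (D := ⊤) hn hk (by simp [perp_top _ hn]) (by simpa)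
    hs trivial trivial
  ⟨e, c3, c1, c2⟩

theorem exists_hyp_perp {s c : S} (hs : f.Q s = 0) (h0 : s ≠ 0) (hc : f.Q c ≠ 0)
    (h1 : f.B s c = 0) : ∃ s', Hyp f s s' ∧ f.B s' c = 0 := by
  have e1 := B_comm_quad hk
  obtain ⟨s', a1, a2⟩ := exists_hyp_mem hn (D := f.perp (F ∙ c)) ((sing_quad hk).2 hs)
    (f.mem_perp_span_singleton.2 (e1 s c ▸ h1)) (by
      rw [hn.perp_perp, Submodule.mem_span_singleton]
      rintro ⟨d, rfl⟩
      simp [B_self_quad hk, h2, hc] at h1
      simp [h1] at h0)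
  exact ⟨s', a2, e1 c s' ▸ f.mem_perp_span_singleton.1 a1⟩

theorem unip_fix (h3 : finrank F S = 3) {g : End F S} (hg : ∀ x y, f.B (g x) (g y) = f.B x y)
    {a : S} (ha : f.Q a ≠ 0) (h1 : g a = a) (h4 : IsNilpotent (g - 1)) : g = 1 := by
  have e1 := B_comm_quad hk
  by_contra hc
  obtain ⟨y, b1, b2⟩ : ∃ y, g y - y ≠ 0 ∧ g (g y - y) = g y - y := by
    classical
    have b0 : ∃ n, (g - 1) ^ n * (g - 1) = 0 := h4.imp fun n hn => by rw [hn, zero_mul]
    obtain ⟨n, b1⟩ : ∃ n, Nat.find b0 = n + 1 := Nat.exists_eq_succ_of_ne_zero fun e =>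
      hc (sub_eq_zero.1 (by simpa [e] using Nat.find_spec b0))
    have b2 := Nat.find_min b0 (m := n) (by omega)
    obtain ⟨y, b2⟩ := DFunLike.ne_iff.1 b2
    have b3 := DFunLike.congr_fun (b1 ▸ Nat.find_spec b0) y
    rw [← pow_succ, pow_succ'] at b2
    rw [← pow_succ, pow_succ', pow_succ'] at b3
    exact ⟨((g - 1) ^ n) y, b2, sub_eq_zero.1 b3⟩
  obtain ⟨z, hz⟩ : ∃ z, g y = y + z := ⟨g y - y, by simp⟩
  simp only [hz, add_sub_cancel_left] at b1 b2
  have b3 : f.B z z = 0 := by simpa [hz, b2] using hg y z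
  have b4 : f.B z y = 0 := mul_left_cancel₀ h2 (by
    have := hg y y
    simp [hz, b3, e1 y z] at this
    linear_combination this)
  have b5 : f.B z a = 0 := by simpa [hz, h1] using hg y a
  obtain ⟨s', c1, c2⟩ := exists_hyp_perp hn hk h2 (by simpa [B_self_quad hk, h2] using b3) b1 ha b5
  have c3 := exp_hyp hk h2 h3 c1 ha b5 c2 y
  have c4 := congrArg g c3
  simp only [b4, zero_smul, add_zero] at c3 c4
  rw [map_add, map_smul, map_smul, b2, h1, ← c3, hz] at c4
  exact b1 (by simpa using c4)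

theorem refl_of_rank {g : End F S} (hg : ∀ x y, f.B (g x) (g y) = f.B x y) (h1 : ∀ x, g (g x) = x)
    (h3 : g ≠ 1) (h4 : finrank F (LinearMap.ker (g + 1)) ≤ 1) :
    ∃ d, f.Q d ≠ 0 ∧ g = (rf hk d).toLinearMap := by
  obtain ⟨⟨d, a1⟩, a2⟩ := finrank_le_one_iff.1 h4
  replace a1 : g d = -d := eq_neg_of_add_eq_zero_left a1
  have a3 : ∀ y, ∃ c : F, c • d = y - g y := fun y =>
    (a2 ⟨y - g y, by simp [h1]⟩).imp fun c hc => congrArg Subtype.val hc
  have a4 : ∀ y c, c • d = y - g y → c * f.Q d = f.B d y := fun y c hc => mul_left_cancel₀ h2 (by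
    have b1 := congrArg (f.B d) hc
    have b2 := hg d (g y)
    simp [B_self_quad hk d] at b1
    simp [h1, a1] at b2
    linear_combination b1 + b2)
  have a5 : d ≠ 0 := by
    rintro rfl
    exact h3 (LinearMap.ext fun y => (a3 y).elim fun c hc => (sub_eq_zero.1 (by simpa using hc.symm)).symm)
  obtain ⟨y, hy⟩ := hn.exists_ne a5
  have a6 : f.Q d ≠ 0 := (a3 y).elim fun c hc => right_ne_zero_of_mul_eq_one ((a4 y c hc).trans hy)
  refine ⟨d, a6, LinearMap.ext fun y => (a3 y).elim fun c hc => ?_⟩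
  simp [refl_apply, ← a4 y c hc, mul_comm c, a6, hc]

omit hn hk in
theorem rank_add {g : End F S} :
    finrank F (LinearMap.ker (g + 1)) + finrank F (LinearMap.ker (-g + 1)) ≤ finrank F S :=
  Submodule.finrank_add_finrank_le_of_disjoint (Submodule.disjoint_def.2 fun x h3 h4 =>
    smul_right_injective S h2 (by
      simp only [LinearMap.mem_ker, LinearMap.add_apply, LinearMap.neg_apply, End.one_apply] at h3 h4
      simp only [smul_zero]
      linear_combination (norm := module) h3 + h4))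

theorem inv3 (h3 : finrank F S = 3) {g : End F S} (hg : ∀ x y, f.B (g x) (g y) = f.B x y)
    (h1 : ∀ x, g (g x) = x) (h4 : g ≠ 1) (h5 : g ≠ -1) :
    ∃ d, f.Q d ≠ 0 ∧ (g = (rf hk d).toLinearMap ∨ g = -(rf hk d).toLinearMap) := by
  have := rank_add h2 (g := g)
  by_cases e : finrank F (LinearMap.ker (g + 1)) ≤ 1
  · exact (refl_of_rank hn hk h2 hg h1 h4 e).imp fun d hd => ⟨hd.1, .inl hd.2⟩
  · exact (refl_of_rank hn hk h2 (g := -g) (by simpa) (by simpa) (fun e => h5 (neg_eq_iff_eq_neg.1 e))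
      (by omega)).imp fun d hd => ⟨hd.1, .inr (neg_eq_iff_eq_neg.1 hd.2)⟩

theorem inv4 (h3 : finrank F S = 4) {g : End F S} (hg : ∀ x y, f.B (g x) (g y) = f.B x y)
    (h1 : ∀ x, g (g x) = x) (h4 : LinearMap.det g = 1) (h5 : LinearMap.trace F S g ≠ 0) :
    g = 1 ∨ g = -1 := by
  have := rank_add h2 (g := g)
  by_contra! hc
  have a0 : (1 : F) ≠ -1 := fun e => h2 (by linear_combination e)
  by_cases e : finrank F (LinearMap.ker (g + 1)) ≤ 1
  · obtain ⟨d, a1, rfl⟩ := refl_of_rank hn hk h2 hg h1 hc.1 e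
    exact a0 (h4.symm.trans (det_refl hk a1))
  by_cases e' : finrank F (LinearMap.ker (-g + 1)) ≤ 1
  · obtain ⟨d, a1, a2⟩ := refl_of_rank hn hk h2 (g := -g) (by simpa) (by simpa)
      (fun e => hc.2 (neg_eq_iff_eq_neg.1 e)) e'
    have a3 := det_refl hk a1
    rw [← a2, ← neg_one_smul F g, LinearMap.det_smul, h3, h4] at a3
    exact a0 (by linear_combination a3)
  have a1 : LinearMap.IsProj (LinearMap.ker (-g + 1)) ((2 : F)⁻¹ • (g + 1)) :=
    ⟨fun x => by simp [h1]; abel, fun x hx => by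
      have : g x = x := neg_add_eq_zero.1 hx
      simp [-smul_add, this, ← two_smul F x, h2]⟩
  have a2 := a1.trace
  rw [show finrank F (LinearMap.ker (-g + 1)) = 2 by omega, map_smul, map_add, LinearMap.trace_one,
    h3] at a2
  apply h5
  simp only [smul_eq_mul] at a2
  field_simp at a2
  push_cast at a2
  linear_combination a2

omit h2 in
theorem sq_of_sim (h3 : finrank F S = 3) {g : End F S} {c : F} (hc : c ≠ 0)
    (hg : ∀ x y, f.B (g x) (g y) = c * f.B x y) : IsSquare c := by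
  let b := finBasisOfFinrankEq F S h3
  have a1 : LinearMap.BilinForm.comp f.B g g = c • f.B := by ext x y; simp [hg]
  have a2 := congrArg (fun B => (LinearMap.BilinForm.toMatrix b B).det) a1
  have a3 : (LinearMap.BilinForm.toMatrix b f.B).det ≠ 0 := gram_det_ne_zero
    ⟨hn, fun y hy => hn y fun x => B_comm_quad hk x y ▸ hy x⟩ b
  simp only [LinearMap.BilinForm.toMatrix_comp b b, Matrix.det_mul, Matrix.det_transpose,
    map_smul, Matrix.det_smul, Fintype.card_fin] at a2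
  refine ⟨(LinearMap.toMatrix b b g).det / c, ?_⟩
  field_simp
  exact mul_right_cancel₀ a3 (by linear_combination -a2)

omit hn in
theorem tr_rf {d : S} (hd : f.Q d ≠ 0) :
    LinearMap.trace F S (rf hk d).toLinearMap = finrank F S - 2 := by
  have : (rf hk d).toLinearMap = 1 - ((f.Q d)⁻¹ • f.B d).smulRight d := by ext x; simp [refl_apply]
  rw [this, map_sub, LinearMap.trace_one, LinearMap.trace_smulRight]
  simp [B_self_quad hk, mul_left_comm, hd]

end H23.Qv
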