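import Cfsg.Agent.H23.Qv1

/-! The tensor product of orthogonal spaces of dimensions three and four: root elements. -/

set_option autoImplicit false

namespace H23.Qp.Oo

open Module H22 Cfsg Cfsg.Geo Form Tn Nd Qp Zd Qv

variable {F S W V : Type*} [Field F] [AddCommGroup S] [Module F S] [AddCommGroup W] [Module F W]
  [AddCommGroup V] [Module F V] {t : S →ₗ[F] W →ₗ[F] V}
  {Φ : Form (RingHom.id F) V} {f : Form (RingHom.id F) S} {h : Form (RingHom.id F) W}
  (p : Oo Φ f h t) {H : Subgroup (V ≃ₗ[F] V)} {u u' w e : W} {a s s' c : S}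
include p

/-- The involution attached to a non-singular vector of the first factor. -/
noncomputable def tau (a : S) : V ≃ₗ[F] V :=
  (Pr.exists_tens p.ht (LinearEquiv.neg F * rf p.fk a) 1).choose

@[simp] theorem tau_t (a x : S) (w : W) : p.tau a (t x w) = -t (rf p.fk a x) w :=
  ((Pr.exists_tens p.ht (LinearEquiv.neg F * rf p.fk a) 1).choose_spec.2 x w).trans (by
    change t (-rf p.fk a x) w = _
    simp)

theorem tau_Tg (a : S) : p.tau a ∈ Tg F t :=
  (Pr.exists_tens p.ht (LinearEquiv.neg F * rf p.fk a) 1).choose_spec.1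

theorem ext_tt {g k : V ≃ₗ[F] V} (h1 : ∀ x w, g (t x w) = k (t x w)) : g = k :=
  LinearEquiv.ext (ext_t p.ht (f := g.toLinearMap) (f' := k.toLinearMap) h1)

theorem rr (a x : S) : rf p.fk a (rf p.fk a x) = x := DFunLike.congr_fun (rf_rf p.fk a) x

theorem tau_tau (a : S) : p.tau a * p.tau a = 1 := p.ext_tt fun x w => by simp [p.rr]

theorem tau_tau' (a : S) (v : V) : p.tau a (p.tau a v) = v := DFunLike.congr_fun (p.tau_tau a) v

theorem cv_tau (a : S) (e : W) (v : V) : p.cv e (p.tau a v) = -rf p.fk a (p.cv e v) :=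
  ext_t p.ht (f := p.cv e ∘ₗ (p.tau a).toLinearMap)
    (f' := -(rf p.fk a).toLinearMap ∘ₗ p.cv e) (by simp) v

theorem cs_t (x y : S) (w : W) : p.flip.cv x (t y w) = f.B x y • w := cov_t p.flip.ht _ w y

theorem B_rf (a x y : S) : f.B x (rf p.fk a y) = f.B (rf p.fk a x) y := by
  rw [← (rf_O p.fk a).1 x, p.rr]

theorem cs_tau (a x : S) (v : V) : p.flip.cv x (p.tau a v) = -p.flip.cv (rf p.fk a x) v :=
  ext_t p.ht (f := p.flip.cv x ∘ₗ (p.tau a).toLinearMap)
    (f' := -p.flip.cv (rf p.fk a x)) (by simp [p.cs_t, p.B_rf]) v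

theorem tau_fix {v : V} (h1 : p.tau a v = v) : ∃ w, v = t a w := by
  have := ext_t p.ht (f := (p.tau a).toLinearMap) (f' := (f.Q a)⁻¹ • t a ∘ₗ p.flip.cv a - 1)
    (by simp [p.cs_t, refl_apply, smul_smul]) v
  simp only [LinearEquiv.coe_coe, h1, LinearMap.sub_apply, End.one_apply, eq_sub_iff_add_eq,
    ← two_smul F v] at this
  exact ⟨((2 : F)⁻¹ * (f.Q a)⁻¹) • p.flip.cv a v, (inv_smul_smul₀ p.odd v).symm.trans (by
    rw [this]; simp [smul_smul])⟩

theorem Q_t (x : S) (w : W) : Φ.Q (t x w) = 2 * f.Q x * h.Q w := mul_left_cancel₀ p.odd (by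
  rw [← B_self_quad p.kap, p.B, B_self_quad p.fk, B_self_quad p.hk]; ring)

theorem fc (x y : S) : f.B x y = f.B y x := B_comm_quad p.fk x y

theorem eq_t (hu : h.B u u' = 1) {n : V} (h1 : ∀ e, h.B u e = 0 → p.cv e n = 0) :
    n = t (p.cv u' n) u := p.nd.eq_of_forall' (ext_t p.ht (f := Φ.B.flip n)
      (f' := Φ.B.flip (t (p.cv u' n) u)) fun x w => by
    have := h1 (w - h.B u w • u') (by simp [hu])
    rw [cv_sub, cv_smul, sub_eq_zero] at this
    simp [p.B_t, this, p.hc w u])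

variable [FiniteDimensional F S] [FiniteDimensional F W] [FiniteDimensional F V] [Fintype F]
  (h3 : finrank F S = 3) (h4 : finrank F W = 4)
include h3 h4

omit h3 in
theorem exists_rho : ∃ c : ℤˣ, ∀ a, f.Q a ≠ 0 → ∃ m : Φ.O,
    (∀ x w, m.1 (t x w) = t (rf p.fk a x) w) ∧
      dickson p.nd p.kap (genHyp p.nd p.kap p.five) m = 1 ∧ spin p.nd p.kap m = c := by
  have := invertibleOfNonzero p.odd
  obtain ⟨b, hb⟩ := LinearMap.BilinForm.exists_orthogonal_basis (B := h.B) ⟨fun x y => p.hc x y⟩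
  obtain ⟨b, hb⟩ : ∃ b : Basis (Fin 4) F W, ∀ i j, i ≠ j → h.B (b i) (b j) = 0 :=
    ⟨b.reindex (finCongr h4), fun i j hij => by simpa using hb (by simpa using hij)⟩
  have a1 : ∀ i, h.Q (b i) ≠ 0 := fun i e => b.ne_zero i (p.hn _ (DFunLike.congr_fun
    (b.ext (f₁ := h.B (b i)) (f₂ := 0) fun j => by
      by_cases e' : i = j
      · simp [← e', p.h0 e]
      · simp [hb i j e'])))
  refine ⟨sqc (h.Q (b 0)) * sqc (h.Q (b 1)) * sqc (h.Q (b 2)) * sqc (h.Q (b 3)), fun a ha => ?_⟩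
  have a2 : ∀ i, Φ.Q (t a (b i)) ≠ 0 := fun i => by simp [p.Q_t, p.odd, ha, a1]
  have a3 : ∀ i x, (refl p.kap (t a (b i))).1 (t x (b i)) = t (rf p.fk a x) (b i) := fun i x => by
    have := a1 i
    have := p.odd
    simp only [refl_apply, p.Q_t, p.B, B_self_quad p.hk, map_sub, map_smul, LinearMap.sub_apply,
      LinearMap.smul_apply]
    congr 2
    field_simp
  have a4 : ∀ i j x, i ≠ j → (refl p.kap (t a (b i))).1 (t x (b j)) = t x (b j) :=
    fun i j x hij => by simp [refl_apply, p.B, hb i j hij]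
  refine ⟨refl p.kap (t a (b 0)) * refl p.kap (t a (b 1)) * refl p.kap (t a (b 2)) *
    refl p.kap (t a (b 3)), fun x => DFunLike.congr_fun (b.ext (f₁ := (refl p.kap (t a (b 0)) *
      refl p.kap (t a (b 1)) * refl p.kap (t a (b 2)) * refl p.kap (t a (b 3))).1.toLinearMap ∘ₗ t x)
      (f₂ := t (rf p.fk a x)) fun j => ?_), by simp [dickson_refl _ _ _ (a2 _)], ?_⟩
  · fin_cases j <;> simp [a3, a4]
  · have a5 : ∀ i, sqc (2 * f.Q a * h.Q (b i)) = sqc (2 * f.Q a) * sqc (h.Q (b i)) := fun i =>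
      sqc_mul (mul_ne_zero p.odd ha) (a1 i)
    simp only [map_mul, spin_refl _ _ (a2 _), p.Q_t, a5]
    rcases Int.units_eq_one_or (sqc (2 * f.Q a)) with e | e <;> simp [e]

theorem tau_mem (ha : f.Q a ≠ 0) : p.tau a ∈ Tg F t ⊓ Φ.E := by
  have e0 := B_self_quad p.fk
  obtain ⟨b, b1, b2⟩ := exists_Q_ne_zero_perp p.fk p.fn (Z := F ∙ a) fun e => by
    have := Submodule.finrank_mono e
    have := p.fn.finrank_perp_add (F ∙ a)
    have := Nd.finrank_le_one (F := F) a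
    omega
  replace b1 := f.mem_perp_span_singleton.1 b1
  obtain ⟨c, c1, c2⟩ := exists_Q_ne_zero_perp p.fk p.fn (Z := Submodule.span F {x | x ∈ [a, b]})
    fun e => by
      have c3 := p.fn.finrank_perp_add (Submodule.span F {x | x ∈ [a, b]})
      have c4 := finrank_span_list_le (F := F) [a, b]
      obtain ⟨y, c1, c2⟩ := Submodule.exists_mem_ne_zero_of_ne_bot (p := f.perp (Submodule.span F
        {x | x ∈ [a, b]})) fun e => by
          rw [e, finrank_bot] at c3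
          simp only [List.length_cons, List.length_nil] at c4
          omega
      obtain ⟨c, d, rfl⟩ := Submodule.mem_span_pair.1
        (by simpa [Set.insert_def] using e c1 : y ∈ Submodule.span F {a, b})
      replace c1 := Pr.mem_perp_pair.1 c1
      simp [e0, b1, p.fc b a, p.odd, ha, b2] at c1
      simp [c1] at c2
  obtain ⟨c1, c3⟩ := Pr.mem_perp_pair.1 c1
  obtain ⟨k, hk⟩ := p.exists_rho h4
  obtain ⟨m, a1, a2, a3⟩ := hk b b2
  obtain ⟨m', a4, a5, a6⟩ := hk c c2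
  refine ⟨p.tau_Tg a, (p.ext_tt fun x w => ?_ : p.tau a = (m * m').1) ▸
    mem_E_of p.nd p.kap p.five (g := m * m') (by simp [a2, a5]) (by simp [a3, a6])⟩
  have := p.odd
  rw [exp3 h3 (a := a) (b := b) (c := c) (α := (2 * f.Q a)⁻¹ • f.B a) (β := (2 * f.Q b)⁻¹ • f.B b)
    (γ := (2 * f.Q c)⁻¹ • f.B c) (by simp [e0, b1, c1]; field_simp)
    (by simp [e0, p.fc b a, b1, c3]; field_simp)
    (by simp [e0, p.fc c a, p.fc c b, c1, c3]; field_simp) x]
  simp [a1, a4, refl_apply_self _ ha, refl_apply_self _ b2, refl_apply_self _ c2,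
    refl_apply_of_perp _ b1, refl_apply_of_perp _ c1, refl_apply_of_perp _ c3,
    refl_apply_of_perp _ (p.fc a b ▸ b1), refl_apply_of_perp _ (p.fc a c ▸ c1),
    refl_apply_of_perp _ (p.fc b c ▸ c3)]

omit [FiniteDimensional F V] [Fintype F] in
theorem tr_tau (ha : f.Q a ≠ 0) : LinearMap.trace F V (p.tau a).toLinearMap = -4 := by
  rw [(tr_det p.ht (a := -(rf p.fk a).toLinearMap) (b := 1) (by simp)).1, map_neg,
    tr_rf p.fk p.odd ha, LinearMap.trace_one, h3, h4]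
  norm_num

variable (hM : Tg F t ⊓ Φ.E ≤ H) (hH : H ≤ Φ.O)
include hM hH

omit h4 [FiniteDimensional F W] [FiniteDimensional F V] [Fintype F] hM in
theorem exists_skew (hu : Hyp h u u') {z : V ≃ₗ[F] V} (hz : z ∈ H) (h1 : z ≠ 1)
    (h2 : ∀ v, p.cv u v = 0 → z v = v) : ∃ ψ : End F S, (∀ x y, f.B (ψ x) y = -f.B x (ψ y)) ∧
      (∀ v, z v = v + t (ψ (p.cv u v)) u) ∧ ∃ s s', Hyp f s s' ∧ f.B s (ψ s') ≠ 0 ∨
        ∀ s, f.Q s = 0 → s = 0 := by
  let ψ := p.cv u' ∘ₗ (z.toLinearMap - 1) ∘ₗ vec F t u'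
  have a1 : ∀ y, z (t y u') = t y u' + t (ψ y) u := fun y => sub_eq_iff_eq_add'.1
    (p.eq_t hu.one fun e he => p.fn.eq_of_forall' fun x => by
      have := (hH hz).1 (t x e) (t y u')
      rw [h2 _ (by simp [he])] at this
      simp only [← p.B_t, map_sub, this, sub_self, map_zero])
  have a2 : ∀ v, z v = v + t (ψ (p.cv u v)) u := fun v => by
    have := h2 (v - t (p.cv u v) u') (by simp [hu.one])
    rw [map_sub, a1] at this
    linear_combination (norm := module) this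
  have a3 : ∀ x y, f.B (ψ x) y = -f.B x (ψ y) := fun x y => by
    have := (hH hz).1 (t x u') (t y u')
    simp only [a1, map_add, LinearMap.add_apply, p.B, hu.one, hu.left.1, p.hc u' u] at this
    linear_combination this
  clear_value ψ
  refine ⟨ψ, a3, a2, ?_⟩
  by_contra! hc
  obtain ⟨s, b1, b2⟩ := (hc 0 0).2
  obtain ⟨s', hs⟩ := exists_hyp p.fn ((sing_quad p.fk).2 b1) b2
  obtain ⟨c, c1, c2, c3⟩ := exists_third' p.fn p.fk h3.ge hs
  have a4 : ∀ x, f.B x (ψ x) = 0 := fun x => mul_left_cancel₀ p.odd (by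
    have := a3 x x
    rw [p.fc] at this
    linear_combination this)
  have d1 := (hc s s').1 hs
  have d2 := (hc s (s' + c - f.Q c • s)).1 ⟨hs.left, (sing_quad p.fk).2 (by
    simp [f.Q_sub, Q_add_quad p.fk, f.Q_smul, hs.right.2, b1, c3, p.fk, p.fc s' s, p.fc c s, c2,
      hs.one]), by simp [hs.one, c2, hs.left.1]⟩
  have d3 := (hc s' (s + c - f.Q c • s')).1 ⟨hs.right, (sing_quad p.fk).2 (by
    simp [f.Q_sub, Q_add_quad p.fk, f.Q_smul, hs.right.2, b1, c3, p.fk, p.fc c s', c2,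
      hs.one]), by simp [hs.one, c3, hs.right.1, p.fc s' s]⟩
  have d4 : f.B s' (ψ s) = 0 := by rw [p.fc, a3, d1, neg_zero]
  simp [d1, a4] at d2
  simp [d4, a4] at d3
  have d5 : ∀ y, ψ y = 0 := fun y => by
    rw [exp_hyp p.fk p.odd h3 hs c1 c2 c3 (ψ y), p.fc s', p.fc s, p.fc c, ← neg_neg (f.B (ψ y) s),
      exp_hyp p.fk p.odd h3 hs c1 c2 c3 y]
    simp [a3, d1, d2, d3, d4, a4, p.fc c (ψ s), p.fc c (ψ s')]
  exact h1 (LinearEquiv.ext fun v => by simp [a2, d5])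

theorem exists_root (hu : Hyp h u u') {z : V ≃ₗ[F] V} (hz : z ∈ H)
    (h1 : z ≠ 1) (h2 : ∀ v, p.cv u v = 0 → z v = v) : ∃ s s' c, Hyp f s s' ∧ f.Q c ≠ 0 ∧
      f.B s c = 0 ∧ f.B s' c = 0 ∧ ∀ l : F, Φ.AIn H (t s u) (l • t c u) := by
  obtain ⟨ψ, a1, a2, s, s', ⟨hs, a3⟩ | a3⟩ := p.exists_skew h3 hH hu hz h1 h2
  swap
  · obtain ⟨s, -, b1, b2⟩ := exists_sing (D := ⊤) p.fk (by simp [h3])
    exact (b2 (a3 s b1)).elim
  obtain ⟨c, c1, c2, c3⟩ := exists_third' p.fn p.fk h3.ge hs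
  have hT := fun a ha => hM (p.tau_mem h3 h4 (a := a) ha)
  have e0 := B_self_quad p.fk
  have e2 := p.odd
  have a4 : ∀ x, f.B x (ψ x) = 0 := fun x => mul_left_cancel₀ p.odd (by
    have := a1 x x
    rw [p.fc] at this
    linear_combination this)
  have a5 : ∀ y, ψ y + rf p.fk c (ψ (rf p.fk c y)) =
      (-2 * f.B s (ψ s') * f.B s' y) • s + (2 * f.B s (ψ s') * f.B s y) • s' := fun y => by
    have b1 : f.B s' (ψ s) = -f.B s (ψ s') := by rw [p.fc, a1]
    rw [exp_hyp p.fk p.odd h3 hs c1 c2 c3 (_ + _), exp_hyp p.fk p.odd h3 hs c1 c2 c3 y]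
    simp [p.B_rf, refl_apply_self _ c1, refl_apply_of_perp _ (p.fc s c ▸ c2), a4, b1,
      refl_apply_of_perp _ (p.fc s' c ▸ c3), hs.one, hs.left.1, hs.right.1, p.fc s' s, c2, c3]
    module
  have a6 := p.sing s hu.left.2
  have a7 : Φ.AIn H (t s u) ((-2 * f.B s (ψ s')) • t s' u) := aIn_of_apply p.kap
    (by simp [p.B, hu.left.1]) (mul_mem hz (mul_mem (mul_mem (hT c c1) hz) (hT c c1))) fun v => by
      have := congrArg (fun y => t y u) (a5 (p.cv u v))
      simp [a2, p.cv_tau, p.tau_tau', hu.left.1, p.B_t, Φ.Q_smul, Φ.Q_neg, p.Q_t, hu.left.2]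
        at this ⊢
      linear_combination (norm := module) this
  have a8 : f.Q (c + s) = f.Q c := by simp [Q_add_quad p.fk, hs.left.2, p.fc c s, c2]
  have a9 := a7.conj (hT (c + s) (a8 ▸ c1)) (hH (hT _ (a8 ▸ c1)))
  have b1 : Φ.AIn H (t s u) ((-2 * f.B s (ψ s') * (f.Q c)⁻¹) • t c u) := by
    rw [p.tau_t, refl_apply_of_perp _ (by simp [hs.left.1, p.fc c s, c2]), ← neg_one_smul F] at a9
    convert (a7.sub a6 (a9.of_smul_left (by simp))).add_smul a6
      (2 * f.B s (ψ s') * (f.Q c)⁻¹) using 1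
    simp [refl_apply, a8, hs.one, p.fc c s', c3]
    module
  refine ⟨s, s', c, hs, c1, c2, c3, fun l => ?_⟩
  by_cases e : l = 0
  · simpa [e] using a7.zero a6
  obtain ⟨m, hm⟩ : ∃ m, m = l / (-2 * f.B s (ψ s') * (f.Q c)⁻¹) := ⟨_, rfl⟩
  have b2 : m ≠ 0 := by simp [hm, e, a3, c1, e2]
  have b3 : f.Q (m • s + s') = m := by
    simp [Q_add_quad p.fk, f.Q_smul, hs.left.2, hs.right.2, hs.one]
  have b4 : f.Q (s + s') = 1 := by simp [Q_add_quad p.fk, hs.left.2, hs.right.2, hs.one]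
  have b5 := hT _ (b3 ▸ b2)
  have b6 := hT _ (b4 ▸ one_ne_zero)
  have b7 := (b1.conj b6 (hH b6)).conj b5 (hH b5)
  have b8 : p.tau (m • s + s') (p.tau (s + s') (t s u)) = m • t s u := by
    simp [refl_apply, b3, b4, hs.one, hs.left.1, hs.right.1, p.fc s' s, b2]
  rw [b8] at b7
  convert b7.of_smul_left b2 using 1
  simp [refl_apply, c2, c3, smul_smul, hm]
  rw [← neg_smul]
  congr 1
  field_simp

omit h3 [FiniteDimensional F S] in
theorem aIn_move {w' : W} (hu : h.Q u = 0) (hw : h.Q w = 0) (hw' : h.Q w' = 0) (h1 : h.B u w ≠ 0)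
    (h2 : h.B u w' ≠ 0) (h5 : ∀ l : F, Φ.AIn H (t s w) (l • t c w)) (l : F) :
    Φ.AIn H (t s w') (l • t c w') := by
  have a1 : ∀ w, h.Q w = 0 → h.B u w ≠ 0 → Hyp h u ((h.B u w)⁻¹ • w) := fun w hw h1 =>
    ⟨(sing_quad p.hk).2 hu, ((sing_quad p.hk).2 hw).smul _, by simp [h1]⟩
  obtain ⟨e, -, r, a2, a3⟩ := exists_eich_map' p.hn (a1 w hw h1) (a1 w' hw' h2)
  obtain ⟨b, a4⟩ := exists_eich p.hn a2
  obtain ⟨m, a5, a6⟩ := p.tensE (Form.mem_E a2 a4)
  rw [← a4, map_smul, inv_smul_eq_iff₀ h1, smul_smul] at a3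
  have a7 : h.B u w * (h.B u w')⁻¹ ≠ 0 := by simp [h1, h2]
  generalize h.B u w * (h.B u w')⁻¹ = k at a3 a7
  have a8 := (h5 (l / k ^ 2)).conj (hM a5) (hH (hM a5))
  rw [map_smul, a6, a6, a3, map_smul, map_smul] at a8
  convert a8.of_smul_left a7 using 1
  simp only [smul_smul, RingHom.id_apply]
  congr 1
  field_simp

theorem win4 (hu : Hyp h u u') {z : V ≃ₗ[F] V} (hz : z ∈ H) (h1 : z ≠ 1)
    (h2 : ∀ v, p.cv u v = 0 → z v = v) : Φ.E ≤ H := by
  obtain ⟨s, s', c, hs, c1, c2, c3, a0⟩ := p.exists_root h3 h4 hM hH hu hz h1 h2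
  obtain ⟨d, d1, d2, d3⟩ := exists_third' p.hn p.hk (by omega) hu
  have hT := fun a ha => hM (p.tau_mem h3 h4 (a := a) ha)
  have e2 := p.odd
  have uu := hu.left.1
  have e1 : h.B u' u = 1 := p.hc u u' ▸ hu.one
  have e3 : f.B s' s = 1 := p.fc s s' ▸ hs.one
  have ss := hs.left.1
  have a6 := p.sing s hu.left.2
  have a1 : ∀ w, h.Q w = 0 → h.B u w ≠ 0 → ∀ l : F, Φ.AIn H (t s w) (l • t c w) := by
    have b1 : h.Q (u + d - h.Q d • u') = 0 := by
      simp [h.Q_sub, Q_add_quad p.hk, h.Q_smul, hu.left.2, hu.right.2, d2, p.hk, hu.one,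
        p.hc d u', d3]
    exact fun w hw hw' => p.aIn_move h4 hM hH hu.left.2 b1 hw (by simp [uu, d2, hu.one, d1]) hw'
      (p.aIn_move h4 hM hH hu.right.2 hu.left.2 b1 (by simp [e1]) (by simp [e1, d3, hu.right.1]) a0)
  have a2 : ∀ {x y e : V}, Φ.Q x = 0 → Φ.AIn H x y → Φ.B x (t s u) = 0 → Φ.B y (t s u) = 0 →
      Φ.AIn H (t s u) e → Φ.AIn H (t s u) ((Φ.B y e - Φ.Q y * Φ.B x e) • x - Φ.B x e • y) := by
    intro x y e b1 b2 b3 b4 b5
    obtain ⟨g, b6, b7, b8⟩ := b2.apply p.kap b1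
    have := b5.conj b6 b7
    rw [b8 (t s u), b3, b4, b8] at this
    simp only [mul_zero, sub_self, zero_smul, add_zero, sub_zero] at this
    convert this.sub a6 b5 using 1
    abel
  have a3 : ∀ w, h.Q w = 0 → h.B u w ≠ 0 → ∀ l : F, Φ.AIn H (t s u) (l • t s w) := by
    intro w hw hw' l
    convert a2 (p.sing s hw).2 (a1 w hw hw' (l / (2 * f.Q c * h.B u w))) (by simp [p.B, ss])
      (by simp [p.B, p.fc c s, c2]) (a0 1) using 1
    simp [p.B, c2, B_self_quad p.fk, p.hc w u, c1, hw', e2]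
  have a4 : ∀ w, Φ.AIn H (t s u) (t s w) := fun w => by
    obtain ⟨e, he⟩ : ∃ e, e = w - h.B u w • u' := ⟨_, rfl⟩
    have b1 : h.B u e = 0 := by simp [he, hu.one]
    convert ((a3 (u' + e - (h.Q e + h.B u' e) • u) (by
      simp [h.Q_sub, Q_add_quad p.hk, h.Q_smul, hu.left.2, hu.right.2, p.hk, e1, p.hc e u, b1])
      (by simp [uu, hu.one, b1]) 1).add a6 (a3 u' hu.right.2 (by simp [hu.one])
        (h.B u w - 1))).add_smul a6 (h.Q e + h.B u' e) using 1
    generalize h.Q e + h.B u' e = k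
    simp [he]
    module
  have a5 : ∀ y, f.Q y = 0 → f.B s y = 1 → ∀ e, h.B u e = 0 → Φ.AIn H (t s u) (t y e) := by
    intro y b1 b2 e he
    have b3 : f.Q (s + y) = 1 := by simp [Q_add_quad p.fk, hs.left.2, b1, b2]
    have b4 : ∀ w, Φ.AIn H (t y u) (t y w) := fun w => by
      have := (a4 w).conj (hT _ (b3 ▸ one_ne_zero)) (hH (hT _ (b3 ▸ one_ne_zero)))
      simpa [refl_apply, b3, ss, p.fc y s, b2] using this
    have b5 : ∀ e, h.B u e = 0 → ∀ w, Φ.AIn H (t s u) (h.B e w • t y u - h.B u w • t y e) :=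
      fun e he w => by
        simpa [p.B, p.fc y s, b2, p.Q_t, b1] using a2 (p.sing y hu.left.2).2 (b4 e)
          (by simp [p.B, uu]) (by simp [p.B, p.hc e u, he]) (a4 w)
    convert (b5 d d2 ((h.B e u' / (2 * h.Q d)) • d)).sub a6 (b5 e he u') using 1
    simp [d2, B_self_quad p.hk, hu.one, d1, e2]
  have a7 : ∀ y e, h.B u e = 0 → Φ.AIn H (t s u) (t y e) := fun y e he => by
    have b1 : ∀ e, h.B u e = 0 → Φ.AIn H (t s u) (t c e) := fun e he => by
      convert ((a5 (s' + c - f.Q c • s) (by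
        simp [f.Q_sub, Q_add_quad p.fk, f.Q_smul, hs.right.2, hs.left.2, c3, p.fk, e3, p.fc c s, c2])
        (by simp [hs.one, c2, ss]) e he).sub a6 (a5 s' hs.right.2 hs.one e he)).add a6
          (a4 (f.Q c • e)) using 1
      simp
      abel
    rw [exp_hyp p.fk p.odd h3 hs c1 c2 c3 y]
    simpa using ((a4 (f.B s' y • e)).add a6 (a5 s' hs.right.2 hs.one (f.B s y • e)
      (by simp [he]))).add a6 (b1 (((2 * f.Q c)⁻¹ * f.B c y) • e) (by simp [he]))
  have a8 : ∀ l : F, Φ.AIn H (t s u) (l • t c u') := fun l => by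
    simpa [p.B, hs.one, e1, p.fc c s', c3, Φ.Q_neg, Φ.Q_smul, p.Q_t, hu.right.2] using
      a2 (p.sing s hu.right.2).2 (a1 u' hu.right.2 (by simp [hu.one]) (-l)) (by simp [p.B, ss])
        (by simp [p.B, p.fc c s, c2]) (a7 s' u uu)
  have a9 : Φ.QIn H (t s u) := qIn_iff.2 fun v hv => by
    have b4 : ∀ v, Φ.AIn H (t s u) (v - t (p.cv u v) u') := fun v =>
      p.ht.inductionOn v (by simpa using a7 0 u uu) (fun x w => by
        simpa using a7 x (w - h.B u w • u') (by simp [hu.one]))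
        fun e e' b4 b5 => by convert b4.add a6 b5 using 1; simp; abel
    rw [p.B_t] at hv
    have b5 := exp_hyp p.fk p.odd h3 hs c1 c2 c3 (p.cv u v)
    convert ((b4 v).add a6 (a4 (f.B s' (p.cv u v) • u'))).add a6
      (a8 ((2 * f.Q c)⁻¹ * f.B c (p.cv u v))) using 1
    have := congrArg (fun y => t y u') b5
    simp only [hv, map_add, map_smul, LinearMap.add_apply, LinearMap.smul_apply, zero_smul,
      add_zero] at this ⊢
    linear_combination (norm := module) this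
  obtain ⟨m, b1, b2⟩ := p.exists_ei hu.right.2 d3
  have b3 : f.Q (s + s') = 1 := by simp [Q_add_quad p.fk, hs.left.2, hs.right.2, hs.one]
  have b4 := mul_mem (hT _ (b3 ▸ one_ne_zero)) (hM b1)
  refine E_le_of_qIn_of_mem p.nd a6 a9 b4 (hH b4) ?_
  simp [b2, e1, p.hc d u, d2, p.B, uu, hu.one, refl_apply, b3, ss, e3, hs.one, d1]

end H23.Qp.Oo
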