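import Cfsg.Agent.H23.Qv2

/-! The tensor product of orthogonal spaces of dimensions three and four: local analysis. -/

set_option autoImplicit false

namespace H23.Qp.Oo

open Module H22 Cfsg Cfsg.Geo Form Tn Nd Qp Zd Qv

variable {F S W V : Type*} [Field F] [AddCommGroup S] [Module F S] [AddCommGroup W] [Module F W]
  [AddCommGroup V] [Module F V] {t : S →ₗ[F] W →ₗ[F] V}
  {Φ : Form (RingHom.id F) V} {f : Form (RingHom.id F) S} {h : Form (RingHom.id F) W}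
  (p : Oo Φ f h t) {H : Subgroup (V ≃ₗ[F] V)} {u u' w e e' : W} {a b s s' c : S}
  {x x' m m' y : V ≃ₗ[F] V}
include p

theorem cv_fix (hx : x ∈ Φ.O) (h1 : ∀ y, x (t y u) = t y u) (v : V) : p.cv u (x v) = p.cv u v :=
  p.fn.eq_of_forall' fun y => by rw [← p.B_t, ← p.B_t, ← hx.1 _ v, h1]

/-- The unipotent radical of the stabiliser of a block. -/
def Rg (hu : h.Q u = 0) : Subgroup (V ≃ₗ[F] V) where
  carrier := {x | x ∈ Φ.O ∧ (∀ y, x (t y u) = t y u) ∧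
    ∀ e, h.B u e = 0 → ∀ v, p.cv u v = 0 → p.cv e (x v) = p.cv e v}
  mul_mem' := fun ⟨a1, a2, a3⟩ ⟨b1, b2, b3⟩ => ⟨mul_mem a1 b1, by simp [a2, b2], fun e he v hv => by
    rw [LinearEquiv.mul_apply, a3 e he _ (by rw [b3 u (p.h0 hu) v hv, hv]), b3 e he v hv]⟩
  one_mem' := ⟨one_mem _, by simp, by simp⟩
  inv_mem' := fun {x} ⟨a1, a2, a3⟩ => ⟨inv_mem a1, fun y => x.symm_apply_eq.2 (a2 y).symm,
    fun e he v hv => by
      rw [← a3 e he (x⁻¹ v) (by rw [← p.cv_fix a1 a2]; simpa)]; simp⟩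

theorem Rg_eq (hu : Hyp h u u') (hx : x ∈ p.Rg hu.left.2) {v : V} (hv : p.cv u v = 0) :
    ∃ y, x v = v + t y u :=
  ⟨_, sub_eq_iff_eq_add'.1 (p.eq_t hu.one fun e he => by simp [hx.2.2 e he v hv])⟩

theorem Rg_conj (hu : Hyp h u u') (hx : x ∈ p.Rg hu.left.2) (hy : y ∈ Φ.O)
    (h1 : ∀ v, y (t (p.cv u v) u) = t (p.cv u (y v)) u) : y * x * y⁻¹ ∈ p.Rg hu.left.2 := by
  refine ⟨mul_mem (mul_mem hy hx.1) (inv_mem hy), fun z => ?_, fun e he v hv => ?_⟩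
  · have := h1 (y⁻¹ (t z u'))
    simp only [LinearEquiv.coe_inv, LinearEquiv.apply_symm_apply, cov_t, hu.one, one_smul] at this
    rw [← this]
    simp [hx.2.1]
  · have a1 := h1 (y⁻¹ v)
    simp only [LinearEquiv.coe_inv, LinearEquiv.apply_symm_apply, hv, map_zero,
      LinearMap.zero_apply, map_eq_zero_iff _ y.injective] at a1
    obtain ⟨z, hz⟩ := p.Rg_eq hu hx (t_eq_zero p.ht hu.left_ne a1)
    have a2 := h1 (t z u')
    simp only [cov_t, hu.one, one_smul] at a2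
    simp [hz, a2, p.hc e u, he]

variable (u e) in
/-- The Eichler transformations of the second factor. -/
def IsM (m : V ≃ₗ[F] V) : Prop :=
  ∀ v, m v = v + t (p.cv e v - h.Q e • p.cv u v) u - t (p.cv u v) e

/-- The group of Eichler transformations of the second factor. -/
def Ug (hu : h.Q u = 0) (D : Submodule F W) : Subgroup (V ≃ₗ[F] V) where
  carrier := {m | ∃ e ∈ D, h.B u e = 0 ∧ p.IsM u e m}
  mul_mem' := fun ⟨e, a1, a2, a3⟩ ⟨e', b1, b2, b3⟩ => ⟨e + e', add_mem a1 b1, by simp [a2, b2],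
    fun v => by
      simp [a3 _, b3 v, p.h0 hu, p.hc e u, a2, b2, cv_add, Q_add_quad p.hk]
      module⟩
  one_mem' := ⟨0, zero_mem _, by simp, fun v => by
    simp [show p.cv 0 v = 0 by simpa using p.cv_smul 0 0 v]⟩
  inv_mem' := fun {m} ⟨e, a1, a2, a3⟩ => ⟨-e, neg_mem a1, by simp [a2], fun v =>
    m.symm_apply_eq.2 (by
      have := p.cv_smul e (-1) v
      rw [neg_one_smul] at this
      rw [this]
      simp [a3 _, p.h0 hu, p.hc e u, a2, B_self_quad p.hk, h.Q_neg]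
      module)⟩

variable {p}

theorem IsM.sq (h1 : p.IsM u e m) (hu : h.Q u = 0) (he : h.B u e = 0) (v : V) :
    m (m v) = (2 : F) • m v - v - (2 * h.Q e) • t (p.cv u v) u := by
  simp [h1 _, p.h0 hu, p.hc e u, he, B_self_quad p.hk]
  module

theorem IsM.comm {u₁ e₁ : W} (h1 : p.IsM u e m) (hu : h.Q u = 0) (he : h.B u e = 0)
    (h2 : p.IsM u₁ e₁ m') (hu' : h.Q u₁ = 0) (he' : h.B u₁ e₁ = 0) (hc : ∀ v, y (m v) = m' (y v))
    (v : V) : h.Q e • y (t (p.cv u v) u) = h.Q e₁ • t (p.cv u₁ (y v)) u₁ := by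
  have a1 := congrArg y (h1.sq hu he v)
  rw [hc, hc, h2.sq hu' he'] at a1
  simp only [map_sub, map_smul, hc, sub_right_inj, mul_smul] at a1
  exact (smul_right_injective V p.odd a1).symm

theorem IsM.nil (h1 : p.IsM u e m) (hu : h.Q u = 0) (he : h.B u e = 0) :
    IsNilpotent (m.toLinearMap - 1) := ⟨3, by
  ext v
  simp [pow_succ, h1 _, p.h0 hu, he, p.hc e u]⟩

variable [FiniteDimensional F S] [FiniteDimensional F W] [FiniteDimensional F V] [Fintype F]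

omit [FiniteDimensional F S] in
theorem IsM.mem (h1 : p.IsM u e m) (hu : h.Q u = 0) (he : h.B u e = 0) : m ∈ Tg F t ⊓ Φ.E := by
  obtain ⟨k, a1, a2⟩ := p.exists_ei hu he
  rwa [show m = k from LinearEquiv.ext fun v => (h1 v).trans (a2 v).symm]

omit [FiniteDimensional F S] in
theorem IsM.rg (h1 : p.IsM u e m) (hu : h.Q u = 0) (he : h.B u e = 0) : m ∈ p.Rg hu :=
  ⟨E_le_O (h1.mem hu he).2, fun y => by simp [h1 _, p.h0 hu, he, p.hc e u],
    fun e' he' v hv => by simp [h1 _, hv, he', p.hc e' u]⟩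

variable (p) (h3 : finrank F S = 3)
include h3

omit [FiniteDimensional F W] [FiniteDimensional F V] in
theorem bil_zero (π : S →ₗ[F] S →ₗ[F] F)
    (h1 : ∀ s c, f.Q s = 0 → s ≠ 0 → f.Q c ≠ 0 → f.B s c = 0 → π c s = 0) (ha : f.Q a ≠ 0)
    (h2 : π a a = 0) (y z : S) : π y z = 0 := by
  obtain ⟨s, -, b1, b2⟩ := exists_sing (D := ⊤) p.fk (by simp [h3])
  obtain ⟨s', hs⟩ := exists_hyp p.fn ((sing_quad p.fk).2 b1) b2
  obtain ⟨c, c1, c2, c3⟩ := exists_third' p.fn p.fk h3.ge hs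
  have e3 : f.B s' s = 1 := p.fc s s' ▸ hs.one
  have a1 : ∀ s c, f.Q s = 0 → s ≠ 0 → f.Q c ≠ 0 → f.B s c = 0 → π s s = 0 := fun s c d1 d2 d3 d4 => by
    simpa [h1 s c d1 d2 d3 d4] using h1 s (c + s) d1 d2
      (by simpa [Q_add_quad p.fk, d1, p.fc c s, d4]) (by simp [d4, B_self_quad p.fk, d1])
  have a2 : ∀ k : F, k ^ 2 = 1 → π (c - (2 * k * f.Q c) • s) (s' + k • c - f.Q c • s) = 0 ∧
      π (s' + k • c - f.Q c • s) (s' + k • c - f.Q c • s) = 0 := fun k hk => by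
    have d1 : f.Q (s' + k • c - f.Q c • s) = 0 := by
      simp [f.Q_sub, Q_add_quad p.fk, f.Q_smul, hs.right.2, b1, c3, p.fk, e3, p.fc c s, c2, hk]
    have d2 : s' + k • c - f.Q c • s ≠ 0 := fun e => by
      simpa [hs.one, hs.left.1, c2] using congrArg (f.B s) e
    have d3 : f.Q (c - (2 * k * f.Q c) • s) ≠ 0 := by
      simpa [f.Q_sub, f.Q_smul, b1, p.fc c s, c2]
    have d4 : f.B (s' + k • c - f.Q c • s) (c - (2 * k * f.Q c) • s) = 0 := by
      simp [c2, c3, e3, p.fc c s, hs.left.1, B_self_quad p.fk c]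
      ring
    exact ⟨h1 _ _ d1 d2 d3 d4, a1 _ _ d1 d2 d3 d4⟩
  have d1 := h1 s c b1 b2 c1 c2
  have d2 := a1 s c b1 b2 c1 c2
  have d3 := h1 s' c hs.right.2 hs.right_ne c1 c3
  have d4 := a1 s' c hs.right.2 hs.right_ne c1 c3
  obtain ⟨d5, d6⟩ := a2 1 (by simp)
  obtain ⟨d7, d8⟩ := a2 (-1) (by simp)
  simp [d1, d2, d3, d4] at d5 d6 d7 d8
  have e2 := p.odd
  have f1 : π s c = 0 := mul_left_cancel₀ (mul_ne_zero (mul_ne_zero e2 e2) c1)
    (by linear_combination -d5 - d7)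
  have f2 : π c c = 2 * f.Q c * π s s' := by linear_combination d5 + 2 * f.Q c * f1
  have f3 : π s' c = 0 := mul_left_cancel₀ e2 (by linear_combination d6 - d8 + 2 * f.Q c * f1)
  have f4 : π s' s = π s s' := mul_left_cancel₀ c1 (by
    linear_combination -d6 + f2 + f3 - f.Q c * f1)
  have a3 : ∀ y z, π y z = π s s' * f.B y z := fun y z => by
    rw [exp_hyp p.fk p.odd h3 hs c1 c2 c3 y, exp_hyp p.fk p.odd h3 hs c1 c2 c3 z]
    generalize (2 * f.Q c)⁻¹ * f.B c y = k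
    generalize (2 * f.Q c)⁻¹ * f.B c z = l
    simp [d1, d2, d3, d4, f1, f2, f3, f4, hs.one, e3, hs.left.1, hs.right.1, c2, c3, p.fc c s,
      p.fc c s', B_self_quad p.fk c]
    ring
  rw [a3] at h2 ⊢
  simp [B_self_quad p.fk, ha, e2] at h2
  simp [h2]

variable (h4 : finrank F W = 4) (hM : Tg F t ⊓ Φ.E ≤ H) (hH : H ≤ Φ.O) (hN : ¬ Φ.E ≤ H)
  (hq : 4 ≤ Fintype.card F)
  (hA : ∀ a e, h.Q a = 0 → h.Q e = 0 → h.B a e = 0 → a ≠ 0 → e ∈ F ∙ a) (hu : Hyp h u u')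
include h4 hM hH hN hu

theorem Rg_comm (h1 : x ∈ H ⊓ p.Rg hu.left.2) (h2 : x' ∈ H ⊓ p.Rg hu.left.2) (v : V) :
    x (x' v) = x' (x v) := by
  have : (x' * x)⁻¹ * (x * x') = 1 := by_contra fun e => hN (p.win4 h3 h4 hM hH hu
    (mul_mem (inv_mem (mul_mem h2.1 h1.1)) (mul_mem h1.1 h2.1)) e fun v hv => by
      obtain ⟨y, a1⟩ := p.Rg_eq hu h1.2 hv
      obtain ⟨y', a2⟩ := p.Rg_eq hu h2.2 hv
      refine (x' * x).symm_apply_eq.2 ?_
      simp [a1, a2, h1.2.2.1, h2.2.2.1, add_right_comm])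
  exact DFunLike.congr_fun (inv_mul_eq_one.1 this).symm v

include hq hA

theorem key (h1 : x ∈ H ⊓ p.Rg hu.left.2) (hs : f.Q s = 0) (h0 : s ≠ 0) (c1 : f.Q c ≠ 0)
    (c2 : f.B s c = 0) (he : h.B u e = 0) : Φ.B (t c e) (x (t s u') - t s u') = 0 := by
  obtain ⟨s', hs, c3⟩ := exists_hyp_perp p.fn p.fk p.odd hs h0 c1 c2
  have hT := fun a ha => hM (p.tau_mem h3 h4 (a := a) ha)
  have e3 : f.B s' s = 1 := p.fc s s' ▸ hs.one
  have a1 : ∀ d, f.Q d ≠ 0 → ∀ x ∈ H ⊓ p.Rg hu.left.2, p.tau d * x * (p.tau d)⁻¹ ∈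
      H ⊓ p.Rg hu.left.2 ∧ ∀ z y e, Φ.B (t z e) ((p.tau d * x * (p.tau d)⁻¹) (t y u') - t y u') =
        Φ.B (t (rf p.fk d z) e) (x (t (rf p.fk d y) u') - t (rf p.fk d y) u') := fun d hd x hx =>
    ⟨⟨H.mul_mem (H.mul_mem (hT d hd) hx.1) (H.inv_mem (hT d hd)), p.Rg_conj hu hx.2 (hH (hT d hd))
      fun v => by simp [p.cv_tau]⟩, fun z y e => by
      rw [← (hH (hT d hd)).1, inv_eq_of_mul_eq_one_right (p.tau_tau d)]
      simp [p.tau_tau', neg_add_eq_sub]⟩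
  have a2 : ∀ x ∈ H ⊓ p.Rg hu.left.2, ∀ y, p.cv u (x (t y u') - t y u') = 0 := fun x hx y => by
    rw [map_sub, p.cv_fix hx.2.1 hx.2.2.1, sub_self]
  obtain ⟨b1, b2⟩ := a1 c c1 x h1
  generalize p.tau c * x * (p.tau c)⁻¹ = x₁ at b1 b2
  obtain ⟨x₂, rfl⟩ : ∃ x₂, x = x₂ * x₁ := ⟨x * x₁⁻¹, by simp⟩
  have b3 : x₂ ∈ H ⊓ p.Rg hu.left.2 := by simpa using mul_mem h1 (inv_mem b1)
  have b4 : ∀ z y e, h.B u e = 0 → Φ.B (t z e) (x₂ (t y u') - t y u') =
      Φ.B (t z e) ((x₂ * x₁) (t y u') - t y u') - Φ.B (t (rf p.fk c z) e)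
        ((x₂ * x₁) (t (rf p.fk c y) u') - t (rf p.fk c y) u') := fun z y e he => by
    have := b3.2.2.2 e he _ (a2 x₁ b1 y)
    rw [← b2]
    simp only [p.B_t, map_sub, LinearEquiv.mul_apply] at this ⊢
    rw [sub_eq_iff_eq_add.1 this]
    simp
    ring
  have r1 := refl_apply_of_perp p.fk (p.fc s c ▸ c2)
  have r2 := refl_apply_of_perp p.fk (p.fc s' c ▸ c3)
  have b5 : ∀ z ∈ [s, s'], ∀ y ∈ [s, s'], ∀ e, h.B u e = 0 →
      Φ.B (t z e) (x₂ (t y u') - t y u') = 0 := by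
    simp +contextual [-map_sub, b4, r1, r2]
  suffices Φ.B (t c e) (x₂ (t s u') - t s u') = 0 from mul_left_cancel₀ p.odd (by
    rw [b4 _ _ _ he, r1, refl_apply_self _ c1] at this
    simp only [map_neg, LinearMap.neg_apply] at this
    linear_combination this)
  have a3 : ∀ n n', p.cv u n = 0 → (∀ z ∈ [s, s'], ∀ e, h.B u e = 0 → Φ.B (t z e) n' = 0) →
      Φ.B n n' = (2 * f.Q c)⁻¹ * Φ.B (t c (p.flip.cv c n)) n' := fun n n' d1 d2 => by
    have d3 : ∀ z, h.B u (p.flip.cv z n) = 0 := fun z =>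
      (p.flip.B_t u z n).symm.trans ((p.B_t z u n).trans (by simp [d1]))
    have d4 := ext_t p.ht (f := LinearMap.id) (f' := t s ∘ₗ p.flip.cv s' + t s' ∘ₗ p.flip.cv s +
      (2 * f.Q c)⁻¹ • t c ∘ₗ p.flip.cv c) (fun z w => by
        simpa [p.cs_t, smul_smul] using
          congrArg (fun y => t y w) (exp_hyp p.fk p.odd h3 hs c1 c2 c3 z)) n
    conv_lhs => rw [show n = _ from d4]
    simp [d2 s _ _ (d3 _), d2 s' _ _ (d3 _)]
  have a4 : ∀ x ∈ H ⊓ p.Rg hu.left.2, ∀ x' ∈ H ⊓ p.Rg hu.left.2, ∀ y y',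
      Φ.B (x' (x (t y u') - t y u') - (x (t y u') - t y u')) (t y' u') =
        -Φ.B (x (t y u') - t y u') (x' (t y' u') - t y' u') := fun x hx x' hx' y y' => by
    obtain ⟨z, d1⟩ := p.Rg_eq hu hx'.2 (a2 x hx y)
    have d2 := hx'.2.1.1 (x (t y u') - t y u') (t y' u')
    have d3 := a2 x' hx' y'
    generalize x (t y u') - t y u' = n at d1 d2
    rw [map_sub, sub_eq_zero] at d3
    simp only [d1, map_add, LinearMap.add_apply, p.B_t, d3, add_sub_cancel_left, map_sub] at d2 ⊢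
    linear_combination d2
  have a5 : ∀ k : F, k ≠ 0 → h.B (p.flip.cv c (x₂ (t s u') - t s u'))
      (p.flip.cv c (x₂ (t s u') - t s u')) = k ^ 2 * h.B (p.flip.cv c (x₂ (t s' u') - t s' u'))
        (p.flip.cv c (x₂ (t s' u') - t s' u')) := fun k hk => by
    have d1 : f.Q (s - k • s') = -k := by
      simp [f.Q_sub, f.Q_smul, hs.left.2, hs.right.2, hs.one, p.fk]
    obtain ⟨d2, d3⟩ := a1 (s - k • s') (by simpa [d1]) x₂ b3
    have d4 : rf p.fk (s - k • s') s = k • s' := by simp [refl_apply, d1, hs.left.1, e3, hk]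
    have d5 : rf p.fk (s - k • s') s' = k⁻¹ • s := by
      simp [refl_apply, d1, hs.right.1, hs.one, smul_sub, smul_smul, hk]
    have d6 : rf p.fk (s - k • s') c = c := by simp [refl_apply, c2, c3]
    generalize p.tau (s - k • s') * x₂ * (p.tau (s - k • s'))⁻¹ = x₃ at d2 d3
    have d7 : ∀ y ∈ [s, s'], ∀ z ∈ [s, s'], ∀ e, h.B u e = 0 →
        Φ.B (t z e) (x₃ (t y u') - t y u') = 0 := by
      simp +contextual [-map_sub, d3, d4, d5, ← smul_sub, b5]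
    have d8 := a4 x₂ b3 x₃ d2 s s'
    have d9 := a4 x₃ d2 x₂ b3 s s'
    rw [B_comm_quad p.kap (x₃ _ - _), a3 _ _ (a2 _ b3 _) (d7 s (by simp)), d3, d4, d6] at d9
    rw [a3 _ _ (a2 _ b3 _) (d7 s' (by simp)), d3, d5, d6, map_sub x₃,
      ← p.Rg_comm h3 h4 hM hH hN hu b3 d2, show ∀ a b c d : V, a - b - (c - d) = a - c - (b - d)
        from fun _ _ _ _ => by abel, ← map_sub x₂, d9] at d8
    simp only [map_smul, LinearMap.smul_apply, ← smul_sub, smul_eq_mul, neg_inj,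
      show ∀ w v, Φ.B (t c w) v = h.B w (p.flip.cv c v) from fun w v => p.flip.B_t w c v] at d8
    have := p.odd
    field_simp at d8
    exact d8.symm
  obtain ⟨k, d1, d2⟩ := exists_sq_ne_one hq
  have d3 := a5 k d1
  rw [← one_mul (h.B (p.flip.cv c (x₂ (t s' u') - _)) _), ← one_pow 2, ← a5 1 one_ne_zero,
    ← sub_eq_zero, ← one_sub_mul, mul_eq_zero, sub_eq_zero, B_self_quad p.hk] at d3
  obtain ⟨l, hl⟩ := Submodule.mem_span_singleton.1 (hA u (p.flip.cv c (x₂ (t s u') - t s u'))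
    hu.left.2 (by simpa [-map_sub, d2.symm, p.odd] using d3) ((p.flip.B_t u c _).symm.trans
      ((p.B_t c u _).trans (by rw [a2 _ b3, map_zero]))) hu.left_ne)
  exact (p.flip.B_t e c _).trans (by simp [← hl, p.hc e u, he])

theorem Rg_eq_one (h1 : x ∈ H ⊓ p.Rg hu.left.2) (ha : f.Q a ≠ 0) (h2 : x (t a u') = t a u') :
    x = 1 := by
  have a1 : ∀ y, ∃ z, x (t y u') = t y u' + t z u := fun y =>
    ⟨_, sub_eq_iff_eq_add'.1 (p.eq_t hu.one fun e he => p.fn.eq_of_forall' fun z => by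
      rw [← p.B_t, map_zero]
      exact p.bil_zero h3 ((Φ.B ∘ₗ t.flip e).compl₂
        ((x.toLinearMap - 1) ∘ₗ vec F t u')) (fun s c d1 d2 d3 d4 => by
          simpa using p.key h3 h4 hM hH hN hq hA hu h1 d1 d2 d3 d4 he) ha (by simp [h2]) z y)⟩
  refine by_contra fun e => hN (p.win4 h3 h4 hM hH hu h1.1 e fun v hv => ?_)
  obtain ⟨y, a2⟩ := p.Rg_eq hu h1.2 hv
  have a3 : y = 0 := p.fn y fun z => by
    obtain ⟨z', a3⟩ := a1 z
    have := h1.2.1.1 v (t z u')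
    simpa [a2, a3, p.B, hu.one, hu.left.1, B_comm_quad p.kap v (t z' u), p.B_t z', hv] using this
  simp [a2, a3]

end H23.Qp.Oo
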