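import Cfsg.Agent.H23.Qv3

/-! Maximality of `GO_3 ∘ GO_4^-` in `Ω_12^-` in odd characteristic. -/

set_option autoImplicit false

namespace H23.Qp.Oo

open Module H22 Cfsg Cfsg.Geo Form Tn Nd Qp Zd Qv

variable {F S W V : Type*} [Field F] [AddCommGroup S] [Module F S] [AddCommGroup W] [Module F W]
  [AddCommGroup V] [Module F V] {t : S →ₗ[F] W →ₗ[F] V}
  {Φ : Form (RingHom.id F) V} {f : Form (RingHom.id F) S} {h : Form (RingHom.id F) W}
  (p : Oo Φ f h t) {H : Subgroup (V ≃ₗ[F] V)} {u u' w e e' : W} {a b s s' c : S}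
  {x x' m m' y : V ≃ₗ[F] V}

variable (t H a) in
/-- The pointwise stabiliser of a block. -/
def Ng : Subgroup (V ≃ₗ[F] V) where
  carrier := {x | x ∈ H ∧ ∀ w, x (t a w) = t a w}
  mul_mem' := fun ⟨a1, a2⟩ ⟨b1, b2⟩ => ⟨mul_mem a1 b1, by simp [a2, b2]⟩
  one_mem' := ⟨one_mem _, by simp⟩
  inv_mem' := fun {x} ⟨a1, a2⟩ => ⟨inv_mem a1, fun w => x.symm_apply_eq.2 (a2 w).symm⟩

include p

variable [FiniteDimensional F S] [FiniteDimensional F W] [FiniteDimensional F V] [Fintype F]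
  (h3 : finrank F S = 3) (h4 : finrank F W = 4) (hM : Tg F t ⊓ Φ.E ≤ H) (hH : H ≤ Φ.O)
  (hN : ¬ Φ.E ≤ H) (hq : 4 ≤ Fintype.card F)
  (hA : ∀ a e, h.Q a = 0 → h.Q e = 0 → h.B a e = 0 → a ≠ 0 → e ∈ F ∙ a)
include hM

omit [FiniteDimensional F S] in
theorem Ug_norm (hu : h.Q u = 0) :
    p.Ug hu ⊤ ≤ Subgroup.normalizer (Ng t H a : Set (V ≃ₗ[F] V)) := by
  have a1 : ∀ m ∈ p.Ug hu ⊤, ∀ x ∈ Ng t H a, m * x * m⁻¹ ∈ Ng t H a := fun m hm x hx => by
    obtain ⟨e, -, b1, b2⟩ := id hm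
    obtain ⟨e', -, -, b3⟩ := inv_mem hm
    have b4 := hM (b2.mem hu b1)
    refine ⟨mul_mem (mul_mem b4 hx.1) (inv_mem b4), fun w => ?_⟩
    have b5 : x (m⁻¹ (t a w)) = m⁻¹ (t a w) := by rw [b3]; simp [hx.2]
    rw [LinearEquiv.mul_apply, LinearEquiv.mul_apply, b5]
    simp
  exact fun m hm => Subgroup.mem_normalizer_iff.2 fun x => ⟨a1 m hm x, fun hx => by
    simpa [mul_assoc] using a1 _ (inv_mem hm) _ hx⟩

include h3 h4 hH hN hq hA

theorem not_dvd {r : ℕ} [Fact r.Prime] [CharP F r] (ha : f.Q a ≠ 0) : ¬ r ∣ Nat.card (Ng t H a) := by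
  intro hr
  have := Module.finite_of_finite F (M := V)
  have : Finite (V ≃ₗ[F] V) := DFunLike.finite _
  obtain ⟨u, -, b1, b2⟩ := exists_sing (D := ⊤) p.hk (by simp [h4])
  obtain ⟨u', hu⟩ := exists_hyp p.hn ((sing_quad p.hk).2 b1) b2
  obtain ⟨d, d1, d2, d3⟩ := exists_third' p.hn p.hk (by omega) hu
  obtain ⟨x, a1, a2, ⟨k, a3⟩, a4⟩ := exists_fix_p (p := r) (U := p.Ug b1 ⊤)
    (fun ⟨m, e, _, c1, c2⟩ => (pow_of_nil (c2.nil b1 c1)).imp fun _ hk => Subtype.ext hk)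
    (p.Ug_norm hM b1) hr
  have a5 : ∀ e, h.B u e = 0 → ∃ m, p.IsM u e m ∧ ∀ v, x (m v) = m (x v) := fun e he =>
    have ⟨m, _, c1⟩ := p.exists_ei b1 he
    ⟨m, c1, fun v => (DFunLike.congr_fun (a4 m ⟨e, trivial, he, c1⟩) v).symm⟩
  obtain ⟨m, c1, c2⟩ := a5 d d2
  let g : End F S := p.cv u ∘ₗ x.toLinearMap ∘ₗ vec F t u'
  have a6 : ∀ y, x (t y u) = t (g y) u := fun y => by
    simpa [hu.one, d1, g] using c1.comm b1 d2 c1 b1 d2 c2 (t y u')
  have a7 : ∀ n : ℕ, ∀ y, (x ^ n) (t y u) = t ((g ^ n) y) u := fun n => by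
    induction n with
    | zero => simp
    | succ n ih => simp [pow_succ, a6, ih]
  have a8 : g = 1 := unip_fix p.fn p.fk p.odd h3 (fun y z => by
    have := (hH a1.1).1 (t y u) (t z u')
    rw [a6, p.B_t] at this
    simpa [p.B, hu.one, g] using this) ha (t_inj p.flip.ht b2 ((a6 a).symm.trans (a1.2 u)))
    (nil_of_pow (p := r) (k := k) (LinearMap.ext fun y => t_inj p.flip.ht b2
      ((a7 _ y).symm.trans (by simp [a3]))))
  simp only [a8, End.one_apply] at a6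
  refine a2 (p.Rg_eq_one h3 h4 hM hH hN hq hA hu ⟨a1.1, hH a1.1, a6, fun e he v hv => ?_⟩ ha (a1.2 _))
  obtain ⟨m, c3, c4⟩ := a5 e he
  have := c4 v
  rw [c3, c3, p.cv_fix (hH a1.1) a6] at this
  simpa [hv, a6, p.hc u' u, hu.one, eq_comm] using congrArg (fun z => p.cv u' (z - x v)) this

theorem cent (ha : f.Q a ≠ 0) (hu : Hyp h u u') :
    Ng t H a ≤ Subgroup.centralizer (p.Ug hu.left.2 ⊤ : Set (V ≃ₗ[F] V)) := by
  have := Module.finite_of_finite F (M := V)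
  have : Finite (V ≃ₗ[F] V) := DFunLike.finite _
  obtain ⟨r, hr⟩ := CharP.exists F
  have : Fact r.Prime := ⟨CharP.char_is_prime F r⟩
  have b1 := hu.left.2
  have : IsMulCommutative (p.Ug b1 ⊤) := ⟨⟨fun ⟨m, e, _, c1, c2⟩ ⟨m', e', _, c3, c4⟩ =>
    Subtype.ext (LinearEquiv.ext (p.Rg_comm h3 h4 hM hH hN hu ⟨hM (c2.mem b1 c1), c2.rg b1 c1⟩
      ⟨hM (c4.mem b1 c3), c4.rg b1 c3⟩))⟩⟩
  have a1 : IsPGroup r (p.Ug b1 ⊤) := fun ⟨m, e, _, c1, c2⟩ =>
    (pow_of_nil (c2.nil b1 c1)).imp fun _ hk => Subtype.ext hk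
  obtain ⟨n, a2⟩ := IsPGroup.iff_card.1 a1
  obtain ⟨x₀, hx⟩ : ∃ x₀ : S, x₀ ≠ 0 := ⟨a, by rintro rfl; simp at ha⟩
  refine H1.le_of_forall_cocyclic_centralizer_le (p.Ug_norm hM b1) (a2 ▸ Nat.Coprime.pow_left _
    ((Nat.Prime.coprime_iff_not_dvd Fact.out).2 (p.not_dvd h3 h4 hM hH hN hq hA ha))) ?_
  rintro B hB ⟨m₀, ⟨e₀, -, c1, c2⟩, c3⟩ x ⟨c4, c5⟩
  obtain ⟨m, c6, c7⟩ : ∃ m ∈ B, m ≠ 1 := by
    by_contra! hc
    obtain ⟨e, -, d1, d2⟩ := p.hn.exists_perp_notMem (T := ⊤)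
      (S := Submodule.span F {x | x ∈ [u, e₀]}) [u]
      (by have := finrank_span_list_le (F := F) [u, e₀]; simp at this ⊢; omega)
    obtain ⟨m, -, d3⟩ := p.exists_ei b1 (d2 u (by simp))
    obtain ⟨_, d4, -, d5⟩ : m ∈ p.Ug b1 (F ∙ e₀) := (sup_le (fun m hm => hc m hm ▸ one_mem _)
      (Subgroup.zpowers_le.2 ⟨e₀, Submodule.mem_span_singleton_self _, c1, c2⟩) :
        _ ≤ p.Ug b1 (F ∙ e₀)) (c3.ge ⟨e, trivial, d2 u (by simp), d3⟩)
    obtain ⟨l, rfl⟩ := Submodule.mem_span_singleton.1 d4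
    have d6 := (d3 (t x₀ u')).symm.trans (d5 _)
    simp only [cov_t, hu.one, one_smul, ← sub_smul, smul_smul, map_smul,
      LinearMap.smul_apply, add_sub_assoc, add_right_inj] at d6
    simp only [← map_smul, ← map_sub] at d6
    have d7 := sub_eq_iff_eq_add.1 (t_inj p.ht hx d6)
    refine d1 ?_
    rw [show e = _ from eq_sub_of_add_eq' d7.symm]
    have d8 : u ∈ Submodule.span F {x | x ∈ [u, e₀]} := Submodule.subset_span (by simp)
    have d9 : e₀ ∈ Submodule.span F {x | x ∈ [u, e₀]} := Submodule.subset_span (by simp)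
    exact sub_mem (Submodule.smul_mem _ _ d8) (sub_mem (Submodule.smul_mem _ _ d8)
      (Submodule.smul_mem _ _ d9))
  obtain ⟨e, -, d1, d2⟩ := hB c6
  have d3 : h.Q e ≠ 0 := fun d3 => by
    obtain ⟨l, rfl⟩ := Submodule.mem_span_singleton.1 (hA u e b1 d3 d1 hu.left_ne)
    exact c7 (LinearEquiv.ext fun v => by simp [d2 v, d3, cv_smul])
  have d4 := fun v => smul_right_injective V d3 (d2.comm b1 d1 d2 b1 d1 (y := x)
    (fun v => (DFunLike.congr_fun (c5 m c6) v).symm) v)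
  rintro m' hm'
  obtain ⟨e', -, d5, d6⟩ := id hm'
  have d7 : x * (m' * x⁻¹ * m'⁻¹) ∈ Ng t H a := mul_mem c4
    ((Subgroup.mem_normalizer_iff.1 (p.Ug_norm hM b1 hm') _).1 (inv_mem c4))
  have d8 := p.Rg_eq_one h3 h4 hM hH hN hq hA hu ⟨d7.1, by
    simpa [mul_assoc] using mul_mem (p.Rg_conj hu (d6.rg b1 d5) (hH c4.1) d4)
      (inv_mem (d6.rg b1 d5))⟩ ha (d7.2 _)
  calc m' * x = x * (m' * x⁻¹ * m'⁻¹) * (m' * x) := by rw [d8, one_mul]
    _ = x * m' := by group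

theorem tens_of_block (hy : y ∈ H) (ha : f.Q a ≠ 0) (hb : f.Q b ≠ 0)
    (h1 : ∀ w, ∃ w', y (t a w) = t b w') : ∃ (g : End F S) (k : End F W), g a = b ∧
      (∀ x w, y (t x w) = t (g x) (k w)) ∧ (∀ x x', f.B (g x) (g x') = f.Q b / f.Q a * f.B x x') ∧
        ∀ w w', f.Q b / f.Q a * h.B (k w) (k w') = h.B w w' := by
  have := Module.finite_of_finite F (M := V)
  have : Finite (V ≃ₗ[F] V) := DFunLike.finite _
  obtain ⟨r, hr⟩ := CharP.exists F
  have : Fact r.Prime := ⟨CharP.char_is_prime F r⟩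
  have e2 := p.odd
  let k : End F W := (2 * f.Q b)⁻¹ • p.flip.cv b ∘ₗ y.toLinearMap ∘ₗ t a
  have a1 : ∀ w, y (t a w) = t b (k w) := fun w => by
    obtain ⟨w', hw⟩ := h1 w
    simp [k, hw, p.cs_t, B_self_quad p.fk, smul_smul]
    rw [show (f.Q b)⁻¹ * 2⁻¹ * (2 * f.Q b) = 1 by field_simp, one_smul]
  clear_value k
  obtain ⟨ρ, hρ⟩ : ∃ ρ, ρ = f.Q b / f.Q a := ⟨_, rfl⟩
  have a0 : ρ ≠ 0 := by simp [hρ, ha, hb]
  have a2 : ∀ w w', ρ * h.B (k w) (k w') = h.B w w' := fun w w' => by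
    have := (hH hy).1 (t a w) (t a w')
    simp only [a1, p.B, B_self_quad p.fk] at this
    rw [hρ]
    field_simp at this ⊢
    exact this
  rw [← hρ]
  clear hρ
  have a3 : ∀ w, ρ * h.Q (k w) = h.Q w := fun w => mul_left_cancel₀ e2 (by
    have := a2 w w
    simp only [B_self_quad p.hk] at this
    linear_combination this)
  have a4 : Function.Surjective k := LinearMap.surjective_of_injective
    ((injective_iff_map_eq_zero k).2 fun w hw => p.hn w fun w' => by simp [← a2, hw])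
  have a5 : ∀ u u', Hyp h u u' → ∃ g : End F S, g a = b ∧ (∀ x, y (t x u) = t (g x) (k u)) ∧
      ∀ e, h.B u e = 0 → h.B u' e = 0 → ∀ x, ∃ z, y (t x e) = t (g x) (k e) + t z (k u) := by
    intro u u' hu
    have b1 : h.Q (k u) = 0 := by simpa [hu.left.2, a0] using a3 u
    have b2 : Hyp h (k u) (ρ • k u') := ⟨(sing_quad p.hk).2 b1, ((sing_quad p.hk).2
      (by simpa [hu.right.2, a0] using a3 u')).smul _, by simp [a2, hu.one]⟩
    have b3 : ∀ e, h.B u e = 0 → ∃ m m', p.IsM u e m ∧ p.IsM (k u) (ρ • k e) m' ∧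
        ∀ v, y (m v) = m' (y v) := fun e he => by
      have c0 : h.B (k u) (ρ • k e) = 0 := by simp [a2, he]
      obtain ⟨m, c1, c2⟩ := p.exists_ei hu.left.2 he
      obtain ⟨m', c3, c4⟩ := p.exists_ei b1 c0
      have c5 : m'⁻¹ * (y * m * y⁻¹) ∈ Ng t H b := ⟨mul_mem (inv_mem (hM c3))
        (mul_mem (mul_mem hy (hM c1)) (inv_mem hy)), fun w => m'.symm_apply_eq.2 (by
          obtain ⟨w, rfl⟩ := a4 w
          have d1 := a2 e w
          have d2 := a2 u w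
          have d3 := a3 e
          have d4 : y⁻¹ (t b (k w)) = t a w := y.symm_apply_eq.2 (a1 w).symm
          change y (m (y⁻¹ _)) = _
          rw [c4, d4]
          simp [c2, a1, h.Q_smul, ← d1, ← d2, ← d3]
          module)⟩
      have c6 := p.cent h3 h4 hM hH hN hq hA hb b2 c5 m' ⟨_, trivial, c0, c4⟩
      obtain ⟨i, d1⟩ := pow_of_nil (p := r) (IsM.nil c2 hu.left.2 he)
      obtain ⟨j, d2⟩ := pow_of_nil (p := r) (IsM.nil c4 b1 c0)
      obtain ⟨n, d3⟩ : ∃ n, n = m'⁻¹ * (y * m * y⁻¹) := ⟨_, rfl⟩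
      rw [← d3] at c5 c6
      have d4 : n ^ r ^ (i + j) = 1 := by
        have := (show Commute m' n from c6).mul_pow (r ^ (i + j))
        rw [d3, mul_inv_cancel_left, ← d3, conj_pow, pow_add, pow_mul m, d1, pow_mul' m', d2] at this
        simpa [pow_add] using this.symm
      have d5 : n = 1 := orderOf_eq_one_iff.1 (Nat.eq_one_of_dvd_coprimes (Nat.Coprime.pow_left _
        ((Nat.Prime.coprime_iff_not_dvd Fact.out).2 (p.not_dvd h3 h4 hM hH hN hq hA hb)))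
        (orderOf_dvd_of_pow_eq_one d4) (Subgroup.orderOf_dvd_natCard _ c5))
      rw [d5, eq_comm, inv_mul_eq_one, eq_mul_inv_iff_mul_eq] at d3
      exact ⟨m, m', c2, c4, fun v => (DFunLike.congr_fun d3 v).symm⟩
    obtain ⟨d, d1, d2, -⟩ := exists_third' p.hn p.hk (by omega) hu
    obtain ⟨m, m', c1, c2, c3⟩ := b3 d d2
    have b4 : ∀ x, y (t x u) = ρ • t (p.cv (k u) (y (t x u'))) (k u) := fun x =>
      smul_right_injective V d1 (by
        have := c1.comm hu.left.2 d2 c2 b1 (by simp [a2, d2]) c3 (t x u')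
        simp only [cov_t, hu.one, one_smul, h.Q_smul] at this
        simp only [this]
        rw [← a3 d]
        module)
    refine ⟨ρ • p.cv (k u) ∘ₗ y.toLinearMap ∘ₗ vec F t u', by simp [a1, smul_smul, a2, hu.one],
      fun x => by simp [b4], fun e he he' x => ?_⟩
    obtain ⟨m, m', c1, c2, c3⟩ := b3 e he
    have := c3 (t x u')
    rw [c1, c2] at this
    simp [hu.one, p.hc e u', he', b4] at this
    exact ⟨-(h.Q e * ρ) • p.cv (k u) (y (t x u')) - (p.cv (ρ • k e) (y (t x u')) -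
      h.Q (ρ • k e) • p.cv (k u) (y (t x u'))), by simp; linear_combination (norm := module) -this⟩
  obtain ⟨u, -, b1, b2⟩ := exists_sing (D := ⊤) p.hk (by simp [h4])
  obtain ⟨u', hu⟩ := exists_hyp p.hn ((sing_quad p.hk).2 b1) b2
  have e1 : h.B u' u = 1 := p.hc u u' ▸ hu.one
  obtain ⟨g, c1, c2, c3⟩ := a5 u u' hu
  obtain ⟨g', -, c4, c5⟩ := a5 u' u ⟨hu.right, hu.left, e1⟩
  have b3 : ∀ w w', h.B (k w) (k w') = ρ⁻¹ * h.B w w' := fun w w' => by simp [← a2 w w', a0]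
  have b4 : ∀ e, h.B u e = 0 → h.B u' e = 0 → ∀ x, y (t x e) = t (g x) (k e) ∧
      (h.Q e ≠ 0 → g x = g' x) := fun e he he' x => by
    obtain ⟨z, d1⟩ := c3 e he he' x
    obtain ⟨z', d2⟩ := c5 e he' he x
    have d3 := congrArg (p.cv (k u')) (d1.symm.trans d2)
    have d4 := congrArg (p.cv (k e)) (d1.symm.trans d2)
    simp [b3, he', e1, hu.right.1, a0] at d3
    refine ⟨by simp [d1, d3], fun d5 => ?_⟩
    simpa [b3, p.hc e u, p.hc e u', he, he', B_self_quad p.hk e, a0, e2, d5] using d4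
  obtain ⟨d, d1, d2, d3⟩ := exists_third' p.hn p.hk (by omega) hu
  have b5 : ∀ x w, y (t x w) = t (g x) (k w) := fun x w => by
    have := (b4 (w - h.B u' w • u - h.B u w • u') (by simp [hu.one, hu.left.1])
      (by simp [e1, hu.right.1]) x).1
    simpa [c2, c4, (b4 d d2 d3 x).2 d1] using this
  refine ⟨g, k, c1, b5, fun x x' => ?_, a2⟩
  have := (hH hy).1 (t x u) (t x' u')
  simp only [b5, p.B, b3, hu.one] at this
  field_simp at this
  exact this

theorem block_of_conj (ha : f.Q a ≠ 0) (h1 : y * p.tau a = p.tau b * y) (w : W) :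
    ∃ w', y (t a w) = t b w' := p.tau_fix (by
  simpa [refl_apply_self _ ha] using (DFunLike.congr_fun h1 (t a w)).symm)

theorem eq_tau (hE : H ≤ Φ.E) (hy : y ∈ H) (h1 : y * y = 1) (ha : f.Q a ≠ 0)
    (h2 : y * p.tau a = p.tau a * y) (h5 : LinearMap.trace F V y.toLinearMap = -4) :
    ∃ d, f.Q d ≠ 0 ∧ y = p.tau d := by
  obtain ⟨g, k, a1, a2, a3, a4⟩ := p.tens_of_block h3 h4 hM hH hN hq hA hy ha ha
    (p.block_of_conj h3 h4 hM hH hN hq hA ha h2)
  simp only [div_self ha, one_mul] at a3 a4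
  have e2 := p.odd
  have a0 : a ≠ 0 := by rintro rfl; simp at ha
  have a5 : ∀ x w, t (g (g x)) (k (k w)) = t x w := fun x w => by
    simpa [a2] using DFunLike.congr_fun h1 (t x w)
  have a6 : ∀ w, k (k w) = w := fun w => t_inj p.ht a0 (by simpa [a1] using a5 a w)
  obtain ⟨w₀, hw⟩ : ∃ w : W, w ≠ 0 :=
    have := Module.nontrivial_of_finrank_pos (R := F) (M := W) (by omega); exists_ne 0
  have a7 : ∀ x, g (g x) = x := fun x => t_inj p.flip.ht hw (by simpa [a6] using a5 x w₀)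
  obtain ⟨b1, b2⟩ := tr_det p.ht (m := y.toLinearMap) a2
  have b3 := congrArg LinearMap.det (show g * g = 1 from LinearMap.ext a7)
  have b4 := congrArg LinearMap.det (show k * k = 1 from LinearMap.ext a6)
  rw [map_mul, map_one] at b3 b4
  rw [mem_SLv.1 (E_le_SLv p.nd (hE hy)), h3, h4] at b2
  have n4 : (4 : F) ≠ 0 := fun e => mul_ne_zero e2 e2 (by linear_combination e)
  obtain ⟨γ, c1, c2, c3⟩ : ∃ γ : End F S, (∀ x w, y (t x w) = t (γ x) w) ∧ (∀ x, γ (γ x) = x) ∧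
      ∀ x x', f.B (γ x) (γ x') = f.B x x' := by
    rcases inv4 p.hn p.hk e2 h4 a4 a6 (by
      linear_combination -b2 - (LinearMap.det g ^ 2 + 1) * LinearMap.det k ^ 3 * b3 -
        LinearMap.det k * b4) (fun e => n4 (by rw [e, h5] at b1; linear_combination -b1))
      with rfl | rfl
    · exact ⟨g, a2, a7, a3⟩
    · exact ⟨-g, by simpa using a2, by simpa, by simpa⟩
  have b5 := (tr_det p.ht (m := y.toLinearMap) (b := 1) c1).1
  rw [h5, LinearMap.trace_one, h4] at b5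
  obtain ⟨d, d1, rfl | rfl⟩ := inv3 p.fn p.fk e2 h3 c3 c2 (by
    rintro rfl
    rw [LinearMap.trace_one, h3] at b5
    exact mul_ne_zero n4 n4 (by push_cast at b5; linear_combination -b5)) (by
    rintro rfl
    rw [map_neg, LinearMap.trace_one, h3] at b5
    exact mul_ne_zero e2 n4 (by push_cast at b5; linear_combination b5))
  · rw [tr_rf p.fk e2 d1, h3] at b5
    exact (mul_ne_zero e2 n4 (by push_cast at b5; linear_combination -b5)).elim
  · exact ⟨d, d1, p.ext_tt fun x w => by simp [c1]⟩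

theorem mem_Tg4 (hE : H ≤ Φ.E) (hy : y ∈ H) : y ∈ Tg F t := by
  have := Module.finite_of_finite F (M := V)
  have : Finite (V ≃ₗ[F] V) := DFunLike.finite _
  obtain ⟨s, -, b1, b2⟩ := exists_sing (D := ⊤) p.fk (by simp [h3])
  obtain ⟨s', hs⟩ := exists_hyp p.fn ((sing_quad p.fk).2 b1) b2
  obtain ⟨ν, hν⟩ := FiniteField.exists_nonsquare (ringChar_ne_two p.odd)
  have hν0 : ν ≠ 0 := fun h => hν (h ▸ IsSquare.zero)
  have b3 : f.Q (ν • s + s') = ν := by
    simp [Q_add_quad p.fk, f.Q_smul, hs.left.2, hs.right.2, hs.one]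
  have b4 : f.Q (s + s') = 1 := by simp [Q_add_quad p.fk, hs.left.2, hs.right.2, hs.one]
  generalize ν • s + s' = b at b3
  generalize s + s' = a at b4
  have ha : f.Q a ≠ 0 := by simp [b4]
  have hb : f.Q b ≠ 0 := by simpa [b3]
  have hT := fun a ha => hM (p.tau_mem h3 h4 (a := a) ha)
  have tr : ∀ d, f.Q d ≠ 0 → ∀ k : V ≃ₗ[F] V,
      LinearMap.trace F V (k * p.tau d * k⁻¹).toLinearMap = -4 := fun d hd k =>
    (LinearMap.trace_conj' (p.tau d).toLinearMap k).trans (p.tr_tau h3 h4 hd)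
  have a1 := mul_mem (mul_mem hy (hT a ha)) (inv_mem hy)
  have a2 : y * p.tau a * y⁻¹ * (y * p.tau a * y⁻¹) = 1 := by rw [conj_mul, p.tau_tau]; simp
  rcases dihedral (hT b hb) a1 (p.tau_tau b) a2 with ⟨k, c1, c2⟩ | ⟨z, c1, c2, c3, c4, c5, k, -, c6⟩
  · obtain ⟨g, -, -, -, d1, -⟩ := p.tens_of_block h3 h4 hM hH hN hq hA (mul_mem c1 hy) ha hb
      (p.block_of_conj h3 h4 hM hH hN hq hA ha (by rw [← c2]; group))
    rw [b3, b4, div_one] at d1
    exact (hν (sq_of_sim p.fn p.fk h3 hν0 d1)).elim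
  obtain ⟨d, d1, d2⟩ := p.eq_tau h3 h4 hM hH hN hq hA hE (mul_mem c1 (hT b hb)) (by
    rw [mul_assoc, ← mul_assoc (p.tau b), ← c4, mul_assoc, p.tau_tau, mul_one, c3]) hb
    (by rw [mul_assoc, ← mul_assoc (p.tau b), ← c4, mul_assoc]) (by
      rcases c6 with e | e
      · exact e ▸ tr b hb k
      · rw [e, show k * (y * p.tau a * y⁻¹) * k⁻¹ = (k * y) * p.tau a * (k * y)⁻¹ by group]
        exact tr a ha _)
  have d3 : ∀ x w, z (t x w) = t (rf p.fk d (rf p.fk b x)) w := fun x w => by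
    simpa [p.rr] using DFunLike.congr_fun d2 (p.tau b (t x w))
  obtain ⟨w₀, hw⟩ : ∃ w : W, w ≠ 0 :=
    have := Module.nontrivial_of_finrank_pos (R := F) (M := W) (by omega); exists_ne 0
  obtain ⟨c, d4, d5⟩ := inv3 p.fn p.fk p.odd h3 (g := (rf p.fk d * rf p.fk b).toLinearMap)
    (mul_mem (rf_O p.fk d) (rf_O p.fk b)).1 (fun x => t_inj p.flip.ht hw (by
      simpa [d3] using DFunLike.congr_fun c3 (t x w₀)))
    (fun e => c2 (p.ext_tt fun x w => by simpa [d3] using congrArg (fun g => t (g x) w) e))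
    fun e => p.odd (by
      have := congrArg LinearMap.det e
      rw [← neg_one_smul F 1, LinearMap.det_smul, h3, det_mul_equiv,
        det_refl _ d1, det_refl _ hb, map_one] at this
      linear_combination this)
  obtain ⟨c', d6, d7⟩ := p.eq_tau h3 h4 hM hH hN hq hA hE a1 a2 d4 (LinearEquiv.ext fun v => by
    have d6 : (∀ v, z v = -p.tau c v) ∨ ∀ v, z v = p.tau c v := d5.imp
      (fun e => ext_t p.ht (f := z.toLinearMap) (f' := -(p.tau c).toLinearMap) fun x w => by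
        simpa [d3] using congrArg (fun g => t (g x) w) e)
      fun e => ext_t p.ht (f := z.toLinearMap) (f' := (p.tau c).toLinearMap) fun x w => by
        simpa [d3] using congrArg (fun g => t (g x) w) e
    generalize y * p.tau a * y⁻¹ = y' at c5
    have d7 := DFunLike.congr_fun c5 v
    rcases d6 with e | e <;> simpa [e] using d7.symm) (tr a ha y)
  obtain ⟨g, k, -, e1, -, -⟩ := p.tens_of_block h3 h4 hM hH hN hq hA hy ha d6
    (p.block_of_conj h3 h4 hM hH hN hq hA ha (by rw [← d7]; group))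
  have a0 : a ≠ 0 := by rintro rfl; simp at ha
  exact ⟨LinearEquiv.ofInjectiveEndo g ((injective_iff_map_eq_zero g).2 fun x hx =>
    t_eq_zero p.ht hw (y.injective (by simp [e1, hx]))), (LinearEquiv.ofInjectiveEndo k
      ((injective_iff_map_eq_zero k).2 fun w hw => t_eq_zero p.flip.ht a0
        (y.injective (by simp [e1, hw])))).toEquiv, e1⟩

omit hM hH hN in
theorem isMaximalIn4 : IsMaximalIn Φ.E (Tg F t ⊓ Φ.E) := by
  refine isMaximalIn_of inf_le_right ?_ fun H h1 h2 g hg hg' => by_contra fun h7 =>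
    hg' ⟨p.mem_Tg4 h3 h4 h1 (h2.trans E_le_O) h7 hq hA h2 hg, h2 hg⟩
  obtain ⟨s, -, b1, b2⟩ := exists_sing (D := ⊤) p.fk (by simp [h3])
  obtain ⟨s', hs⟩ := exists_hyp p.fn ((sing_quad p.fk).2 b1) b2
  obtain ⟨c, c1, c2, c3⟩ := exists_third' p.fn p.fk h3.ge hs
  obtain ⟨u, -, b3, b4⟩ := exists_sing (D := ⊤) p.hk (by simp [h4])
  obtain ⟨u', hu⟩ := exists_hyp p.hn ((sing_quad p.hk).2 b3) b4
  obtain ⟨d, d1, d2, d3⟩ := exists_third' p.hn p.hk (by omega) hu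
  obtain ⟨T, a4, a5⟩ := exists_eq p.nd p.kap (p.sing s b3).2 (e := t c u) (by simp [p.B, c2])
  refine ⟨T, a4, fun hT => ?_⟩
  have : Nontrivial S := ⟨s, 0, b2⟩
  rcases quad_tens p.ht p.odd hT.1 (N := (Φ.B (t c u)).smulRight (t s u) -
    (Φ.B (t s u)).smulRight (t c u)) (by simp [a5, (p.sing c b3).2, add_sub_assoc])
    (by simp [p.B, hu.left.1]) with ⟨n, hn⟩ | ⟨n, hn⟩
  · have e1 := congrArg (p.flip.cv c) (hn s' u')
    have e2 := congrArg (p.flip.cv s') (hn s' u')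
    simp [p.B, p.cs_t, hu.one, hs.one, p.fc c s', c3, B_self_quad p.fk c, p.odd, c1, b4] at e1
  · have e1 := hn s' u'
    have e2 := hn s' d
    simp [p.B, hu.one, hs.one, p.fc c s', c3, d2] at e1 e2
    rw [t_eq_zero p.ht (by rintro rfl; simp at d1) e2.symm] at e1
    exact c1 (by simp [t_eq_zero p.ht b4 (by simpa using e1 : t c u = 0)])

end H23.Qp.Oo

namespace H23.Qp

open Module H22 Cfsg Cfsg.Geo Form Tn Nd

theorem isMaximalIn_o34 {F : Type*} [Field F] {ι : Type} [Fintype ι] [DecidableEq ι] [Fintype F]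
    (h2 : (2 : F) ≠ 0) (hq : 4 ≤ Fintype.card F)
    {Q : (ι → F) → F} (hQ : IsNondegenerateQuadraticForm Q) {e : ι ≃ Fin 3 × Fin 4} {P : GL ι F}
    {f₁ f₂} (hf₁ : IsSymmetricForm f₁) (hf₂ : IsSymmetricForm f₂)
    (h4 : ¬ IsPlusTypeOn (fun v => f₂ v v) ⊤)
    (hT : IsTensorFormStructure id (QuadraticMap.polar Q) f₁ f₂ e P) :
    IsMaximalIn (omegaGL Q) (tensorProductSubgroup 3 4 e P ⊓ omegaGL Q) := by
  obtain ⟨Q, rfl, hΦ⟩ := exists_quad hQ
  obtain ⟨c, hc, a2⟩ := As.tensor_pure (σ := RingHom.id F) hT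
  simp only [← As.eq_fog_of_bilin hf₁.bilinear, ← As.eq_fog_of_bilin hf₂.bilinear] at a2
  have h0 : 5 ≤ Fintype.card ι := by rw [Fintype.card_congr e]; simp
  have h7 := fun g => mem_omegaGL_iff_E (g := g) hΦ h0
  obtain ⟨f, a1, a4, a3⟩ := exists_form_symm h2 hf₁ hc
  obtain ⟨h, b1, b2, b3⟩ := exists_form_symm h2 hf₂ one_ne_zero
  refine isMaximalIn_of_iff (glE _ F) (Oo.isMaximalIn4 (f := f) (h := h)
    ⟨isTensorProduct_tP e P, hΦ, rfl, a1, a4, b1, b2, h2, by simpa,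
      fun x w y w' => (a2 x w y w').trans (by rw [a3, b3, one_mul])⟩ (by simp) (by simp) hq
      fun a e c1 c2 c3 c4 => by_contra fun c5 => ?_) h7
      fun g => and_congr (mem_tensorProductSubgroup_iff_Tg (by omega)) (h7 g)
  have c6 : ∀ x ∈ Submodule.span F {a, e}, h.B x x = 0 := by
    intro x hx
    obtain ⟨_, _, rfl⟩ := Submodule.mem_span_pair.1 hx
    simp [B_self_quad b2, c1, c2, c3, B_comm_quad b2 e a]
  exact h4 ⟨_, le_top, fun x hx => by simpa [b3] using c6 x hx,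
    by simp [finrank_pair c4 c5]⟩

end H23.Qp
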