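import Mathlib

/-! Counting the suborbits of a rank 7 action from a covering by twenty sets. -/

set_option autoImplicit false
open Subgroup MulAction

namespace H23.Rk0

def oL : List ℕ := [1, 3795, 318780, 1275120, 5100480, 1912680, 478170, 26565, 11385, 2550240, 2550240, 1771, 53130, 212520, 7650720, 15301440, 40803840, 81607680, 12241152, 967680]
def cls : Fin 20 → Fin 7 := ![0, 1, 3, 5, 4, 5, 3, 2, 1, 3, 5, 2, 3, 5, 5, 4, 5, 6, 4, 6]
def F (T : Finset (Fin 7)) : ℕ := ∑ i ∈ Finset.univ.filter (fun i : Fin 20 => cls i ∈ T), oL.getD i 0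

theorem F1 : ∀ T : Finset (Fin 7), F T + F Tᶜ = 173067389 := by decide +kernel
theorem F2 : ∀ T : Finset (Fin 7), ¬ (4 ∈ T ∧ 5 ∈ T) → F T ∣ 501397585920 → T.card ≤ 1 := by decide +kernel
theorem F3 : (List.ofFn fun j : Fin 7 => F {j}) = [1, 15180, 28336, 3400320, 32643072, 54405120, 82575360] := by
  decide +kernel

theorem count {G : Type*} [Group G] [Finite G] (H : Subgroup G) (hi : H.index = 173067389)
    (hc : Nat.card H = 501397585920) (O : Fin 20 → Set (G ⧸ H)) (cov : ∀ g : G, ∃ i, (g : G ⧸ H) ∈ O i)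
    (le : ∀ i, (O i).ncard ≤ oL.getD i 0) (c : Fin 7 → G ⧸ H) (sub : ∀ i, O i ⊆ orbit H (c (cls i)))
    (ne : orbit H (c 4) ≠ orbit H (c 5)) :
    (∀ i j : Fin 7, i ≠ j → orbit H (c i) ≠ orbit H (c j)) ∧ (∀ q : G ⧸ H, ∃ i : Fin 7, q ∈ orbit H (c i)) ∧
      (List.ofFn fun i => (orbit H (c i)).ncard) = [1, 15180, 28336, 3400320, 32643072, 54405120, 82575360] := by
  classical
  have cov' : ∀ q : G ⧸ H, ∃ i, q ∈ O i := fun q => by
    obtain ⟨g, rfl⟩ := QuotientGroup.mk_surjective q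
    exact cov g
  have bd : ∀ (T : Finset (Fin 7)) (A : Set (G ⧸ H)), (∀ q ∈ A, ∀ i, q ∈ O i → cls i ∈ T) → A.ncard ≤ F T :=
    fun T A hA => by
      refine le_trans (Set.ncard_le_ncard (t := ⋃ i ∈ Finset.univ.filter (fun i : Fin 20 => cls i ∈ T), O i) ?_)
        ((Finset.set_ncard_biUnion_le _ _).trans (Finset.sum_le_sum fun i _ => le i))
      intro q hq
      obtain ⟨i, hi⟩ := cov' q
      exact Set.mem_biUnion (Finset.mem_coe.2 (Finset.mem_filter.2 ⟨Finset.mem_univ _, hA q hq i hi⟩)) hi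
  let T : Fin 7 → Finset (Fin 7) := fun j => Finset.univ.filter fun k => orbit H (c k) = orbit H (c j)
  have mT : ∀ j k, k ∈ T j ↔ orbit H (c k) = orbit H (c j) := fun j k => by simp [T]
  have e : ∀ j, (orbit H (c j)).ncard = F (T j) := fun j => by
    have a := bd (T j) (orbit H (c j)) fun q hq i hi => (mT _ _).2
      ((orbit_eq_iff.2 (sub i hi)).symm.trans (orbit_eq_iff.2 hq))
    have b := bd (T j)ᶜ (orbit H (c j))ᶜ fun q hq i hi => Finset.mem_compl.2 fun k =>
      hq ((mT _ _).1 k ▸ sub i hi)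
    have s := Set.ncard_add_ncard_compl (orbit H (c j))
    rw [← index_eq_card, hi] at s
    have := F1 (T j)
    omega
  have t1 : ∀ j, T j = {j} := fun j => by
    have := F2 (T j) (fun h => ne (((mT _ _).1 h.1).trans ((mT _ _).1 h.2).symm)) (by
      rw [← e, ← hc, ← index_stabilizer]; exact index_dvd_card _)
    exact Finset.eq_singleton_iff_unique_mem.2 ⟨(mT _ _).2 rfl, fun k hk =>
      Finset.card_le_one.1 this _ hk _ ((mT _ _).2 rfl)⟩
  refine ⟨fun i j n h => n (Finset.mem_singleton.1 (t1 j ▸ (mT j i).2 h)), fun q => ?_, ?_⟩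
  · obtain ⟨i, hi⟩ := cov' q
    exact ⟨_, sub i hi⟩
  · rw [← F3]
    exact congrArg List.ofFn (funext fun j => by rw [e, t1])

end H23.Rk0
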