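import Cfsg.Agent.H23.Rk6
import Cfsg.Agent.H23.Rk0

/-! The rank 7 action of `J4` on the cosets of `2^11 : M24`. -/

set_option maxRecDepth 100000
set_option maxHeartbeats 800000
set_option autoImplicit false
set_option linter.style.longLine false

namespace H23.Rk7
open Cfsg Cfsg.Spor H7.J4 H29 H29.J4m H29.U H23.Rk6 Subgroup MulAction

section
variable {G : Type} [Group G] {M : Model G}

theorem winv (s : Std M) {l : List G} (h0 : List.Forall₂ M.R L0 l) (i : ℕ) (i1 : 1 ≤ i) (hi : i < 20) :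
    M.R (wv0 (ivw (H2.Cov.WL.getD i []))) (H28.ev l (H2.Cov.WL.getD i []))⁻¹ := by
  have c1 := wC_all i i1 hi
  rw [wC, force_eq, force_eq] at c1
  obtain ⟨c1, -⟩ := band_iff.1 c1
  have r1 := R_wv0 s h0 (H2.Cov.WL.getD i [])
  have r2 := R_wv0 s h0 (ivw (H2.Cov.WL.getD i []))
  have q : _ * _ = (1 : G) := M.eq_of (M.R_mul r1 r2) M.R_one (by rw [s.1, s.2.1, s.2.2]; exact c1)
  rw [eq_inv_of_mul_eq_one_right q] at r2
  exact r2

theorem R_wv4 (s : Std M) {l : List G} (h : List.Forall₂ M.R L4 l) (w : List ℕ) : M.R (wv4 w) (H28.ev l w) := by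
  induction w with
  | nil => rw [H28.ev_nil]; have := M.R_one; rw [s.2.1] at this; exact this
  | cons a w ih =>
    rw [H28.ev_cons]
    have := M.R_mul (R_getD h a) ih
    rw [s.1, s.2.1] at this
    exact this

theorem base (s : Std M) {x y t e : G} (h : List.Forall₂ M.R L1 [x, y, y⁻¹, t, e])
    (hcov : ∀ g : G, ∃ i < 20, ∃ k ∈ closure {x, y, e}, ∃ h ∈ closure {x, y, e},
      g = k * H28.ev [x, y, y⁻¹, t] (H2.Cov.WL.getD i []) * h) :
    EA M eL ∧ closure {x, y, e} ≤ normalizer (M.cl eL : Set G) ∧ (∀ u ∈ M.cl eL, ∀ v ∈ M.cl eL, u * v = v * u) ∧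
      (∀ g ∈ M.cl eL, g * g = 1) ∧ ∃ d, M.R cd d ∧ ∀ g, g⁻¹ * d * g ∈ M.cl eL → g ∈ closure {x, y, e} := by
  have rx : M.R cx x := R_getD h 0
  have ry : M.R cy y := R_getD h 1
  have rY : M.R cY y⁻¹ := R_getD h 2
  have rt : M.R ct t := R_getD h 3
  have re : M.R ce e := R_getD h 4
  have h0 : List.Forall₂ M.R L0 [x, y, y⁻¹, t] := .cons rx (.cons ry (.cons rY (.cons rt .nil)))
  have hK : ∀ c ∈ [cx, cy, cY, ce], M.In (closure {x, y, e}) c := by
    have y1 : y ∈ closure {x, y, e} := subset_closure (Or.inr (Or.inl rfl))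
    simp only [List.forall_mem_cons]
    exact ⟨⟨_, subset_closure (Or.inl rfl), rx⟩, ⟨_, y1, ry⟩, ⟨_, inv_mem y1, rY⟩,
      ⟨_, subset_closure (Or.inr (Or.inr rfl)), re⟩, by simp⟩
  have hv := s.map hK eK (L' := eL) (by decide +kernel)
  have ea : EA M eL := EA.of hv (by rw [s.1, s.2.1, s.2.2]; decide +kernel) (by rw [s.1, s.2.2]; decide +kernel)
  have hc : Nat.card (M.cl eL) = 2 ^ 11 := ea.card (by rw [s.1, s.2.1, s.2.2]; decide +kernel)
  have : Finite (M.cl eL) := Nat.finite_of_card_ne_zero (by rw [hc]; positivity)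
  have x2 : x * x = 1 := s.eq h (.m (.v 0) (.v 0)) (.v 9) (by decide +kernel)
  have e2 : e * e = 1 := s.eq h (.m (.v 4) (.v 4)) (.v 9) (by decide +kernel)
  have y3 : y * y = y⁻¹ := s.eq h (.m (.v 1) (.v 1)) (.v 2) (by decide +kernel)
  have xi : x⁻¹ = x := inv_eq_of_mul_eq_one_right x2
  have ei : e⁻¹ = e := inv_eq_of_mul_eq_one_right e2
  have rX : M.R cx x⁻¹ := xi.symm ▸ rx
  have rE : M.R ce e⁻¹ := ei.symm ▸ re
  have nx' := s.norm hv rx rX nx (by decide +kernel)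
  have ny' := s.norm hv ry rY ny (by decide +kernel)
  have he : e ∈ M.cl eL := Model.mem_cl List.mem_cons_self re
  have hE : ∀ c ∈ eL, M.In (M.cl eL) c := fun c hc => (hv c hc).cl hc
  have com : ∀ u ∈ M.cl eL, ∀ v ∈ M.cl eL, u * v = v * u := fun u hu v hv => by
    have k1 : M.cl eL ≤ centralizer (M.cl eL : Set G) := Model.cl_le' fun c hc α hα =>
      le_centralizer_iff.1 (show M.cl eL ≤ centralizer ((zpowers α : Subgroup G) : Set G) from
        Model.cl_le' fun c' hc' β hβ => by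
          obtain ⟨γ, g1, -, g3⟩ := ea c' hc'
          rw [M.unique hβ g1]
          rintro _ ⟨n, rfl⟩
          exact ((g3 c hc α hα).zpow_right n).eq.symm) (mem_zpowers α)
    exact (k1 hv u hu)
  have sq1 : ∀ g ∈ M.cl eL, g * g = 1 := fun g hg => by
    induction hg using closure_induction with
    | mem a ha =>
      obtain ⟨c, hc, hr⟩ := ha
      obtain ⟨γ, g1, g2, -⟩ := ea c hc
      rw [M.unique hr g1]; exact g2
    | one => exact one_mul 1
    | mul a b ha hb ia ib => rw [mul_assoc, ← mul_assoc b, com b hb a ha, mul_assoc, ib, mul_one, ia]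
    | inv a ha ia => rw [← mul_inv_rev, ia, inv_one]
  have nH : closure {x, y, e} ≤ normalizer (M.cl eL : Set G) := (closure_le _).2 (by
    rintro _ (rfl | rfl | rfl)
    exacts [nx', ny', le_normalizer he])
  obtain ⟨d, dE, rd⟩ : M.In (M.cl eL) cd := s.slp hE [xd] (by decide +kernel)
  have orb : ∀ k ∈ closure {x, y, e}, ∀ u, (∃ c ∈ dL, M.R c u) → ∃ c ∈ dL, M.R c (k⁻¹ * u * k) := fun k hk => by
    have ml : ∀ a b : G, (∀ u, (∃ c ∈ dL, M.R c u) → ∃ c ∈ dL, M.R c (a⁻¹ * u * a)) →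
        (∀ u, (∃ c ∈ dL, M.R c u) → ∃ c ∈ dL, M.R c (b⁻¹ * u * b)) →
        ∀ u, (∃ c ∈ dL, M.R c u) → ∃ c ∈ dL, M.R c ((a * b)⁻¹ * u * (a * b)) := fun a b ia ib u hu => by
      simpa only [mul_inv_rev, mul_assoc] using ib _ (ia u hu)
    induction hk using closure_induction'' with
    | one => intro u hu; simpa using hu
    | mem a ha =>
      rcases ha with rfl | rfl | rfl
      exacts [cj_spec s rX rx cj1, cj_spec s rY ry cj2, cj_spec s rE re cj3]
    | inv_mem a ha =>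
      rcases ha with rfl | rfl | rfl
      · rw [xi]; exact cj_spec s rX rx cj1
      · rw [← y3]; exact ml _ _ (cj_spec s rY ry cj2) (cj_spec s rY ry cj2)
      · rw [ei]; exact cj_spec s rE re cj3
    | mul a b _ _ ia ib => exact ml a b ia ib
  have dD : ∃ c ∈ dL, M.R c d := ⟨cd, List.mem_append_left _ List.mem_cons_self, rd⟩
  refine ⟨ea, nH, com, sq1, d, rd, fun g hg => ?_⟩
  obtain ⟨i, hi, k, hk, l, hl, rfl⟩ := hcov g
  rcases Nat.eq_zero_or_pos i with rfl | i1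
  · exact mul_mem (mul_mem hk (one_mem _)) hl
  exfalso
  have c1 := wC_all i i1 hi
  rw [wC, force_eq, force_eq] at c1
  obtain ⟨-, c2⟩ := band_iff.1 c1
  rw [force_eq, force_eq] at c2
  have r1 := R_wv0 s h0 (H2.Cov.WL.getD i [])
  have r2 := winv s h0 i i1 hi
  generalize H28.ev [x, y, y⁻¹, t] (H2.Cov.WL.getD i []) = w at hg r1 r2
  obtain ⟨a, ha, ra⟩ := (Ex.v ([0, 1].getD i 0)).In hE
  have r3 := M.R_mul (M.R_mul r1 ra) r2
  rw [s.1, s.2.1] at r3
  refine nc_spec s r3 c2 _ (orb k hk d dD) ?_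
  have k1 := (mem_normalizer_iff.1 (nH hl) _).1 hg
  have k2 := com _ k1 a ha
  have k3 : k⁻¹ * d * k = w * (l * ((k * w * l)⁻¹ * d * (k * w * l)) * l⁻¹) * w⁻¹ := by group
  generalize l * ((k * w * l)⁻¹ * d * (k * w * l)) * l⁻¹ = m at k2 k3
  rw [k3]
  calc w * m * w⁻¹ * (w * a * w⁻¹) = w * (m * a) * w⁻¹ := by group
    _ = w * a * w⁻¹ * (w * m * w⁻¹) := by rw [k2]; group

theorem four {u a : G} (uu : u * u = 1) (aa : a * a = 1) (c : u * a * u⁻¹ * a = a * (u * a * u⁻¹)) (w : G) :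
    w * u * w⁻¹ * (w * a * w⁻¹) * (w * u * w⁻¹ * (w * a * w⁻¹)) *
      (w * u * w⁻¹ * (w * a * w⁻¹) * (w * u * w⁻¹ * (w * a * w⁻¹))) = 1 := by
  have ui : u⁻¹ = u := inv_eq_of_mul_eq_one_right uu
  have ai : a⁻¹ = a := inv_eq_of_mul_eq_one_right aa
  calc _ = w * ((u * a * u * a) * (u * a * u * a)) * w⁻¹ := by group
    _ = w * ((u * a * u⁻¹ * a) * (a * (u * a * u⁻¹))) * w⁻¹ := by rw [← c, ui]
    _ = w * (u * a * u⁻¹ * (a * a) * u * a * u⁻¹) * w⁻¹ := by simp only [mul_assoc]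
    _ = w * (u * (a * a) * u⁻¹) * w⁻¹ := by rw [aa]; simp only [mul_assoc, mul_one, one_mul, inv_mul_cancel_left, aa]
    _ = 1 := by rw [aa]; group

theorem main (s : Std M) {x y t e : G} (h : List.Forall₂ M.R L1 [x, y, y⁻¹, t, e])
    (hcov : ∀ g : G, ∃ i < 20, ∃ k ∈ closure {x, y, e}, ∃ h ∈ closure {x, y, e},
      g = k * H28.ev [x, y, y⁻¹, t] (H2.Cov.WL.getD i []) * h) :
    (∀ i < 20, ∃ m ∈ closure {x, y, e}, (H28.ev [x, y, y⁻¹, t] (H2.Cov.WL.getD i []))⁻¹ * m *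
      H28.ev [x, y, y⁻¹, t] (H2.Cov.WL.getD (rp.getD i 0) []) ∈ closure {x, y, e}) ∧
    ∀ k ∈ closure {x, y, e}, (k * H28.ev [x, y, y⁻¹, t] (H2.Cov.WL.getD 4 []))⁻¹ *
      H28.ev [x, y, y⁻¹, t] (H2.Cov.WL.getD 3 []) ∉ closure {x, y, e} := by
  obtain ⟨ea, nH, com, sq1, d, rd, hD⟩ := base s h hcov
  have rx : M.R cx x := R_getD h 0
  have ry : M.R cy y := R_getD h 1
  have rY : M.R cY y⁻¹ := R_getD h 2
  have rt : M.R ct t := R_getD h 3
  have re : M.R ce e := R_getD h 4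
  have h0 : List.Forall₂ M.R L0 [x, y, y⁻¹, t] := .cons rx (.cons ry (.cons rY (.cons rt .nil)))
  have h4 : List.Forall₂ M.R L4 [x, y, y⁻¹, e] := .cons rx (.cons ry (.cons rY (.cons re .nil)))
  have md : Md M x y e := ⟨s, h4⟩
  have rm : ∀ {a b : ℕ} {g k : G}, M.R a g → M.R b k → M.R (kmul a b) (g * k) := fun p q => s.1 ▸ M.R_mul p q
  have r1 : M.R kone 1 := s.2.1 ▸ M.R_one
  have be : ∀ {a b : ℕ} {g k : G}, M.R a g → M.R b k → (Nat.beq a b = true ↔ g = k) := fun p q =>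
    s.2.2 ▸ M.eqb_iff p q
  have inH : ∀ {c : ℕ} {g : G} (l : List ℕ), M.R c g → Nat.beq (kmul cd c) (kmul c (em l)) = true →
      g ∈ closure {x, y, e} := fun l p q => by
    obtain ⟨v, hv, rv⟩ := em_in md l
    refine hD _ ?_
    rw [mul_assoc, (be (rm rd p) (rm p rv)).1 q, inv_mul_cancel_left]
    exact hv
  refine ⟨fun i hi => ?_, fun k hk hh => ?_⟩
  · have cs : ∀ i < 20, rp.getD i 0 = i ∨ (1 ≤ i ∧ (i ∈ [5, 6, 8, 9, 15] ∨ i ∈ [10, 11, 14, 19] ∨ i ∈ [12, 13, 16, 18])) := by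
      decide
    rcases cs i hi with q | ⟨i1, q⟩
    · exact ⟨1, one_mem _, by rw [q, mul_one, inv_mul_cancel]; exact one_mem _⟩
    have c : Rk6.mg i = true := by
      rcases q with q | q | q
      exacts [allL_spec mg1 i q, allL_spec mg2 i q, allL_spec mg3 i q]
    simp only [Rk6.mg, force_eq] at c
    refine ⟨H28.ev [x, y, y⁻¹, e] (MS.getD i []), H28.ev_mem ?_ _,
      inH _ (rm (rm (winv s h0 i i1 hi) (R_wv4 s h4 _)) (R_wv0 s h0 _)) c⟩
    have y1 : y ∈ closure {x, y, e} := subset_closure (Or.inr (Or.inl rfl))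
    simp only [List.forall_mem_cons]
    exact ⟨subset_closure (Or.inl rfl), y1, inv_mem y1, subset_closure (Or.inr (Or.inr rfl)), by simp⟩
  · have c := wit1
    simp only [wit, force_eq] at c
    obtain ⟨c1, c2⟩ := band_iff.1 c
    obtain ⟨v, hv, rv⟩ := em_in md [0, 3, 4, 6, 7]
    have v1 : v ≠ 1 := fun q => by
      have := (be rv r1).2 q
      rw [nb_iff.1 c2] at this
      exact absurd this (by simp)
    have uH := inH _ (rm (rm (winv s h0 4 (by omega) (by omega)) rv) (R_wv0 s h0 _)) c1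
    have c := aa1
    simp only [aa, force_eq] at c
    obtain ⟨c3, c4⟩ := band_iff.1 c
    obtain ⟨e3, m3, r3⟩ := em_in md [3]
    obtain ⟨e4, m4, r4⟩ := em_in md [4]
    have s3 := rm (rm (R_wv0 s h0 (H2.Cov.WL.getD 3 [])) r3) (winv s h0 3 (by omega) (by omega))
    have s4 := rm (rm (R_wv0 s h0 (H2.Cov.WL.getD 3 [])) r4) (winv s h0 3 (by omega) (by omega))
    rw [Nat.eq_of_beq_eq_true c3] at s3
    rw [Nat.eq_of_beq_eq_true c4] at s4
    generalize H28.ev [x, y, y⁻¹, t] (H2.Cov.WL.getD 3 []) = w at *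
    generalize H28.ev [x, y, y⁻¹, t] (H2.Cov.WL.getD 4 []) = w' at *
    have v' : k * v * k⁻¹ ∈ M.cl eL := (mem_normalizer_iff.1 (nH hk) _).1 hv
    have f1 := feA
    rw [← s.1] at f1
    obtain ⟨c, k1, k2⟩ := ea.allE r1 f1 _ v'
    have u' : w⁻¹ * (k * v * k⁻¹) * w ∈ closure {x, y, e} := by
      have := mul_mem (mul_mem (inv_mem hh) uH) hh
      convert this using 1; group
    have uu : w⁻¹ * (k * v * k⁻¹) * w * (w⁻¹ * (k * v * k⁻¹) * w) = 1 := by
      calc _ = w⁻¹ * (k * v * k⁻¹ * (k * v * k⁻¹)) * w := by group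
        _ = 1 := by rw [sq1 _ v']; group
    have k1' : M.R c (w * (w⁻¹ * (k * v * k⁻¹) * w) * w⁻¹) := by convert k1 using 1; group
    have pp : ∀ {a : ℕ} {b : G}, b ∈ M.cl eL → M.R a (w * b * w⁻¹) → p4 a c = true := fun hb ra => by
      simp only [p4, force_eq]
      have q := rm k1' ra
      exact (be (rm (rm q q) (rm q q)) r1).2
        (four uu (sq1 _ hb) (com _ ((mem_normalizer_iff.1 (nH u') _).1 hb) _ hb) w)
    rw [ff, pp m3 s3, pp m4 s4] at k2
    have := (be k1 r1).1 k2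
    rw [mul_one, mul_inv_eq_one, mul_eq_left] at this
    exact v1 this

end

theorem rk7 : (closure {jx, jy, je}).index = 173067389 ∧ ∃ c : Fin 7 → J4 ⧸ closure {jx, jy, je}, (∀ i j : Fin 7, i ≠ j → MulAction.orbit ↥(closure {jx, jy, je}) (c i) ≠ MulAction.orbit ↥(closure {jx, jy, je}) (c j)) ∧ (∀ q : J4 ⧸ closure {jx, jy, je}, ∃ i : Fin 7, q ∈ MulAction.orbit ↥(closure {jx, jy, je}) (c i)) ∧ (List.ofFn fun i => (MulAction.orbit ↥(closure {jx, jy, je}) (c i)).ncard) = [1, 15180, 28336, 3400320, 32643072, 54405120, 82575360] := by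
  obtain ⟨M, s, h⟩ := j4_model'
  have hr : ∀ r ∈ J4.extra, PresentedGroup.mk (coxRelators J4.edges ∪ {r | r ∈ J4.extra}) r = 1 :=
    fun r hr => PresentedGroup.one_of_mem (Or.inr hr)
  simp only [J4.extra, List.forall_mem_cons, _root_.map_mul, _root_.map_pow, _root_.map_inv] at hr
  obtain ⟨h1, h2, h3, h4, h5, h6, h7, h8, h9, h10, h11, h12, -⟩ := hr
  obtain ⟨O, o1, o2, o3⟩ := H2.Cov.cov h1 h2 h3 h4 h5 h6 h7 h8 h9 h10 h11 h12 H7.JD.j_top (closure {jx, jy, je})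
    (subset_closure (Or.inl rfl)) (subset_closure (Or.inr (Or.inl rfl))) (subset_closure (Or.inr (Or.inr rfl)))
  obtain ⟨m1, m2⟩ := main s h fun g => let ⟨i, hi⟩ := o1 g; ⟨i, i.2, o3 i g hi⟩
  have hi := H7.JD.j_main.1
  have hc : Nat.card J4 = 86775571046077562880 := H7.JD.j_main.2.1.2
  have : Finite J4 := Nat.finite_of_card_ne_zero (by rw [hc]; norm_num)
  have cH : Nat.card (closure {jx, jy, je} : Subgroup J4) = 501397585920 := by
    have := (closure {jx, jy, je} : Subgroup J4).index_mul_card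
    rw [hi, hc] at this
    omega
  refine ⟨hi, fun j => (H28.ev [jx, jy, jy⁻¹, jt] (H2.Cov.WL.getD ([0, 1, 7, 2, 4, 3, 17].getD j 0) []) : J4),
    Rk0.count _ hi cH O o1 o2 _ (fun i q hq => ?_) fun e => ?_⟩
  · obtain ⟨g, rfl⟩ := QuotientGroup.mk_surjective q
    obtain ⟨k, hk, l, hl, e⟩ := o3 i g hq
    obtain ⟨m, hm, hg⟩ := m1 i i.2
    have r : ∀ i : Fin 20, [0, 1, 7, 2, 4, 3, 17].getD (Rk0.cls i) 0 = rp.getD i 0 := by decide
    refine ⟨⟨k * m, mul_mem hk hm⟩, QuotientGroup.eq.2 ?_⟩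
    rw [e, r]
    have := mul_mem (inv_mem hg) hl
    convert this using 1
    simp only [Subgroup.smul_def, smul_eq_mul, Subgroup.coe_subtype, mul_inv_rev, inv_inv, mul_assoc,
      inv_mul_cancel_left]
  · obtain ⟨⟨k, hk⟩, q⟩ := e.ge (mem_orbit_self _)
    exact m2 k hk (QuotientGroup.eq.1 q)

end H23.Rk7
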