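import Cfsg.Agent.H23.Rk7

/-! Transport of the rank 7 action along an isomorphism with `J4`. -/

set_option autoImplicit false
set_option linter.style.longLine false

namespace H23.Rk8
open Cfsg Cfsg.Spor H7.J4 H29 H29.J4m Subgroup MulAction

def Rk {G : Type*} [Group G] (H : Subgroup G) : Prop :=
  H.index = 173067389 ∧ ∃ c : Fin 7 → G ⧸ H, (∀ i j : Fin 7, i ≠ j → MulAction.orbit ↥H (c i) ≠ MulAction.orbit ↥H (c j)) ∧ (∀ q : G ⧸ H, ∃ i : Fin 7, q ∈ MulAction.orbit ↥H (c i)) ∧ (List.ofFn fun i => (MulAction.orbit ↥H (c i)).ncard) = [1, 15180, 28336, 3400320, 32643072, 54405120, 82575360]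

theorem tr {G G' : Type*} [Group G] [Group G'] (f : G' ≃* G) {H : Subgroup G} {H' : Subgroup G'}
    (hH : ∀ g, g ∈ H' ↔ f g ∈ H) (h : Rk H') : Rk H := by
  obtain ⟨hi, c, c1, c2, c3⟩ := h
  let β : G' ⧸ H' ≃ G ⧸ H := Quotient.congr f.toEquiv fun a b => by
    rw [QuotientGroup.leftRel_apply, QuotientGroup.leftRel_apply, hH, map_mul, map_inv]; rfl
  have b1 : ∀ (g : G') (q : G' ⧸ H'), β (g • q) = f g • β q := fun g q => by
    obtain ⟨a, rfl⟩ := QuotientGroup.mk_surjective q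
    exact congrArg QuotientGroup.mk (map_mul f g a)
  have im : ∀ q, orbit H (β q) = β '' orbit H' q := fun q => by
    ext r
    constructor
    · rintro ⟨⟨k, hk⟩, rfl⟩
      obtain ⟨k, rfl⟩ := f.surjective k
      exact ⟨_, ⟨⟨k, (hH k).2 hk⟩, rfl⟩, b1 k q⟩
    · rintro ⟨_, ⟨⟨k, hk⟩, rfl⟩, rfl⟩
      exact ⟨⟨f k, (hH k).1 hk⟩, (b1 k q).symm⟩
  refine ⟨?_, fun i => β (c i), fun i j n e => c1 i j n ?_, fun q => ?_, ?_⟩
  · rw [index_eq_card, ← Nat.card_congr β, ← index_eq_card, hi]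
  · rw [im, im] at e
    exact Set.image_injective.2 β.injective e
  · obtain ⟨q, rfl⟩ := β.surjective q
    obtain ⟨i, hi⟩ := c2 q
    exact ⟨i, by rw [im]; exact ⟨q, hi, rfl⟩⟩
  · rw [← c3]
    exact congrArg List.ofFn (funext fun i => by rw [im, Set.ncard_image_of_injective _ β.injective])

theorem s5629 {G : Type*} [Group G] [Finite G] (e : G ≃* J4)
    (hu : ∀ T : Sylow 2 G, ∃! V : Subgroup G, V ≤ (T : Subgroup G) ∧ Cfsg.IsElementaryAbelian 2 V ∧ Nat.card ↥V = 2 ^ 11)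
    (V : Subgroup G) (hV : Cfsg.IsElementaryAbelian 2 V) (hcard : Nat.card ↥V = 2 ^ 11) :
    Rk (normalizer (V : Set G)) := by
  have : Fact (Nat.Prime 2) := ⟨Nat.prime_two⟩
  obtain ⟨E, d, -, cE, sq, eE, -, xE, yE, dE, -, hD, -⟩ := comp
  have nE : ∀ g, g ∈ closure {jx, jy, je} ↔ g ∈ normalizer (E : Set J4) := fun g =>
    ⟨fun hg => (closure_le (normalizer (E : Set J4))).2 (by
      rintro _ (rfl | rfl | rfl)
      exacts [xE, yE, le_normalizer eE]) hg, fun hg => hD g (by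
        have := (mem_normalizer_iff.1 (inv_mem hg) d).1 dE
        rwa [inv_inv] at this)⟩
  have cd : ∀ f : J4 ≃* G, Nat.card (E.map f.toMonoidHom) = 2 ^ 11 := fun f =>
    (card_map_of_injective f.injective).trans cE
  have ea : ∀ f : J4 ≃* G, Cfsg.IsElementaryAbelian 2 (E.map f.toMonoidHom) := fun f => by
    have s : ∀ a : E.map f.toMonoidHom, a * a = 1 := by
      rintro ⟨_, a, ha, rfl⟩
      exact Subtype.ext ((map_mul f a a).symm.trans (by rw [sq a ha, map_one]; rfl))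
    have i : ∀ a : E.map f.toMonoidHom, a⁻¹ = a := fun a => inv_eq_of_mul_eq_one_right (s a)
    refine ⟨?_, ?_⟩
    · first
        | exact ⟨⟨fun a b => by rw [← i (a * b), mul_inv_rev, i, i]⟩⟩
        | exact fun a b => by rw [← i (a * b), mul_inv_rev, i, i]
    · exact fun a ha => by rw [pow_two]; exact congrArg Subtype.val (s ⟨a, ha⟩)
  obtain ⟨T, hT⟩ := (IsPGroup.of_card hcard).exists_le_sylow
  obtain ⟨T', hT'⟩ := (IsPGroup.of_card (cd e.symm)).exists_le_sylow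
  obtain ⟨g, rfl⟩ := MulAction.exists_smul_eq G T' T
  let f : J4 ≃* G := e.symm.trans (MulAut.conj g)
  have hf : E.map f.toMonoidHom = V := (hu _).unique ⟨by
    rintro _ ⟨a, ha, rfl⟩
    exact ⟨e.symm a, hT' ⟨a, ha, rfl⟩, rfl⟩, ea f, cd f⟩ ⟨hT, hV, hcard⟩
  refine tr f (fun a => ?_) Rk7.rk7
  have m : ∀ b, f b ∈ V ↔ b ∈ E := fun b => by
    rw [← hf]; exact ⟨fun ⟨c, hc, k⟩ => f.injective k ▸ hc, fun hb => ⟨b, hb, rfl⟩⟩
  rw [nE, mem_normalizer_iff, mem_normalizer_iff]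
  refine ⟨fun h b => ?_, fun h b => ?_⟩
  · obtain ⟨b, rfl⟩ := f.surjective b
    rw [← map_inv, ← map_mul, ← map_mul, m, m]; exact h b
  · rw [← m, ← m, map_mul, map_mul, map_inv]; exact h _

end H23.Rk8
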