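import Cfsg.Agent.H23.Sf2
import Cfsg.Agent.H23.C8

/-!
Rational structures on formed spaces.
-/

set_option autoImplicit false

namespace H23.Sf

open Module H22 Form

variable {F V : Type*} [Field F] {σ : F →+* F} [AddCommGroup V] [Module F V] {F₀ : Subfield F}

/-- The form is rational on `V₀`. -/
structure RB (Φ : Form σ V) (V₀ : Submodule F₀ V) : Prop where
  span : Submodule.span F (V₀ : Set V) = ⊤
  sig : ∀ a ∈ F₀, σ a ∈ F₀
  eps : Φ.ε ∈ F₀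
  kap : Φ.κ ∈ F₀
  B : ∀ x ∈ V₀, ∀ y ∈ V₀, Φ.B x y ∈ F₀
  tr : ∀ v ∈ V₀, ∃ s ∈ F₀, Φ.B v v = s + Φ.ε * σ s ∧ Φ.κ * s = Φ.Q v

variable {Φ : Form σ V} {V₀ : Submodule F₀ V}

theorem RB.Q (h : RB Φ V₀) {v : V} (hv : v ∈ V₀) : Φ.Q v ∈ F₀ :=
  let ⟨_, h1, _, h2⟩ := h.tr v hv; h2 ▸ mul_mem h.kap h1

/-- The restriction of `σ` to `F₀`. -/
def RB.σ₀ (h : RB Φ V₀) : F₀ →+* F₀ := (σ.comp F₀.subtype).codRestrict F₀ fun a => h.sig a a.2

/-- The form on the rational vectors. -/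
def RB.form (h : RB Φ V₀) : Form h.σ₀ V₀ where
  ε := ⟨_, h.eps⟩
  κ := ⟨_, h.kap⟩
  B := LinearMap.mk₂'ₛₗ h.σ₀ (RingHom.id F₀) (fun x y => ⟨Φ.B x y, h.B _ x.2 _ y.2⟩)
    (fun _ _ _ => Subtype.ext (by simp)) (fun c x y => Subtype.ext (Φ.B_smul_left c x y))
    (fun _ _ _ => Subtype.ext (by simp)) (fun c x y => Subtype.ext (Φ.B_smul_right c x y))
  Q v := ⟨Φ.Q v, h.Q v.2⟩
  invol a := Subtype.ext (Φ.invol a)
  eps := Subtype.ext Φ.eps
  symm x y := Subtype.ext (Φ.symm x y)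
  kσ a := Subtype.ext (Φ.kσ a)
  kε := Subtype.ext Φ.kε
  Q_add x y := Subtype.ext (Φ.Q_add x y)
  Q_smul c x := Subtype.ext (Φ.Q_smul c x)
  trace v := let ⟨s, h1, h2, h3⟩ := h.tr v v.2; ⟨⟨s, h1⟩, Subtype.ext h2, Subtype.ext h3⟩

theorem RB.form_B (h : RB Φ V₀) (x y : V₀) : (h.form.B x y : F) = Φ.B x y := rfl

theorem RB.form_sing (h : RB Φ V₀) {x : V₀} : Sing h.form x ↔ Sing Φ x :=
  and_congr Subtype.ext_iff Subtype.ext_iff

theorem RB.form_data (h : RB Φ V₀) {u e : V₀} {s : F₀} :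
    EichData h.form u e s ↔ EichData Φ u e s :=
  ⟨fun a => ⟨h.form_sing.1 a.sing, congrArg Subtype.val a.perp, congrArg Subtype.val a.trB,
    congrArg Subtype.val a.trQ⟩, fun a => ⟨h.form_sing.2 a.sing, Subtype.ext a.perp,
    Subtype.ext a.trB, Subtype.ext a.trQ⟩⟩

theorem RB.form_eichler (h : RB Φ V₀) (u e v : V₀) (s : F₀) :
    (h.form.eichler u e s v : V) = Φ.eichler u e s v := by
  rw [eichler_apply, eichler_apply]; rfl

theorem RB.eq_zero (h : RB Φ V₀) (hΦ : Φ.Nondeg) {x : V} (hx : ∀ y ∈ V₀, Φ.B x y = 0) : x = 0 :=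
  hΦ x fun y => DFunLike.congr_fun (LinearMap.ext_on (g := 0) h.span hx) y

theorem RB.nondeg (h : RB Φ V₀) (hΦ : Φ.Nondeg) : h.form.Nondeg := fun x hx =>
  Subtype.ext (h.eq_zero hΦ fun y hy => congrArg Subtype.val (hx ⟨y, hy⟩))

/-- A rational structure on a large non-degenerate space over a finite field. -/
structure RS (Φ : Form σ V) (V₀ : Submodule F₀ V) : Prop extends RB Φ V₀ where
  nd : Φ.Nondeg
  iso : toRB.form.Iso3
  big : 9 ≤ finrank F V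

variable [Finite V] [FiniteDimensional F V] {u e w x y : V} {s : F}

theorem finrank_le_rat (hs : Submodule.span F (V₀ : Set V) = ⊤) :
    finrank F V ≤ finrank F₀ V₀ := by
  let b := Module.finBasis F₀ V₀
  have h1 : Submodule.span F (Set.range fun i => (b i : V)) = ⊤ :=
    eq_top_iff.2 (hs ▸ Submodule.span_le.2 fun v hv => by
      have := congrArg Subtype.val (b.sum_repr ⟨v, hv⟩)
      rw [Submodule.coe_sum] at this
      change _ = v at this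
      rw [← this]
      exact sum_mem fun i _ => Submodule.smul_mem _ (b.repr _ i : F) (Submodule.subset_span ⟨i, rfl⟩))
  simpa using finrank_le_of_span_eq_top h1

theorem RS.finrank_comap (h : RS Φ V₀) (U : Submodule F V) :
    finrank F₀ ((U.restrictScalars F₀).comap V₀.subtype) ≤ finrank F U := by
  let b := Module.finBasis F₀ ((U.restrictScalars F₀).comap V₀.subtype)
  have h1 := b.linearIndependent.map' _ (Submodule.ker_subtype _)
  choose f hf using fun j => (h.nondeg h.nd).exists_prescribed h1 (Pi.single j 1)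
  have h2 : LinearIndependent F fun i => ((b i : V₀) : V) :=
    linearIndependent_of_dual (Φ := Φ) (w := fun j => f j)
      (fun i j hij => congrArg Subtype.val ((hf i j).trans (Pi.single_eq_of_ne hij.symm _)))
      fun i => (congrArg Subtype.val ((hf i i).trans (Pi.single_eq_same _ _))).trans_ne
        one_ne_zero
  simpa using (LinearIndependent.of_comp U.subtype
    (v := fun i => (⟨(b i : V₀), (b i).2⟩ : U)) h2).fintype_card_le_finrank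

theorem RS.perp_one (h : RS Φ V₀) {U : Submodule F V} (hx : x ∈ V₀) (hxU : x ∉ U) :
    ∃ e ∈ V₀, (∀ y ∈ V₀, y ∈ U → Φ.B y e = 0) ∧ Φ.B x e = 1 := by
  obtain ⟨e, h1, h2⟩ := exists_perp_eq_one' (h.nondeg h.nd)
    (S := (U.restrictScalars F₀).comap V₀.subtype) (x := ⟨x, hx⟩) hxU
  exact ⟨e, e.2, fun y hy hy' => congrArg Subtype.val (h1 ⟨y, hy⟩ hy'), congrArg Subtype.val h2⟩

theorem RS.perp_two (h : RS Φ V₀) (hu : u ∈ V₀) (hx : x ∈ V₀) (h0 : x ∉ F ∙ u) :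
    ∃ e ∈ V₀, Φ.B u e = 0 ∧ Φ.B x e = 1 :=
  let ⟨e, h1, h2, h3⟩ := h.perp_one hx h0
  ⟨e, h1, h2 u hu (Submodule.mem_span_singleton_self u), h3⟩

theorem RS.perp_three (h : RS Φ V₀) (hu : u ∈ V₀) (hy : y ∈ V₀) (hx : x ∈ V₀)
    (h0 : x ∉ Submodule.span F {u, y}) : ∃ e ∈ V₀, Φ.B u e = 0 ∧ Φ.B y e = 0 ∧ Φ.B x e = 1 :=
  let ⟨e, h1, h2, h3⟩ := h.perp_one hx h0
  ⟨e, h1, h2 u hu (Submodule.subset_span (by simp)), h2 y hy (Submodule.subset_span (by simp)), h3⟩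

theorem RS.sc (h : RS Φ V₀) : Sc V₀ := fun u hu h0 c hc => by
  obtain ⟨e, h1, -, h2⟩ := h.perp_one (U := ⊥) hu h0
  simpa [B_smul_left, h2, Φ.invol] using h.sig _ (h.B _ hc _ h1)

theorem RS.mem_of (h : RS Φ V₀) (hy : ∀ x ∈ V₀, Φ.B y x ∈ F₀) : y ∈ V₀ := by
  obtain ⟨z, hz⟩ := (h.nondeg h.nd).exists_repr
    { toFun := fun x => ⟨Φ.B y x, hy x x.2⟩
      map_add' := fun _ _ => Subtype.ext (by simp)
      map_smul' := fun c x => Subtype.ext (Φ.B_smul_right c y x) }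
  have : y - z = 0 := h.eq_zero h.nd fun x hx => by
    have := congrArg Subtype.val (hz ⟨x, hx⟩)
    simp only [RB.form_B] at this
    simp [this]
  exact sub_eq_zero.1 this ▸ z.2

theorem RS.hyp (h : RS Φ V₀) (hu : u ∈ V₀) (hs : Sing Φ u) (h0 : u ≠ 0) : ∃ f ∈ V₀, Hyp Φ u f := by
  obtain ⟨f, hf⟩ := exists_hyp (h.nondeg h.nd) (e := ⟨u, hu⟩) (h.form_sing.2 hs)
    fun h => h0 (congrArg Subtype.val h)
  exact ⟨f, f.2, hs, h.form_sing.1 hf.right, congrArg Subtype.val hf.one⟩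

theorem RS.sing (h : RS Φ V₀) (l : List V) (hl : ∀ x ∈ l, x ∈ V₀) (U : Submodule F V)
    (hn : l.length + finrank F U + 3 ≤ 9) :
    ∃ z ∈ V₀, Sing Φ z ∧ z ∉ U ∧ ∀ x ∈ l, Φ.B x z = 0 := by
  obtain ⟨z, -, h1, h2, h3⟩ := h.iso.exists_perp (h.nondeg h.nd) (T := ⊤)
    (S := (U.restrictScalars F₀).comap V₀.subtype) (l.pmap Subtype.mk hl) (by
      have := h.finrank_comap U
      have := finrank_le_rat h.span
      have := h.big
      rw [List.length_pmap, finrank_top]; omega)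
  exact ⟨z, z.2, h.form_sing.1 h1, h2, fun x hx =>
    congrArg Subtype.val (h3 ⟨x, hl x hx⟩ (List.mem_pmap.2 ⟨x, hx, rfl⟩))⟩

theorem RS.any (h : RS Φ V₀) (l : List V) (hl : ∀ x ∈ l, x ∈ V₀) (U : Submodule F V)
    (hn : l.length + finrank F U < 9) : ∃ z ∈ V₀, z ∉ U ∧ ∀ x ∈ l, Φ.B x z = 0 := by
  obtain ⟨z, -, h2, h3⟩ := (h.nondeg h.nd).exists_perp_notMem (T := ⊤)
    (S := (U.restrictScalars F₀).comap V₀.subtype) (l.pmap Subtype.mk hl) (by
      have := h.finrank_comap U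
      have := finrank_le_rat h.span
      have := h.big
      rw [List.length_pmap, finrank_top]; omega)
  exact ⟨z, z.2, h2, fun x hx =>
    congrArg Subtype.val (h3 ⟨x, hl x hx⟩ (List.mem_pmap.2 ⟨x, hx, rfl⟩))⟩

theorem RS.exists_sing (h : RS Φ V₀) : ∃ u ∈ V₀, Sing Φ u ∧ u ≠ 0 :=
  let ⟨u, h1, h2, h3, _⟩ := h.sing [] (by simp) ⊥ (by simp); ⟨u, h1, h2, h3⟩

omit [Finite V] [FiniteDimensional F V] in
theorem RB.data (h : RB Φ V₀) (hu : Sing Φ u) (he : e ∈ V₀) (h0 : Φ.B u e = 0) :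
    ∃ s ∈ F₀, EichData Φ u e s :=
  let ⟨s, h1, h2, h3⟩ := h.tr e he; ⟨s, h1, hu, h0, h2, h3⟩

omit [Finite V] [FiniteDimensional F V] in
theorem RB.eich_mem (h : RB Φ V₀) (hu : u ∈ V₀) (he : e ∈ V₀) (hs : s ∈ F₀) {v : V} (hv : v ∈ V₀) :
    Φ.eichler u e s v ∈ V₀ :=
  h.form_eichler ⟨u, hu⟩ ⟨e, he⟩ ⟨v, hv⟩ ⟨s, hs⟩ ▸ Subtype.property _

theorem RS.eIn (h : RS Φ V₀) (hu : u ∈ V₀) (he : e ∈ V₀) (hs : s ∈ F₀) (hd : EichData Φ u e s) :
    Φ.EIn (Mg V₀ ⊓ Φ.E) u e s :=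
  eIn_inf h.nd hd fun _ hg => mem_Mg_of_rat fun v hv => hg v ▸ h.eich_mem hu he hs hv

theorem RS.lift (h : RS Φ V₀) {k : V₀ ≃ₗ[F₀] V₀} (hk : k ∈ h.form.E) :
    ∃ g ∈ Φ.E, ∀ v : V₀, g v = k v := by
  induction hk using Subgroup.closure_induction with
  | mem k hk =>
    obtain ⟨u, -, e, -, s, h1, h2⟩ := hk
    obtain ⟨g, hg⟩ := exists_eich h.nd (h.form_data.1 h1)
    exact ⟨g, mem_E (h.form_data.1 h1) hg, fun v => by rw [hg, h2, RB.form_eichler]⟩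
  | one => exact ⟨1, one_mem _, fun _ => rfl⟩
  | mul a b _ _ ha hb =>
    obtain ⟨g, h1, h2⟩ := ha
    obtain ⟨k, h3, h4⟩ := hb
    exact ⟨g * k, mul_mem h1 h3, fun v => by rw [LinearEquiv.mul_apply, h4, h2]; rfl⟩
  | inv a _ ha =>
    obtain ⟨g, h1, h2⟩ := ha
    refine ⟨g⁻¹, inv_mem h1, fun v => g.injective ?_⟩
    rw [h2]
    exact (g.apply_symm_apply v).trans (congrArg Subtype.val (a.apply_symm_apply v)).symm

theorem RS.trans (h : RS Φ V₀) (hu : u ∈ V₀) (hw : w ∈ V₀) (hu' : Sing Φ u) (hw' : Sing Φ w)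
    (hu0 : u ≠ 0) (hw0 : w ≠ 0) : ∃ m ∈ Mg V₀ ⊓ Φ.E, (∀ v ∈ V₀, m v ∈ V₀) ∧ m u = w := by
  obtain ⟨k, hk, h1⟩ := exists_map_E (h.nondeg h.nd) h.iso (u := ⟨u, hu⟩) (w := ⟨w, hw⟩)
    (by have := finrank_le_rat h.span; have := h.big; omega) (h.form_sing.2 hu')
    (h.form_sing.2 hw') (fun h => hu0 (congrArg Subtype.val h)) fun h => hw0 (congrArg Subtype.val h)
  obtain ⟨g, hg, h2⟩ := h.lift hk
  have h3 : ∀ v ∈ V₀, g v ∈ V₀ := fun v hv => h2 ⟨v, hv⟩ ▸ Subtype.property _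
  exact ⟨g, ⟨mem_Mg_of_rat h3, hg⟩, h3, (h2 ⟨u, hu⟩).trans (congrArg Subtype.val h1)⟩

theorem RS.ind (h : RS Φ V₀) (hu : u ∈ V₀) (hs : Sing Φ u) {P : V → Prop}
    (h1 : ∀ x ∈ V₀, Sing Φ x → Φ.B u x = 0 → P x) (h2 : ∀ x y, P x → P y → P (x + y))
    (hx : x ∈ V₀) (hx' : Φ.B u x = 0) : P x := by
  obtain ⟨a, ha, a1, a2, a3⟩ := h.sing [u] (by simpa) (F ∙ u)
    (by have := finrank_span_one_le (F := F) u; simp; omega)
  let D := h.form.perp (F₀ ∙ ⟨u, hu⟩)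
  have hD : ∀ y : V₀, y ∈ D ↔ Φ.B u y = 0 := fun y =>
    (h.form.mem_perp_span_singleton).trans Subtype.ext_iff
  obtain ⟨f, hf, a4⟩ := exists_hyp_mem (h.nondeg h.nd) (D := D) (u := ⟨a, ha⟩) (h.form_sing.2 a1)
    ((hD _).2 (a3 u (by simp))) (by
      rw [(h.nondeg h.nd).perp_perp, Submodule.mem_span_singleton]
      rintro ⟨c, hc⟩
      exact a2 (Submodule.mem_span_singleton.2 ⟨c, congrArg Subtype.val hc⟩))
  let U : Submodule F₀ V₀ :=
    { carrier := {y | ∀ c : F₀, P (c • y : V₀)}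
      add_mem' := fun ha hb c => by rw [smul_add]; exact h2 _ _ (ha c) (hb c)
      zero_mem' := fun c => h1 _ (Subtype.property _) (by simp [Sing]) (by simp)
      smul_mem' := fun d y hy c => by rw [smul_smul]; exact hy _ }
  have := le_of_sing_mem (U := U) a4 ((hD _).2 (a3 u (by simp))) hf (fun y hy hy' c =>
    h1 _ (Subtype.property _) ((h.form_sing.1 hy').smul c)
      ((Φ.B_smul_right c u y).trans (by rw [(hD y).1 hy, mul_zero]))) ((hD ⟨x, hx⟩).2 hx') 1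
  simpa using this

theorem RS.ind_perp (h : RS Φ V₀) (hu : u ∈ V₀) (hs : Sing Φ u) (h0 : u ≠ 0) {P : V → Prop}
    (h1 : ∀ x ∈ V₀, Sing Φ x → Φ.B u x = 0 → ∀ c : F, P (c • x))
    (h2 : ∀ x y, P x → P y → P (x + y)) (hx' : Φ.B u x = 0) : P x := by
  obtain ⟨f, hf, a1⟩ := h.hyp hu hs h0
  have key : ∀ v, ∀ c : F, P (c • (v - Φ.B u v • f)) := fun v => by
    have hv : v ∈ Submodule.span F (V₀ : Set V) := h.span ▸ Submodule.mem_top
    induction hv using Submodule.span_induction with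
    | mem x hx =>
      exact h.ind hu hs (P := fun x => ∀ c : F, P (c • x)) h1
        (fun x y hx hy c => by rw [smul_add]; exact h2 _ _ (hx c) (hy c))
        (sub_mem hx (smul_mem₀ (h.B _ hu _ hx) hf)) (by simp [a1.one])
    | zero => simpa using h1 0 (zero_mem _) (by simp [Sing]) (by simp) 0
    | add x y _ _ hx hy =>
      intro c
      convert h2 _ _ (hx c) (hy c) using 1
      rw [map_add]; module
    | smul d x _ hx =>
      intro c
      convert hx (c * d) using 1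
      rw [map_smul, smul_eq_mul]; module
  simpa [hx'] using key x 1

theorem RS.eIn_rat (h : RS Φ V₀) {K : Subgroup (V ≃ₗ[F] V)} (hM : Mg V₀ ⊓ Φ.E ≤ K) (hu : u ∈ V₀)
    (hs : Sing Φ u) (he : e ∈ V₀) (h0 : Φ.B u e = 0) :
    ∃ s ∈ F₀, EichData Φ u e s ∧ Φ.EIn K u e s :=
  let ⟨s, h1, h2⟩ := h.data hs he h0; ⟨s, h1, h2, (h.eIn hu he h1 h2).mono hM⟩

omit [Finite V] [FiniteDimensional F V] in
theorem iso3_of_all {Φ : Form σ V} (h : ∀ v, Sing Φ v) : Φ.Iso3 := fun T hT => by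
  obtain ⟨u, hu, h0⟩ := T.exists_mem_ne_zero_of_ne_bot (by rintro rfl; simp at hT)
  exact ⟨u, hu, h0, h u⟩

omit [Finite V] in
theorem iso3_of_eps [Finite F] {Φ : Form σ V} (hε : Φ.ε = 1) (hκ : Φ.κ = 0 ∨ Φ.κ = 1) :
    Φ.Iso3 := by
  by_cases hσ : σ = RingHom.id F
  swap
  · exact iso3_herm hσ hε
  subst hσ
  rcases hκ with hκ | hκ
  swap
  · exact iso3_quad hκ
  by_cases h2 : (2 : F) = 0
  · refine iso3_of_all fun v => ⟨?_, Q_of_κ hκ v⟩
    obtain ⟨s, h1, -⟩ := Φ.trace v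
    rw [h1, hε]; simp only [RingHom.id_apply]; linear_combination s * h2
  have hs : ∀ x y, Φ.B y x = Φ.B x y := fun x y => by simp [Φ.symm x y, hε]
  let Ψ : Form (RingHom.id F) V :=
    { Φ with
      κ := 1
      Q := fun v => Φ.B v v / 2
      kσ := fun _ => rfl
      kε := by simp [hε]
      Q_add := fun x y => by simp [hs x y]; field_simp; ring
      Q_smul := fun c x => by simp; ring
      trace := fun v => ⟨Φ.B v v / 2, by simp [hε]; field_simp; ring, by simp⟩ }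
  intro T hT
  obtain ⟨u, h1, h3, h4⟩ := iso3_quad (Φ := Ψ) rfl T hT
  exact ⟨u, h1, h3, h4.1, Q_of_κ hκ u⟩

end H23.Sf
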