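import Cfsg.Agent.H23.Sf4

/-!
Subfield subgroups of classical groups are maximal.
-/

set_option autoImplicit false

namespace H23.Sf

open Module H22 Form

variable {F V : Type*} [Field F] {σ : F →+* F} [AddCommGroup V] [Module F V] {F₀ : Subfield F}
  {Φ : Form σ V} {V₀ : Submodule F₀ V} {K : Subgroup (V ≃ₗ[F] V)} {g z : V ≃ₗ[F] V}
  {u e f w x y : V} {s c : F}

theorem sing_of_rank_one [Finite F] [FiniteDimensional F V] (hΦ : Φ.Nondeg)
    (hκ : Φ.κ = 0 ∨ Φ.κ = 1) (hV : 5 ≤ finrank F V) (hz : z ∈ Φ.E) (hz1 : z ≠ 1)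
    (h : ∀ v, z v - v ∈ F ∙ x) : Φ.Q x = 0 := by
  rcases hκ with hκ | hκ
  · exact Q_of_κ hκ x
  obtain rfl : σ = RingHom.id F := by_contra fun h => one_ne_zero (hκ.symm.trans (κ_of_ne_id h))
  by_contra hx
  have hO := E_le_O hz
  have hg : GenHyp Φ := genHyp_of hΦ hκ (Or.inr (by omega))
  have h1 := le_or_le_of_forall (S := ⊤) (A := LinearMap.ker (z.toLinearMap - LinearMap.id))
    (B := LinearMap.ker (z.toLinearMap - (refl hκ x).1.toLinearMap)) fun v _ => by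
      obtain ⟨c, hc⟩ := Submodule.mem_span_singleton.1 (h v)
      have h2 := hO.2 v
      rw [eq_sub_iff_add_eq'.1 hc |>.symm, Q_add_smul, hκ] at h2
      simp only [LinearMap.mem_ker, LinearMap.sub_apply, LinearEquiv.coe_coe, LinearMap.id_apply,
        ← hc, refl_apply, ← sub_add, ← add_smul]
      refine (eq_or_ne c 0).imp (fun h => by simp [h]) fun h => ?_
      have h3 : c * Φ.Q x + Φ.B v x = 0 := mul_left_cancel₀ h (by linear_combination h2)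
      rw [show c + (Φ.Q x)⁻¹ * Φ.B x v = 0 by
        rw [B_comm_quad hκ x v]; field_simp; linear_combination h3, zero_smul]
  rcases h1 with h1 | h1
  · exact hz1 (LinearEquiv.ext fun v => sub_eq_zero.1 (h1 (Submodule.mem_top (x := v))))
  have h2 : (⟨z, hO⟩ : Φ.O) = refl hκ x :=
    O_ext _ fun v => sub_eq_zero.1 (h1 (Submodule.mem_top (x := v)))
  have h3 := Abelianization.commutator_subset_ker (dickson hΦ hκ hg)
    ((mem_E_quad hΦ hκ hV (g := ⟨z, hO⟩)).1 hz)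
  rw [MonoidHom.mem_ker, h2, dickson_refl hΦ hκ hg hx] at h3
  exact absurd h3 (by decide)

theorem invol_perp (h2 : (2 : F) = 0) (hz : z ∈ Φ.O) (hz2 : z * z = 1) (x y : V) :
    Φ.B (z x - x) (z y - y) = 0 := by
  have h1 := hz.1 (z x) y
  rw [show z (z x) = x from DFunLike.congr_fun hz2 x] at h1
  simp only [map_sub, LinearMap.sub_apply, hz.1, h1]
  linear_combination (Φ.B x y - Φ.B (z x) y) * h2

theorem sub_mem_of_rat (hs : Submodule.span F (V₀ : Set V) = ⊤) {U : Submodule F V}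
    (h : ∀ v ∈ V₀, z v - v ∈ U) (v : V) : z v - v ∈ U :=
  (hs ▸ Submodule.span_le.2 h : ⊤ ≤ U.comap (z.toLinearMap - LinearMap.id)) Submodule.mem_top

theorem eich_mul_self (h2 : (2 : F) = 0) (hd : EichData Φ u e s) (he : Φ.B e e = 0)
    (hg : ∀ v, g v = Φ.eichler u e s v) : g * g = 1 := LinearEquiv.ext fun v => by
  rw [LinearEquiv.mul_apply, hg, hg, eichler_mul hd.sing.1 hd.perp hd.perp, ← two_smul F e, h2, he,
    zero_smul, ← two_mul, h2, zero_mul, add_zero, eichler_zero]; rfl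

variable [Finite F] [Finite V] [FiniteDimensional F V]

theorem RS.exists_sing_invol (h : RS Φ V₀) (hκ : Φ.κ = 0 ∨ Φ.κ = 1) (h2 : (2 : F) = 0)
    (hz : z ∈ Mg V₀ ⊓ Φ.E) (hz2 : z * z = 1) (hz1 : z ≠ 1) :
    ∃ v ∈ V₀, Sing Φ (z v - v) ∧ z v - v ≠ 0 := by
  have a1 := invol_perp h2 (E_le_O hz.2) hz2
  have a2 := h.sc.rat_of_invol h2 hz.1 hz2
  obtain ⟨v, hv, a3⟩ := exists_rat_ne h.span (f := z.toLinearMap - LinearMap.id) fun h => hz1 (by
    ext v; simpa [sub_eq_zero] using DFunLike.congr_fun h v)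
  by_cases a4 : Φ.Q (z v - v) = 0
  · exact ⟨v, hv, ⟨a1 _ _, a4⟩, a3⟩
  have a5 : ¬ ∀ w ∈ V₀, z w - w ∈ F ∙ (z v - v) := fun a5 =>
    a4 (sing_of_rank_one h.nd hκ (by have := h.big; omega) hz.2 hz1 (sub_mem_of_rat h.span a5))
  push Not at a5
  obtain ⟨w, hw, a6⟩ := a5
  obtain ⟨c, hc, a7⟩ := h.iso_two h2 (sub_mem (a2 w hw) hw) (sub_mem (a2 v hv) hv) (a1 _ _) a4
  have a8 : z (w + c • v) - (w + c • v) = z w - w + c • (z v - v) := by
    rw [map_add, map_smul]; module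
  exact ⟨w + c • v, add_mem hw (smul_mem₀ hc hv), ⟨a1 _ _, a8 ▸ a7⟩, fun a9 =>
    a6 (Submodule.mem_span_singleton.2 ⟨-c, by
      rw [neg_smul, neg_eq_iff_add_eq_zero, add_comm, ← a8, a9]⟩)⟩

theorem RS.le_of_even (h : RS Φ V₀) (hκ : Φ.κ = 0 ∨ Φ.κ = 1) (hM : Mg V₀ ⊓ Φ.E ≤ K)
    (hK : K ≤ Φ.E) (hN : NW Φ V₀ K) (h2 : (2 : F) = 0) : K ≤ Mg V₀ ⊓ Φ.E := by
  have := finite_equiv (F := F) (V := V)
  have hU : ∀ g ∈ K, ∀ z ∈ Mg V₀ ⊓ Φ.E, z * z = 1 → z ≠ 1 → g⁻¹ * z * g ∈ Mg V₀ ⊓ Φ.E →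
      g ∈ Mg V₀ ⊓ Φ.E := fun g hg z hz z1 z2 hz' => by
    have z3 : g⁻¹ * z * g * (g⁻¹ * z * g) = 1 := by
      rw [show g⁻¹ * z * g * (g⁻¹ * z * g) = g⁻¹ * (z * z) * g by group, z1]; simp
    obtain ⟨v, hv, a1, a2⟩ := h.exists_sing_invol hκ h2 hz z1 z2
    obtain ⟨w, hw, a3, a4⟩ := h.exists_sing_invol hκ h2 hz' z3 fun h => z2 (by
      rw [show z = g * (g⁻¹ * z * g) * g⁻¹ by group, h]; simp)
    have a5 := h.sc.rat_of_invol h2 hz.1 z1
    have a6 := sub_mem (h.sc.rat_of_invol h2 hz'.1 z3 w hw) hw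
    have a7 : g ((g⁻¹ * z * g) w - w) = z (g w) - g w := by simp
    have a8 := invol_perp h2 (E_le_O hz.2) z1
    refine ⟨?_, hK hg⟩
    by_cases a9 : ∀ w ∈ V₀, z w - w ∈ F ∙ (z v - v)
    · obtain ⟨c, hc⟩ := Submodule.mem_span_singleton.1 (sub_mem_of_rat h.span a9 (g w))
      exact h.line hM hK hN a6 a4 (sub_mem (a5 v hv) hv) a1 hg (a7.trans hc.symm)
    push Not at a9
    obtain ⟨x, hx, a9⟩ := a9
    exact h.kill hM hK hN a6 a3 a4 hg (sub_mem (a5 v hv) hv) a1 a2 (sub_mem (a5 x hx) hx) (a8 _ _)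
      a9 (a7 ▸ a8 _ _) (a7 ▸ a8 _ _)
  obtain ⟨u, hu, hs, hu0⟩ := h.exists_sing
  obtain ⟨e, he, b1, b2, b3⟩ := h.sing [u] (by simpa) (F ∙ u)
    (by have := finrank_span_one_le (F := F) u; simp; omega)
  have b4 := b3 u (by simp)
  obtain ⟨f, hf, b5⟩ := h.hyp hu hs hu0
  obtain ⟨y, hy, b6, b7⟩ := h.perp_two hu he b2
  obtain ⟨a, ha, b8⟩ := h.eIn hu he (zero_mem _) (eichData_zero hs b1 b4)
  have b9 := eich_mul_self h2 (eichData_zero hs b1 b4) b1.1 b8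
  have b10 : a y - y = u := by simp [b8, eichler_apply, b6, b7]
  have b11 : a ≠ 1 := by rintro rfl; exact hu0 (by simpa using b10.symm)
  by_cases hT : RT Φ F₀
  · obtain ⟨t, c1, c2, c3, c4⟩ := hT
    obtain ⟨b, hb, c5⟩ := h.eIn hu (zero_mem _) c1 (data_zero hs c3 c4)
    refine le_of_strong hM hU ha hb b9 (eich_mul_self h2 (data_zero hs c3 c4) (by simp) c5) b11
      (fun h => ?_) fun k _ h => b2 ?_
    · simpa [c5, eichler_apply, b5.one, c2, hu0] using DFunLike.congr_fun h f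
    have c6 : ∀ v, a v - v ∈ F ∙ k⁻¹ u := fun v => Submodule.mem_span_singleton.2
      ⟨-(σ t * Φ.B u (k v)), k.injective (by
        have := DFunLike.congr_fun h (k v)
        simp [c5, eichler_apply] at this
        simp [this])⟩
    obtain ⟨c, hc⟩ := Submodule.mem_span_singleton.1 (b10 ▸ c6 y)
    have c7 : F ∙ k⁻¹ u ≤ F ∙ u := (Submodule.span_singleton_le_iff_mem _ _).2
      ((Submodule.smul_mem_iff _ (left_ne_zero_of_smul (hc.trans_ne hu0))).1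
        (by rw [hc]; exact Submodule.mem_span_singleton_self u))
    have c8 := sub_mem (Submodule.smul_mem _ (Φ.B e f) (Submodule.mem_span_singleton_self u))
      (c7 (c6 f))
    rw [b8, eichler_apply, add_assoc, add_sub_cancel_left] at c8
    simpa [b5.one, Submodule.smul_mem_iff _ σε_ne] using c8
  obtain ⟨x, hx, c1, -, c2⟩ := h.exists_nonsing hT hu he hs b1 b4
  obtain ⟨s, c3, c4⟩ := h.data hs hx c1
  have c5 : Φ.B x x = 0 := by_contra fun c5 => hT ⟨_, h.B _ hx _ hx, c5, by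
    rw [← Φ.symm]; linear_combination Φ.B x x * h2, by rw [kB_self, h2, zero_mul]⟩
  have c6 : Φ.Q x ≠ 0 := fun h => c2 ⟨c5, h⟩
  obtain ⟨b, hb, c7⟩ := h.eIn hu hx c3 c4
  have c8 : Φ.Q (b f - f) ≠ 0 := by
    rw [c7, eichler_apply, add_assoc, add_sub_cancel_left, Q_add_smul, Φ.Q_smul, hs.2]
    simp [B_smul_left, c1, c6, b5.one, Φ.eps_ne_zero]
  refine le_of_strong hM hU ha hb b9 (eich_mul_self h2 c4 c5 c7) b11
    (by rintro rfl; simp at c8) fun k hk h => c8 ?_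
  have c9 : b f - f = k (a (k⁻¹ f) - k⁻¹ f) := by simp [← h]
  rw [c9, (E_le_O (hK hk)).2, b8, eichler_apply, add_assoc, add_sub_cancel_left, Q_add_smul,
    Φ.Q_smul, hs.2, b1.2]
  simp [B_smul_left, b4]

theorem RS.mem_of_pair (h : RS Φ V₀) (hM : Mg V₀ ⊓ Φ.E ≤ K) (hK : K ≤ Φ.E) (hN : NW Φ V₀ K)
    (h2 : (2 : F) ≠ 0) (hq : ∀ y, ∀ a ∈ F₀, ∀ b ∈ F₀, y ^ 2 = a * y + b → y ∈ F₀)
    {X Y : V →ₗ[F] V} {β : F} (hX : ∀ v, X (X v) = 0) (hY : ∀ v, Y (Y v) = 0)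
    (hXYX : ∀ v, X (Y (X v)) = β • X v) (hYXY : ∀ v, Y (X (Y v)) = β • Y v) (h1 : EndIn K X)
    (h3 : EndIn K Y) (hu : u ∈ V₀) (hs : Sing Φ u) (hu0 : u ≠ 0) (h4 : X u = 0) (hy : y ∈ V₀)
    (h5 : X y ∈ V₀) (h6 : X y ≠ 0) : β ∈ F₀ := by
  by_cases hβ : β = 0
  · exact hβ ▸ zero_mem _
  rcases endIn_of_pair h2 hβ hX hY hXYX hYXY h1 h3 with ⟨k, hk, a1⟩ | a1
  · have a2 : k u = u := by simp [a1, h4]
    refine h.sc _ h5 h6 _ ?_
    simpa [a1] using sub_mem (h.sc.rat_of_fix (h.stab hM hK hN hu hs hu0 hk (c := 1) (by simpa))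
      hu hu0 a2 y hy) hy
  · exact hq _ 0 (zero_mem _) (-1) (neg_mem (one_mem _)) (by simp [a1])

theorem RS.le_of_oddT (h : RS Φ V₀) (hM : Mg V₀ ⊓ Φ.E ≤ K) (hK : K ≤ Φ.E) (hN : NW Φ V₀ K)
    (h2 : (2 : F) ≠ 0) (hq : ∀ y, ∀ a ∈ F₀, ∀ b ∈ F₀, y ^ 2 = a * y + b → y ∈ F₀) (hT : RT Φ F₀)
    (hg : g ∈ K) : g ∈ Mg V₀ := by
  obtain ⟨w, hw, hs, hw0⟩ := h.exists_sing
  by_contra h1
  have a1 : ∀ u ∈ V₀, Sing Φ u → u ≠ 0 → Φ.B (g w) u ≠ 0 := fun u hu b1 b2 b3 =>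
    h1 (h.killT hM hK hN hT hw hs hw0 hg hu b1 b2 (Φ.B_eq_zero_symm b3))
  obtain ⟨t, c1, c2, c3, c4⟩ := hT
  have hO := E_le_O (hK hg)
  have a2 : ∀ u, Φ.EIn K u 0 t → EndIn K ((-σ t • Φ.B u).smulRight u) := fun u hu =>
    hu.imp fun k hk => ⟨hk.1, fun v => by simp [hk.2, eichler_apply]⟩
  have a3 : ∀ u ∈ V₀, Sing Φ u → Φ.EIn K u 0 t := fun u hu b1 =>
    (h.eIn hu (zero_mem _) c1 (data_zero b1 c3 c4)).mono hM
  have a4 := (a3 w hw hs).conj hg hO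
  rw [map_zero] at a4
  have a5 : ∀ u ∈ V₀, Sing Φ u → Φ.B (g w) u * σ (Φ.B (g w) u) ∈ F₀ := fun u hu b1 => by
    by_cases b2 : u = 0
    · simp [b2]
    obtain ⟨f, hf, b3⟩ := h.hyp hu b1 b2
    have b4 := h.mem_of_pair hM hK hN h2 hq (β := σ t ^ 2 * (Φ.B (g w) u * Φ.B u (g w)))
      (by simp [b1.1]) (by simp [hO.1, hs.1]) (fun v => by simp [smul_smul]; congr 1; ring)
      (fun v => by simp [smul_smul]; congr 1; ring) (a2 u (a3 u hu b1)) (a2 _ a4) hu b1 b2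
      (by simp [b1.1]) hf (by simpa [b3.one] using smul_mem₀ (h.sig _ c1) hu)
      (by simp [b3.one, c2, b2])
    have b5 := div_mem b4 (mul_mem (pow_mem (h.sig _ c1) 2) h.eps)
    have b6 : σ t ≠ 0 := by simpa
    have b7 := Φ.eps_ne_zero
    convert b5 using 1
    rw [Φ.symm (g w) u]
    field_simp
  obtain ⟨x, hx, b1, b2, b3⟩ := h.sing [w] (by simpa) (F ∙ w)
    (by have := finrank_span_one_le (F := F) w; simp; omega)
  have b4 := b3 w (by simp)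
  have b5 : ∀ c : F, Sing Φ (x + c • w) := fun c =>
    (totSing_span (s := {x, w}) (by simp [hs.1, b1.1, b4, Φ.B_eq_zero_symm b4])
      (by simp [hs.2, b1.2])).sing (Submodule.mem_span_pair.2 ⟨1, c, by simp⟩)
  have b6 := a1 w hw hs hw0
  have b7 : σ (Φ.B (g w) w) ≠ 0 := by simpa
  have b8 := div_mem (a5 x hx b1) (a5 w hw hs)
  have b9 := div_mem (a5 _ (add_mem hx (smul_mem₀ (one_mem _) hw)) (b5 1)) (a5 w hw hs)
  have b10 : -(Φ.B (g w) x / Φ.B (g w) w) ∈ F₀ := neg_mem (hq _ _ (sub_mem (sub_mem b9 b8)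
    (one_mem _)) _ (neg_mem b8) (by simp only [map_add, one_smul]; field_simp; ring))
  refine a1 _ (add_mem hx (smul_mem₀ b10 hw)) (b5 _) (fun b11 => b2 ?_) (by simp [b6])
  rw [eq_neg_of_add_eq_zero_left b11]
  exact neg_mem (Submodule.smul_mem _ _ (Submodule.mem_span_singleton_self w))

theorem RS.le_of_oddO (h : RS Φ V₀) (hF : PD F₀) (hM : Mg V₀ ⊓ Φ.E ≤ K) (hK : K ≤ Φ.E)
    (hN : NW Φ V₀ K) (h2 : (2 : F) ≠ 0)
    (hq : ∀ y, ∀ a ∈ F₀, ∀ b ∈ F₀, y ^ 2 = a * y + b → y ∈ F₀) (hT : ¬ RT Φ F₀)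
    (hg : g ∈ K) : g ∈ Mg V₀ := by
  have a0 : ∀ c ∈ F₀, c - Φ.ε * σ c = 0 := fun c hc => by_contra fun h1 =>
    hT ⟨_, sub_mem hc (mul_mem h.eps (h.sig c hc)), h1, by
      simp only [map_sub, map_mul, Φ.invol]; linear_combination -c * Φ.eps, by
      rw [mul_sub, ← mul_assoc, Φ.kε, Φ.kσ, sub_self]⟩
  have hε : Φ.ε = 1 := (by simpa [sub_eq_zero] using a0 1 (one_mem _) : 1 = Φ.ε).symm
  obtain rfl : σ = RingHom.id F := by
    by_cases h1 : ∃ c ∈ σ.eqLocus (RingHom.id F), c ∉ F₀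
    · exact RingHom.ext (hF.2 _ (fun a ha =>
        (by simpa [hε, sub_eq_zero] using a0 a ha : a = σ a).symm) h1)
    push Not at h1
    obtain ⟨c, hc⟩ := hF.1
    exact (hc (hq c _ (h1 (c + σ c) (by simp [Φ.invol, add_comm])) _
      (neg_mem (h1 (c * σ c) (by simp [Φ.invol, mul_comm]))) (by ring))).elim
  have hB : ∀ x y, Φ.B x y = Φ.B y x := fun x y => by simp [Φ.symm y x, hε]
  have hO := E_le_O (hK hg)
  obtain ⟨w, hw, hs, hw0⟩ := h.exists_sing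
  obtain ⟨e, he, b1, b2, b3⟩ := h.sing [w] (by simpa) (F ∙ w)
    (by have := finrank_span_one_le (F := F) w; simp; omega)
  have b4 := b3 w (by simp)
  by_contra h1
  have a1 : ∀ x ∈ V₀, Sing Φ x → Φ.B (g w) x = 0 → Φ.B (g e) x = 0 → x = 0 :=
    fun x hx c1 c2 c3 => by_contra fun c4 => h1 (by
      simpa using (Mg V₀).inv_mem (h.kill hM hK hN hx c1 c4 (K.inv_mem hg) hw hs hw0 he b4 b2
        (B_O_left hO _ _ ▸ c2) (B_O_left hO _ _ ▸ c3)))
  have a2 : ∀ u e, Φ.EIn K u e 0 → EndIn K ((Φ.B e).smulRight u - (Φ.B u).smulRight e) :=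
    fun u e hu => hu.imp fun k hk => ⟨hk.1, fun v => by
      simp [hk.2, eichler_apply, hε, add_assoc, sub_eq_add_neg]⟩
  have a3 : ∀ u ∈ V₀, Sing Φ u → ∀ e ∈ V₀, Sing Φ e → Φ.B u e = 0 → Φ.EIn K u e 0 :=
    fun u hu c1 e he c2 c3 => (h.eIn hu he (zero_mem _) (eichData_zero c1 c2 c3)).mono hM
  have c4 : Φ.B (g w) (g e) = 0 := by rw [hO.1, b4]
  have c5 := (hs.mapO hO).1
  have c6 := (b1.mapO hO).1
  have a4 : ∀ u ∈ V₀, Sing Φ u → ∀ x ∈ V₀, Sing Φ x → Φ.B u x = 0 →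
      Φ.B (g e) u * Φ.B (g w) x - Φ.B (g w) u * Φ.B (g e) x ∈ F₀ := fun u hu c1 x hx c2 c3 => by
    by_cases c7 : x ∈ F ∙ u
    · obtain ⟨c, rfl⟩ := Submodule.mem_span_singleton.1 c7
      convert F₀.zero_mem using 1
      simp; ring
    by_cases c8 : u = 0
    · simp [c8]
    obtain ⟨y, hy, c9, c10⟩ := h.perp_two hu hx c7
    refine h.mem_of_pair hM hK hN h2 hq (by simp [c1.1, c2.1, c3, hB x u])
      (by simp [c4, c5, c6, hB (g e) (g w)]) (fun v => ?_) (fun v => ?_)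
      (a2 _ _ (a3 u hu c1 x hx c2 c3)) (a2 _ _ ((a3 w hw hs e he b1 b4).conj hg hO)) hu c1 c8
      (by simp [c1.1, c3, hB x u]) hy (by simpa [c9, c10]) (by simpa [c9, c10]) <;>
    simp only [LinearMap.sub_apply, LinearMap.smulRight_apply, map_sub, map_smul, smul_eq_mul,
      hB x (g _), hB u (g _)] <;> module
  obtain ⟨x, hx, d1, d2, d3⟩ : ∃ x ∈ V₀, Sing Φ x ∧ Φ.B w x = 0 ∧
      Φ.B (g e) w * Φ.B (g w) x - Φ.B (g w) w * Φ.B (g e) x ≠ 0 := by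
    by_contra! d1
    have d2 : Φ.B (g e) w • g w - Φ.B (g w) w • g e ∈ F ∙ w := by
      rw [← h.nd.perp_perp (F ∙ w), mem_perp']
      intro y hy
      refine h.ind_perp hw hs hw0 (P := fun y => Φ.B (Φ.B (g e) w • g w - Φ.B (g w) w • g e) y = 0)
        (fun x hx d3 d4 c => ?_) (fun x y hx hy => by rw [map_add, hx, hy, add_zero])
        (Φ.mem_perp_span_singleton.1 hy)
      rw [B_smul_right]; simp [d1 x hx d3 d4]
    obtain ⟨c, hc⟩ := Submodule.mem_span_singleton.1 d2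
    refine hw0 (a1 w hw hs ?_ ?_)
    · by_contra d3
      by_cases d4 : c = 0
      · rw [d4, zero_smul, ← map_smul, ← map_smul, ← map_sub, eq_comm,
          EmbeddingLike.map_eq_zero_iff, sub_eq_zero] at hc
        exact b2 ((Submodule.smul_mem_iff _ d3).1
          (hc ▸ Submodule.smul_mem _ _ (Submodule.mem_span_singleton_self w)))
      · simpa [c4, c5, d3, d4] using congrArg (Φ.B (g w)) hc
    · by_contra d3
      by_cases d4 : c = 0
      · rw [d4, zero_smul, ← map_smul, ← map_smul, ← map_sub, eq_comm,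
          EmbeddingLike.map_eq_zero_iff, sub_eq_zero] at hc
        obtain ⟨y, -, d5, d6⟩ := h.perp_two hw he b2
        have d7 := congrArg (Φ.B y) hc
        rw [B_smul_right, B_smul_right, hB y, hB y, d5, d6, mul_zero, mul_one] at d7
        rw [← d7, zero_smul, smul_eq_zero] at hc
        exact hc.elim d3 hw0
      · simpa [c4, c6, d3, d4, hB (g e) (g w)] using congrArg (Φ.B (g e)) hc
  obtain ⟨y, hy, d4, d5, d6⟩ := h.sing [w, x] (by simp [*]) (Submodule.span F {w, x})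
    (by have := finrank_span_pair_le (F := F) w x; simp; omega)
  have d7 := d6 w (by simp)
  have d8 := d6 x (by simp)
  have d9 := a1 _ (add_mem (add_mem (smul_mem₀ (a4 x hx d1 y hy d4 d8) hw)
    (smul_mem₀ (neg_mem (a4 w hw hs y hy d4 d7)) hx)) (smul_mem₀ (a4 w hw hs x hx d1 d2) hy))
    ((totSing_span (s := {w, x, y})
      (by simp [hs.1, d1.1, d4.1, d2, d7, d8, hB x w, hB y w, hB y x])
      (by simp [hs.2, d1.2, d4.2])).sing (add_mem (add_mem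
        (Submodule.smul_mem _ _ (Submodule.subset_span (by simp)))
        (Submodule.smul_mem _ _ (Submodule.subset_span (by simp))))
        (Submodule.smul_mem _ _ (Submodule.subset_span (by simp)))))
    (by simp; ring) (by simp; ring)
  exact d5 ((Submodule.smul_mem_iff _ d3).1 (eq_neg_of_add_eq_zero_right d9 ▸ neg_mem
    (Submodule.mem_span_pair.2 ⟨_, _, rfl⟩)))

theorem RS.isMaximalIn (h : RS Φ V₀) (hF : PD F₀) (hκ : Φ.κ = 0 ∨ Φ.κ = 1) :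
    Cfsg.Geo.IsMaximalIn Φ.E (Mg V₀ ⊓ Φ.E) := by
  obtain ⟨w, hw, hs, hw0⟩ := h.exists_sing
  refine isMaximalIn_of inf_le_right ?_ fun K hM hK g hg hg' => ?_
  · obtain ⟨c, hc⟩ := hF.1
    obtain ⟨e, he, b1, b2, b3⟩ := h.sing [w] (by simpa) (F ∙ w)
      (by have := finrank_span_one_le (F := F) w; simp; omega)
    have b4 := b3 w (by simp)
    obtain ⟨y, hy, b5, b6⟩ := h.perp_two hw he b2
    have b7 := eichData_zero hs (b1.smul (σ c)) (by simp [b4])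
    obtain ⟨k, hk⟩ := exists_eich h.nd b7
    refine ⟨k, mem_E b7 hk, fun h1 => hc (h.sc w hw hw0 c ?_)⟩
    simpa [hk, eichler_apply, b5, b6, B_smul_left, Φ.invol] using sub_mem (h.sc.rat_of_fix h1.1 hw
      hw0 (by simp [hk, eichler_apply, hs.1, B_smul_left, Φ.B_eq_zero_symm b4]) y hy) hy
  by_contra h1
  have hN : NW Φ V₀ K := by_contra fun h2 => h1 (h.win hF hM h2)
  rcases hF.dichotomy with ⟨θ, hθ⟩ | hq
  · obtain ⟨a, ha, b, hb, h2⟩ := exists_two_rat h.span hθ (g w)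
    obtain ⟨u, hu, b1, b2, b3⟩ := h.sing [a, b] (by simp [*]) ⊥ (by simp)
    obtain ⟨e, he, b4, b5⟩ := h.any [u, a, b] (by simp [*]) (F ∙ u)
      (by have := finrank_span_one_le (F := F) u; simp; omega)
    exact hg' ⟨h.kill hM hK hN hw hs hw0 hg hu b1 b2 he (b5 u (by simp)) b4
      (by simp [h2, Φ.B_eq_zero_symm (b3 a (by simp)), Φ.B_eq_zero_symm (b3 b (by simp))])
      (by simp [h2, Φ.B_eq_zero_symm (b5 a (by simp)), Φ.B_eq_zero_symm (b5 b (by simp))]), hK hg⟩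
  by_cases h2 : (2 : F) = 0
  · exact hg' (h.le_of_even hκ hM hK hN h2 hg)
  by_cases hT : RT Φ F₀
  · exact hg' ⟨h.le_of_oddT hM hK hN h2 hq hT hg, hK hg⟩
  · exact hg' ⟨h.le_of_oddO hF hM hK hN h2 hq hT hg, hK hg⟩

/-- A scalar multiple of a form. -/
def scale (Φ : Form σ V) {c : F} (hc : c ≠ 0) : Form σ V where
  ε := Φ.ε * c / σ c
  κ := Φ.κ
  B := c • Φ.B
  Q v := c * Φ.Q v
  invol := Φ.invol
  eps := by
    have : σ c ≠ 0 := by simpa
    simp only [map_div₀, map_mul, Φ.invol]; field_simp; exact Φ.eps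
  symm x y := by
    have : σ c ≠ 0 := by simpa
    simp only [LinearMap.smul_apply, smul_eq_mul, map_mul, Φ.symm x y]; field_simp
  kσ := Φ.kσ
  kε := by
    have : σ c ≠ 0 := by simpa
    field_simp; rw [Φ.kε, Φ.kσ]
  Q_add x y := by simp only [LinearMap.smul_apply, smul_eq_mul, Φ.Q_add]; ring
  Q_smul a x := by rw [Φ.Q_smul]; ring
  trace v := by
    have : σ c ≠ 0 := by simpa
    obtain ⟨s, h1, h2⟩ := Φ.trace v
    refine ⟨c * s, ?_, by rw [← h2]; ring⟩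
    simp only [LinearMap.smul_apply, smul_eq_mul, map_mul, h1]; field_simp

omit [Finite F] [Finite V] [FiniteDimensional F V]

theorem scale_B (hc : c ≠ 0) (x y : V) : (scale Φ hc).B x y = c * Φ.B x y := rfl

theorem scale_nondeg (hc : c ≠ 0) (h : Φ.Nondeg) : (scale Φ hc).Nondeg := fun x hx =>
  h x fun y => by simpa [scale_B, hc] using hx y

theorem scale_eichler (hc : c ≠ 0) (u e : V) (s : F) (v : V) :
    (scale Φ hc).eichler u e s v = Φ.eichler u (σ c • e) (s * σ c) v := by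
  simp only [eichler_apply, scale_B, B_smul_left, map_mul, Φ.invol, scale, map_div₀,
    LinearMap.smul_apply, smul_eq_mul]
  match_scalars <;> field_simp

theorem scale_data (hc : c ≠ 0) : EichData (scale Φ hc) u e s ↔ EichData Φ u (σ c • e) (s * σ c) := by
  have h0 : σ c ≠ 0 := by simpa
  have h1 : Sing (scale Φ hc) u ↔ Sing Φ u := by simp [Sing, scale, hc]
  have h2 := Φ.σ_mul_Q c e
  constructor
  · rintro ⟨a1, a2, a3, a4⟩
    simp only [scale, LinearMap.smul_apply, smul_eq_mul] at a2 a3 a4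
    refine ⟨h1.1 a1, by simpa [hc] using a2, ?_, ?_⟩
    · simp only [B_smul_left, B_smul_right, map_mul, Φ.invol]
      field_simp at a3
      linear_combination a3
    · rw [Φ.Q_smul]; linear_combination σ c * a4 - σ c * h2
  · rintro ⟨a1, a2, a3, a4⟩
    simp only [B_smul_left, B_smul_right, map_mul, Φ.invol, Φ.Q_smul] at a2 a3 a4
    refine ⟨h1.2 a1, by simpa [hc, scale_B] using a2, ?_, mul_left_cancel₀ h0 ?_⟩
    · simp only [scale, LinearMap.smul_apply, smul_eq_mul]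
      field_simp
      linear_combination a3
    · simp only [scale]; linear_combination a4 + σ c * h2

theorem scale_E (hc : c ≠ 0) : (scale Φ hc).E = Φ.E := by
  have h0 : σ c ≠ 0 := by simpa
  refine le_antisymm (ED_le' fun u _ e _ s h g hg => mem_E ((scale_data hc).1 h) fun v => ?_)
    (ED_le' fun u _ e _ s h g hg => mem_E (u := u) (e := (σ c)⁻¹ • e) (s := s / σ c)
      ((scale_data hc).2 (by simpa [smul_smul, h0])) fun v => ?_)
  · rw [hg, scale_eichler]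
  · rw [hg, scale_eichler, smul_inv_smul₀ h0, div_mul_cancel₀ _ h0]

section Bridge

open Matrix Cfsg Cfsg.Geo

variable {ι : Type} [Fintype ι] [DecidableEq ι]

theorem isMaximalIn_colS [Finite F] {Φ : Form σ (ι → F)} (hΦ : Φ.Nondeg) {P : GL ι F}
    (h : RB Φ (colS F₀ P)) (h3 : h.form.Iso3) (hn : 9 ≤ Fintype.card ι) (hF : PD F₀)
    (hκ : Φ.κ = 0 ∨ Φ.κ = 1) {K : Subgroup (GL ι F)} (hK : ∀ g, g ∈ K ↔ glE ι F g ∈ Φ.E) :
    IsMaximalIn K (subfieldSubgroup F₀ P ⊓ K) :=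
  isMaximalIn_of_iff (glE ι F) (RS.isMaximalIn ⟨h, hΦ, h3, by simpa⟩ hF hκ) hK fun g =>
    and_congr mem_subfieldSubgroup_iff_Mg (hK g)

theorem isMaximalIn_colS_alt [Finite F] {Φ : Form σ (ι → F)} (hΦ : Φ.Nondeg) {P : GL ι F}
    (h1 : ∀ a ∈ F₀, σ a ∈ F₀) (hε : Φ.ε = -1) (hκ : Φ.κ = 0)
    (hB : ∀ x ∈ colS F₀ P, ∀ y ∈ colS F₀ P, Φ.B x y ∈ F₀) (h2 : ∀ x ∈ colS F₀ P, Φ.B x x = 0)
    (hn : 9 ≤ Fintype.card ι) (hF : PD F₀) {K : Subgroup (GL ι F)}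
    (hK : ∀ g, g ∈ K ↔ glE ι F g ∈ Φ.E) : IsMaximalIn K (subfieldSubgroup F₀ P ⊓ K) := by
  have h : RB Φ (colS F₀ P) := ⟨span_colS P, h1, hε ▸ neg_mem (one_mem _), hκ ▸ zero_mem _, hB,
    fun v hv => ⟨0, zero_mem _, by simp [h2 v hv], by simp [Q_of_κ hκ]⟩⟩
  exact isMaximalIn_colS hΦ h (iso3_of_all fun v => h.form_sing.2 ⟨h2 _ v.2, Q_of_κ hκ _⟩) hn hF
    (Or.inl hκ) hK

theorem isMaximalIn_colS_herm [Finite F] {Φ : Form σ (ι → F)} (hΦ : Φ.Nondeg) {P : GL ι F}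
    (h1 : ∀ a ∈ F₀, σ a ∈ F₀) (hε : Φ.ε = 1) (hκ : Φ.κ = 0) {t : F} (ht : t ∈ F₀)
    (ht' : t + σ t = 1) (hB : ∀ x ∈ colS F₀ P, ∀ y ∈ colS F₀ P, Φ.B x y ∈ F₀)
    (hn : 9 ≤ Fintype.card ι) (hF : PD F₀) {K : Subgroup (GL ι F)}
    (hK : ∀ g, g ∈ K ↔ glE ι F g ∈ Φ.E) : IsMaximalIn K (subfieldSubgroup F₀ P ⊓ K) := by
  have h : RB Φ (colS F₀ P) := ⟨span_colS P, h1, hε ▸ one_mem _, hκ ▸ zero_mem _, hB,
    fun v hv => ⟨t * Φ.B v v, mul_mem ht (hB v hv v hv), by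
      have := Φ.symm v v
      rw [hε, one_mul] at this
      rw [hε, map_mul, ← this]; linear_combination -Φ.B v v * ht', by simp [Q_of_κ hκ, hκ]⟩⟩
  exact isMaximalIn_colS hΦ h (iso3_of_eps (Subtype.ext hε) (Or.inl (Subtype.ext hκ))) hn hF
    (Or.inl hκ) hK

theorem isMaximalIn_colS_quad [Finite F] {Q : QuadraticForm F (ι → F)} (hQ : (ofQuad Q).Nondeg)
    {P : GL ι F} {ζ : F} (hζ : ζ ≠ 0) (hP : IsQuadFormRationalStructure (fun v => ζ * Q v) F₀ P)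
    (hn : 9 ≤ Fintype.card ι) (hF : PD F₀) :
    IsMaximalIn (omegaGL Q) (subfieldSubgroup F₀ P ⊓ omegaGL Q) := by
  have h0 : ∀ x ∈ colS F₀ P, ζ * Q x ∈ F₀ := by rintro _ ⟨x, hx, rfl⟩; exact hP x hx
  have hε : (scale (ofQuad Q) hζ).ε = 1 := by simp [scale, ofQuad, hζ]
  have h : RB (scale (ofQuad Q) hζ) (colS F₀ P) := ⟨span_colS P, fun _ h => h, hε ▸ one_mem _,
    one_mem _, fun x hx y hy => by
      have := sub_mem (sub_mem (h0 _ (add_mem hx hy)) (h0 x hx)) (h0 y hy)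
      rwa [← mul_sub, ← mul_sub] at this,
    fun v hv => ⟨ζ * Q v, h0 v hv, by
      rw [hε, B_self_quad rfl, one_mul, two_mul]; rfl, one_mul _⟩⟩
  exact isMaximalIn_colS (scale_nondeg hζ hQ) h
    (iso3_of_eps (Subtype.ext hε) (Or.inr (Subtype.ext rfl))) hn hF (Or.inr rfl) fun g => by
      rw [scale_E, mem_omegaGL_iff_E hQ (by omega)]

theorem exists_trace_one [Fintype F] {q r : ℕ} (hF : Fintype.card F = q ^ 2) (hr : Odd r)
    (hcard : Fintype.card F = Nat.card F₀ ^ r) : ∃ t ∈ F₀, t + t ^ q = 1 := by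
  have h1 : ∃ a ∈ F₀, a ^ q ≠ a := by
    by_contra! h
    obtain ⟨m, -, hm⟩ := H4.exists_card_pow_of_le
      (E' := (conj hF).eqLocusField (RingHom.id F)) (E := F₀) h
    rw [show Nat.card ((conj hF).eqLocusField (RingHom.id F)) = q from card_fixed hF] at hm
    rw [hF, hm, ← pow_mul] at hcard
    have := Nat.pow_right_injective (H4.one_lt_card_subfield F₀) hcard
    exact Nat.not_even_iff_odd.2 hr ⟨m, by omega⟩
  obtain ⟨a, ha, h2⟩ := h1
  have h3 : ∀ x : F, x ^ q = conj hF x := fun _ => rfl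
  refine ⟨a / (a - a ^ q), div_mem ha (sub_mem ha (pow_mem ha q)), ?_⟩
  have h4 := sub_ne_zero.2 h2
  have h5 := sub_ne_zero.2 h2.symm
  simp only [h3, map_div₀, map_sub, conj_conj] at h4 h5 ⊢
  field_simp
  ring

end Bridge

end H23.Sf
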