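import Cfsg.Agent.H23.Sx1

/-! Maximality of the symplectic group over an extension field of prime degree. -/

set_option autoImplicit false

namespace H23

open Module H22 Cfsg Cfsg.Geo Form Tn

variable {F E V : Type*} [Field F] [Field E] [Algebra F E] [FiniteDimensional F E] [Finite E]
  [AddCommGroup V] [Module F V] [Module E V] [IsScalarTower F E V]

/-- An alternating form over an extension of prime degree. -/
structure Sx (Φ : Form (RingHom.id F) V) (Ψ : Form (RingHom.id E) V) : Prop extends Lift Φ Ψ where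
  ε : Φ.ε = -1
  kap : Φ.κ = 0
  kap' : Ψ.κ = 0
  pr : (finrank F E).Prime
  fd : FiniteDimensional E V
  dim : finrank F E = 2 → 5 ≤ finrank E V

variable (F) in
/-- The central elements of the stabiliser of a line. -/
def LIn (Ψ : Form (RingHom.id E) V) (H : Subgroup (V ≃ₗ[F] V)) (u : V) (a : Gal(E/F) → E) : Prop :=
  ∃ z ∈ H, ∀ x, z x = x + (∑ s, a s * s (Ψ.B u x)) • u

namespace Sx

variable {Φ : Form (RingHom.id F) V} {Ψ : Form (RingHom.id E) V} (h : Sx Φ Ψ)
  {H : Subgroup (V ≃ₗ[F] V)} {u v w x : V} {a b : Gal(E/F) → E} {j : Gal(E/F)}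
include h

omit [FiniteDimensional F E] [Finite E] [IsScalarTower F E V] in
theorem ε' : Ψ.ε = -1 := by simp [h.eps, h.ε]

omit [FiniteDimensional F E] [Finite E] [IsScalarTower F E V] in
theorem alt (v : V) : Ψ.B v v = 0 := B_self_alt h.ε' h.kap' v

omit [FiniteDimensional F E] [Finite E] [IsScalarTower F E V] in
theorem sing (v : V) : Sing Ψ v := sing_alt h.ε' h.kap' v

omit [FiniteDimensional F E] [Finite E] in
theorem mem_O {k : V ≃ₗ[E] V} (hk : k ∈ Ψ.O) : k.restrictScalars F ∈ Φ.O :=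
  ⟨fun x y => by simp [h.B_eq, hk.1], fun x => by simp [Q_of_κ h.kap]⟩

omit [FiniteDimensional F E] [Finite E] [IsScalarTower F E V] in
theorem trans (hu : u ≠ 0) (hw : w ≠ 0) : ∃ m ∈ Ψ.O, m u = w :=
  have := h.fd
  h.nondeg.witt_one hu hw (by rw [h.alt, h.alt]) (by rw [Q_of_κ h.kap', Q_of_κ h.kap'])

omit [Finite E] [IsScalarTower F E V] in
theorem l_add (h1 : LIn F Ψ H u a) (h2 : LIn F Ψ H u b) : LIn F Ψ H u (a + b) := by
  obtain ⟨z, a1, a2⟩ := h1
  obtain ⟨z', a3, a4⟩ := h2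
  exact ⟨z * z', mul_mem a1 a3, fun x => by
    simp [a4, a2 (_ + _), h.alt, add_mul, Finset.sum_add_distrib, add_smul]; abel⟩

omit [Finite E] [IsScalarTower F E V] in
theorem l_neg (h1 : LIn F Ψ H u a) : LIn F Ψ H u (-a) := by
  obtain ⟨z, a1, a2⟩ := h1
  exact ⟨z⁻¹, inv_mem a1, fun x => z.injective (by simp [a2 (_ - _), h.alt, ← sub_eq_add_neg])⟩

omit [Finite E] [IsScalarTower F E V] in
theorem l_sum {α : Type*} (S : Finset α) {f : α → Gal(E/F) → E} (h1 : ∀ i, LIn F Ψ H u (f i)) :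
    LIn F Ψ H u (∑ i ∈ S, f i) :=
  Finset.sum_induction _ _ (fun _ _ => h.l_add) ⟨1, one_mem _, by simp⟩ fun i _ => h1 i

omit [IsScalarTower F E V] in
theorem l_symm (hH : H ≤ Φ.O) (hu : u ≠ 0) (h1 : LIn F Ψ H u a) (j : Gal(E/F)) :
    j (a j⁻¹) = a j := by
  obtain ⟨z, a1, a2⟩ := h1
  obtain ⟨f, hf⟩ := h.nondeg.exists_ne hu
  refine congrFun (gal_ext (F := F) (h := fun s => s (a s⁻¹)) fun y => ?_) j
  rw [← sum_inv_gal]
  refine tr_ext (F := F) fun c => ?_
  have := (hH a1).1 (y • f) (c • f)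
  simp only [a2, h.B_eq, map_add, LinearMap.add_apply, B_smul_left, B_smul_right, hf, h.alt,
    B_neg_alt h.ε' u f, RingHom.id_apply, mul_one, mul_zero, map_zero, mul_neg, map_neg] at this
  rw [← tr_adj, mul_comm _ c]
  linear_combination -this

omit [IsScalarTower F E V] in
theorem l_conj (hH : H ≤ Φ.O) {m : V ≃ₗ[F] V} (hm : m ∈ H)
    (h1 : ∀ y : E, m (y • u) = (∑ s, a s * s y) • w) (h2 : LIn F Ψ H u b) :
    LIn F Ψ H w fun i => ∑ s, ∑ j, a s * s (b j) * i (a (i⁻¹ * s * j)) := by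
  obtain ⟨z, a1, a2⟩ := h2
  refine ⟨_, mul_mem (mul_mem hm a1) (inv_mem hm), fun x => ?_⟩
  simp only [LinearEquiv.mul_apply, a2, map_add, h1, h.adjT (hH hm) h1, map_sum, map_mul,
    Finset.mul_sum, Finset.sum_mul]
  rw [Finset.sum_comm (γ := Gal(E/F)) (f := fun i s => ∑ j, a s * s (b j) * i (a (i⁻¹ * s * j)) *
    i (Ψ.B w x))]
  congr 2
  · exact m.apply_symm_apply x
  refine Finset.sum_congr rfl fun s _ => ?_
  refine Eq.trans ?_ Finset.sum_comm
  refine Finset.sum_congr rfl fun j _ => Fintype.sum_equiv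
    ((Equiv.inv _).trans (Equiv.mulLeft (s * j))) _ _ fun t => ?_
  simp [mul_assoc]

variable (hM : ∀ k ∈ Ψ.O, k.restrictScalars F ∈ H)
include hM

omit [Finite E] in
theorem l_rat (u : V) (c : E) : LIn F Ψ H u (gs 1 c) := by
  have := h.fd
  obtain ⟨g, hg, h1⟩ := exists_tv_alt h.nondeg h.ε' h.kap' u c
  exact ⟨_, hM g hg, fun x => by simp [sum_gs, h1]⟩

omit [Finite E] in
theorem l_scale (hu : u ≠ 0) (h1 : LIn F Ψ H u a) (k : E) :
    LIn F Ψ H u fun s => k * s k * a s := by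
  by_cases h0 : k = 0
  · exact ⟨1, one_mem _, by simp [h0]⟩
  obtain ⟨m, hm, h2⟩ := h.trans hu (smul_ne_zero h0 hu)
  obtain ⟨z, a1, a2⟩ := h1
  refine ⟨_, mul_mem (mul_mem (hM m hm) a1) (inv_mem (hM m hm)), fun x => ?_⟩
  have := B_O_left hm u x
  rw [h2, B_smul_left] at this
  simp [a2, h2, ← show _ = Ψ.B u (m.symm x) from this, smul_smul, Finset.sum_mul]
  congr 1; exact Finset.sum_congr rfl fun s _ => by ring

theorem l_polar (hu : u ≠ 0) (h1 : LIn F Ψ H u a) (θ : Gal(E/F) → E) :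
    LIn F Ψ H u fun j => (θ j + j (θ j⁻¹)) * a j := by
  have := Fintype.ofFinite E
  obtain ⟨c, hc⟩ := gal_span θ
  convert h.l_sum Finset.univ fun y => h.l_add (h.l_scale hM hu h1 (c y + y))
    (h.l_neg (h.l_add (h.l_scale hM hu h1 (c y)) (h.l_scale hM hu h1 y))) using 1
  funext j
  simp only [hc, map_sum, map_mul, Finset.sum_apply, Pi.add_apply, Pi.neg_apply, map_add,
    ← Finset.sum_add_distrib, Finset.sum_mul]
  exact Finset.sum_congr rfl fun y _ => by simp; ring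

theorem l_pair (hH : H ≤ Φ.O) (hu : u ≠ 0) (h1 : LIn F Ψ H u a) (hj : a j ≠ 0) (θ : E) :
    LIn F Ψ H u fun i => gs j θ i + i (gs j θ i⁻¹) := by
  convert h.l_polar hM hu h1 (gs j (θ / a j)) using 2 with i
  have h2 : gs j θ i = gs j (θ / a j) i * a i := by
    by_cases h3 : i = j <;> simp [h3, hj]
  rw [add_mul, h2, ← h.l_symm hH hu h1 i, ← map_mul]
  by_cases h3 : i⁻¹ = j <;> simp [h3, hj]

theorem win (hH : H ≤ Φ.O) (hu : u ≠ 0) (h1 : ∀ j, ∃ a, LIn F Ψ H u a ∧ a j ≠ 0) : Φ.O ≤ H := by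
  classical
  have := h.fd
  have : FiniteDimensional F V := Module.Finite.trans E V
  have h2 : Φ.TR H u := fun c => by
    have a1 : ∀ i : Gal(E/F), ∃ t, i ≠ 1 → i⁻¹ = i → t + i t = algebraMap F E c := fun i => by
      by_cases h3 : ∃ t, t + i t ≠ 0
      · obtain ⟨t, ht⟩ := h3
        refine ⟨algebraMap F E c * t / (t + i t), fun _ h4 => ?_⟩
        have : i (i t) = t := by nth_rw 1 [← h4]; simp
        rw [map_div₀, map_mul, map_add, this, add_comm (i t), AlgEquiv.commutes]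
        field_simp
      refine ⟨0, fun h4 => (one_ne_zero (α := E) ?_).elim⟩
      have := gal_indep (F := F) (h := gs 1 1 + gs i 1) (fun y => by
        simpa [add_mul, Finset.sum_add_distrib, sum_gs] using not_exists.1 h3 y) 1
      rwa [Pi.add_apply, gs_self, gs_ne h4.symm, add_zero] at this
    choose t ht using a1
    let n := Fintype.equivFin Gal(E/F)
    let θ : Gal(E/F) → E := fun i => if i⁻¹ = i then t i else if n i < n i⁻¹ then algebraMap F E c
      else 0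
    choose a ha ha' using h1
    obtain ⟨z, a2, a3⟩ := h.l_add (h.l_sum Finset.univ fun j => h.l_pair hM hH hu (ha j) (ha' j)
      (θ j)) (h.l_rat hM u (algebraMap F E c - 2 * θ 1))
    refine ⟨z, a2, fun x => ?_⟩
    rw [a3, ← algebraMap_smul E (c * _), map_mul, h.B_eq, tr_sum, Finset.mul_sum]
    congr 2
    refine Finset.sum_congr rfl fun i _ => congrArg (· * _) ?_
    have a4 : ∀ i, ∑ j, gs j (θ j) i = θ i := fun i => by simp [gs]
    simp only [Pi.add_apply, Finset.sum_apply, Finset.sum_add_distrib, ← map_sum, a4]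
    by_cases h4 : i = 1
    · simp [h4]; ring
    rw [gs_ne h4, add_zero]
    by_cases h5 : i⁻¹ = i
    · simp [θ, h5, ht i h4 h5]
    rcases lt_or_gt_of_ne (n.injective.ne h5) with h6 | h6 <;>
      simp [θ, h5, Ne.symm h5, h6, h6.not_gt]
  refine O_le_of_tr h.nd h.ε h.kap fun w => ?_
  by_cases h0 : w = 0
  · exact h0 ▸ tr_zero
  obtain ⟨m, hm, rfl⟩ := h.trans hu h0
  exact h2.conj (hM m hm) (h.mem_O hm)

variable (hH : H ≤ Φ.O) (hN : ¬ Φ.O ≤ H)
include hH hN

theorem mono (hu : u ≠ 0) {m : V ≃ₗ[F] V} (hm : m ∈ H) (h1 : ∀ y : E, m (y • u) ∈ E ∙ u) :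
    ∃ (c : E) (s : Gal(E/F)), ∀ y, m (y • u) = (c * s y) • u := by
  obtain ⟨l, hl⟩ := exists_coord hu h1
  obtain ⟨a, ha⟩ := gal_coeff l
  simp only [ha] at hl
  let J : Set Gal(E/F) := {j | ∃ a, LIn F Ψ H u a ∧ a j ≠ 0}
  have a1 : ∀ s t, a s ≠ 0 → a t ≠ 0 → s * t⁻¹ ∈ J := fun s t hs ht => by_contra fun h2 => by
    have := gal_indep (F := F) (h := fun s' => a s' * (s * t⁻¹) (a ((s * t⁻¹)⁻¹ * s'))) (fun y => by
      by_contra h3
      refine h2 ⟨_, h.l_conj hH hm hl (h.l_rat hM u y), fun h4 => h3 (h4 ▸ ?_)⟩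
      refine Finset.sum_congr rfl fun s' _ => ?_
      rw [Finset.sum_eq_single 1 (fun j _ hj => by simp [hj]) (by simp)]
      simp [mul_right_comm]) s
    simp [hs, ht] at this
  have a2 : ∀ s t, a s ≠ 0 → a t ≠ 0 → ∀ j ∈ J, s * t⁻¹ * j ∈ J := fun s t hs ht j ⟨b, hb, hj⟩ =>
    by_contra fun h2 => by
      generalize hi : s * t⁻¹ * j = i at h2
      have := gal_indep (F := F) (h := fun s' => a s' * i (a (i⁻¹ * s' * j)) +
          a (s' * j) * i (a (i⁻¹ * s'))) (fun y => by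
        by_contra h3
        refine h2 ⟨_, h.l_conj hH hm hl (h.l_pair hM hH hu hb hj y), fun h4 => h3 (h4 ▸ ?_)⟩
        simp only [add_mul, map_add, mul_add, Finset.sum_add_distrib]
        congr 1
        · refine Finset.sum_congr rfl fun s' _ => ?_
          rw [Finset.sum_eq_single j (fun j _ hj => by simp [hj]) (by simp)]
          simp [mul_right_comm]
        refine Fintype.sum_equiv (Equiv.mulRight j) _ _ fun s' => ?_
        rw [Finset.sum_eq_single j⁻¹ (fun j' _ hj => by simp [inv_eq_iff_eq_inv.not.2 hj]) (by simp)]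
        simp [mul_right_comm, mul_assoc]) s
      have e1 : i⁻¹ * s * j = t := by rw [← hi, gal_comm _ j]; simp [mul_assoc]
      rw [e1] at this
      refine h2 ?_
      have h5 : a (s * j) * i (a (i⁻¹ * s)) ≠ 0 := fun e => by simp [e, hs, ht] at this
      rw [← hi, mul_assoc, gal_comm _ j, ← mul_assoc]
      exact a1 (s * j) t (left_ne_zero_of_mul h5) ht
  obtain ⟨s, hs⟩ : ∃ s, a s ≠ 0 := by
    by_contra! h2
    simpa [h2, hu] using hl 1
  refine ⟨a s, s, fun y => ?_⟩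
  rw [hl, Finset.sum_eq_single s (fun t _ ht => ?_) (by simp)]
  by_contra h2
  have := Fact.mk h.pr
  refine hN (h.win hM hH hu fun j => ?_)
  obtain ⟨n, rfl⟩ := mem_powers_of_prime_card (card_gal (F := F) (E := E))
    (mul_inv_eq_one.not.2 ht) (g' := j)
  induction n with
  | zero => exact ⟨_, h.l_rat hM u 1, by simp⟩
  | succ n ih => simp only [pow_succ']; exact a2 t s (left_ne_zero_of_mul h2) hs _ ih

theorem triv (hr : finrank F E ≠ 2) (hu : u ≠ 0) {m : V ≃ₗ[F] V} (hm : m ∈ H)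
    (h1 : ∀ y : E, m (y • u) ∈ E ∙ u) {x : E} (hx : x ≠ 0) (h2 : m (x • u) = x • u)
    (h3 : ∀ y : E, m (m (y • u)) - (2 : E) • m (y • u) + y • u = 0) (y : E) : m (y • u) = y • u := by
  obtain ⟨c, s, h4⟩ := h.mono hM hH hN hu hm h1
  have h5 : c * s x = x := smul_left_injective E hu ((h4 x).symm.trans h2)
  have := Fact.mk h.pr
  obtain rfl := gal_quad (s := s) (a := c * s c) (b := c) (fun h6 e => (hr (by
      rw [← card_gal, ← orderOf_eq_prime (p := 2) (by rwa [sq]) h6,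
        orderOf_eq_card_of_forall_mem_zpowers fun t =>
        mem_zpowers_of_prime_card card_gal h6])).elim) (by rintro rfl; simp [hx.symm] at h5) fun y => by
      have := h3 y
      simp only [h4, smul_smul, ← sub_smul, ← add_smul, map_mul, smul_eq_zero, hu, or_false] at this
      linear_combination this
  simp [h4, show c = 1 by simpa [hx] using h5]

theorem line_odd (hr : finrank F E ≠ 2) (hu : u ≠ 0) (X : Submodule F E) : X ≠ ⊥ → ∀ g ∈ H,
    (∀ x ∈ X, g (x • u) ∈ E ∙ u) → ∀ x : E, g (x • u) ∈ E ∙ u := by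
  induction X using WellFoundedGT.induction with
  | ind X ih =>
  intro hX g hg h1
  by_contra! h2
  have := h.fd
  obtain ⟨x₀, a1, a2⟩ := X.exists_mem_ne_zero_of_ne_bot hX
  obtain ⟨b, hb⟩ := Submodule.mem_span_singleton.1 (h1 x₀ a1)
  obtain ⟨x₁, t, ht, φ, a3, a4, a5, a6⟩ : ∃ x₁ : E, ∃ t ∈ Ψ.O, ∃ φ : V →ₗ[E] E,
      g (x₁ • u) ∉ E ∙ u ∧ φ u = 0 ∧ φ (g (x₁ • u)) = b ∧
      ∀ x : E, t (g (x • u)) = g (x • u) + φ (g (x • u)) • u := by
    by_cases h3 : ∃ x : E, Ψ.B u (g (x • u)) ≠ 0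
    · obtain ⟨x, hx⟩ := h3
      obtain ⟨t, ht, h4⟩ := exists_tv_alt h.nondeg h.ε' h.kap' u (b / Ψ.B u (g (x • u)))
      refine ⟨x, t, ht, (b / Ψ.B u (g (x • u))) • Ψ.B u, fun e => hx ?_, by simp [h.alt],
        by simp [hx], fun x => by simp [h4]⟩
      obtain ⟨c, hc⟩ := Submodule.mem_span_singleton.1 e
      simp [← hc, h.alt]
    push Not at h3
    obtain ⟨x, hx⟩ := h2
    obtain ⟨e, h4, h5⟩ := h.nondeg.exists_perp_eq_one hx
    have h6 := h4 u (Submodule.mem_span_singleton_self u)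
    obtain ⟨s, hs⟩ := exists_eichData (h.sing u) (e := b • e) (by simp [Ψ.B_eq_zero_symm h6])
    obtain ⟨t, ht⟩ := exists_eich h.nondeg hs
    exact ⟨x, t, mem_O_of_eich hs ht, b • Ψ.B e, hx, by simp [h6], by simp [h5], fun x => by
      simp [ht, eichler_apply, h3]⟩
  set k := g⁻¹ * t.restrictScalars F * g
  have b1 : k ∈ H := mul_mem (mul_mem (inv_mem hg) (hM t ht)) hg
  have b2 : ∀ x : E, k (x • u) = x • u + g⁻¹ (φ (g (x • u)) • u) := by simp [k, a6]
  have b3 : ∀ x ∈ X, k (x • u) = x • u := fun x hx => by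
    obtain ⟨c, hc⟩ := Submodule.mem_span_singleton.1 (h1 x hx)
    simp [b2, ← hc, a4]
  have b4 : k (x₁ • u) = x₁ • u + x₀ • u := by simp [b2, a5, hb]
  have b5 := ih (X ⊔ F ∙ x₁) (SetLike.lt_iff_le_and_exists.2 ⟨le_sup_left, x₁,
    Submodule.mem_sup_right (Submodule.mem_span_singleton_self _), fun e => a3 (h1 _ e)⟩)
    (fun h => hX (eq_bot_iff.2 (h ▸ le_sup_left))) k b1 fun x hx => by
      obtain ⟨x, hx', _, hz, rfl⟩ := Submodule.mem_sup.1 hx
      obtain ⟨e, rfl⟩ := Submodule.mem_span_singleton.1 hz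
      rw [add_smul, smul_assoc, map_add, map_smul k e, b3 x hx', b4, ← add_smul, ← smul_assoc,
        ← add_smul]
      exact Submodule.smul_mem _ _ (Submodule.mem_span_singleton_self u)
  have := h.triv hM hH hN hr hu b1 b5 a2 (b3 x₀ a1) (fun y => by
    obtain ⟨c, hc⟩ := Submodule.mem_span_singleton.1 (b5 y)
    have e1 : g (c • u) = g (y • u) + φ (g (y • u)) • u := by simp [hc, b2]
    rw [← hc, b2 c, e1, map_add, map_smul φ, a4, hc, b2 y]
    simp [two_smul]; abel) x₁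
  rw [b4] at this
  exact smul_ne_zero a2 hu (by simpa using this)

omit hN in
theorem l_comm (hu : u ≠ 0) {k : V ≃ₗ[F] V} (hk : k ∈ H) (h1 : ∀ a : E, k (a • u) = a • u) {e : V}
    (he : Ψ.B u e = 0) (hx : Ψ.B u x = 0) (a7 : ∀ y : E, Ψ.B e (k (y • x)) = ∑ s, a s * s y) :
    LIn F Ψ H u fun i => a i + i (a i⁻¹) := by
  have := h.fd
  obtain ⟨s, hs⟩ := exists_eichData (h.sing u) he
  obtain ⟨s', hs'⟩ := exists_eichData (h.sing u) hx
  obtain ⟨T, hT⟩ := exists_eich h.nondeg hs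
  obtain ⟨T', hT'⟩ := exists_eich h.nondeg hs'
  have a1 := hM T (mem_O_of_eich hs hT)
  have a2 := hM T' (mem_O_of_eich hs' hT')
  have a3 : ∀ a : E, k.symm (a • u) = a • u := fun a => k.symm_apply_eq.2 (h1 a).symm
  set r := k⁻¹ * T.restrictScalars F * k
  have a4 : r ∈ H := mul_mem (mul_mem (inv_mem hk) a1) hk
  have a5 : ∀ y, Ψ.B u y = 0 → r y = y + Ψ.B e (k y) • u := fun y hy => by
    simp [r, hT, eichler_apply, h.B_fix (hH hk) h1, hy, a3]
  have a6 : ∀ a : E, r (a • u) = a • u := fun a => by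
    simp [a5, h.alt, h1, Ψ.B_eq_zero_symm he]
  have a8 : ∀ v, Ψ.B x (r⁻¹ v) = Ψ.B x v + ∑ i : Gal(E/F), i (a i⁻¹) * i (Ψ.B u v) := fun v =>
    tr_ext (F := F) fun y => by
      rw [← h.B_smul, ← B_O_left (hH a4), a5 _ (by simp [hx]), a7, map_add,
        LinearMap.add_apply, h.B_smul, h.B_smul, mul_comm (Ψ.B u v), tr_adj, sum_inv_gal, add_mul,
        map_add]
  refine ⟨_, mul_mem (mul_mem (mul_mem a4 a2) (inv_mem a4)) (inv_mem a2), fun v => ?_⟩
  obtain ⟨v, rfl⟩ := T'.surjective v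
  have a9 := h.B_fix (hH (inv_mem a4)) (fun a => r.symm_apply_eq.2 (a6 a).symm) v
  have b1 : (T'.restrictScalars F)⁻¹ (T' v) = v := T'.symm_apply_apply v
  simp only [LinearEquiv.mul_apply, b1, LinearEquiv.restrictScalars_apply]
  simp only [hT', eichler_apply, map_add, a6, a9, a8, h.ε', B_smul_right, h.alt, hx, map_neg,
    map_one, neg_mul, one_mul, neg_neg, a5 (Ψ.B u v • x) (by simp [hx]), a7, mul_zero, add_zero,
    add_mul, Finset.sum_add_distrib]
  simp only [LinearEquiv.coe_inv, LinearEquiv.apply_symm_apply]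
  module

theorem lin_of_fix (hr : finrank F E = 2) (hu : u ≠ 0) {k : V ≃ₗ[F] V} (hk : k ∈ H)
    (h1 : ∀ a : E, k (a • u) = a • u) (hx : Ψ.B u x = 0) (c : E) :
    k (c • x) - c • k x ∈ E ∙ u := by
  have := h.fd
  rw [← h.nondeg.perp_perp (E ∙ u)]
  intro e he
  rw [mem_perp_span_singleton] at he
  obtain ⟨a, a7⟩ := gal_coeff ((Ψ.B e).restrictScalars F ∘ₗ k.toLinearMap ∘ₗ
    (LinearMap.toSpanSingleton E V x).restrictScalars F)
  replace a7 : ∀ y : E, Ψ.B e (k (y • x)) = ∑ s, a s * s y := a7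
  obtain ⟨i, hi⟩ := not_forall.1 fun e => hN (h.win hM hH hu e)
  push Not at hi
  have a1 : i ≠ 1 := by rintro rfl; simpa using hi _ (h.l_rat hM u 1)
  have a2 : ∀ y, a i * i y + i (a i⁻¹ * i⁻¹ y) = 0 := fun y => hi _ (h.l_comm hM hH hu hk h1 he
    (x := y • x) (a := fun s => a s * s y) (by simp [hx]) fun z => by
      simp [smul_smul, a7, mul_assoc, mul_comm z])
  have a3 : a i = 0 := by
    obtain ⟨y, hy⟩ := DFunLike.ne_iff.1 a1
    have e1 := a2 y
    have e2 := a2 1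
    simp at e1 e2 hy
    exact (mul_eq_zero.1 (by linear_combination e1 - y * e2)).resolve_right (sub_ne_zero.2 hy)
  have a4 : ∀ y, ∑ s, a s * s y = a 1 * y := fun y => by
    rw [Finset.sum_eq_single 1 (fun s _ hs => ?_) (by simp)]; rfl
    obtain ⟨j, -, hj⟩ := (Nat.card_eq_two_iff' (1 : Gal(E/F))).1 (card_gal.trans hr)
    simp [(hj s hs).trans (hj i a1).symm, a3]
  have := a7 1
  rw [one_smul, a4] at this
  simp [a7, a4, this, mul_comm]

theorem line_two (hr : finrank F E = 2) {g : V ≃ₗ[F] V} (hg : g ∈ H) (hw0 : w ≠ 0) (y : E) :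
    g (y • g⁻¹ w) ∈ E ∙ w := by
  have := h.fd
  have := h.dim hr
  let b := Module.finBasis F E
  let S := Submodule.span E (Set.range fun i => g⁻¹ (b i • w))
  have a0 : finrank E S ≤ 2 := (finrank_range_le_card _).trans (by simp [hr])
  obtain ⟨u, a2, a1⟩ := SetLike.not_le_iff_exists.1 fun e : Ψ.perp S ≤ S => by
    have := Submodule.finrank_mono e
    have := h.nondeg.finrank_perp_add S
    omega
  have a4 : ∀ c : E, g⁻¹ (c • w) ∈ S := fun c => by
    rw [← b.sum_repr c, Finset.sum_smul, map_sum]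
    refine S.sum_mem fun i _ => ?_
    rw [smul_assoc, map_smul]
    exact S.smul_of_tower_mem _ (Submodule.subset_span ⟨i, rfl⟩)
  have a5 : ∀ a : E, Ψ.B w (g (a • u)) = 0 := fun a => h.B_eq_zero.2 fun c => by
    rw [← RingHom.id_apply c, ← h.adj, ← (hH (inv_mem hg)).1, h.B_eq]
    simp [show Ψ.B (g.symm (c • w)) u = 0 from a2 _ (a4 c)]
  obtain ⟨t, ht, a6⟩ := h.l_rat hM w 1
  have a7 : ∀ x, (g⁻¹ * t * g) x = x + g⁻¹ (Ψ.B w (g x) • w) := by simp [a6, sum_gs]
  have hu0 : u ≠ 0 := by rintro rfl; simp at a1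
  obtain ⟨x, b1, b2⟩ := h.nondeg.exists_perp_eq_one (W := E ∙ u) (x := g⁻¹ w) fun e => by
    obtain ⟨c, hc⟩ := Submodule.mem_span_singleton.1 e
    refine a1 ((Submodule.smul_mem_iff _ (s := c) (by
      rintro rfl; exact hw0 (by simpa using hc.symm))).1 (by simpa [hc] using a4 1))
  obtain ⟨d, hd⟩ := Algebra.trace_surjective F E 1
  have b3 : Ψ.B u (d • x) = 0 := by
    simp [Ψ.B_eq_zero_symm (b1 u (Submodule.mem_span_singleton_self u))]
  have b5 : Ψ.B w (g (d • x)) ≠ 0 := fun e => by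
    have := h.B_smul d x (g⁻¹ w)
    rw [← (hH hg).1, h.B_eq, b2] at this
    simp [Ψ.B_eq_zero_symm e, hd] at this
  generalize d • x = x at b3 b5
  have b4 : ∀ c : E, g⁻¹ (Ψ.B w (g (c • x)) • w) = c • g⁻¹ (Ψ.B w (g x) • w) := fun c => by
    obtain ⟨a, ha⟩ := Submodule.mem_span_singleton.1 (h.lin_of_fix hM hH hN hr hu0
      (mul_mem (mul_mem (inv_mem hg) ht) hg) (by simp [a7, a5]) b3 c)
    rw [a7, a7, smul_add, add_sub_add_left_eq_sub] at ha
    by_cases h0 : a = 0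
    · exact sub_eq_zero.1 (by rw [← ha, h0, zero_smul])
    exact (a1 ((Submodule.smul_mem_iff _ h0).1 (ha ▸ Submodule.sub_mem _ (a4 _)
      (Submodule.smul_mem _ _ (a4 _))))).elim
  obtain ⟨c, hc⟩ := Finite.injective_iff_surjective.1 ((injective_iff_map_eq_zero
    ((Ψ.B w).restrictScalars F ∘ₗ g.toLinearMap ∘ₗ
      (LinearMap.toSpanSingleton E V x).restrictScalars F)).2 fun c hc => by
        have := b4 c
        rw [show Ψ.B w (g (c • x)) = 0 from hc] at this
        simpa [b5, hw0] using this.symm) 1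
  have b6 := b4 c
  rw [show Ψ.B w (g (c • x)) = 1 from hc, one_smul] at b6
  rw [b6, smul_smul, ← b4]
  simp [Submodule.mem_span_singleton]

omit hM hH hN in
theorem isMaximalIn : IsMaximalIn Φ.O (Tg F (ls E V) ⊓ Φ.O) := by
  have := h.fd
  have : FiniteDimensional F V := Module.Finite.trans E V
  have := h.nt
  obtain ⟨u, hu⟩ := exists_ne (0 : V)
  refine isMaximalIn_of inf_le_right ?_ fun H h1 h2 g hg hg' => ?_
  · obtain ⟨f, hf⟩ := h.nondeg.exists_ne hu
    obtain ⟨t, ht, a1⟩ := exists_tv_alt h.nd h.ε h.kap u 1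
    refine ⟨t, ht, fun h1 => ?_⟩
    obtain ⟨α, hα⟩ := exists_semi (semi_of_Tg h1.1)
    obtain ⟨d, hd⟩ := Algebra.trace_surjective F E 1
    refine h.pr.one_lt.not_ge (finrank_le_one d fun b => ⟨Algebra.trace F E b, ?_⟩)
    have a2 := h.B_semi ht.1 hα (d • f) (b • f)
    rw [a1, a1, ← algebraMap_smul E (1 * _ : F), ← algebraMap_smul E (1 * _ : F)] at a2
    simp [h.B_eq, B_smul_left, h.alt, hf, B_neg_alt h.ε' u f, hd] at a2
    rw [Algebra.smul_def] at a2 ⊢
    linear_combination -a2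
  have hM : ∀ k ∈ Ψ.O, k.restrictScalars F ∈ H := fun k hk =>
    h1 ⟨mem_Tg_of_semi fun y => ⟨y, k.map_smul y⟩, h.mem_O hk⟩
  by_contra h3
  refine hg' ⟨mem_Tg_of_semi (h.semi_of_sing (h2 hg) (h.sing u) hu fun w _ hw => ?_), h2 hg⟩
  obtain ⟨m, hm, h4⟩ := h.trans (u := g w) (by simpa) hw
  have h5 := mul_mem (hM m hm) hg
  obtain ⟨c, s, h6⟩ := h.mono hM h2 h3 hw h5 fun y => by
    by_cases hr : finrank F E = 2
    · have := h.line_two hM h2 h3 hr h5 hw y
      rwa [show (m.restrictScalars F * g)⁻¹ w = w from (LinearEquiv.symm_apply_eq _).2 h4.symm]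
        at this
    refine h.line_odd hM h2 h3 hr hw (F ∙ 1) (by simp) _ h5 (fun x hx => ?_) y
    obtain ⟨c, rfl⟩ := Submodule.mem_span_singleton.1 hx
    simp [h4, Submodule.smul_of_tower_mem, Submodule.mem_span_singleton_self]
  refine ⟨s, fun a => m.injective ?_⟩
  have h7 : c = 1 := smul_left_injective E hw (by simpa [h4] using (h6 1).symm)
  simpa [h7, h4] using h6 a

end Sx

omit [FiniteDimensional F E] [Finite E] in
theorem isMaximalIn_sx [Fintype F] {m r : ℕ} (hm : 5 ≤ m) (hr : r.Prime)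
    {K : Subalgebra F (Matrix (Fin m ⊕ Fin m) (Fin m ⊕ Fin m) F)} (hK : IsFieldSubalgebra r K)
    (hsa : IsSelfAdjointFor (sympForm m F) K)
    (halt : ∀ k ∈ K, ∀ v, sympForm m F (Matrix.mulVec k v) v = 0) :
    IsMaximalIn (spGL m F) (subalgebraNormalizer K ⊓ spGL m F) := by
  have : Nonempty (Fin m) := ⟨⟨0, by omega⟩⟩
  letI := (As.IsFieldSubalgebra.isField hK).toField
  have : Finite K := Subtype.finite
  have h : AdjE (spForm m F) (RingHom.id K) := ⟨spForm_nondeg m, inferInstance, fun k u v => by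
    simp only [spForm_B]; exact hsa k k.2 u v⟩
  have h1 := finrank_mul_finrank F K (Fin m ⊕ Fin m → F)
  rw [hK.finrank_eq, finrank_fintype_fun_eq_card] at h1
  obtain ⟨Ψ, h5, h6⟩ := h.exists_lift (.inr fun k v => by
    rw [← RingHom.id_apply k, ← h.adj, spForm_B]; exact halt k k.2 v)
  have h3 : ∀ g, g ∈ spGL m F ↔ glE _ F g ∈ (spForm m F).O := fun g => by
    rw [mem_spGL_iff_E, E_alt (spForm_nondeg m) rfl rfl]
  exact isMaximalIn_of_iff (glE _ F) (Sx.isMaximalIn ⟨h5, rfl, rfl, h6, hK.finrank_eq ▸ hr,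
    Module.Finite.of_finite, fun e => by rw [hK.finrank_eq] at e; simp [e] at h1; omega⟩) h3
    fun g => and_congr (mem_normalizer_iff_semi.trans ⟨mem_Tg_of_semi, semi_of_Tg⟩) (h3 g)

end H23
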