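import Cfsg.Agent.H23.Qv1
import Cfsg.Agent.H23.Pr4

/-! Plane reflections and the tensor product of a symplectic plane with an orthogonal 3-space. -/

set_option autoImplicit false

namespace H23.Pr

open Module H22 Cfsg Cfsg.Geo Form Tn Nd Zd

variable {F S W V : Type*} [Field F] [AddCommGroup S] [Module F S] [AddCommGroup W] [Module F W]
  [AddCommGroup V] [Module F V]

theorem braid3 {H : Subgroup (V ≃ₗ[F] V)} {X Y E : V →ₗ[F] V} {β a b : F}
    (hX : ∀ v, X (X v) = 0) (hY : ∀ v, Y (Y v) = 0)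
    (h1 : ∀ v, X (Y (X v)) = β • (X v - E v)) (h2 : ∀ v, Y (X (Y v)) = β • (Y v - E v))
    (h3 : ∀ v, E (X v) = 0) (h4 : ∀ v, E (Y v) = 0) (h5 : ∀ v, E (E v) = 0) {s t : V ≃ₗ[F] V}
    (hs : s ∈ H) (ht : t ∈ H) (e1 : ∀ v, s v = v + a • X v) (e2 : ∀ v, t v = v + b • Y v)
    (hab : a * b * β = -1) :
    ∃ g ∈ H, ∀ v, g v = v + (a - b) • E v := by
  refine ⟨s * t * s * (t * s * t)⁻¹, mul_mem (mul_mem (mul_mem hs ht) hs)
    (inv_mem (mul_mem (mul_mem ht hs) ht)), fun v => ?_⟩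
  obtain ⟨w, rfl⟩ := (t * s * t).surjective v
  rw [LinearEquiv.mul_apply, show (t * s * t)⁻¹ ((t * s * t) w) = w from
    (t * s * t).symm_apply_apply w]
  simp only [LinearEquiv.mul_apply, e1, e2, map_add, map_smul, map_sub, hX, hY, h1, h2, h3, h4, h5,
    map_zero]
  linear_combination (norm := module) hab • (a • X w - b • Y w - (a - b) • E w)

section
variable {Φ : Form (RingHom.id F) V} {H : Subgroup (V ≃ₗ[F] V)} {ρ ρ' : V ≃ₗ[F] V}
  {v y q q' w z : V} (hε : Φ.ε = -1) (hκ : Φ.κ = 0) (h2 : (2 : F) ≠ 0)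
include hε hκ

theorem IsPr.sq (h : IsPr Φ ρ v y) (z : V) : ρ (ρ z) = z := by
  simp [h.eq, B_self_alt hε hκ, h.one, B_neg_alt hε v y]
  module

include h2

theorem tr_of_sq {κ : F} (h0 : κ ≠ 0)
    (h : ∀ l : F, ∃ g ∈ H, ∀ v, g v = v + (l * l * κ * Φ.B w v) • w) : Φ.TR H w := fun c => by
  obtain ⟨g₁, a1, a2⟩ := h ((c / κ + 1) / 2)
  obtain ⟨g₂, a3, a4⟩ := h ((c / κ - 1) / 2)
  refine ⟨g₁ * g₂⁻¹, mul_mem a1 (inv_mem a3), fun v => ?_⟩
  obtain ⟨v, rfl⟩ := g₂.surjective v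
  rw [LinearEquiv.mul_apply, show g₂⁻¹ (g₂ v) = v from g₂.symm_apply_apply v]
  simp only [a2, a4, map_add, map_smul, B_self_alt hε hκ]
  match_scalars
  · ring
  · field_simp; ring

omit hε hκ in
theorem IsPr.of_neg (h : IsPr Φ ρ v y) (hz : ρ z = -z) : z = Φ.B v z • y - Φ.B y z • v :=
  smul_right_injective V h2 (by
    rw [h.eq] at hz
    simp only
    linear_combination (norm := module) hz)

theorem IsPr.comm (h : IsPr Φ ρ v y) (h' : IsPr Φ ρ' q q') (hc : ∀ z, ρ (ρ' z) = ρ' (ρ z)) :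
    ρ = ρ' ∨ Φ.B v q = 0 ∧ Φ.B y q = 0 ∧ Φ.B v q' = 0 ∧ Φ.B y q' = 0 := by
  have e0 := B_self_alt hε hκ
  have e1 := B_neg_alt hε
  have n4 : (4 : F) ≠ 0 := fun e => mul_ne_zero h2 h2 (by linear_combination e)
  obtain ⟨α, hα⟩ : ∃ α, α = Φ.B v q * Φ.B y q' - Φ.B v q' * Φ.B y q := ⟨_, rfl⟩
  have a1 := hc y
  have a2 := hc v
  have a3 := hc q
  have a4 := hc q'
  simp only [h.eq, h'.eq, map_add, map_sub, map_smul, smul_eq_mul, e0, h.one, h'.one, e1 v y,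
    e1 q q', e1 v q, e1 v q', e1 y q, e1 y q'] at a1 a2 a3 a4
  by_cases e : α = 0
  · have b1 : Φ.B v q • y = Φ.B y q • v := smul_right_injective V n4 (by
      simp only
      linear_combination (norm := module) a3 + (4 : F) • (hα.symm.trans e) • q)
    have b2 : Φ.B v q' • y = Φ.B y q' • v := smul_right_injective V n4 (by
      simp only
      linear_combination (norm := module) a4 + (4 : F) • (hα.symm.trans e) • q')
    have b3 := congrArg (Φ.B v) b1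
    have b4 := congrArg (Φ.B y) b1
    have b5 := congrArg (Φ.B v) b2
    have b6 := congrArg (Φ.B y) b2
    simp [e0, h.one, e1 v y] at b3 b4 b5 b6
    exact .inr ⟨b3, b4, b5, b6⟩
  have b1 : α • y = Φ.B y q' • q - Φ.B y q • q' := smul_right_injective V n4 (by
    simp only
    linear_combination (norm := module) a1 + (4 : F) • hα • y)
  have b2 : α • v = Φ.B v q' • q - Φ.B v q • q' := smul_right_injective V n4 (by
    simp only
    linear_combination (norm := module) a2 + (4 : F) • hα • v)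
  have b3 : Φ.B (α • v) (α • y) = α := by
    rw [b1, b2]; simp [e0, h'.one, e1 q q', hα]; ring
  have b4 : α = 1 := mul_left_cancel₀ e (by simpa [h.one] using b3)
  rw [b4, one_smul] at b1 b2
  refine .inl (LinearEquiv.ext fun z => ?_)
  rw [h.eq, h'.eq]
  generalize Φ.B y q' = A at *
  generalize Φ.B y q = B at *
  generalize Φ.B v q' = C at *
  generalize Φ.B v q = D at *
  rw [b1, b2]
  simp only [map_sub, map_smul, LinearMap.sub_apply, LinearMap.smul_apply, smul_eq_mul]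
  linear_combination (norm := module) (hα.symm.trans b4) • ((2 * Φ.B q' z) • q - (2 * Φ.B q z) • q')

end

theorem span3 [FiniteDimensional F W] {h : Form (RingHom.id F) W} (hk : h.κ = 1)
    (h2 : (2 : F) ≠ 0) (h3 : finrank F W = 3) {r r' b : W} (hb : h.Q b ≠ 0) (h0 : h.B b r = 0)
    (h1 : h.B b r' = 0) (hi : ∀ α β : F, α • r + β • r' = 0 → α = 0 ∧ β = 0) (z : W) :
    ∃ α β γ : F, z = α • r + β • r' + γ • b := by
  have a1 : LinearIndependent F ![r, r', b] := Fintype.linearIndependent_iff.2 fun g hg i => by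
    have b1 := congrArg (h.B b) hg
    simp [Fin.sum_univ_three, h0, h1, B_self_quad hk, h2, hb] at b1
    simp [Fin.sum_univ_three, b1] at hg
    have := hi _ _ hg
    fin_cases i
    exacts [this.1, this.2, b1]
  obtain ⟨g, rfl⟩ := (Submodule.mem_span_range_iff_exists_fun F).1
    ((a1.span_eq_top_of_card_eq_finrank' (by simp [h3])).ge (Submodule.mem_top (x := z)))
  exact ⟨g 0, g 1, g 2, by simp [Fin.sum_univ_three]⟩

namespace So

variable {Φ : Form (RingHom.id F) V} {f : Form (RingHom.id F) S} {h : Form (RingHom.id F) W}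
  {t : S →ₗ[F] W →ₗ[F] V} (p : So Φ f h t) {H : Subgroup (V ≃ₗ[F] V)} {u w a b d : W} {x y : S}
  {q q' v : V} {g ρ : V ≃ₗ[F] V}

/-- `ρ` is induced by a reflection of the orthogonal factor. -/
def Rf (w : W) (ρ : V ≃ₗ[F] V) : Prop :=
  ρ ∈ Tg F t ⊓ Φ.O ∧ ∀ s u, ρ (t s u) = t s (rf p.hk w u)

theorem exists_rf (w : W) : ∃ ρ, p.Rf w ρ := p.tens (one_mem _) (rf_O p.hk w)

variable {p} in
theorem Rf.isPr (h1 : p.Rf w ρ) (hw : h.Q w ≠ 0) (e : f.B x y = 1) :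
    IsPr Φ ρ (t x w) (t ((2 * h.Q w)⁻¹ • y) w) := by
  have := p.odd
  refine ⟨by simp [p.B, e, B_self_quad p.hk]; field_simp, h1.1.2, fun z =>
    p.ht.inductionOn z (by simp) (fun s u => ?_) fun a b a1 a2 => by
      simp only [map_add, a1, a2]; module⟩
  rw [h1.2, refl_apply, map_sub, map_smul]
  nth_rewrite 2 [p.expand e s]
  simp only [p.B, map_sub, map_smul, LinearMap.sub_apply, LinearMap.smul_apply, smul_eq_mul]
  match_scalars <;> field_simp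

include p in
theorem exists_hypS : ∃ x y, x ≠ 0 ∧ f.B x y = 1 :=
  have := p.fd
  have := p.nt
  have ⟨x, hx⟩ := exists_ne (0 : S)
  have ⟨y, hy⟩ := p.fn.exists_ne hx
  ⟨x, y, hx, hy⟩

variable {p} in
theorem Rf.neg (h1 : p.Rf w ρ) (hw : h.Q w ≠ 0) (s : S) : ρ (t s w) = -t s w := by
  simp [h1.2, refl_apply_self _ hw]

variable {p} in
theorem Rf.blk (h1 : p.Rf w ρ) (hw : h.Q w ≠ 0) (hv : ρ v = -v) : ∃ s, v = t s w := by
  obtain ⟨x, y, -, e⟩ := p.exists_hypS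
  refine ⟨Φ.B (t x w) v • (2 * h.Q w)⁻¹ • y - Φ.B (t ((2 * h.Q w)⁻¹ • y) w) v • x, ?_⟩
  conv_lhs => rw [(h1.isPr hw e).of_neg p.odd hv]
  simp only [map_sub, map_smul, LinearMap.sub_apply, LinearMap.smul_apply]

include p

variable [FiniteDimensional F W] [FiniteDimensional F V] [Fintype F] (hM : Tg F t ⊓ Φ.O ≤ H)
  (hH : H ≤ Φ.O) (h3 : finrank F W = 3) (hq : 4 ≤ Fintype.card F)
include hM hH h3 hq

theorem win3 (hx : x ≠ 0) (hb : h.Q b ≠ 0) {κ : F} (h0 : κ ≠ 0) (hg : g ∈ H)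
    (h1 : ∀ v, g v = v + (κ * Φ.B (t x b) v) • t x b) : Φ.O ≤ H := by
  have := p.fd
  have h2 := p.odd
  have e1 : ∀ a b, Φ.B (t x a) (t x b) = 0 := fun a b => by simp [p.B, p.f0]
  have a1 : Φ.TR H (t x b) := tr_of_sq p.ε p.kap h2 h0 fun l => by
    by_cases e : l = 0
    · exact ⟨1, one_mem _, by simp [e]⟩
    obtain ⟨a, ha, b1⟩ := p.fn.witt_one hx (smul_ne_zero e hx) (by simp [p.f0])
      (by simp [Q_of_κ p.fk])
    obtain ⟨m, b2, b3⟩ := p.tens ha (one_mem _)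
    refine ⟨m * g * m⁻¹, mul_mem (mul_mem (hM b2) hg) (inv_mem (hM b2)), fun v => ?_⟩
    have b4 : m (t x b) = l • t x b := by simp [b3, b1]
    simp only [LinearEquiv.mul_apply, h1, ← B_O_left b2.2, b4, map_add, map_smul,
      LinearMap.smul_apply, smul_eq_mul]
    rw [show m (m⁻¹ v) = v from m.apply_symm_apply v]
    module
  have a2 : ∀ w, h.Q w = h.Q b → Φ.TR H (t x w) := fun w hw => by
    obtain ⟨k, hk, rfl⟩ := p.hn.witt_one (x := b) (y := w) (by rintro rfl; simp at hb)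
      (by rintro rfl; simp [← hw] at hb) (by simp [B_self_quad p.hk, hw]) hw.symm
    obtain ⟨m, b2, b3⟩ := p.tens (one_mem _) hk
    simpa [b3] using a1.conj (hM b2) b2.2
  obtain ⟨e, -, b1, b2⟩ := exists_sing (D := ⊤) p.hk (by simp [h3])
  obtain ⟨e', he⟩ := exists_hyp p.hn ((sing_quad p.hk).2 b1) b2
  obtain ⟨d, d1, d2, d3⟩ := Qv.exists_third' p.hn p.hk h3.ge he
  have ec := B_comm_quad p.hk
  have a3 : ∀ c : F, Φ.TR H (t x (e' + c • d + (h.Q b - c ^ 2 * h.Q d) • e)) := fun c =>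
    a2 _ (by
      simp [Q_add_quad p.hk, h.Q_smul, b1, he.right.2, d3, ec d e, d2, ec e' e, he.one])
  obtain ⟨l, l0, l1⟩ := Qp.exists_sq_ne_one hq
  have l2 : l ^ 2 - l ^ 4 ≠ 0 := fun e => mul_ne_zero (pow_ne_zero 2 l0) (sub_ne_zero.2 l1)
    (by linear_combination -e)
  refine p.top_of_tr hM hH hx b1 b2 fun c => ?_
  obtain ⟨k, hk⟩ : ∃ k, c = 2 * (l ^ 2 - l ^ 4) * h.Q d ^ 2 * k :=
    ⟨c / (2 * (l ^ 2 - l ^ 4) * h.Q d ^ 2), by field_simp⟩
  obtain ⟨g₁, c1, c2⟩ := a3 1 (l ^ 2 * k)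
  obtain ⟨g₂, c3, c4⟩ := a3 (-1) (l ^ 2 * k)
  obtain ⟨g₃, c5, c6⟩ := a3 l (-k)
  obtain ⟨g₄, c7, c8⟩ := a3 (-l) (-k)
  obtain ⟨g₅, c9, c10⟩ := a3 0 ((2 - 2 * l ^ 2) * k)
  refine ⟨_, mul_mem c1 (mul_mem c3 (mul_mem c5 (mul_mem c7 c9))), fun v => ?_⟩
  simp only [LinearEquiv.mul_apply, c2, c4, c6, c8, c10, map_add, map_smul, e1, hk,
    LinearMap.add_apply, LinearMap.smul_apply, smul_eq_mul]
  module

theorem win_pr (h1 : IsPr Φ ρ q q') (hρ : ρ ∈ H) (hb : h.Q b ≠ 0)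
    (h4 : ∀ s, Φ.B (t s b) q = 0) (h5 : ∀ s, Φ.B (t s b) q' = 0) (hx : x ≠ 0)
    (hi : ∀ α β : F, α • p.cs x q + β • p.cs x q' = 0 → α = 0 ∧ β = 0) : Φ.O ≤ H := by
  have := p.fd
  have h2 := p.odd
  have ec := B_comm_quad p.hk
  have e1 := B_neg_alt p.ε
  obtain ⟨r, hr⟩ : ∃ r, p.cs x q = r := ⟨_, rfl⟩
  obtain ⟨r', hr'⟩ : ∃ r, p.cs x q' = r := ⟨_, rfl⟩
  have a1 : h.B b r = 0 := by rw [← hr, ← p.B_t', h4]
  have a2 : h.B b r' = 0 := by rw [← hr', ← p.B_t', h5]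
  rw [hr, hr'] at hi
  have a3 := span3 p.hk h2 h3 hb a1 a2 hi
  have a0 : ∀ n, h.B n r = 0 → h.B n r' = 0 → h.B n b = 0 → n = 0 := fun n b1 b2 b3 =>
    p.hn n fun z => by obtain ⟨α, β, γ, rfl⟩ := a3 z; simp [b1, b2, b3]
  obtain ⟨β, hβ⟩ : ∃ β, β = -4 * (h.B r r * h.B r' r' - h.B r r' ^ 2) := ⟨_, rfl⟩
  have a4 : β ≠ 0 := fun e => by
    have n4 : (4 : F) ≠ 0 := fun e => mul_ne_zero h2 h2 (by linear_combination e)
    have b1 : h.B r r * h.B r' r' = h.B r r' ^ 2 := 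
      mul_left_cancel₀ n4 (by linear_combination hβ - e)
    have b2 := hi (h.B r' r') (-h.B r r') (a0 _ (by simp [ec r' r]; linear_combination b1)
      (by simp; ring) (by simp [ec r b, ec r' b, a1, a2]))
    have b3 := hi (h.B r r') (-h.B r r) (a0 _ (by simp [ec r' r]; ring)
      (by simp; linear_combination -b1) (by simp [ec r b, ec r' b, a1, a2]))
    simpa using hi 1 0 (by simpa using a0 r (by simpa using b3.2) b3.1 (ec b r ▸ a1))
  let X : V →ₗ[F] V := t x ∘ₗ p.cs x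
  have hX : ∀ v, X v = t x (p.cs x v) := fun _ => rfl
  let E : V →ₗ[F] V := ((2 * h.Q b)⁻¹ • Φ.B (t x b)).smulRight (t x b)
  have hE : ∀ v, E v = ((2 * h.Q b)⁻¹ * Φ.B (t x b) v) • t x b := fun _ => rfl
  clear_value X E
  have a5 : ∀ c : F, ∃ m ∈ H, ∀ v, m v = v + c • X v := fun c => by
    obtain ⟨a, ha, b1⟩ := exists_tv_alt p.fn p.fe p.fk x c
    obtain ⟨m, b2, b3⟩ := p.tens ha (one_mem _)
    exact ⟨m, hM b2, ext_t p.ht (f := m.toLinearMap) (f' := LinearMap.id + c • X)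
      (by simp [b3, b1, hX, smul_smul])⟩
  have a6 : ∀ z, X (ρ (t x z)) = t x ((2 * h.B z r) • r' - (2 * h.B z r') • r) := fun z => by
    simp [hX, h1.eq, e1 (t x z), p.B_t', p.f0, hr, hr']
    abel
  have a7 : ρ (t x b) = t x b := by simp [h1.eq, e1 (t x b), h4, h5]
  have a8 : ∀ v, E (ρ v) = E v := fun v => by
    rw [hE, hE, ← a7, h1.O.1, a7]
  have a9 : ∀ v, X (ρ (X (ρ (X v)))) = β • (X v - E v) := fun v => by
    rw [hX v, a6, a6, hE, p.B_t']
    obtain ⟨α, β, γ, e⟩ := a3 (p.cs x v)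
    simp only [e, hβ, map_add, map_sub, map_smul, LinearMap.add_apply, LinearMap.sub_apply,
      LinearMap.smul_apply, smul_eq_mul, a1, a2, ec r' r, B_self_quad p.hk b, ec r b, ec r' b]
    match_scalars <;> field_simp <;> ring
  have a10 : ∀ v, X (X v) = 0 := fun v => by simp [hX, p.f0]
  have a11 : ∀ v, E (X v) = 0 := fun v => by simp [hX, hE, p.B, p.f0]
  have sq := h1.sq p.ε p.kap
  obtain ⟨a, a0, ha⟩ : ∃ a : F, a ≠ 0 ∧ a ^ 2 * β ≠ -1 := by
    obtain ⟨l, l0, l1⟩ := Qp.exists_sq_ne_one hq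
    by_cases e : β = -1
    · exact ⟨l, l0, by simpa [e] using l1⟩
    · exact ⟨1, one_ne_zero, by simpa⟩
  obtain ⟨m, b1, b2⟩ := a5 a
  obtain ⟨m', b3, b4⟩ := a5 (-(a * β)⁻¹)
  obtain ⟨g, b5, b6⟩ := braid3 (Y := ρ.toLinearMap ∘ₗ X ∘ₗ ρ.toLinearMap) (E := E) (β := β)
    (b := -(a * β)⁻¹) a10 (by simp [sq, a10]) (by simpa using a9)
    (fun v => by simp [a9, a8, hE v, a7]) a11 (by simp [a8, a11]) (by simp [hE, p.B, p.f0]) b1
    (mul_mem (mul_mem hρ b3) hρ) b2 (by simp [b4, sq]) (by field_simp)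
  refine p.win3 hM hH h3 hq hx hb (κ := (a - -(a * β)⁻¹) * (2 * h.Q b)⁻¹) (mul_ne_zero
    (fun e => ha ?_) (by simp [h2, hb])) b5 fun v => by rw [b6, hE, smul_smul, mul_assoc]
  field_simp at e
  linear_combination e

end So

end H23.Pr
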