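import Cfsg.Agent.H23.Sh3

/-! Maximality of `Sp₂ ∘ GO₃` in `Sp₆`. -/

set_option autoImplicit false

namespace H23.Pr

open Module H22 Cfsg Cfsg.Geo Form Tn Nd Zd

variable {F S W V : Type*} [Field F] [AddCommGroup S] [Module F S] [AddCommGroup W] [Module F W]
  [AddCommGroup V] [Module F V]

theorem exists_orth [FiniteDimensional F W] {h : Form (RingHom.id F) W} (hn : h.Nondeg)
    (hk : h.κ = 1) (h2 : (2 : F) ≠ 0) (h3 : finrank F W = 3) {a d : W} (ha : h.Q a ≠ 0)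
    (hd : d = 0 ∨ h.Q d ≠ 0) (h0 : h.B a d = 0) :
    ∃ e, h.Q e ≠ 0 ∧ h.B a e = 0 ∧ h.B d e = 0 := by
  obtain ⟨z, -, a1, a2⟩ := hn.exists_perp_notMem (T := ⊤) (S := ⊥) [a, d] (by simp [h3])
  obtain ⟨e, b1, b2⟩ := exists_Q_ne_zero_perp hk hn (Z := Submodule.span F {x | x ∈ [a, d]})
    fun e => a1 (by
      have b1 := a2 a (by simp)
      have b2 := a2 d (by simp)
      have := e (mem_perp_pair.2 ⟨b1, b2⟩)
      rw [show {x | x ∈ [a, d]} = {a, d} by ext; simp] at this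
      obtain ⟨α, β, rfl⟩ := Submodule.mem_span_pair.1 this
      have := B_comm_quad hk d a
      rcases hd with rfl | hd <;> simp_all [B_self_quad hk])
  exact ⟨e, b2, mem_perp_pair.1 b1⟩

namespace So

variable {Φ : Form (RingHom.id F) V} {f : Form (RingHom.id F) S} {h : Form (RingHom.id F) W}
  {t : S →ₗ[F] W →ₗ[F] V} (p : So Φ f h t) {H : Subgroup (V ≃ₗ[F] V)} {u w a b d : W} {x y : S}
  {q q' v : V} {g ρ ρ' : V ≃ₗ[F] V}
include p

theorem join [FiniteDimensional F W] {w₀ u₀ u' : W} {a b b' : S ≃ₗ[F] S} (h0 : w₀ ≠ 0)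
    (e : w ∉ F ∙ w₀) (a1 : ∀ s, g (t s w₀) = t (a s) u₀) (b3 : ∀ s, g (t s w) = t (b s) u)
    (b4 : ∀ s, g (t s (w₀ + w)) = t (b' s) u') : ∃ w', ∀ s, g (t s w) = t (a s) w' := by
  have := p.nt
  obtain ⟨x, hx⟩ := exists_ne (0 : S)
  have b5 : u ∉ F ∙ u₀ := fun e' => by
    obtain ⟨c, rfl⟩ := Submodule.mem_span_singleton.1 e'
    obtain ⟨y, c1, c2⟩ := p.hn.exists_perp_eq_one e
    have := congrArg (p.cv y) (g.injective ((b3 x).trans
      (show _ = g (t (a⁻¹ (c • b x)) w₀) by simp [a1])))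
    simp [c1 w₀ (Submodule.mem_span_singleton_self _), c2, hx] at this
  have b6 : u₀ ≠ 0 := by
    rintro rfl
    exact hx (t_eq_zero p.ht h0 (by simpa using a1 x))
  obtain ⟨y, c1, c2⟩ := p.hn.exists_perp_eq_one b5
  obtain ⟨y', c3, c4⟩ := p.hn.exists_perp_eq_one (notMem_sup_span_swap (S := ⊥) (by simpa)
    (by simpa) : u₀ ∉ ⊥ ⊔ F ∙ u)
  replace c1 := c1 u₀ (Submodule.mem_span_singleton_self _)
  replace c3 := c3 u (Submodule.mem_sup_right (Submodule.mem_span_singleton_self u))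
  have c5 : ∀ s, t (a s) u₀ + t (b s) u = t (b' s) u' := fun s => by simp [← a1, ← b3, ← b4]
  have c6 : ∀ s, b s = h.B y u' • b' s := fun s => by
    simpa [c1, c2] using congrArg (p.cv y) (c5 s)
  have c7 : ∀ s, a s = h.B y' u' • b' s := fun s => by
    simpa [c3, c4] using congrArg (p.cv y') (c5 s)
  have c8 : h.B y' u' ≠ 0 := fun e => by simpa [e, hx] using c7 x
  exact ⟨(h.B y u' / h.B y' u') • u, fun s => by simp [b3, c6, c7, smul_smul, c8]⟩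

variable [FiniteDimensional F W] [FiniteDimensional F V] [Fintype F] (hM : Tg F t ⊓ Φ.O ≤ H)
  (hH : H ≤ Φ.O) (h3 : finrank F W = 3) (hq : 4 ≤ Fintype.card F) (hN : ¬ Φ.O ≤ H)
include hM hH h3 hq hN

theorem blk3 (h1 : IsPr Φ ρ q q') (hρ : ρ ∈ H) (hb : h.Q b ≠ 0)
    (h4 : ∀ s, Φ.B (t s b) q = 0) (h5 : ∀ s, Φ.B (t s b) q' = 0) :
    ∃ r, h.Q r ≠ 0 ∧ h.B b r = 0 ∧ p.Rf r ρ := by
  have := p.fd
  have e0 := B_self_alt p.ε p.kap
  obtain ⟨x, y, hx, e⟩ := p.exists_hypS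
  have e' : f.B y x = -1 := by rw [B_neg_alt p.fe, e]
  have a1 : ∀ x, x ≠ 0 → ∃ z, z ≠ 0 ∧ ∃ α β : F, t x z = α • q + β • q' := fun x hx => by
    by_contra hc
    refine hN (p.win_pr hM hH h3 hq h1 hρ hb h4 h5 hx fun α β e => by_contra fun e' => hc ?_)
    obtain ⟨y, hy⟩ := p.fn.exists_ne hx
    have b1 := p.dec hy (α • q + β • q')
    rw [map_add (p.cs x), map_smul, map_smul, e, map_zero, zero_sub, ← map_neg] at b1
    refine ⟨_, fun e0' => e' ?_, α, β, b1.symm⟩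
    rw [e0', map_zero] at b1
    have b2 := congrArg (Φ.B q) b1
    have b3 := congrArg (Φ.B q') b1
    simp [e0, h1.one, B_neg_alt p.ε q q'] at b2 b3
    exact ⟨b3, b2⟩
  obtain ⟨z₁, c1, α₁, β₁, d1⟩ := a1 x hx
  obtain ⟨z₂, c2, α₂, β₂, d2⟩ := a1 y (by rintro rfl; simp at e)
  obtain ⟨z₃, c3, α₃, β₃, d3⟩ := a1 (x + y) fun e0 => by simpa [e, p.f0] using congrArg (f.B x) e0
  have a2 : ∀ α β : F, (α₁ * β₂ - α₂ * β₁) • (α • q + β • q') =
      (α * β₂ - β * α₂) • t x z₁ + (β * α₁ - α * β₁) • t y z₂ := fun α β => by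
    rw [d1, d2]; module
  generalize α₁ * β₂ - α₂ * β₁ = δ at a2
  have a3 : δ ≠ 0 := by
    rintro rfl
    have b0 : ∀ α β : F, β * α₁ - α * β₁ = 0 := fun α β => by
      simpa [p.f0, e, c2, eq_comm] using congrArg (p.cs x) (a2 α β)
    have b1 : α₁ = 0 := by simpa using b0 0 1
    have b2 : β₁ = 0 := by simpa using b0 1 0
    exact hx (t_eq_zero p.ht c1 (by simp [d1, b1, b2]))
  have a4 := a2 α₃ β₃
  rw [← d3] at a4
  have b1 := congrArg (p.cs x) a4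
  have b2 := congrArg (p.cs y) a4
  simp only [map_add, map_smul, cs_t, p.f0, e, e', zero_smul, one_smul, zero_add, add_zero,
    smul_zero, neg_smul, smul_neg, neg_inj, LinearMap.add_apply] at b1 b2
  have a5 : ∀ {c : F} {z : W}, δ • z₃ = c • z → ∃ μ : F, z = μ • z₃ := fun {c z} e =>
    have : c ≠ 0 := by rintro rfl; simp [a3, c3] at e
    ⟨c⁻¹ * δ, by simp [mul_smul, e, this]⟩
  obtain ⟨μ₂, rfl⟩ := a5 b1
  obtain ⟨μ₁, rfl⟩ := a5 b2
  have a6 : ∀ α β : F, ∃ s, α • q + β • q' = t s z₃ := fun α β =>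
    ⟨δ⁻¹ • (((α * β₂ - β * α₂) * μ₁) • x + ((β * α₁ - α * β₁) * μ₂) • y),
      smul_right_injective V a3 (by simp [a2, a3, smul_smul])⟩
  obtain ⟨s, a7⟩ := a6 1 0
  obtain ⟨s', a8⟩ := a6 0 1
  simp only [one_smul, zero_smul, add_zero, zero_add] at a7 a8
  subst a7 a8
  have a9 : f.B s s' * (2 * h.Q z₃) = 1 := by simpa [p.B, B_self_quad p.hk] using h1.one
  have a10 : h.Q z₃ ≠ 0 := right_ne_zero_of_mul (right_ne_zero_of_mul_eq_one a9)
  obtain ⟨ρ', c4⟩ := p.exists_rf z₃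
  have c5 := (c4.isPr a10 (x := s) (y := (2 * h.Q z₃) • s') (by simpa [mul_comm] using a9)).eq
  rw [inv_smul_smul₀ (right_ne_zero_of_mul_eq_one a9)] at c5
  obtain rfl : ρ = ρ' := LinearEquiv.ext fun z => by rw [h1.eq, c5]
  exact ⟨z₃, a10, by simpa [p.B, left_ne_zero_of_mul_eq_one a9] using h5 s, c4⟩

theorem rf_of_comm (h1 : IsPr Φ ρ q q') (hρ : ρ ∈ H) (hb : h.Q b ≠ 0) (h4 : p.Rf b ρ')
    (hc : ∀ z, ρ' (ρ z) = ρ (ρ' z)) : ρ' = ρ ∨ ∃ r, h.Q r ≠ 0 ∧ h.B b r = 0 ∧ p.Rf r ρ := by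
  obtain ⟨x, y, hx, e⟩ := p.exists_hypS
  refine ((h4.isPr hb e).comm p.ε p.kap p.odd h1 hc).imp_right fun ⟨a1, a2, a3, a4⟩ => ?_
  simp only [map_smul, LinearMap.smul_apply, smul_eq_mul, mul_eq_zero, inv_eq_zero, p.odd, hb,
    or_self, false_or] at a2 a4
  exact p.blk3 hM hH h3 hq hN h1 hρ hb (fun s => by rw [p.expand e s]; simp [a1, a2])
    fun s => by rw [p.expand e s]; simp [a3, a4]

omit hM hH h3 hq hN [FiniteDimensional F W] [FiniteDimensional F V] [Fintype F] in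
theorem blk_of_conj (ha : h.Q a ≠ 0) (hb : h.Q b ≠ 0) (h1 : p.Rf a ρ) (h2 : p.Rf b (g * ρ * g⁻¹)) :
    ∃ α : S ≃ₗ[F] S, ∀ s, g (t s a) = t (α s) b :=
  have := p.fd
  exists_blockEquiv p.ht (by rintro rfl; simp at ha) fun s => h2.blk hb (by simp [h1.neg ha])

theorem step3 (hg : g ∈ H) (hb : h.Q b ≠ 0) {α : S ≃ₗ[F] S}
    (h1 : ∀ s, g (t s a) = t (α s) b) (hd : h.Q d ≠ 0) (h4 : h.B a d = 0) :
    ∃ r, h.Q r ≠ 0 ∧ ∃ β : S ≃ₗ[F] S, ∀ s, g (t s d) = t (β s) r := by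
  obtain ⟨x, y, hx, e⟩ := p.exists_hypS
  obtain ⟨ρ, a1⟩ := p.exists_rf d
  have a2 : ∀ s s', Φ.B (t s b) (g (t s' d)) = 0 := fun s s' => by
    rw [← α.apply_symm_apply s, ← h1, (hH hg).1, p.B, h4, mul_zero]
  obtain ⟨r, b1, -, b2⟩ := p.blk3 hM hH h3 hq hN ((a1.isPr hd e).conj (hH hg))
    (mul_mem (mul_mem hg (hM a1.1)) (inv_mem hg)) hb (fun s => a2 s _) fun s => a2 s _
  exact ⟨r, b1, p.blk_of_conj hd b1 a1 b2⟩

theorem tens3 (hg : g ∈ H) (ha : h.Q a ≠ 0) (hb : h.Q b ≠ 0) {α : S ≃ₗ[F] S}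
    (h1 : ∀ s, g (t s a) = t (α s) b) : g ∈ Tg F t ∧ IsSquare (h.Q b / h.Q a) := by
  have := p.fd
  have := p.nt
  have h2 := p.odd
  have ec := B_comm_quad p.hk
  have : Finite W := Module.finite_of_finite F
  let X : Submodule F W :=
    { carrier := {w | ∃ w', ∀ s, g (t s w) = t (α s) w'}
      add_mem' := fun ⟨u, hu⟩ ⟨u', hu'⟩ => ⟨u + u', by simp [hu, hu']⟩
      zero_mem' := ⟨0, by simp⟩
      smul_mem' := fun c _ ⟨u, hu⟩ => ⟨c • u, by simp [hu]⟩ }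
  have a1 : ∀ d e, h.Q d ≠ 0 → h.Q e ≠ 0 → h.B a d = 0 → h.B a e = 0 → h.B d e = 0 → e ∈ X :=
    fun d e b1 b2 b3 b4 b5 => by
      obtain ⟨c, c0, c1⟩ : ∃ c : F, c ≠ 0 ∧ h.Q (a + c • e) ≠ 0 := by
        obtain ⟨l, l0, l1⟩ := Qp.exists_sq_ne_one hq
        by_contra! hc
        have d1 := hc l l0
        have d2 := hc 1 one_ne_zero
        simp [Q_add_quad p.hk, h.Q_smul, b4] at d1 d2
        exact mul_ne_zero (sub_ne_zero.2 l1) b2 (by linear_combination d1 - d2)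
      obtain ⟨r, d1, β, d2⟩ := p.step3 hM hH h3 hq hN hg hb h1 b1 b3
      obtain ⟨u, -, γ, d3⟩ := p.step3 hM hH h3 hq hN hg d1 d2 (d := c • e)
        (by simp [h.Q_smul, c0, b2]) (by simp [b5])
      obtain ⟨u', -, γ', d4⟩ := p.step3 hM hH h3 hq hN hg d1 d2 c1 (by simp [b5, ec d a, b3])
      refine (X.smul_mem_iff c0).1 (p.join (by rintro rfl; simp at ha) (fun e' => ?_) h1 d3 d4)
      obtain ⟨k, hk⟩ := Submodule.mem_span_singleton.1 e'
      simpa [ec e a, b4, B_self_quad p.hk, c0, h2, b2] using congrArg (h.B e) hk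
  obtain ⟨d, b1, b2, -⟩ := exists_orth p.hn p.hk h2 h3 ha (.inl rfl) (by simp)
  obtain ⟨e, b3, b4, b5⟩ := exists_orth p.hn p.hk h2 h3 ha (.inr b1) b2
  have a2 : ∀ w, w ∈ X := fun w => by
    obtain ⟨i, j, k, rfl⟩ := span3 p.hk h2 h3 ha b2 b4 (fun i j e0 => by
      have c1 := congrArg (h.B d) e0
      have c2 := congrArg (h.B e) e0
      simp [B_self_quad p.hk, b5, ec e d, h2, b1, b3] at c1 c2
      exact ⟨c1, c2⟩) w
    exact X.add_mem (X.add_mem (X.smul_mem _ (a1 e d b3 b1 b4 b2 (ec d e ▸ b5)))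
      (X.smul_mem _ (a1 d e b1 b3 b2 b4 b5))) (X.smul_mem _ ⟨b, h1⟩)
  refine ⟨mem_Tg_of p.ht α a2, ?_⟩
  obtain ⟨x, y, hx, e⟩ := p.exists_hypS
  let k : End F W := p.cs x ∘ₗ g.toLinearMap ∘ₗ t (α.symm y)
  have a3 : ∀ s w, g (t s w) = t (α s) (k w) := fun s w => by
    obtain ⟨w', hw⟩ := a2 w
    simp [k, hw, e]
  clear_value k
  have a4 : k a = b := t_inj p.ht (x := α x) (by simpa) ((a3 x a).symm.trans (h1 x))
  have a5 : ∀ w w', f.B (α x) (α y) * h.B (k w) (k w') = h.B w w' := fun w w' => by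
    simpa [a3, p.B, e] using (hH hg).1 (t x w) (t y w')
  have a6 := a5 a a
  rw [a4, B_self_quad p.hk, B_self_quad p.hk] at a6
  refine Qv.sq_of_sim p.hn p.hk h3 (g := k) (div_ne_zero hb ha) fun w w' => ?_
  rw [← a5 w w']
  field_simp
  linear_combination -h.B (k w) (k w') * mul_left_cancel₀ h2 (show 2 * (f.B (α x) (α y) * h.Q b) =
    2 * h.Q a by linear_combination a6)

theorem mem_Tg3 (hg : g ∈ H) : g ∈ Tg F t := by
  have := Module.finite_of_finite F (M := V)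
  have : Finite (V ≃ₗ[F] V) := DFunLike.finite _
  have h2 := p.odd
  have ec := B_comm_quad p.hk
  obtain ⟨s, -, b1, b2⟩ := exists_sing (D := ⊤) p.hk (by simp [h3])
  obtain ⟨s', hs⟩ := exists_hyp p.hn ((sing_quad p.hk).2 b1) b2
  obtain ⟨ν, hν⟩ := FiniteField.exists_nonsquare (ringChar_ne_two h2)
  have hν0 : ν ≠ 0 := fun h => hν (h ▸ IsSquare.zero)
  have b3 : h.Q (ν • s + s') = ν := by
    simp [Q_add_quad p.hk, h.Q_smul, hs.left.2, hs.right.2, hs.one]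
  have b4 : h.Q (s + s') = 1 := by simp [Q_add_quad p.hk, hs.left.2, hs.right.2, hs.one]
  generalize ν • s + s' = b at b3
  generalize s + s' = a at b4
  have ha : h.Q a ≠ 0 := by simp [b4]
  have hb : h.Q b ≠ 0 := by simpa [b3]
  obtain ⟨x, y, hx, e⟩ := p.exists_hypS
  obtain ⟨ρ, r1⟩ := p.exists_rf a
  obtain ⟨ρ', r2⟩ := p.exists_rf b
  have r3 := (r1.isPr ha e).conj (hH hg)
  have r4 := r2.isPr hb e
  have a1 := mul_mem (mul_mem hg (hM r1.1)) (inv_mem hg)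
  have a2 : ρ' * ρ' = 1 := LinearEquiv.ext (r4.sq p.ε p.kap)
  rcases Qv.dihedral (hM r2.1) a1 a2 (LinearEquiv.ext (r3.sq p.ε p.kap)) with
    ⟨k, c1, c2⟩ | ⟨z, c1, c2, c3, c4, c5, k, c7, c6⟩
  · obtain ⟨α, d1⟩ := p.blk_of_conj (g := k * g) ha hb r1 (by convert r2 using 1; rw [← c2]; group)
    have := (p.tens3 hM hH h3 hq hN (mul_mem c1 hg) ha hb d1).2
    rw [b3, b4, div_one] at this
    exact (hν this).elim
  obtain ⟨q, q', d1⟩ : ∃ q q', IsPr Φ (z * ρ') q q' := by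
    rcases c6 with e | e
    · exact ⟨_, _, e ▸ r4.conj (hH c7)⟩
    · exact ⟨_, _, e ▸ r3.conj (hH c7)⟩
  obtain d2 | ⟨c, d2, d3, d4⟩ := p.rf_of_comm hM hH h3 hq hN d1 (mul_mem c1 (hM r2.1)) hb r2
    fun v => DFunLike.congr_fun (show ρ' * (z * ρ') = z * ρ' * ρ' by rw [← mul_assoc, c4]) v
  · exact (c2 (by simpa using d2)).elim
  obtain ⟨d, d5, d6, d7⟩ := exists_orth p.hn p.hk h2 h3 hb (.inr d2) d3
  obtain ⟨τ, d8⟩ := p.exists_rf d
  have d9 : ∀ v, τ v = -z v := ext_t p.ht (f := τ.toLinearMap) (f' := -z.toLinearMap) fun s u => by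
    have : z (t s u) = (z * ρ') (ρ' (t s u)) := by rw [← LinearEquiv.mul_apply, mul_assoc, a2, mul_one]
    simp only [LinearEquiv.coe_coe, LinearMap.neg_apply, this, r2.2, d4.2, d8.2, ← map_neg]
    congr 1
    obtain ⟨i, j, k, rfl⟩ := span3 p.hk h2 h3 hb d3 d6 (fun i j e0 => by
      have c1 := congrArg (h.B c) e0
      have c2 := congrArg (h.B d) e0
      simp [B_self_quad p.hk, d7, ec d c, h2, d2, d5] at c1 c2
      exact ⟨c1, c2⟩) u
    simp [refl_apply_self _ hb, refl_apply_self _ d2, refl_apply_self _ d5,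
      refl_apply_of_perp _ d3, refl_apply_of_perp _ d6, refl_apply_of_perp _ d7,
      refl_apply_of_perp _ (ec b c ▸ d3), refl_apply_of_perp _ (ec b d ▸ d6),
      refl_apply_of_perp _ (ec c d ▸ d7)]
    abel
  obtain ⟨c', e1, e2⟩ : ∃ c', h.Q c' ≠ 0 ∧ p.Rf c' (g * ρ * g⁻¹) := by
    obtain e1 | ⟨c', e1, -, e2⟩ := p.rf_of_comm hM hH h3 hq hN r3 a1 d5 d8 fun v => by
      rw [d9, d9, map_neg, neg_inj]; exact DFunLike.congr_fun c5 v
    · exact ⟨d, d5, e1 ▸ d8⟩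
    · exact ⟨c', e1, e2⟩
  obtain ⟨α, e3⟩ := p.blk_of_conj ha e1 r1 e2
  exact (p.tens3 hM hH h3 hq hN hg ha e1 e3).1

omit hM hH hN in
theorem isMaximalIn3 : IsMaximalIn Φ.E (Tg F t ⊓ Φ.E) := by
  have := p.fd
  have := p.nt
  rw [E_alt p.nd p.ε p.kap]
  refine isMaximalIn_of inf_le_right ?_ fun H h1 h5 g hg hg' => by_contra fun h4 =>
    hg' ⟨p.mem_Tg3 h1 h5 h3 hq h4 hg, h5 hg⟩
  obtain ⟨u, -, a1, a2⟩ := exists_sing (D := ⊤) p.hk (by simp [h3])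
  replace a1 : h.B u u = 0 := by simp [B_self_quad p.hk, a1]
  obtain ⟨w, a3⟩ := p.hn.exists_ne a2
  obtain ⟨x, hx⟩ := exists_ne (0 : S)
  obtain ⟨y, hy⟩ := p.fn.exists_ne hx
  obtain ⟨T, a4, a5⟩ := exists_tv_alt p.nd p.ε p.kap (t x u) 1
  refine ⟨T, a4, fun ⟨⟨α, β, b2⟩, _⟩ => ?_⟩
  have b3 := congrArg (p.cs x) (b2 y w)
  have b4 := congrArg (p.cs y) (b2 y w)
  simp [a5, p.B, p.f0, hy, a3, B_neg_alt p.fe x y] at b3 b4
  have b5 := congrArg (h.B u) b3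
  have b6 := congrArg (h.B u) b4
  simp [a3, a1] at b5 b6
  rcases b6 with b6 | b6
  · exact a2 (by simpa [b6] using b4)
  · simp [b6] at b5

end So

theorem isMaximalIn_so3 [Fintype F] {m : ℕ} (h2 : (2 : F) ≠ 0) (h5 : 4 ≤ Fintype.card F)
    {e : (Fin m ⊕ Fin m) ≃ Fin 2 × Fin 3} {P : GL (Fin m ⊕ Fin m) F} {f₁ f₂}
    (hf₁ : IsSymplecticForm f₁) (hf₂ : IsSymmetricForm f₂)
    (hT : IsTensorFormStructure id (sympForm m F) f₁ f₂ e P) :
    IsMaximalIn (spGL m F) (tensorProductSubgroup 2 3 e P ⊓ spGL m F) := by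
  obtain ⟨c, a1, a2⟩ := As.tensor_pure (σ := RingHom.id F) hT
  obtain ⟨f, b1, b2, b3, b4⟩ := exists_form_of_isSymplecticForm hf₁
  let β : LinearMap.BilinMap F (Fin 3 → F) F := LinearMap.mk₂ F f₂ hf₂.bilinear.add_left
    hf₂.bilinear.smul_left hf₂.bilinear.add_right hf₂.bilinear.smul_right
  have c1 : ∀ u v, (ofQuad ((2 : F)⁻¹ • β).toQuadraticMap).B u v = f₂ u v := fun u v => by
    refine (LinearMap.BilinMap.polar_toQuadraticMap ..).trans ?_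
    simp [β, hf₂.symm v u]
    field_simp; ring
  refine isMaximalIn_of_iff (glE _ F) (So.isMaximalIn3
    (f := ofAlt (c • f.B) fun x => by simp [B_self_alt b2 b3])
    (h := ofQuad ((2 : F)⁻¹ • β).toQuadraticMap)
    ⟨isTensorProduct_tP e P, spForm_nondeg m, rfl, rfl,
      fun x hx => b1 x fun y => by simpa [ofAlt, a1] using hx y, rfl, rfl, fun x hx => ?_, rfl, h2,
      by simp, fun x w y w' => ((spForm_B ..).trans (a2 x w y w')).trans ?_⟩ (by simp) h5)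
    (fun g => mem_spGL_iff_E) fun g =>
      and_congr (mem_tensorProductSubgroup_iff_Tg two_pos) mem_spGL_iff_E
  · by_contra h0
    obtain ⟨y, hy⟩ := (hf₂.nondegenerate x h0).2
    exact hy (c1 x y ▸ hx y)
  rw [c1, ← As.eq_fog_of_bilin hf₁.bilinear, ← As.eq_fog_of_bilin hf₂.bilinear, b4]
  rfl

end H23.Pr
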