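import Cfsg.Agent.H23.C8

/-! Orthogonal groups are maximal in `Sp` in characteristic two, in all dimensions `≥ 3`. -/

set_option autoImplicit false

namespace H23.Sq

open Module H22 Cfsg Cfsg.Geo Form

variable {F V : Type*} [Field F] [AddCommGroup V] [Module F V] [FiniteDimensional F V]
  {Ψ : Form (RingHom.id F) V} {H : Subgroup (V ≃ₗ[F] V)}

omit [FiniteDimensional F V] in
theorem data_alt (hε : Ψ.ε = -1) (hκ : Ψ.κ = 0) {u e : V} (s : F) (h : Ψ.B u e = 0) :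
    EichData Ψ u e s :=
  ⟨sing_alt hε hκ u, h, by simp [(sing_alt hε hκ e).1, hε], by simp [hκ, Q_of_κ hκ]⟩

theorem E_le_of_tv (hΨ : Ψ.Nondeg) (hε : Ψ.ε = -1) (hκ : Ψ.κ = 0)
    (h : ∀ u s, Ψ.EIn H u 0 s) : Ψ.E ≤ H := by
  rw [E_alt hΨ hε hκ, ← hΨ.closure_transvections_alt (fun v => (sing_alt hε hκ v).1) (Q_of_κ hκ)]
  refine (Subgroup.closure_le _).2 ?_
  rintro g ⟨-, d, c, -, h1⟩
  obtain ⟨k, hk, h2⟩ := h d (-c)
  rwa [show g = k from LinearEquiv.ext fun x => by simp [h1, h2, eichler_apply, qrefl_apply]]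

theorem isMaximalIn_O_Sp [Finite F] {Φ : Form (RingHom.id F) V} (hΦ : Φ.Nondeg) (hκ : Φ.κ = 1)
    (hε' : Ψ.ε = -1) (hκ' : Ψ.κ = 0) (hB : Ψ.B = Φ.B) (h2 : (2 : F) = 0)
    (hV : 3 ≤ finrank F V) : IsMaximalIn Ψ.E Φ.O := by
  have hΨ : Ψ.Nondeg := fun x hx => hΦ x (hB ▸ hx)
  have h3 := iso3_quad hκ
  have hO : Φ.O ≤ Ψ.O := fun g hg => ⟨hB ▸ hg.1, by simp [Q_of_κ hκ']⟩
  have hd : ∀ u s, EichData Ψ u 0 s := fun u s => data_alt hε' hκ' s (by simp)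
  have hei : ∀ u s v, Ψ.eichler u 0 s v = v + (-(s * Φ.B u v)) • u := fun u s v => by
    simp [eichler_apply, hB]
  obtain ⟨u, hu0, hu⟩ := h3.exists_sing hV
  obtain ⟨f, hf⟩ := exists_hyp hΦ hu hu0
  refine isMaximalIn_of (E_alt hΨ hε' hκ' ▸ hO) ?_ fun H hMH hHE g hg hgM => ?_
  · obtain ⟨g, hg⟩ := exists_eich hΨ (hd u 1)
    refine ⟨g, mem_E (hd u 1) hg, fun h => ?_⟩
    have := h.2 f
    rw [hg, hei, Q_add_smul] at this
    simp [hf.one, hu.2, hf.B_symm, hκ, Φ.eps_ne_zero] at this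
  have hgO := E_le_O (hHE hg)
  have hR : ∀ v, Φ.Q v ≠ 0 → Ψ.EIn H v 0 (Φ.Q v)⁻¹ := fun v hv => by
    obtain ⟨k, hk⟩ := exists_eich hΨ (hd v (Φ.Q v)⁻¹)
    refine ⟨k, hMH ⟨hB ▸ (mem_O_of_eich (hd _ _) hk).1, fun x => ?_⟩, hk⟩
    rw [hk, hei, Q_add_smul, hκ, B_comm_quad hκ x v]
    field_simp; ring
  obtain ⟨w, hw, hw1⟩ : ∃ w, Sing Φ w ∧ Φ.Q (g w) ≠ 0 := by
    by_contra h
    push Not at h
    let U : Submodule F V :=
      { carrier := {x | Φ.Q (g x) = Φ.Q x}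
        add_mem' := fun {a b} ha hb => by
          simp only [Set.mem_ofPred_eq] at ha hb ⊢
          rw [map_add, Φ.Q_add, Φ.Q_add, ha, hb, ← hB, hgO.1]
        zero_mem' := by simp
        smul_mem' := fun c a ha => by
          simp only [Set.mem_ofPred_eq] at ha ⊢
          rw [map_smul, Φ.Q_smul, Φ.Q_smul, ha] }
    exact hgM ⟨hB ▸ hgO.1, fun x => le_of_sing_mem (D := ⊤) (U := U) hf trivial trivial
      (fun y _ hy => (h y hy).trans hy.2.symm) (Submodule.mem_top (x := x))⟩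
  have hw0 : w ≠ 0 := by rintro rfl; simp at hw1
  have h4 := (hR _ hw1).conj (H.inv_mem hg) (Ψ.O.inv_mem hgO)
  simp only [LinearEquiv.coe_inv, LinearEquiv.symm_apply_apply, map_zero] at h4
  have hc := inv_ne_zero hw1
  generalize (Φ.Q (g w))⁻¹ = c at h4 hc
  have hS : ∀ x, Sing Φ x → ∀ s, Ψ.EIn H x 0 s := fun x hx s => by
    by_cases hx0 : x = 0
    · exact hx0 ▸ qIn_zero H _ _ (hd 0 s)
    by_cases hs : s = 0
    · exact hs ▸ eIn_zero H x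
    obtain ⟨a, ha⟩ := isSquare_of_two_eq_zero h2 (s / c)
    have ha0 : a ≠ 0 := by rintro rfl; simp [hs, hc] at ha
    obtain ⟨k, hk, h1⟩ := hΦ.witt_one hw0 (smul_ne_zero ha0 hx0)
      (hw.1.trans (hx.smul a).1.symm) (hw.2.trans (hx.smul a).2.symm)
    have := h4.conj (hMH hk) (hO hk)
    rwa [h1, map_zero, eIn_smul_left, smul_zero, RingHom.id_apply, ← ha,
      div_mul_cancel₀ _ hc] at this
  refine E_le_of_tv hΨ hε' hκ' fun x s => ?_
  by_cases hx0 : x = 0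
  · exact hx0 ▸ qIn_zero H _ _ (hd 0 s)
  obtain ⟨y, hy, h5⟩ : ∃ y, Sing Φ y ∧ Φ.B x y ≠ 0 := by
    by_contra h
    push Not at h
    exact hx0 (hΦ x fun y => le_of_sing_mem (D := ⊤) (U := LinearMap.ker (Φ.B x)) hf trivial
      trivial (fun y _ hy => h y hy) (Submodule.mem_top (x := y)))
  have h6 : Sing Φ (x + (-(Φ.Q x / Φ.B x y)) • y) := by
    have : Φ.Q (x + (-(Φ.Q x / Φ.B x y)) • y) = 0 := by
      rw [Q_add_smul, hy.2, hκ]; field_simp; ring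
    exact ⟨by rw [B_self_quad hκ, this, mul_zero], this⟩
  obtain ⟨k, hk, h7⟩ := hS y hy (-(Φ.Q x / Φ.B x y ^ 2))
  have := (hS _ h6 s).conj hk (mem_O_of_eich (hd _ _) h7)
  rwa [map_zero, h7, hei, show x + (-(Φ.Q x / Φ.B x y)) • y + _ = x by
    rw [map_add, B_smul_right, hy.1, B_comm_quad hκ y x, add_assoc, ← add_smul,
      show -(Φ.Q x / Φ.B x y) + _ = (0 : F) by field_simp; ring, zero_smul, add_zero]] at this

end H23.Sq
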