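import Cfsg.Agent.H23.Sf5
import Cfsg.Agent.H23.Sq1

/-! Subfield subgroups of `Sp` in characteristic two, in all dimensions `≥ 4`. -/

set_option autoImplicit false

namespace H23.Sq

open Module H22 Cfsg Cfsg.Geo Form Sf

variable {F V : Type*} [Field F] [AddCommGroup V] [Module F V] {F₀ : Subfield F}

/-- A rational structure on a symplectic space in characteristic two. -/
structure RA (Φ : Form (RingHom.id F) V) (V₀ : Submodule F₀ V) : Prop extends RB Φ V₀ where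
  nd : Φ.Nondeg
  e1 : Φ.ε = -1
  k0 : Φ.κ = 0
  two : (2 : F) = 0
  big : 4 ≤ finrank F V

variable {Φ : Form (RingHom.id F) V} {V₀ : Submodule F₀ V} {K : Subgroup (V ≃ₗ[F] V)}
  {g : V ≃ₗ[F] V} {u e w x y : V} {s α β γ δ : F}

theorem RA.self (h : RA Φ V₀) (v : V) : Φ.B v v = 0 := (sing_alt h.e1 h.k0 v).1

theorem RA.neg (h : RA Φ V₀) (a : F) : -a = a := by linear_combination -a * h.two

theorem RA.comm (h : RA Φ V₀) (x y : V) : Φ.B x y = Φ.B y x := by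
  rw [Φ.symm y x, h.e1]; simp [h.neg]

theorem RA.eich (h : RA Φ V₀) (u e : V) (s : F) (v : V) :
    Φ.eichler u e s v = v + (Φ.B e v + s * Φ.B u v) • u + Φ.B u v • e := by
  rw [eichler_apply, h.e1, sub_eq_add_neg, h.neg]; simp

theorem RA.data (h : RA Φ V₀) (s : F) (h0 : Φ.B u e = 0) : EichData Φ u e s :=
  data_alt h.e1 h.k0 s h0

theorem RA.add_self (h : RA Φ V₀) (v : V) : v + v = 0 := by
  rw [← two_smul F v, h.two, zero_smul]

theorem RA.sq_mem [Finite F] (h : RA Φ V₀) (h1 : α ^ 2 ∈ F₀) : α ∈ F₀ := by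
  obtain ⟨c, hc, h2⟩ := exists_sq_eq h.two h1
  have : (α - c) ^ 2 = 0 := by linear_combination -h2 + (c ^ 2 - α * c) * h.two
  rwa [sub_eq_zero.1 (pow_eq_zero_iff two_ne_zero |>.1 this)]

variable [Finite V] [FiniteDimensional F V]

theorem RA.finrank_comap (h : RA Φ V₀) (U : Submodule F V) :
    finrank F₀ ((U.restrictScalars F₀).comap V₀.subtype) ≤ finrank F U := by
  let b := Module.finBasis F₀ ((U.restrictScalars F₀).comap V₀.subtype)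
  have h1 := b.linearIndependent.map' _ (Submodule.ker_subtype _)
  choose f hf using fun j => (h.nondeg h.nd).exists_prescribed h1 (Pi.single j 1)
  have h2 : LinearIndependent F fun i => ((b i : V₀) : V) :=
    linearIndependent_of_dual (Φ := Φ) (w := fun j => f j)
      (fun i j hij => congrArg Subtype.val ((hf i j).trans (Pi.single_eq_of_ne hij.symm _)))
      fun i => (congrArg Subtype.val ((hf i i).trans (Pi.single_eq_same _ _))).trans_ne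
        one_ne_zero
  simpa using (LinearIndependent.of_comp U.subtype
    (v := fun i => (⟨(b i : V₀), (b i).2⟩ : U)) h2).fintype_card_le_finrank

theorem RA.perp_one (h : RA Φ V₀) {U : Submodule F V} (hx : x ∈ V₀) (hxU : x ∉ U) :
    ∃ e ∈ V₀, (∀ y ∈ V₀, y ∈ U → Φ.B y e = 0) ∧ Φ.B x e = 1 := by
  obtain ⟨e, h1, h2⟩ := exists_perp_eq_one' (h.nondeg h.nd)
    (S := (U.restrictScalars F₀).comap V₀.subtype) (x := ⟨x, hx⟩) hxU
  exact ⟨e, e.2, fun y hy hy' => congrArg Subtype.val (h1 ⟨y, hy⟩ hy'), congrArg Subtype.val h2⟩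

theorem RA.perp_two (h : RA Φ V₀) (hu : u ∈ V₀) (hx : x ∈ V₀) (h0 : x ∉ F ∙ u) :
    ∃ e ∈ V₀, Φ.B u e = 0 ∧ Φ.B x e = 1 :=
  let ⟨e, h1, h2, h3⟩ := h.perp_one hx h0
  ⟨e, h1, h2 u hu (Submodule.mem_span_singleton_self u), h3⟩

theorem RA.hyp (h : RA Φ V₀) (hu : u ∈ V₀) (h0 : u ≠ 0) : ∃ f ∈ V₀, Φ.B u f = 1 :=
  let ⟨e, h1, _, h2⟩ := h.perp_one (U := ⊥) hu h0; ⟨e, h1, h2⟩

theorem RA.sc (h : RA Φ V₀) : Sc V₀ := fun u hu h0 c hc => by
  obtain ⟨e, h1, h2⟩ := h.hyp hu h0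
  simpa [h2] using h.B _ hc _ h1

theorem RA.mem_of (h : RA Φ V₀) (hy : ∀ x ∈ V₀, Φ.B y x ∈ F₀) : y ∈ V₀ := by
  obtain ⟨z, hz⟩ := (h.nondeg h.nd).exists_repr
    { toFun := fun x => ⟨Φ.B y x, hy x x.2⟩
      map_add' := fun _ _ => Subtype.ext (by simp)
      map_smul' := fun c x => Subtype.ext (Φ.B_smul_right c y x) }
  have : y - z = 0 := h.eq_zero h.nd fun x hx => by
    have := congrArg Subtype.val (hz ⟨x, hx⟩)
    simp only [RB.form_B] at this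
    simp [this]
  exact sub_eq_zero.1 this ▸ z.2

theorem RA.any (h : RA Φ V₀) (l : List V) (hl : ∀ x ∈ l, x ∈ V₀) (U : Submodule F V)
    (hn : l.length + finrank F U < 4) : ∃ z ∈ V₀, z ∉ U ∧ ∀ x ∈ l, Φ.B x z = 0 := by
  obtain ⟨z, -, h2, h3⟩ := (h.nondeg h.nd).exists_perp_notMem (T := ⊤)
    (S := (U.restrictScalars F₀).comap V₀.subtype) (l.pmap Subtype.mk hl) (by
      have := h.finrank_comap U
      have := finrank_le_rat h.span
      have := h.big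
      rw [List.length_pmap, finrank_top]; omega)
  exact ⟨z, z.2, h2, fun x hx =>
    congrArg Subtype.val (h3 ⟨x, hl x hx⟩ (List.mem_pmap.2 ⟨x, hx, rfl⟩))⟩

theorem RA.partner (h : RA Φ V₀) (hu : u ∈ V₀) : ∃ x ∈ V₀, x ∉ F ∙ u ∧ Φ.B u x = 0 := by
  obtain ⟨x, h1, h2, h3⟩ := h.any [u] (by simpa) (F ∙ u)
    (by have := finrank_span_one_le (F := F) u; simp; omega)
  exact ⟨x, h1, h2, h3 u (by simp)⟩

theorem RA.exists_ne (h : RA Φ V₀) : ∃ u ∈ V₀, u ≠ 0 :=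
  let ⟨u, h1, h2, _⟩ := h.any [] (by simp) ⊥ (by simp); ⟨u, h1, h2⟩

theorem RA.eIn (h : RA Φ V₀) (hu : u ∈ V₀) (he : e ∈ V₀) (hs : s ∈ F₀) (h0 : Φ.B u e = 0) :
    Φ.EIn (Mg V₀ ⊓ Φ.E) u e s :=
  eIn_inf h.nd (h.data s h0) fun _ hg => mem_Mg_of_rat fun v hv => hg v ▸ h.eich_mem hu he hs hv

theorem RA.lift (h : RA Φ V₀) {k : V₀ ≃ₗ[F₀] V₀} (hk : k ∈ h.form.E) :
    ∃ g ∈ Φ.E, ∀ v : V₀, g v = k v := by
  induction hk using Subgroup.closure_induction with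
  | mem k hk =>
    obtain ⟨u, -, e, -, s, h1, h2⟩ := hk
    obtain ⟨g, hg⟩ := exists_eich h.nd (h.form_data.1 h1)
    exact ⟨g, mem_E (h.form_data.1 h1) hg, fun v => by rw [hg, h2, RB.form_eichler]⟩
  | one => exact ⟨1, one_mem _, fun _ => rfl⟩
  | mul a b _ _ ha hb =>
    obtain ⟨g, h1, h2⟩ := ha
    obtain ⟨k, h3, h4⟩ := hb
    exact ⟨g * k, mul_mem h1 h3, fun v => by rw [LinearEquiv.mul_apply, h4, h2]; rfl⟩
  | inv a _ ha =>
    obtain ⟨g, h1, h2⟩ := ha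
    refine ⟨g⁻¹, inv_mem h1, fun v => g.injective ?_⟩
    rw [h2]
    exact (g.apply_symm_apply v).trans (congrArg Subtype.val (a.apply_symm_apply v)).symm

omit [Finite V] [FiniteDimensional F V] in
theorem li_rat (hu : u ∈ V₀) (hx : x ∈ V₀) (h0 : u ≠ 0) (h1 : x ∉ F ∙ u) :
    LinearIndependent F₀ ![(⟨u, hu⟩ : V₀), ⟨x, hx⟩] := by
  rw [LinearIndependent.pair_iff]
  intro a b hab
  have h2 : (a : F) • u + (b : F) • x = 0 := congrArg Subtype.val hab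
  have hb : (b : F) = 0 := by_contra fun hb => h1 ((Submodule.smul_mem_iff _ hb).1
    (eq_neg_of_add_eq_zero_right h2 ▸ neg_mem
      (Submodule.smul_mem _ _ (Submodule.mem_span_singleton_self u))))
  rw [hb, zero_smul, add_zero, smul_eq_zero] at h2
  exact ⟨Subtype.ext (h2.resolve_right h0), Subtype.ext hb⟩

theorem RA.trans (h : RA Φ V₀) (hu : u ∈ V₀) (hx : x ∈ V₀) (h0 : u ≠ 0) (h1 : x ∉ F ∙ u)
    (h2 : Φ.B u x = 0) (hw : w ∈ V₀) (hy : y ∈ V₀) (h3 : w ≠ 0) (h4 : y ∉ F ∙ w)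
    (h5 : Φ.B w y = 0) : ∃ m ∈ Mg V₀ ⊓ Φ.E, m u = w ∧ m x = y := by
  have hκ : h.form.κ = 0 := Subtype.ext h.k0
  obtain ⟨k, hk, h6⟩ := (h.nondeg h.nd).witt_fin (li_rat hu hx h0 h1) (li_rat hw hy h3 h4)
    (fun i j => Subtype.ext (by
      fin_cases i <;> fin_cases j <;>
        simp [RB.form_B, h.self, h2, h5, h.comm x u, h.comm y w]))
    (fun i => by rw [Q_of_κ hκ, Q_of_κ hκ])
  rw [← (h.nondeg h.nd).closure_transvections_alt (fun v => Subtype.ext (h.self v))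
    (Q_of_κ hκ)] at hk
  obtain ⟨g, hg, h7⟩ := h.lift (closure_transvections_le_E (h.nondeg h.nd) hκ hk)
  have h8 : ∀ v ∈ V₀, g v ∈ V₀ := fun v hv => h7 ⟨v, hv⟩ ▸ Subtype.property _
  exact ⟨g, ⟨mem_Mg_of_rat h8, hg⟩, (h7 ⟨u, hu⟩).trans (congrArg Subtype.val (h6 0)),
    (h7 ⟨x, hx⟩).trans (congrArg Subtype.val (h6 1))⟩

/-- The parameters of the Eichler transformations with rational flags lying in `K`. -/
def PP (Φ : Form (RingHom.id F) V) (V₀ : Submodule F₀ V) (K : Subgroup (V ≃ₗ[F] V)) (α β : F) :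
    Prop :=
  ∀ u ∈ V₀, ∀ x ∈ V₀, u ≠ 0 → x ∉ F ∙ u → Φ.B u x = 0 → Φ.EIn K u (α • x) β

theorem RA.spread (h : RA Φ V₀) (hM : Mg V₀ ⊓ Φ.E ≤ K) (hu : u ∈ V₀) (hx : x ∈ V₀) (h0 : u ≠ 0)
    (h1 : x ∉ F ∙ u) (h2 : Φ.B u x = 0) (h3 : Φ.EIn K u (α • x) β) : PP Φ V₀ K α β :=
  fun w hw y hy a1 a2 a3 => by
    obtain ⟨m, b1, rfl, rfl⟩ := h.trans hu hx h0 h1 h2 hw hy a1 a2 a3
    simpa using h3.conj (hM b1) (E_le_O b1.2)

theorem RA.pp_rat (h : RA Φ V₀) (hM : Mg V₀ ⊓ Φ.E ≤ K) (ha : α ∈ F₀) (hb : β ∈ F₀) :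
    PP Φ V₀ K α β := fun _ hw _ hy _ _ a3 =>
  (h.eIn hw (smul_mem₀ ha hy) hb (by simp [a3])).mono hM

omit [Finite V] [FiniteDimensional F V] in
theorem RA.pp_add (h : RA Φ V₀) (h1 : PP Φ V₀ K α β) (h2 : PP Φ V₀ K γ δ) :
    PP Φ V₀ K (α + γ) (β + δ) := fun w hw y hy a1 a2 a3 => by
  simpa [add_smul, h.self] using (h1 w hw y hy a1 a2 a3).add (h2 w hw y hy a1 a2 a3) (h.self w)
    (by simp [a3]) (by simp [a3])

omit [Finite V] [FiniteDimensional F V] in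
/-- product of two Eichler transformations on a totally isotropic line -/
theorem RA.eIn_mul (h : RA Φ V₀) {u' e' u'' e'' : V} {s' s'' : F} (h1 : Φ.EIn K u e s)
    (h2 : Φ.EIn K u' e' s')
    (h3 : ∀ v, Φ.eichler u e s (Φ.eichler u' e' s' v) = Φ.eichler u'' e'' s'' v) :
    Φ.EIn K u'' e'' s'' := by
  obtain ⟨a, ha, b1⟩ := h1
  obtain ⟨b, hb, b2⟩ := h2
  exact ⟨a * b, mul_mem ha hb, fun v => by rw [LinearEquiv.mul_apply, b2, b1, h3]⟩

theorem RA.pp_mul (h : RA Φ V₀) (hM : Mg V₀ ⊓ Φ.E ≤ K) (h1 : PP Φ V₀ K α β)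
    (h2 : PP Φ V₀ K γ δ) : PP Φ V₀ K (β * γ) (β * γ ^ 2) := by
  obtain ⟨u, hu, a0⟩ := h.exists_ne
  obtain ⟨x, hx, a1, a2⟩ := h.partner hu
  have a3 : x ≠ 0 := by rintro rfl; exact a1 (zero_mem _)
  have a4 : u ∉ F ∙ x := by
    simpa using notMem_sup_span_swap (S := ⊥) (a := u) (b := x) a0 (by simpa)
  obtain ⟨f, hf, a5, a6⟩ := h.perp_two hx hu a4
  have a7 : f ∉ F ∙ x := fun h7 => by
    obtain ⟨c, rfl⟩ := Submodule.mem_span_singleton.1 h7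
    simp [a2] at a6
  obtain ⟨k, hk, b1⟩ := h2 x hx f hf a3 a7 a5
  have b2 := (h1 u hu x hx a0 a1 a2).conj hk (mem_O_of_eich (h.data δ (by simp [a5])) b1)
  have a8 : Φ.B x u = 0 := by rw [h.comm, a2]
  rw [b1, b1, h.eich, h.eich] at b2
  simp only [map_smul, LinearMap.smul_apply, smul_eq_mul, h.comm f u, a6, a8, h.comm f x, a5,
    h.self, mul_zero, add_zero, zero_smul, mul_one] at b2
  refine h.spread hM hx hu a3 a4 a8 (h.eIn_mul b2 (h1 u hu x hx a0 a1 a2) fun v => ?_)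
  simp only [h.eich, map_add, map_smul, LinearMap.add_apply, LinearMap.smul_apply, smul_eq_mul,
    h.self, a2, a8]
  linear_combination (norm := module)
    congrArg (· • ((α * Φ.B x v + β * Φ.B u v) • u + (α * Φ.B u v + α * γ * Φ.B x v) • x)) h.two

theorem RA.win [Finite F] (h : RA Φ V₀) (hF : PD F₀) (hM : Mg V₀ ⊓ Φ.E ≤ K) (h1 : PP Φ V₀ K α β)
    (h2 : ¬ (α ∈ F₀ ∧ β ∈ F₀)) : Φ.E ≤ K := by
  have a1 : ∀ {α β}, PP Φ V₀ K α β → PP Φ V₀ K β β := fun h1 => by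
    simpa using h.pp_mul hM h1 (h.pp_rat hM (one_mem _) (zero_mem _))
  have a2 : ∀ {α β}, PP Φ V₀ K α β → PP Φ V₀ K α (α ^ 2) := fun h1 => by
    simpa using h.pp_mul hM (h.pp_rat hM (zero_mem _) (one_mem _)) h1
  have a3 : ∀ {α β}, PP Φ V₀ K α β → ∃ γ, PP Φ V₀ K γ α := fun {α β} h1 => by
    let S := {a : F // ∃ b, PP Φ V₀ K a b}
    let φ : S → S := fun a => ⟨a.1 ^ 2, _, a1 (a2 a.2.choose_spec)⟩
    have : Function.Injective φ := fun a b hab => Subtype.ext (by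
      have h3 : a.1 ^ 2 = b.1 ^ 2 := congrArg Subtype.val hab
      have : (a.1 - b.1) ^ 2 = 0 := by linear_combination h3 + (b.1 ^ 2 - a.1 * b.1) * h.two
      exact sub_eq_zero.1 (pow_eq_zero_iff two_ne_zero |>.1 this))
    obtain ⟨⟨c, d, h3⟩, h4⟩ := Finite.surjective_of_injective this ⟨α, β, h1⟩
    obtain rfl : c ^ 2 = α := congrArg Subtype.val h4
    exact ⟨c, a2 h3⟩
  let Λ : Subring F :=
    { carrier := {a | ∃ b, PP Φ V₀ K a b}
      mul_mem' := fun ⟨_, h3⟩ ⟨_, h4⟩ => let ⟨_, h5⟩ := a3 h3; ⟨_, h.pp_mul hM h5 h4⟩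
      one_mem' := ⟨0, h.pp_rat hM (one_mem _) (zero_mem _)⟩
      add_mem' := fun ⟨_, h3⟩ ⟨_, h4⟩ => ⟨_, h.pp_add h3 h4⟩
      zero_mem' := ⟨0, h.pp_rat hM (zero_mem _) (zero_mem _)⟩
      neg_mem' := fun {a} ha => by rwa [h.neg] }
  have a4 : ∀ c, ∃ b, PP Φ V₀ K c b := hF.2 Λ (fun a ha => ⟨0, h.pp_rat hM ha (zero_mem _)⟩) (by
    by_cases ha : α ∈ F₀
    · exact ⟨β, ⟨_, a1 h1⟩, fun hb => h2 ⟨ha, hb⟩⟩
    · exact ⟨α, ⟨_, h1⟩, ha⟩)
  have a5 : ∀ s, PP Φ V₀ K 0 s := fun s => by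
    by_cases hs : s = 0
    · subst hs; exact h.pp_rat hM (zero_mem _) (zero_mem _)
    obtain ⟨_, b1⟩ := a4 s⁻¹
    obtain ⟨_, b2⟩ := a3 b1
    obtain ⟨_, b3⟩ := a4 s
    convert h.pp_add (h.pp_mul hM b2 b3) (h.pp_rat hM (one_mem _) (zero_mem _)) using 1
    · rw [inv_mul_cancel₀ hs, one_add_one_eq_two, h.two]
    · field_simp; simp
  have a6 : ∀ w ∈ V₀, w ≠ 0 → Φ.QIn K w := fun w hw b1 => by
    obtain ⟨x, hx, b2, b3⟩ := h.partner hw
    have b4 : Φ.AIn K w 0 := ⟨by simp, fun s _ => by simpa using a5 s w hw x hx b1 b2 b3⟩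
    have hs := sing_alt h.e1 h.k0 w
    obtain ⟨f, hf, b5⟩ := h.hyp hw b1
    have key : ∀ v, ∀ c : F, Φ.AIn K w (c • (v - Φ.B w v • f)) := fun v => by
      have hv : v ∈ Submodule.span F (V₀ : Set V) := h.span ▸ Submodule.mem_top
      induction hv using Submodule.span_induction with
      | mem y hy =>
        intro c
        have b6 := sub_mem hy (smul_mem₀ (h.B _ hw _ hy) hf)
        have b7 : Φ.B w (y - Φ.B w y • f) = 0 := by simp [b5]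
        generalize y - Φ.B w y • f = z at b6 b7
        by_cases b8 : z ∈ F ∙ w
        · obtain ⟨d, rfl⟩ := Submodule.mem_span_singleton.1 b8
          simpa [smul_smul] using b4.add_smul hs (c * d)
        obtain ⟨d, b9⟩ := a4 c
        exact b4.of_eIn (h.data d (by simp [b7])) (b9 w hw z b6 b1 b8 b7)
      | zero => simpa using b4
      | add x y _ _ hx hy =>
        intro c
        convert (hx c).add hs (hy c) using 1
        rw [map_add]; module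
      | smul d x _ hx =>
        intro c
        convert hx (c * d) using 1
        rw [map_smul, smul_eq_mul]; module
    exact qIn_iff.2 fun e he => by simpa [he] using key e 1
  obtain ⟨u, hu, b1⟩ := h.exists_ne
  obtain ⟨f, hf, b2⟩ := h.hyp hu b1
  exact E_le_of_qIn h.nd (sing_alt h.e1 h.k0 u) (sing_alt h.e1 h.k0 f) (by simp [b2]) (a6 u hu b1)
    (a6 f hf (by rintro rfl; simp at b2))

theorem RA.rat_of_mem [Finite F] (h : RA Φ V₀) (hg : g ∈ Mg V₀ ⊓ Φ.E) (hx : x ∈ V₀) : g x ∈ V₀ := by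
  obtain ⟨⟨c, hc, h1⟩, h2⟩ := hg
  obtain ⟨u, hu, b1⟩ := h.exists_ne
  obtain ⟨f, hf, b2⟩ := h.hyp hu b1
  have h3 := h.B _ ((h1 u).2 hu) _ ((h1 f).2 hf)
  simp only [map_smul, LinearMap.smul_apply, smul_eq_mul, (E_le_O h2).1, b2, mul_one, ← sq] at h3
  simpa [smul_smul, hc] using smul_mem₀ (inv_mem (h.sq_mem h3)) ((h1 x).2 hx)

omit [Finite V] [FiniteDimensional F V] in
theorem RA.tv_mul (h : RA Φ V₀) (h1 : Φ.EIn K w 0 1) (h2 : Φ.EIn K (w + β • u) 0 1)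
    (h3 : Φ.B u w = 0) : Φ.EIn K u (β • w) (β ^ 2) := h.eIn_mul h1 h2 fun v => by
  simp only [h.eich, map_add, map_smul, LinearMap.add_apply, LinearMap.smul_apply, smul_eq_mul,
    h.self, h3, h.comm w u, map_zero, LinearMap.zero_apply]
  linear_combination (norm := module) congrArg (· • (Φ.B w v • w)) h.two

theorem RA.kill [Finite F] (h : RA Φ V₀) (hM : Mg V₀ ⊓ Φ.E ≤ K)
    (hN : ∀ α β, PP Φ V₀ K α β → α ∈ F₀ ∧ β ∈ F₀) (hw : Φ.EIn K w 0 1) (hu : u ∈ V₀) (h0 : u ≠ 0)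
    (h1 : Φ.B u w = 0) : w ∈ V₀ := by
  have a1 : ∀ y ∈ V₀, Φ.B u y = 0 → Φ.B y w ∈ F₀ := fun y hy b1 => by
    by_cases b2 : y ∈ F ∙ u
    · obtain ⟨c, rfl⟩ := Submodule.mem_span_singleton.1 b2
      simp [h1]
    obtain ⟨m, b3, b4⟩ := (h.eIn hu hy (zero_mem _) b1).mono hM
    have b5 := hw.conj b3 (mem_O_of_eich (h.data 0 b1) b4)
    rw [map_zero, b4, h.eich, h1, zero_smul, add_zero, mul_zero, add_zero] at b5
    have b6 := h.tv_mul hw b5 h1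
    obtain ⟨k, b7, b8⟩ := (h.eIn hy (zero_mem _) (one_mem _) (by simp)).mono hM
    have b9 := b6.conj b7 (mem_O_of_eich (h.data 1 (by simp)) b8)
    rw [b8, b8, h.eich, h.eich] at b9
    simp only [map_zero, LinearMap.zero_apply, h.comm y u, b1, mul_zero, add_zero, zero_smul,
      smul_zero, zero_add, one_mul, map_smul, smul_eq_mul] at b9
    have b10 := b9.add b6 (h.self u) (by simp [h1, b1]) (by simp [h1])
    rw [add_right_comm, h.add_self, zero_add] at b10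
    exact h.sq_mem (sq (Φ.B y w) ▸ (hN _ _ (h.spread hM hu hy h0 b2 b1 b10)).1)
  obtain ⟨f, hf, a2⟩ := h.hyp hu h0
  obtain ⟨v, hv, c, rfl⟩ : ∃ v ∈ V₀, ∃ c : F, w = v + c • u := by
    refine ⟨w - Φ.B f w • u, h.mem_of fun x hx => ?_, _, (sub_add_cancel _ _).symm⟩
    convert a1 _ (sub_mem hx (smul_mem₀ (h.B _ hu _ hx) hf)) (by simp [a2]) using 1
    simp only [map_sub, map_smul, LinearMap.sub_apply, LinearMap.smul_apply, smul_eq_mul,
      h.comm w x]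
    ring
  have a3 : Φ.B u v = 0 := by simpa [h.self] using h1
  by_cases a4 : v ∈ F ∙ u
  · obtain ⟨d, rfl⟩ := Submodule.mem_span_singleton.1 a4
    rw [← add_smul] at hw ⊢
    obtain ⟨x, hx, b2, b3⟩ := h.partner hu
    rw [eIn_smul_left, smul_zero, mul_one, RingHom.id_apply, ← sq, ← zero_smul F x] at hw
    exact smul_mem₀ (h.sq_mem (hN _ _ (h.spread hM hu hx h0 b2 b3 hw)).2) hu
  exact add_mem hv (smul_mem₀ (hN _ _ (h.spread hM hu hv h0 a4 a3 (h.tv_mul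
    ((h.eIn hv (zero_mem _) (one_mem _) (by simp)).mono hM) hw a3))).1 hu)

theorem RA.kill' [Finite F] (h : RA Φ V₀) (hM : Mg V₀ ⊓ Φ.E ≤ K) (hK : K ≤ Φ.E)
    (hN : ∀ α β, PP Φ V₀ K α β → α ∈ F₀ ∧ β ∈ F₀) (hg : g ∈ K) (hw : w ∈ V₀) (hu : u ∈ V₀)
    (h0 : u ≠ 0) (h1 : Φ.B u (g w) = 0) : g w ∈ V₀ :=
  h.kill hM hN (by
    simpa using ((h.eIn hw (zero_mem _) (one_mem _) (by simp)).mono hM).conj hg (E_le_O (hK hg)))
    hu h0 h1

theorem RA.line [Finite F] (h : RA Φ V₀) (hM : Mg V₀ ⊓ Φ.E ≤ K) (hK : K ≤ Φ.E)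
    (hN : ∀ α β, PP Φ V₀ K α β → α ∈ F₀ ∧ β ∈ F₀) (hg : g ∈ K) (hw : w ∈ V₀) (h0 : w ≠ 0)
    (h1 : g w ∈ V₀) : g ∈ Mg V₀ := mem_Mg_of_rat fun x hx => by
  obtain ⟨y, hy, a1, a2⟩ := h.any [w, x] (by simp [*]) ⊥ (by simp)
  have hO := E_le_O (hK hg)
  exact h.kill' hM hK hN hg hx (h.kill' hM hK hN hg hy h1 (by simpa) (by
    rw [hO.1, a2 w (by simp)])) (by simpa using a1) (by rw [hO.1, h.comm, a2 x (by simp)])

theorem RA.isMaximalIn [Finite F] (h : RA Φ V₀) (hF : PD F₀) :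
    IsMaximalIn Φ.E (Mg V₀ ⊓ Φ.E) := by
  obtain ⟨u, hu, hu0⟩ := h.exists_ne
  obtain ⟨f, hf, b5⟩ := h.hyp hu hu0
  refine isMaximalIn_of inf_le_right ?_ fun K hM hK g hg hg' => ?_
  · obtain ⟨c, hc⟩ := hF.1
    obtain ⟨k, hk⟩ := exists_eich h.nd (h.data (u := u) (e := 0) c (by simp))
    refine ⟨k, mem_E (h.data c (by simp)) hk, fun h1 => hc (h.sc u hu hu0 c ?_)⟩
    simpa [hk, h.eich, b5] using sub_mem (h.rat_of_mem h1 hf) hf
  by_contra h1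
  have hN : ∀ α β, PP Φ V₀ K α β → α ∈ F₀ ∧ β ∈ F₀ := fun α β h2 =>
    by_contra fun h3 => h1 (h.win hF hM h2 h3)
  refine hg' ((?_ : K ≤ Mg V₀ ⊓ Φ.E) hg)
  have := finite_equiv (F := F) (V := V)
  have hx : ∀ z ∈ Mg V₀ ⊓ Φ.E, z ≠ 1 → ∃ v ∈ V₀, z v - v ≠ 0 := fun z _ hz1 =>
    exists_rat_ne h.span (f := z.toLinearMap - LinearMap.id) fun h => hz1 (by
      ext v; simpa [sub_eq_zero] using DFunLike.congr_fun h v)
  have hU : ∀ g ∈ K, ∀ z ∈ Mg V₀ ⊓ Φ.E, z * z = 1 → z ≠ 1 → g⁻¹ * z * g ∈ Mg V₀ ⊓ Φ.E →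
      g ∈ Mg V₀ ⊓ Φ.E := fun g hg z hz z1 z2 hz' => by
    obtain ⟨v, hv, a2⟩ := hx z hz z2
    obtain ⟨w, hw, a4⟩ := hx _ hz' fun h => z2 (by
      rw [show z = g * (g⁻¹ * z * g) * g⁻¹ by group, h]; simp)
    have a6 := sub_mem (h.rat_of_mem hz' hw) hw
    have a7 : g ((g⁻¹ * z * g) w - w) = z (g w) - g w := by simp
    exact ⟨h.line hM hK hN hg a6 a4 (h.kill' hM hK hN hg a6 (sub_mem (h.rat_of_mem hz hv) hv) a2
      (a7 ▸ invol_perp h.two (E_le_O hz.2) z1 _ _)), hK hg⟩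
  obtain ⟨e, he, b2, b4⟩ := h.partner hu
  obtain ⟨y, hy, b6, b7⟩ := h.perp_two hu he b2
  obtain ⟨a, ha, b8⟩ := h.eIn hu he (zero_mem _) b4
  have b9 := eich_mul_self h.two (h.data 0 b4) (h.self e) b8
  have b10 : a y - y = u := by simp [b8, h.eich, b6, b7]
  have b11 : a ≠ 1 := by rintro rfl; exact hu0 (by simpa using b10.symm)
  obtain ⟨b, hb, c5⟩ := h.eIn hu (zero_mem _) (one_mem _) (by simp)
  refine le_of_strong hM hU ha hb b9 (eich_mul_self h.two (h.data 1 (by simp)) (by simp) c5) b11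
    (fun h1 => ?_) fun k _ h1 => b2 ?_
  · simpa [c5, h.eich, b5, hu0] using DFunLike.congr_fun h1 f
  have c6 : ∀ v, a v - v ∈ F ∙ k⁻¹ u := fun v => Submodule.mem_span_singleton.2
    ⟨Φ.B u (k v), k.injective (by
      have := DFunLike.congr_fun h1 (k v)
      simp [c5, h.eich] at this
      simp [this])⟩
  obtain ⟨c, hc⟩ := Submodule.mem_span_singleton.1 (b10 ▸ c6 y)
  have c7 : F ∙ k⁻¹ u ≤ F ∙ u := (Submodule.span_singleton_le_iff_mem _ _).2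
    ((Submodule.smul_mem_iff _ (left_ne_zero_of_smul (hc.trans_ne hu0))).1
      (by rw [hc]; exact Submodule.mem_span_singleton_self u))
  have c8 := sub_mem (c7 (c6 f))
    (Submodule.smul_mem _ (Φ.B e f) (Submodule.mem_span_singleton_self u))
  rw [b8, h.eich, add_assoc, add_sub_cancel_left] at c8
  simpa [b5] using c8

variable {ι : Type} [Fintype ι] [DecidableEq ι]

theorem isMaximalIn_colS_two [Finite F] {Φ : Form (RingHom.id F) (ι → F)} (hΦ : Φ.Nondeg)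
    {P : GL ι F} (hε : Φ.ε = -1) (hκ : Φ.κ = 0) (h2 : (2 : F) = 0)
    (hB : ∀ x ∈ colS F₀ P, ∀ y ∈ colS F₀ P, Φ.B x y ∈ F₀)
    (hn : 4 ≤ Fintype.card ι) (hF : PD F₀) {K : Subgroup (GL ι F)}
    (hK : ∀ g, g ∈ K ↔ glE ι F g ∈ Φ.E) : IsMaximalIn K (subfieldSubgroup F₀ P ⊓ K) :=
  isMaximalIn_of_iff (glE ι F) (RA.isMaximalIn (V₀ := colS F₀ P)
    ⟨⟨span_colS P, fun _ h => h, hε ▸ neg_mem (one_mem _), hκ ▸ zero_mem _, hB,
      fun v _ => ⟨0, zero_mem _, by simp [(sing_alt hε hκ v).1], by simp [Q_of_κ hκ]⟩⟩,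
      hΦ, hε, hκ, h2, by simpa⟩ hF) hK fun g => by
    rw [Subgroup.mem_inf, Subgroup.mem_inf, hK, mem_subfieldSubgroup_iff_Mg]

end H23.Sq
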