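import Cfsg.Agent.H23.Sq2

/-! The exceptional isogeny of `Sp₄` in characteristic two. -/

set_option autoImplicit false

namespace H23.Sq

open Module H22 Cfsg Cfsg.Geo Form Matrix Sum

theorem isMaximalIn_of_hom {G G' : Type*} [Group G] [Group G'] {K M : Subgroup G}
    {K' M' : Subgroup G'} (φ : K →* G') (hr : φ.range = K') (hi : Function.Injective φ)
    (hMK : M ≤ K) (hM : ∀ g : K, g.1 ∈ M ↔ φ g ∈ M') (h : IsMaximalIn K' M') :
    IsMaximalIn K M := by
  subst hr
  refine isMaximalIn_of hMK ?_ fun H h1 h2 g hg hg' k hk => ?_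
  · obtain ⟨_, ⟨g, rfl⟩, h1⟩ := SetLike.exists_of_lt h.1
    exact ⟨g, g.2, fun h2 => h1 ((hM g).1 h2)⟩
  rcases h.2 ((H.subgroupOf K).map φ) (fun m hm => by
    obtain ⟨k, rfl⟩ := h.1.le hm
    exact ⟨k, h1 ((hM k).2 hm), rfl⟩) (Subgroup.map_le_range _ _) with h3 | h3
  · exact (hg' ((hM ⟨g, h2 hg⟩).2 (h3 ▸ ⟨_, hg, rfl⟩))).elim
  obtain ⟨x, hx, h4⟩ : φ ⟨k, hk⟩ ∈ (H.subgroupOf K).map φ := h3 ▸ ⟨_, rfl⟩
  obtain rfl := hi h4
  exact hx

variable {F : Type*} [Field F]

/-- the index type -/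
abbrev I4 := Fin 2 ⊕ Fin 2

/-- The general endomorphism `A` with `f (A v) v = 0`. -/
def AM (a d : F) (y : I4 → F) : Matrix I4 I4 F :=
  fromBlocks !![a, y (inl 0); y (inr 0), d] !![0, y (inl 1); y (inl 1), 0]
    !![0, y (inr 1); y (inr 1), 0] !![a, y (inr 0); y (inl 0), d]

/-- The off-diagonal coordinates. -/
def cM : Matrix I4 I4 F →ₗ[F] (I4 → F) where
  toFun A := Sum.elim ![A (inl 0) (inl 1), A (inl 0) (inr 1)] ![A (inl 1) (inl 0), A (inr 0) (inl 1)]
  map_add' A B := by ext (i | i) <;> fin_cases i <;> simp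
  map_smul' c A := by ext (i | i) <;> fin_cases i <;> simp

/-- The Clifford embedding. -/
def NM : (I4 → F) →ₗ[F] Matrix I4 I4 F where
  toFun y := AM 0 0 y
  map_add' y z := by ext (i | i) (j | j) <;> fin_cases i <;> fin_cases j <;> simp [AM]
  map_smul' c y := by ext (i | i) (j | j) <;> fin_cases i <;> fin_cases j <;> simp [AM]

/-- The reduced trace. -/
def trp (A : Matrix I4 I4 F) : F := A (inl 0) (inl 0) + A (inl 1) (inl 1)

/-- The hyperbolic quadratic form. -/
def Q0 (y : I4 → F) : F := y (inl 0) * y (inr 0) + y (inl 1) * y (inr 1)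

/-- The defining property of the space of alternating endomorphisms. -/
def IsA (A : Matrix I4 I4 F) : Prop := ∀ v, sympForm 2 F (A *ᵥ v) v = 0

theorem cM_AM (a d : F) (y : I4 → F) : cM (AM a d y) = y := by
  ext (i | i) <;> fin_cases i <;> simp [AM, cM]

theorem cM_NM (y : I4 → F) : cM (NM y) = y := cM_AM 0 0 y

theorem cM_one : cM (1 : Matrix I4 I4 F) = 0 := by
  ext (i | i) <;> fin_cases i <;> simp [cM]

theorem trp_AM (a d : F) (y : I4 → F) : trp (AM a d y) = a + d := by simp [AM, trp]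

theorem AM_same (a : F) (y : I4 → F) : AM a a y = NM y + a • 1 := by
  ext (i | i) (j | j) <;> fin_cases i <;> fin_cases j <;> simp [AM, NM]

variable [CharP F 2]

theorem symp_two (u v : I4 → F) : sympForm 2 F u v = u (inr 0) * v (inl 0) + u (inl 0) * v (inr 0) +
    u (inr 1) * v (inl 1) + u (inl 1) * v (inr 1) := by
  rw [sympForm_eq, Fin.sum_univ_two]; grind

theorem isA_AM (a d : F) (y : I4 → F) : IsA (AM a d y) := fun v => by
  simp [symp_two, AM, mulVec, dotProduct]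
  grind

theorem IsA.eq {A : Matrix I4 I4 F} (h : IsA A) :
    A = AM (A (inl 0) (inl 0)) (A (inl 1) (inl 1)) (cM A) := by
  have h1 := h (Pi.single (inl 0) 1)
  have h2 := h (Pi.single (inl 1) 1)
  have h3 := h (Pi.single (inr 0) 1)
  have h4 := h (Pi.single (inr 1) 1)
  have h5 := h (Pi.single (inl 0) 1 + Pi.single (inl 1) 1)
  have h6 := h (Pi.single (inl 0) 1 + Pi.single (inr 0) 1)
  have h7 := h (Pi.single (inl 0) 1 + Pi.single (inr 1) 1)
  have h8 := h (Pi.single (inl 1) 1 + Pi.single (inr 0) 1)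
  have h9 := h (Pi.single (inl 1) 1 + Pi.single (inr 1) 1)
  have h10 := h (Pi.single (inr 0) 1 + Pi.single (inr 1) 1)
  simp [symp_two, mulVec_add] at h1 h2 h3 h4 h5 h6 h7 h8 h9 h10
  ext (i | i) (j | j) <;> fin_cases i <;> fin_cases j <;> simp [AM, cM] <;> grind

theorem AM_sq (a d : F) (y : I4 → F) :
    AM a d y * AM a d y = (a + d) • AM a d y + (a * d + Q0 y) • 1 := by
  ext (i | i) (j | j) <;> fin_cases i <;> fin_cases j <;>
    simp [AM, Q0, mul_apply] <;> grind

theorem NM_AM (a d : F) (y z : I4 → F) :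
    NM y * AM a d z + AM a d z * NM y = (a + d) • NM y + sympForm 2 F y z • 1 := by
  ext (i | i) (j | j) <;> fin_cases i <;> fin_cases j <;>
    simp [AM, NM, symp_two, mul_apply] <;> grind

theorem NM_sq (y : I4 → F) : NM y * NM y = Q0 y • 1 := by simpa [NM] using AM_sq 0 0 y

theorem NM_NM (y z : I4 → F) : NM y * NM z + NM z * NM y = sympForm 2 F y z • 1 := by
  simpa [NM] using NM_AM 0 0 y z

theorem scalar_of_comm {g : Matrix I4 I4 F} (h : ∀ y, g * NM y = NM y * g) :
    g = g (inl 0) (inl 0) • 1 := by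
  have h1 := h (Pi.single (inl 0) 1)
  have h2 := h (Pi.single (inl 1) 1)
  have h3 := h (Pi.single (inr 0) 1)
  have h4 := h (Pi.single (inr 1) 1)
  simp only [← ext_iff, Sum.forall, Fin.forall_fin_two] at h1 h2 h3 h4
  simp [NM, AM, mul_apply] at h1 h2 h3 h4
  ext (i | i) (j | j) <;> fin_cases i <;> fin_cases j <;> simp <;> grind

/-- Conjugation. -/
def cj (g : GL I4 F) : Matrix I4 I4 F →ₗ[F] Matrix I4 I4 F where
  toFun A := g.1 * A * (g⁻¹).1
  map_add' A B := by rw [mul_add, add_mul]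
  map_smul' c A := by simp

omit [CharP F 2] in
theorem cj_apply (g : GL I4 F) (A : Matrix I4 I4 F) : cj g A = g.1 * A * (g⁻¹).1 := rfl

omit [CharP F 2] in
theorem cj_mul (g : GL I4 F) (A B : Matrix I4 I4 F) : cj g (A * B) = cj g A * cj g B := by
  simp [cj_apply, mul_assoc]

omit [CharP F 2] in
theorem cj_one (g : GL I4 F) : cj g 1 = 1 := by simp [cj_apply]

omit [CharP F 2] in
theorem cj_cj (g h : GL I4 F) (A : Matrix I4 I4 F) : cj (g * h) A = cj g (cj h A) := by
  simp [cj_apply, mul_assoc]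

omit [CharP F 2] in
theorem cj_id (A : Matrix I4 I4 F) : cj 1 A = A := by simp [cj_apply]

variable {g : GL I4 F} {A : Matrix I4 I4 F}

omit [CharP F 2] in
theorem IsA.cj (h : IsA A) (hg : g ∈ spGL 2 F) : IsA (cj g A) := fun v => by
  have := hg (A *ᵥ (g⁻¹).1 *ᵥ v) ((g⁻¹).1 *ᵥ v)
  rw [h] at this
  rw [← this, cj_apply]
  simp [glToMat, mul_assoc]

theorem IsA.sq (h : IsA A) : ∃ p : F, A * A = trp A • A + p • 1 := by
  rw [h.eq, trp_AM]; exact ⟨_, AM_sq _ _ _⟩

theorem trp_smul_one (c : F) : trp (c • (1 : Matrix I4 I4 F)) = 0 := by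
  simp [trp, CharTwo.add_self_eq_zero]

theorem IsA.trp_cj (h : IsA A) (hg : g ∈ spGL 2 F) : trp (Sq.cj g A) = trp A := by
  obtain ⟨p, h1⟩ := h.sq
  obtain ⟨p', h2⟩ := (h.cj hg).sq
  rw [← cj_mul, h1, map_add, map_smul, map_smul, cj_one] at h2
  by_contra h3
  have h4 : Sq.cj g A = ((p - p') / (trp (Sq.cj g A) - trp A)) • 1 := by
    have := sub_ne_zero.2 h3
    rw [div_eq_inv_mul, mul_smul, eq_inv_smul_iff₀ this]
    linear_combination (norm := module) -h2
  generalize (p - p') / (trp (Sq.cj g A) - trp A) = c at h4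
  have h5 : A = c • 1 := by
    rw [← cj_id A, ← inv_mul_cancel g, cj_cj, h4, map_smul, cj_one]
  exact h3 (by rw [h4, h5, trp_smul_one])

theorem IsA.eq_NM (h : IsA A) (h0 : trp A = 0) : A = NM (cM A) + A (inl 0) (inl 0) • 1 := by
  have : A (inl 1) (inl 1) = A (inl 0) (inl 0) := by unfold trp at h0; grind
  rw [← AM_same]
  simpa [this] using h.eq

theorem cj_NM (hg : g ∈ spGL 2 F) (y : I4 → F) :
    ∃ μ : F, cj g (NM y) = NM (cM (cj g (NM y))) + μ • 1 :=
  ⟨_, ((isA_AM 0 0 y).cj hg).eq_NM (((isA_AM 0 0 y).trp_cj hg).trans (by simp [trp_AM]))⟩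

/-- The exceptional isogeny, as a map to the endomorphism ring. -/
def tauE : spGL 2 F →* Module.End F (I4 → F) where
  toFun g := cM ∘ₗ cj g.1 ∘ₗ NM
  map_one' := LinearMap.ext fun y => by simp [cj_id, cM_NM]
  map_mul' g h := LinearMap.ext fun y => by
    obtain ⟨μ, h1⟩ := cj_NM h.2 y
    simp only [LinearMap.comp_apply, Subgroup.coe_mul, cj_cj, Module.End.mul_apply]
    rw [h1, map_add, map_smul, cj_one, map_add, map_smul, cM_one, smul_zero, add_zero, ← h1]

/-- The exceptional isogeny. -/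
noncomputable def tau : spGL 2 F →* ((I4 → F) ≃ₗ[F] (I4 → F)) :=
  (LinearMap.GeneralLinearGroup.generalLinearEquiv F (I4 → F)).toMonoidHom.comp tauE.toHomUnits

theorem tau_apply (g : spGL 2 F) (y : I4 → F) : tau g y = cM (cj g.1 (NM y)) := rfl

theorem smul_one_inj {a b : F} (h : a • (1 : Matrix I4 I4 F) = b • 1) : a = b := by
  simpa using congrFun (congrFun h (inl 0)) (inl 0)

theorem two_smul_eq (A : Matrix I4 I4 F) : A + A = 0 := by
  rw [← two_smul F, CharTwo.two_eq_zero, zero_smul]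

theorem tau_mem (g : spGL 2 F) : tau g ∈ (spForm 2 F).O := by
  refine ⟨fun y z => ?_, fun _ => rfl⟩
  obtain ⟨μ, h1⟩ := cj_NM g.2 y
  obtain ⟨ν, h2⟩ := cj_NM g.2 z
  rw [← tau_apply] at h1 h2
  have h3 := congrArg (cj g.1) (NM_NM y z)
  rw [map_add, cj_mul, cj_mul, h1, h2, map_smul, cj_one] at h3
  rw [spForm_B, spForm_B]
  refine smul_one_inj ?_
  rw [← NM_NM, ← h3]
  simp only [mul_add, add_mul, mul_smul_comm, smul_mul_assoc, mul_one, one_mul]
  linear_combination (norm := module)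
    -two_smul_eq (ν • NM (tau g y) + μ • NM (tau g z) + (μ * ν) • 1)

theorem tau_sq (g : spGL 2 F) (y : I4 → F) {μ : F} (h : cj g.1 (NM y) = NM (tau g y) + μ • 1) :
    Q0 (tau g y) + μ ^ 2 = Q0 y := by
  have h3 := congrArg (cj g.1) (NM_sq y)
  rw [cj_mul, h, map_smul, cj_one] at h3
  refine smul_one_inj ?_
  rw [← h3, add_smul, ← NM_sq]
  simp only [mul_add, add_mul, mul_smul_comm, smul_mul_assoc, mul_one, one_mul]
  linear_combination (norm := module) -two_smul_eq (μ • NM (tau g y))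

theorem tau_injective : Function.Injective (tau (F := F)) :=
  (injective_iff_map_eq_one _).2 fun g hg => by
    have h1 : ∀ y, g.1.1 * NM y = NM y * g.1.1 := fun y => by
      obtain ⟨μ, h1⟩ := cj_NM g.2 y
      rw [← tau_apply] at h1
      have h2 := tau_sq g y h1
      rw [hg, LinearEquiv.coe_one, id] at h1 h2
      rw [pow_eq_zero_iff two_ne_zero |>.1 (add_eq_left.1 h2), zero_smul, add_zero, cj_apply] at h1
      conv_rhs => rw [← h1]
      simp [mul_assoc]
    have h2 := scalar_of_comm h1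
    generalize g.1.1 (inl 0) (inl 0) = c at h2
    have h3 := g.2 (Pi.single (inl 0) 1) (Pi.single (inr 0) 1)
    simp [glToMat, h2, symp_two, smul_mulVec] at h3
    have h4 : c = 1 := by grind
    exact Subtype.ext (Units.ext (by simp [h2, h4]))

theorem tau_range [Finite F] : (tau (F := F)).range = (spForm 2 F).E := by
  rw [E_alt (spForm_nondeg 2) rfl rfl]
  have := Sf.finite_equiv (F := F) (V := I4 → F)
  refine Subgroup.eq_of_le_of_card_ge (by rintro _ ⟨g, rfl⟩; exact tau_mem g) (le_of_eq ?_)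
  rw [← Nat.card_congr (MonoidHom.ofInjective tau_injective).toEquiv]
  exact Nat.card_congr ((glE I4 F).toEquiv.subtypeEquiv fun _ => mem_spGL_iff).symm

/-- The quadratic form attached to a point of the affine hyperplane `trp = 1`. -/
noncomputable def QF (z : I4 → F) : Form (RingHom.id F) (I4 → F) where
  ε := 1
  κ := 1
  B := (spForm 2 F).B
  Q y := Q0 y + sympForm 2 F y z ^ 2
  invol _ := rfl
  eps := by simp
  symm x y := by simp [spForm_B, symp_two]; ring
  kσ _ := rfl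
  kε := by simp
  Q_add x y := by simp [spForm_B, symp_two, Q0]; grind
  Q_smul c x := by simp [symp_two, Q0]; ring
  trace v := ⟨_, by simp [spForm_B, sympForm_self, CharTwo.add_self_eq_zero], one_mul _⟩

theorem tau_mem_QF {j : Matrix I4 I4 F} (hj : IsA j) (h1 : trp j = 1) (g : spGL 2 F) :
    tau g ∈ (QF (cM j)).O ↔ cM (cj g.1⁻¹ j) = cM j := by
  have hg := inv_mem g.2
  have key : ∀ y, (QF (cM j)).Q (tau g y) = Q0 y + sympForm 2 F y (cM (cj g.1⁻¹ j)) ^ 2 := by
    intro y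
    obtain ⟨μ, h2⟩ := cj_NM g.2 y
    rw [← tau_apply] at h2
    have h3 := NM_AM (cj g.1⁻¹ j (inl 0) (inl 0)) (cj g.1⁻¹ j (inl 1) (inl 1)) y (cM (cj g.1⁻¹ j))
    rw [← (hj.cj hg).eq, show _ + _ = trp (cj g.1⁻¹ j) from rfl, hj.trp_cj hg, h1] at h3
    have h4 := congrArg (cj g.1) h3
    simp only [map_add, map_smul, cj_mul, ← cj_cj, mul_inv_cancel, cj_id, cj_one, h2] at h4
    have h5 := NM_AM (j (inl 0) (inl 0)) (j (inl 1) (inl 1)) (tau g y) (cM j)
    rw [← hj.eq, show _ + _ = trp j from rfl, h1] at h5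
    have h6 : sympForm 2 F (tau g y) (cM j) = μ + sympForm 2 F y (cM (cj g.1⁻¹ j)) := by
      refine smul_one_inj ?_
      simp only [mul_add, add_mul, mul_smul_comm, smul_mul_assoc, mul_one, one_mul] at h4
      linear_combination (norm := module) h4 - h5 - two_smul_eq (μ • j)
    change Q0 _ + _ = _
    rw [h6, ← tau_sq g y h2]
    grind
  refine ⟨fun h => (spForm_nondeg (F := F) 2).eq_of_forall' fun y => ?_, fun h =>
    ⟨(tau_mem g).1, fun y => by rw [key, h]; rfl⟩⟩
  have h2 := (key y).symm.trans (h.2 y)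
  change _ = Q0 y + _ at h2
  rw [spForm_B, spForm_B]
  grind

theorem exists_gen [Finite F] {K : Subalgebra F (Matrix I4 I4 F)} (hK : IsFieldSubalgebra 2 K)
    (hA : ∀ k ∈ K, IsA k) : ∃ j ∈ K, trp j = 1 ∧ ∀ k ∈ K, ∃ c : F, k = trp k • j + c • 1 := by
  have h0 : ∀ k ∈ K, trp k = 0 → ∃ c : F, k = c • 1 := fun k hk h1 => by
    obtain ⟨p, h2⟩ := (hA k hk).sq
    obtain ⟨c, rfl⟩ := isSquare_of_charTwo' p
    refine ⟨c, by_contra fun h3 => ?_⟩
    obtain ⟨y, -, h4⟩ := hK.inv _ (sub_mem hk (K.smul_mem K.one_mem c)) (sub_ne_zero.2 h3)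
    have h5 : (k - c • 1) * (k - c • 1) = 0 := by
      simp only [mul_sub, sub_mul, mul_smul_comm, smul_mul_assoc, mul_one, one_mul, h2, h1]
      linear_combination (norm := module) two_smul_eq ((c * c) • 1 - c • k)
    have h6 := congrArg (· * y) h5
    simp only [mul_assoc, h4, mul_one, zero_mul] at h6
    exact h3 (sub_eq_zero.1 h6)
  obtain ⟨k, hk, h1⟩ : ∃ k ∈ K, trp k ≠ 0 := by
    by_contra h
    push Not at h
    have h1 : K.toSubmodule ≤ F ∙ 1 := fun k hk => by
      obtain ⟨c, rfl⟩ := h0 k hk (h k hk)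
      exact Submodule.smul_mem _ _ (Submodule.mem_span_singleton_self _)
    have h2 := Submodule.finrank_mono h1
    rw [finrank_span_singleton one_ne_zero, Subalgebra.finrank_toSubmodule, hK.finrank_eq] at h2
    omega
  have h2 : trp ((trp k)⁻¹ • k) = 1 := by
    rw [← inv_mul_cancel₀ h1]; simp [trp, mul_add]
  refine ⟨_, K.smul_mem hk _, h2, fun x hx => ?_⟩
  generalize (trp k)⁻¹ = c at h2
  obtain ⟨d, h3⟩ := h0 (x - trp x • c • k) (sub_mem hx (K.smul_mem (K.smul_mem hk _) _)) (by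
    simp only [trp, Matrix.sub_apply, Matrix.smul_apply, smul_eq_mul] at h2 ⊢
    linear_combination -(x (inl 0) (inl 0) + x (inl 1) (inl 1)) * h2)
  exact ⟨d, by rw [← h3]; abel⟩

theorem isMaximalIn_sx_four [Finite F] {K : Subalgebra F (Matrix I4 I4 F)}
    (hK : IsFieldSubalgebra 2 K) (hA : ∀ k ∈ K, IsA k) :
    IsMaximalIn (spGL 2 F) (subalgebraNormalizer K ⊓ spGL 2 F) := by
  obtain ⟨j, hj, h1, h2⟩ := exists_gen hK hA
  have h3 : ∀ g ∈ spGL 2 F, cM (cj g j) = cM j → ∀ k ∈ K, cj g k ∈ K := fun g hg h k hk => by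
    have h4 : IsA (cj g j - j) := fun v => by
      have a1 := (hA j hj).cj hg v
      have a2 := hA j hj v
      simp only [symp_two, sub_mulVec, Pi.sub_apply] at a1 a2 ⊢
      linear_combination a1 - a2
    have h5 := h4.eq_NM (by
      have := (hA j hj).trp_cj hg
      simp only [trp, Matrix.sub_apply] at this ⊢
      linear_combination this)
    rw [map_sub, h, sub_self, map_zero, zero_add, sub_eq_iff_eq_add] at h5
    obtain ⟨c, h6⟩ := h2 k hk
    rw [h6, map_add, map_smul, map_smul, cj_one, h5]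
    exact add_mem (K.smul_mem (add_mem (K.smul_mem K.one_mem _) hj) _) (K.smul_mem K.one_mem _)
  have h4 : ∀ g ∈ spGL 2 F, g ∈ subalgebraNormalizer K → cM (cj g j) = cM j := fun g hg h => by
    obtain ⟨c, h5⟩ := h2 _ ((h j).1 hj)
    rw [← cj_apply, (hA j hj).trp_cj hg, h1, one_smul] at h5
    rw [h5, map_add, map_smul, cM_one, smul_zero, add_zero]
  refine isMaximalIn_of_hom tau tau_range tau_injective inf_le_right (fun g => ?_)
    (isMaximalIn_O_Sp (Φ := QF (cM j)) (spForm_nondeg 2) rfl rfl rfl rfl CharTwo.two_eq_zero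
      (by simp))
  refine ⟨fun h => (tau_mem_QF (hA j hj) h1 g).2 (h4 _ (inv_mem g.2) (inv_mem h.1)), fun h => ?_⟩
  have h5 := (tau_mem_QF (hA j hj) h1 g).1 h
  have h6 := (tau_mem_QF (hA j hj) h1 g⁻¹).1 (by rw [map_inv]; exact inv_mem h)
  refine ⟨fun k => ⟨fun hk => h3 g g.2 (by simpa using h6) k hk, fun hk => ?_⟩, g.2⟩
  have := h3 _ (inv_mem g.2) h5 _ hk
  rwa [← cj_apply, ← cj_cj, inv_mul_cancel, cj_id] at this

end H23.Sq
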