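import Cfsg.Agent.H23.Fr4

/-! Maximality of frame stabilisers in five-dimensional orthogonal groups over prime fields. -/

set_option autoImplicit false

namespace H23.Fr

open Module H22 Cfsg Cfsg.Geo Form Finset

variable {F V : Type*} [Field F] [AddCommGroup V] [Module F V]
  {ι : Type} [Fintype ι] [DecidableEq ι]

namespace RX

variable {X : Set (ι → F)} (h : RX X) {x : ι → F}
include h

theorem move2 (hx : x ∈ X) {a d e : ι} (ha : x a ≠ 0) (hd : x d = 0) (he : x e = 0)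
    (e1 : d ≠ e) : x - x a • H23.ev F a + x a • H23.ev F d ∈ X := by
  have had : a ≠ d := by rintro rfl; exact ha hd
  have hae : a ≠ e := by rintro rfl; exact ha he
  convert h.perm d e a d e1 had x hx using 1
  ext p
  by_cases p1 : p = a
  · subst p1; simp [he, had]
  by_cases p2 : p = d
  · subst p2; simp [Equiv.swap_apply_of_ne_of_ne had hae, hd, p1]
  by_cases p3 : p = e
  · subst p3; simp [Equiv.swap_apply_of_ne_of_ne p1 p2, he, hd, p1, p2]
  · simp [Equiv.swap_apply_of_ne_of_ne p2 p3, Equiv.swap_apply_of_ne_of_ne p1 p2, p1, p2]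

variable [DecidableEq F]

omit h in
theorem two0 (hn : 5 ≤ Fintype.card ι) (h4 : #{p | x p ≠ 0} ≤ 3) :
    ∃ d e, x d = 0 ∧ x e = 0 ∧ d ≠ e := by
  have hc := card_filter_add_card_filter_not (s := univ) fun p => x p ≠ 0
  obtain ⟨d, hd, e, he, e1⟩ := one_lt_card.1
    (show 1 < #{p | ¬ x p ≠ 0} by rw [card_univ] at hc; omega)
  simp only [mem_filter, mem_univ, true_and, not_not] at hd he
  exact ⟨d, e, hd, he, e1⟩

theorem grow2 (hn : 5 ≤ Fintype.card ι) (h2 : (2 : F) ≠ 0) (hW : ¬ W1 X) (hx : x ∈ X) {a b : ι}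
    (hab : b ≠ a) (ha : x a ≠ 0) (hb : x b ≠ 0) (ht : 2 * x a ^ 2 ≠ 1) (h4 : #{p | x p ≠ 0} ≤ 3) :
    ∃ y ∈ X, #{p | y p ≠ 0} = #{p | x p ≠ 0} + 1 := by
  obtain ⟨d, e, hd, he, e1⟩ := two0 hn h4
  have had : a ≠ d := by rintro rfl; exact ha hd
  have h1 := (h.sub h2 hW hx (S := {a}) (mem_singleton_self a) (by simpa) ha hb).2
  rw [sum_singleton] at h1
  have hy := h.move2 hx ha hd he e1
  refine ⟨_, h.refl x hx _ hy, ?_⟩
  rw [← card_insert_of_notMem (a := d) (by simp [hd])]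
  congr 1
  ext p
  simp only [mem_filter, mem_univ, true_and, mem_insert, dotProduct_add, dotProduct_sub,
    dotProduct_smul, dotProduct_single, h.norm x hx, hd, smul_eq_mul, mul_one, mul_zero, add_zero]
  by_cases p1 : p = a
  · subst p1
    have : 1 - x p * x p ≠ 0 := fun e => h1 (by linear_combination -e)
    simp [had, h2, ha, this]
  by_cases p2 : p = d
  · subst p2; simp [hd, p1, ha]
  · have : 1 - 2 * (1 - x a * x a) ≠ 0 := fun e => ht (by linear_combination e)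
    have e4 : x p - 2 * (1 - x a * x a) * x p = (1 - 2 * (1 - x a * x a)) * x p := by ring
    simp [p1, p2, e4, this]

end RX

theorem quad_one {u : Fin 4 → F} (h2 : (2 : F) ≠ 0) (hs : u 0 + u 1 + u 2 + u 3 = 4)
    (h0 : ∀ i, u i ≠ 0) (h4 : ∀ i, u i ≠ 4)
    (hp : ∀ i j, i ≠ j → PT (u i) ∧ PT (u j) ∧ PT (4 - u i - u j)) (i : Fin 4) : u i = 1 := by
  have hs' : ∀ i j k l : Fin 4, i ≠ j → i ≠ k → i ≠ l → j ≠ k → j ≠ l → k ≠ l →
      u i + u j + u k + u l = 4 := by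
    intro i j k l a b c d e f
    rw [← hs, ← Fin.sum_univ_four, ← show ({i, j, k, l} : Finset (Fin 4)) = univ by
      revert i j k l; decide, sum_insert (by simp [a, b, c]), sum_insert (by simp [d, e]),
      sum_pair f]
    ring
  have P : ∀ i j, i ≠ j → u i ≠ 1 → u j ≠ 1 → u i ^ 2 - 3 * u i + 1 = 0 ∧
      (u i + u j = 3 ∧ u i ≠ u j ∨ u i = u j ∧ 3 * u i = 4) := fun i j hij a b =>
    pt_pair h2 (hp i j hij).1 (hp i j hij).2.1 (hp i j hij).2.2 a b (h4 i)
  have hne : ∀ i j k l : Fin 4, i ≠ j → i ≠ k → i ≠ l → j ≠ k → j ≠ l → k ≠ l → u i ≠ 1 →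
      u j ≠ 1 → u k ≠ 1 := fun i j k l a b c d e f hi hj hk => by
    have := hs' i j k l a b c d e f
    obtain ⟨e1, ⟨e2, -⟩ | ⟨e2, e3⟩⟩ := P i j a hi hj
    · exact h0 l (by linear_combination this - e2 - hk)
    · exact h4 l (by linear_combination this + e2 - hk + 3 * e1 - (u i - 1) * e3)
  by_contra hi
  obtain ⟨j, k, l, a, b, c, d, e, f⟩ := (by decide : ∀ i : Fin 4, ∃ j k l : Fin 4, i ≠ j ∧ i ≠ k ∧
    i ≠ l ∧ j ≠ k ∧ j ≠ l ∧ k ≠ l) i
  have hS := hs' i j k l a b c d e f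
  have all : u j ≠ 1 ∧ u k ≠ 1 ∧ u l ≠ 1 := by
    by_cases hj : u j = 1
    · by_cases hk : u k = 1
      · exact absurd hk (hne i l k j c b a f.symm e.symm d.symm hi fun hl =>
          hi (by linear_combination hS - hj - hk - hl))
      · exact absurd hj (hne i k j l b a c d.symm f e hi hk)
    · exact ⟨hj, hne i j k l a b c d e f hi hj, hne i j l k a c b e d f.symm hi hj⟩
  obtain ⟨hj, hk, hl⟩ := all
  have h1 : (1 : F) ≠ 0 := one_ne_zero
  obtain ⟨-, ⟨e1, n1⟩ | ⟨e1, n1⟩⟩ := P i j a hi hj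
  · obtain ⟨-, ⟨e2, -⟩ | ⟨e2, n2⟩⟩ := P k l f hk hl
    · exact h2 (by linear_combination hS - e1 - e2)
    obtain ⟨-, ⟨e3, -⟩ | ⟨e3, -⟩⟩ := P i k b hi hk
    · exact h0 i (by linear_combination hS - n2 - e1 + e3 + e2)
    · exact h0 j (by linear_combination hS - n2 - e3 + e2)
  · obtain ⟨-, ⟨e3, -⟩ | ⟨e3, -⟩⟩ := P i k b hi hk
    · obtain ⟨-, ⟨e4, -⟩ | ⟨e4, -⟩⟩ := P j l e hj hl
      · exact h2 (by linear_combination hS - e3 - e4)
      · exact h0 k (by linear_combination hS - n1 + 2 * e1 + e4)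
    · exact h0 l (by linear_combination hS - n1 + e1 + e3)

namespace RX

variable {X : Set (ι → F)} (h : RX X) {x : ι → F} [Fintype F] (hp : (Fintype.card F).Prime)
  (h2 : (2 : F) ≠ 0) (hn : Fintype.card ι = 5)
include h hp h2 hn

theorem three5 [DecidableEq F] (hW : ¬ W1 X) (hx : x ∈ X) : #{p | x p ≠ 0} ≤ 3 := by
  by_contra! h3
  have h4 : (4 : F) ≠ 0 := by rw [show (4 : F) = 2 * 2 by norm_num]; exact mul_ne_zero h2 h2
  have h5 : #{p | x p ≠ 0} = 4 := le_antisymm (h.five hp h2 hW hx) h3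
  obtain ⟨e, he⟩ : ∃ e, x e = 0 := by
    by_contra! hc
    rw [filter_true_of_mem fun p _ => hc p, card_univ] at h5
    omega
  let σ := (Finset.equivFinOfCardEq h5).symm
  have hσ : ∀ i, x (σ i) ≠ 0 := fun i => (mem_filter.1 (σ i).2).2
  have inj : ∀ {i j}, i ≠ j → (σ i).1 ≠ σ j := fun hij e => hij (σ.injective (Subtype.ext e))
  have hsum : ∀ f : ι → F, ∑ p, x p * f p = ∑ i, x (σ i) * f (σ i) := fun f => by
    rw [σ.sum_comp (fun p => x p * f p), sum_coe_sort _ fun p => x p * f p,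
      sum_filter_of_ne (by simp +contextual)]
  have hN := h.norm x hx
  rw [dotProduct, hsum, Fin.sum_univ_four] at hN
  have q := quad_one (u := fun i => 4 * x (σ i) ^ 2) h2 (by linear_combination 4 * hN)
    (fun i => by simp [h4, hσ]) (fun i => by
      obtain ⟨j, hj⟩ := exists_ne i
      have := (h.sub h2 hW hx (S := {(σ i).1}) (mem_singleton_self _) (by simpa using inj hj)
        (hσ i) (hσ j)).2
      simpa [h4] using this) fun i j hij => by
      obtain ⟨k, l, a, b, c, d, f⟩ : ∃ k l : Fin 4, k ≠ i ∧ k ≠ j ∧ l ≠ i ∧ l ≠ j ∧ k ≠ l := by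
        revert i j; decide
      exact h.dk hp h2 hW hx (inj hij) (inj a) (inj b) (inj c) (inj d) (inj f) (hσ i) (hσ j)
        (hσ k) (hσ l)
  have q0 := q 0; have q1 := q 1; have q2 := q 2; have q3 := q 3
  have h3' : (3 : F) ≠ 0 := fun h3' => by
    have := (h.sub h2 hW hx (S := {(σ 0).1, (σ 1).1, (σ 2).1}) (i := σ 0) (j := σ 3) (by simp)
      (by simp [inj]) (hσ 0) (hσ 3)).1
    rw [sum_insert (by simp [inj]), sum_pair (inj (by decide))] at this
    exact this (mul_left_cancel₀ h4 (by linear_combination q0 + q1 + q2 + h3'))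
  have he' : ∀ i, (σ i).1 ≠ e := fun i e' => hσ i (e' ▸ he)
  have hy := h.refl x hx _ (h.perm (σ 0) e (σ 1) (σ 2) (he' 0) (inj (by decide)) x hx)
  have s1 : ∀ {i j k : Fin 4}, i ≠ j → i ≠ k → Equiv.swap (σ j).1 (σ k) (σ i) = σ i :=
    fun a b => Equiv.swap_apply_of_ne_of_ne (inj a) (inj b)
  have s2 : ∀ {i : Fin 4}, i ≠ 0 → Equiv.swap (σ 0).1 e (σ i) = σ i :=
    fun a => Equiv.swap_apply_of_ne_of_ne (inj a) (he' _)
  have hd : x ⬝ᵥ (fun p => x (Equiv.swap (σ 0).1 e (Equiv.swap (σ 1).1 (σ 2) p))) =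
      2 * (x (σ 1) * x (σ 2)) + x (σ 3) ^ 2 := by
    rw [dotProduct, hsum, Fin.sum_univ_four]
    simp [s1, s2, he]; ring
  have h6 := h.five hp h2 hW hy
  rw [filter_true_of_mem, card_univ] at h6
  · omega
  intro p _
  have hc : x (σ 1) = x (σ 2) ∨ x (σ 1) = -x (σ 2) :=
    sq_eq_sq_iff_eq_or_eq_neg.1 (mul_left_cancel₀ h4 (q1.trans q2.symm))
  have h8 : ∀ {a : F}, a ≠ 0 → 2 * a ≠ 0 ∧ 3 * a ≠ 0 := fun ha => by simp [h2, h3', ha]
  simp only [Pi.sub_apply, Pi.smul_apply, hd, smul_eq_mul]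
  by_cases hp0 : x p = 0
  · obtain rfl : p = e := by
      by_contra hpe
      have := card_le_card (show (univ.filter fun p => x p ≠ 0) ⊆ (univ.erase p).erase e from fun a ha => by
        have := (mem_filter.1 ha).2
        simp only [mem_erase, mem_univ, and_true]
        exact ⟨fun e' => this (e' ▸ he), fun e' => this (e' ▸ hp0)⟩)
      rw [card_erase_of_mem (by simpa using Ne.symm hpe), card_erase_of_mem (mem_univ _),
        card_univ] at this
      omega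
    simpa [hp0, Equiv.swap_apply_of_ne_of_ne (he' 1).symm (he' 2).symm] using hσ 0
  obtain ⟨i, rfl⟩ : ∃ i, (σ i).1 = p := ⟨σ.symm ⟨p, by simpa using hp0⟩, by simp⟩
  intro e0
  fin_cases i <;> simp [s1, s2, he, -mul_eq_zero] at e0 <;> rcases hc with hc | hc <;>
    rw [hc] at e0 q1
  · exact (h8 (hσ 0)).2 (by linear_combination 2 * e0 - 2 * x (σ 0) * q2 - x (σ 0) * q3)
  · exact hσ 0 (by linear_combination -2 * e0 - 2 * x (σ 0) * q2 + x (σ 0) * q3)
  · exact hσ 2 (by linear_combination -2 * e0 - 2 * x (σ 2) * q2 - x (σ 2) * q3)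
  · exact hσ 2 (by linear_combination 2 * e0 + 2 * x (σ 2) * q2 - x (σ 2) * q3)
  · exact hσ 2 (by linear_combination -2 * e0 - 2 * x (σ 2) * q2 - x (σ 2) * q3)
  · exact hσ 2 (by linear_combination -2 * e0 + 2 * x (σ 2) * q2 - x (σ 2) * q3)
  · exact hσ 3 (by linear_combination -2 * e0 - 2 * x (σ 3) * q2 - x (σ 3) * q3)
  · exact (h8 (hσ 3)).2 (by linear_combination 2 * e0 - 2 * x (σ 3) * q2 + x (σ 3) * q3)

theorem win5 (hx : x ∈ X) {a b : ι} (hab : b ≠ a) (ha : x a ≠ 0) (hb : x b ≠ 0)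
    (ht : 2 * x a ^ 2 ≠ 1) : W1 X := by
  classical
  by_contra hW
  obtain ⟨y, hy, e⟩ := h.grow2 hn.ge h2 hW hx hab ha hb ht (h.three5 hp h2 hn hW hx)
  have h1 : 1 < #{p | x p ≠ 0} := one_lt_card.2 ⟨b, by simpa, a, by simpa, hab⟩
  have h4 := h.three5 hp h2 hn hW hy
  obtain ⟨a, ha, ht⟩ : ∃ a, y a ≠ 0 ∧ 2 * y a ^ 2 ≠ 1 := by
    by_contra! hc
    have e : ∑ p with y p ≠ 0, 2 * y p ^ 2 = 2 := by
      rw [sum_filter_of_ne (by simp +contextual), ← mul_sum]
      simpa [dotProduct, sq, h2] using h.norm y hy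
    rw [sum_congr rfl fun p hp => hc p (mem_filter.1 hp).2] at e
    have e1 : #{p | y p ≠ 0} = 3 := by omega
    simp only [sum_const, e1, nsmul_eq_mul] at e
    exact one_ne_zero (α := F) (by push_cast at e; linear_combination e)
  obtain ⟨b, hb, hba⟩ := exists_mem_ne (s := {p | y p ≠ 0}) (by omega) a
  obtain ⟨z, hz, e1⟩ := h.grow2 hn.ge h2 hW hy hba ha (mem_filter.1 hb).2 ht h4
  have := h.three5 hp h2 hn hW hz
  omega

theorem win5' (hx : x ∈ X) {a b : ι} (hab : b ≠ a) (ha : x a ≠ 0) (hb : x b ≠ 0)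
    {θ : (ι → F) → ι → F} (h1 : ∀ y ∈ X, θ y ∈ X) (h3 : ∀ y z, θ y ⬝ᵥ θ z = y ⬝ᵥ z) {i : ι}
    (h4 : θ x = H23.ev F i) : W1 X := by
  classical
  by_contra hW
  have t2 : 2 * x b ^ 2 = 1 := by_contra fun e => hW (h.win5 hp h2 hn hx hab.symm hb ha e)
  obtain ⟨d, e, hd, he, e1⟩ := two0 hn.ge (h.three5 hp h2 hn hW hx)
  have hy := h1 _ (h.move2 hx hb hd he e1)
  have hbd : d ≠ b := by rintro rfl; exact hb hd
  have e4 := h3 x (x - x b • H23.ev F b + x b • H23.ev F d)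
  have e5 := h3 (H23.ev F d) (x - x b • H23.ev F b + x b • H23.ev F d)
  have e6 := h3 (H23.ev F d) x
  generalize θ (x - x b • H23.ev F b + x b • H23.ev F d) = y at hy e4 e5
  simp [h4, h.norm x hx, hd, hbd] at e4 e5 e6
  have e7 : 2 * y i = 1 := by linear_combination 2 * e4 - t2
  obtain ⟨j, hj, hj0⟩ : ∃ j, j ≠ i ∧ y j ≠ 0 := by
    by_contra! hc
    rw [dotProduct, sum_eq_single i (fun j _ hj => by simp [hc j hj]) (by simp), e6] at e5
    exact hb (by simp [← e5])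
  exact hW (h.win5 hp h2 hn hy hj (fun e => by simp [e] at e7) hj0 fun e =>
    one_ne_zero (α := F) (by linear_combination (2 * y i + 1) * e7 - 2 * e))

end RX

theorem OF.isMaximalIn5 {Φ : Form (RingHom.id F) V} {b : Basis ι F V} {c : F} (h : OF Φ b c)
    [Fintype F] (hp : (Fintype.card F).Prime) (hn : Fintype.card ι = 5) :
    IsMaximalIn Φ.E ((decL fun i => F ∙ b i) ⊓ Φ.E) := by
  have ho : Odd (Fintype.card ι) := by rw [hn]; decide
  have := b.finiteDimensional_of_finite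
  have hd := finrank_eq_card_basis b
  have hc2 := mul_ne_zero h.two h.c0
  refine isMaximalIn_of inf_le_right ?_ fun H hM hH g hg hgM => ?_
  · obtain ⟨j⟩ : Nonempty ι := Fintype.card_pos_iff.1 (by omega)
    obtain ⟨u, hu, hu0, hs⟩ := iso3_quad h.kap (Φ.perp (F ∙ b j)) (by
      rw [h.nd.finrank_perp, finrank_span_singleton (b.ne_zero j)]; omega)
    replace hu := Φ.mem_perp_span_singleton.1 hu
    have hu' := Φ.B_eq_zero_symm hu
    refine ⟨(sieg h.nd h.kap hs.2 hu').1, mem_E (H22.eichData_quad h.kap hs.2 hu') fun _ => rfl,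
      fun ⟨⟨s, e⟩, _⟩ => ?_⟩
    obtain ⟨a, ha⟩ := Submodule.mem_span_singleton.1
      ((e j).le ⟨_, Submodule.mem_span_singleton_self _, rfl⟩)
    simp only [LinearEquiv.coe_coe, sieg_apply, hu', B_self_quad h.kap, h.Q, mul_zero, sub_zero,
      zero_smul] at ha
    have e1 := congrArg (Φ.B (b j)) ha
    by_cases e2 : j = s j
    · rw [← e2] at ha e1
      simp [B_self_quad h.kap, h.Q, hu, hc2] at e1
      simp [e1, hc2, hu0] at ha
    · simp [B_self_quad h.kap, h.Q, hu, h.orth _ _ e2, h.two, h.c0] at e1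
  have hO := hH.trans E_le_O
  have hneg : LinearEquiv.neg F ∈ Φ.O := ⟨by simp, Φ.Q_neg⟩
  have hK : pm H ≤ Φ.O := by
    rintro k (hk | hk)
    · exact hO hk
    · exact (Subgroup.mul_mem_cancel_right _ hneg).1 (hO hk)
  have hr : ∀ i, (refl h.kap (b i)).1 ∈ pm H := fun i => Or.inr (hM (h.neg_refl (by omega) ho i))
  have hM' : (decL fun i => F ∙ b i) ⊓ Φ.E ≤ pm H := fun k hk => Or.inl (hM hk)
  obtain ⟨i, hi⟩ : ∃ i, ∀ j, g (b i) ∉ F ∙ b j := by
    by_contra! hc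
    exact hgM ⟨mem_dec hc, hH hg⟩
  obtain ⟨x, hx⟩ := (vc b).surjective (g (b i))
  have key : ∀ j, ∃ a, a ≠ j ∧ x a ≠ 0 := fun j => by
    by_contra! hc
    refine hi j ?_
    rw [← hx, vc_apply, sum_eq_single j (fun p _ e => by simp [hc p e]) (by simp)]
    exact Submodule.smul_mem _ _ (Submodule.mem_span_singleton_self _)
  obtain ⟨a, -, ha⟩ := key i
  obtain ⟨a', haa, ha'⟩ := key a
  have hE := h.E_le hp (by omega) hK hr hM' ((h.rx (by omega) hK hr hM').win5' hp h.two hn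
    ⟨g, Or.inl hg, i, hx⟩ haa ha ha' (θ := fun y => (vc b).symm (g⁻¹ (vc b y))) (i := i) (by
      rintro y ⟨k, hk, j, e⟩
      exact ⟨g⁻¹ * k, mul_mem (Or.inl (H.inv_mem hg)) hk, j, by simp [e]⟩)
    (fun y z => mul_left_cancel₀ hc2 (by simp [← h.B_vc, (hO (H.inv_mem hg)).1, -LinearEquiv.coe_inv]))
    (by simp [hx, LinearEquiv.symm_apply_eq, vc_ev]))
  intro k hk
  refine (hE hk).elim id fun hk' => absurd (mem_SLv.1 (E_le_SLv h.nd
    ((Subgroup.mul_mem_cancel_left _ hk).1 (hH hk')))) ?_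
  rw [det_of_scalar (a := -1) (by simp), hd, ho.neg_one_pow]
  exact fun e => h.two (by linear_combination -e)

end H23.Fr
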