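import Cfsg.Agent.H23.Sq2
import Cfsg.Agent.H23.Pr1

/-! Subfield subgroups of symplectic groups of dimension at least four in odd characteristic. -/

set_option autoImplicit false

namespace H23.Sr

open Module H22 Form Sf

variable {F V : Type*} [Field F] [AddCommGroup V] [Module F V] {F₀ : Subfield F}

/-- A rational structure on a symplectic space. -/
structure RS (Φ : Form (RingHom.id F) V) (V₀ : Submodule F₀ V) : Prop extends RB Φ V₀ where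
  nd : Φ.Nondeg
  e1 : Φ.ε = -1
  k0 : Φ.κ = 0
  odd : (2 : F) ≠ 0
  big : 4 ≤ finrank F V

variable {Φ : Form (RingHom.id F) V} {V₀ : Submodule F₀ V} {K : Subgroup (V ≃ₗ[F] V)} {g z : V ≃ₗ[F] V}
  {u e f w x y : V} {s c : F}

theorem RS.all (h : RS Φ V₀) (v : V) : Sing Φ v := sing_alt h.e1 h.k0 v

theorem RS.rt (h : RS Φ V₀) : RT Φ F₀ := ⟨1, one_mem _, one_ne_zero, by simp [h.e1], by simp [h.k0]⟩

variable [Finite V] [FiniteDimensional F V]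

theorem RS.finrank_comap (h : RS Φ V₀) (U : Submodule F V) :
    finrank F₀ ((U.restrictScalars F₀).comap V₀.subtype) ≤ finrank F U := by
  let b := Module.finBasis F₀ ((U.restrictScalars F₀).comap V₀.subtype)
  have h1 := b.linearIndependent.map' _ (Submodule.ker_subtype _)
  choose f hf using fun j => (h.nondeg h.nd).exists_prescribed h1 (Pi.single j 1)
  have h2 : LinearIndependent F fun i => ((b i : V₀) : V) :=
    linearIndependent_of_dual (Φ := Φ) (w := fun j => f j)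
      (fun i j hij => congrArg Subtype.val ((hf i j).trans (Pi.single_eq_of_ne hij.symm _)))
      fun i => (congrArg Subtype.val ((hf i i).trans (Pi.single_eq_same _ _))).trans_ne
        one_ne_zero
  simpa using (LinearIndependent.of_comp U.subtype
    (v := fun i => (⟨(b i : V₀), (b i).2⟩ : U)) h2).fintype_card_le_finrank

theorem RS.perp_one (h : RS Φ V₀) {U : Submodule F V} (hx : x ∈ V₀) (hxU : x ∉ U) :
    ∃ e ∈ V₀, (∀ y ∈ V₀, y ∈ U → Φ.B y e = 0) ∧ Φ.B x e = 1 := by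
  obtain ⟨e, h1, h2⟩ := exists_perp_eq_one' (h.nondeg h.nd)
    (S := (U.restrictScalars F₀).comap V₀.subtype) (x := ⟨x, hx⟩) hxU
  exact ⟨e, e.2, fun y hy hy' => congrArg Subtype.val (h1 ⟨y, hy⟩ hy'), congrArg Subtype.val h2⟩

theorem RS.perp_two (h : RS Φ V₀) (hu : u ∈ V₀) (hx : x ∈ V₀) (h0 : x ∉ F ∙ u) :
    ∃ e ∈ V₀, Φ.B u e = 0 ∧ Φ.B x e = 1 :=
  let ⟨e, h1, h2, h3⟩ := h.perp_one hx h0
  ⟨e, h1, h2 u hu (Submodule.mem_span_singleton_self u), h3⟩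

theorem RS.perp_three (h : RS Φ V₀) (hu : u ∈ V₀) (hy : y ∈ V₀) (hx : x ∈ V₀)
    (h0 : x ∉ Submodule.span F {u, y}) : ∃ e ∈ V₀, Φ.B u e = 0 ∧ Φ.B y e = 0 ∧ Φ.B x e = 1 :=
  let ⟨e, h1, h2, h3⟩ := h.perp_one hx h0
  ⟨e, h1, h2 u hu (Submodule.subset_span (by simp)), h2 y hy (Submodule.subset_span (by simp)), h3⟩

theorem RS.sc (h : RS Φ V₀) : Sc V₀ := fun u hu h0 c hc => by
  obtain ⟨e, h1, -, h2⟩ := h.perp_one (U := ⊥) hu h0
  simpa [B_smul_left, h2, Φ.invol] using h.sig _ (h.B _ hc _ h1)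

theorem RS.mem_of (h : RS Φ V₀) (hy : ∀ x ∈ V₀, Φ.B y x ∈ F₀) : y ∈ V₀ := by
  obtain ⟨z, hz⟩ := (h.nondeg h.nd).exists_repr
    { toFun := fun x => ⟨Φ.B y x, hy x x.2⟩
      map_add' := fun _ _ => Subtype.ext (by simp)
      map_smul' := fun c x => Subtype.ext (Φ.B_smul_right c y x) }
  have : y - z = 0 := h.eq_zero h.nd fun x hx => by
    have := congrArg Subtype.val (hz ⟨x, hx⟩)
    simp only [RB.form_B] at this
    simp [this]
  exact sub_eq_zero.1 this ▸ z.2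

theorem RS.hyp (h : RS Φ V₀) (hu : u ∈ V₀) (hs : Sing Φ u) (h0 : u ≠ 0) : ∃ f ∈ V₀, Hyp Φ u f := by
  obtain ⟨f, hf⟩ := exists_hyp (h.nondeg h.nd) (e := ⟨u, hu⟩) (h.form_sing.2 hs)
    fun h => h0 (congrArg Subtype.val h)
  exact ⟨f, f.2, hs, h.form_sing.1 hf.right, congrArg Subtype.val hf.one⟩

theorem RS.any (h : RS Φ V₀) (l : List V) (hl : ∀ x ∈ l, x ∈ V₀) (U : Submodule F V)
    (hn : l.length + finrank F U < 4) : ∃ z ∈ V₀, z ∉ U ∧ ∀ x ∈ l, Φ.B x z = 0 := by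
  obtain ⟨z, -, h2, h3⟩ := (h.nondeg h.nd).exists_perp_notMem (T := ⊤)
    (S := (U.restrictScalars F₀).comap V₀.subtype) (l.pmap Subtype.mk hl) (by
      have := h.finrank_comap U
      have := finrank_le_rat h.span
      have := h.big
      rw [List.length_pmap, finrank_top]; omega)
  exact ⟨z, z.2, h2, fun x hx =>
    congrArg Subtype.val (h3 ⟨x, hl x hx⟩ (List.mem_pmap.2 ⟨x, hx, rfl⟩))⟩

theorem RS.sing (h : RS Φ V₀) (l : List V) (hl : ∀ x ∈ l, x ∈ V₀) (U : Submodule F V)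
    (hn : l.length + finrank F U < 4) :
    ∃ z ∈ V₀, Sing Φ z ∧ z ∉ U ∧ ∀ x ∈ l, Φ.B x z = 0 :=
  let ⟨z, h1, h2, h3⟩ := h.any l hl U hn
  ⟨z, h1, h.all z, h2, h3⟩

theorem RS.exists_sing (h : RS Φ V₀) : ∃ u ∈ V₀, Sing Φ u ∧ u ≠ 0 :=
  let ⟨u, h1, h2, h3, _⟩ := h.sing [] (by simp) ⊥ (by simp); ⟨u, h1, h2, h3⟩

theorem RS.eIn (h : RS Φ V₀) (hu : u ∈ V₀) (he : e ∈ V₀) (hs : s ∈ F₀) (hd : EichData Φ u e s) :
    Φ.EIn (Mg V₀ ⊓ Φ.E) u e s :=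
  eIn_inf h.nd hd fun _ hg => mem_Mg_of_rat fun v hv => hg v ▸ h.eich_mem hu he hs hv

theorem RS.lift (h : RS Φ V₀) {k : V₀ ≃ₗ[F₀] V₀} (hk : k ∈ h.form.E) :
    ∃ g ∈ Φ.E, ∀ v : V₀, g v = k v := by
  induction hk using Subgroup.closure_induction with
  | mem k hk =>
    obtain ⟨u, -, e, -, s, h1, h2⟩ := hk
    obtain ⟨g, hg⟩ := exists_eich h.nd (h.form_data.1 h1)
    exact ⟨g, mem_E (h.form_data.1 h1) hg, fun v => by rw [hg, h2, RB.form_eichler]⟩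
  | one => exact ⟨1, one_mem _, fun _ => rfl⟩
  | mul a b _ _ ha hb =>
    obtain ⟨g, h1, h2⟩ := ha
    obtain ⟨k, h3, h4⟩ := hb
    exact ⟨g * k, mul_mem h1 h3, fun v => by rw [LinearEquiv.mul_apply, h4, h2]; rfl⟩
  | inv a _ ha =>
    obtain ⟨g, h1, h2⟩ := ha
    refine ⟨g⁻¹, inv_mem h1, fun v => g.injective ?_⟩
    rw [h2]
    exact (g.apply_symm_apply v).trans (congrArg Subtype.val (a.apply_symm_apply v)).symm

theorem RS.trans (h : RS Φ V₀) (hu : u ∈ V₀) (hw : w ∈ V₀) (hu' : Sing Φ u) (hw' : Sing Φ w)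
    (hu0 : u ≠ 0) (hw0 : w ≠ 0) : ∃ m ∈ Mg V₀ ⊓ Φ.E, (∀ v ∈ V₀, m v ∈ V₀) ∧ m u = w := by
  have hκ : h.form.κ = 0 := Subtype.ext h.k0
  obtain ⟨k, hk, h1⟩ := (h.nondeg h.nd).witt_one (x := ⟨u, hu⟩) (y := ⟨w, hw⟩)
    (fun h => hu0 (congrArg Subtype.val h)) (fun h => hw0 (congrArg Subtype.val h))
    (Subtype.ext (hu'.1.trans hw'.1.symm)) (by rw [Q_of_κ hκ, Q_of_κ hκ])
  rw [← (h.nondeg h.nd).closure_transvections_alt (fun v => Subtype.ext (h.all v).1)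
    (Q_of_κ hκ)] at hk
  obtain ⟨g, hg, h2⟩ := h.lift (closure_transvections_le_E (h.nondeg h.nd) hκ hk)
  have h3 : ∀ v ∈ V₀, g v ∈ V₀ := fun v hv => h2 ⟨v, hv⟩ ▸ Subtype.property _
  exact ⟨g, ⟨mem_Mg_of_rat h3, hg⟩, h3, (h2 ⟨u, hu⟩).trans (congrArg Subtype.val h1)⟩

theorem RS.eIn_rat (h : RS Φ V₀) {K : Subgroup (V ≃ₗ[F] V)} (hM : Mg V₀ ⊓ Φ.E ≤ K) (hu : u ∈ V₀)
    (hs : Sing Φ u) (he : e ∈ V₀) (h0 : Φ.B u e = 0) :
    ∃ s ∈ F₀, EichData Φ u e s ∧ Φ.EIn K u e s :=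
  let ⟨s, h1, h2⟩ := h.data hs he h0; ⟨s, h1, h2, (h.eIn hu he h1 h2).mono hM⟩

omit [Finite V] [FiniteDimensional F V] in
theorem RS.self (h : RS Φ V₀) (v : V) : Φ.B v v = 0 := (h.all v).1

omit [Finite V] [FiniteDimensional F V] in
theorem RS.data' (h : RS Φ V₀) (s : F) (h0 : Φ.B u e = 0) : EichData Φ u e s :=
  ⟨h.all u, h0, by simp [h.self, h.e1], by simp [h.k0, Q_of_κ h.k0]⟩

theorem RS.partner (h : RS Φ V₀) (hu : u ∈ V₀) : ∃ x ∈ V₀, x ∉ F ∙ u ∧ Φ.B u x = 0 := by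
  obtain ⟨x, h1, h2, h3⟩ := h.any [u] (by simpa) (F ∙ u)
    (by have := finrank_span_one_le (F := F) u; simp; omega)
  exact ⟨x, h1, h2, h3 u (by simp)⟩

theorem RS.trans2 (h : RS Φ V₀) (hu : u ∈ V₀) (hx : x ∈ V₀) (h0 : u ≠ 0) (h1 : x ∉ F ∙ u)
    (h2 : Φ.B u x = 0) (hw : w ∈ V₀) (hy : y ∈ V₀) (h3 : w ≠ 0) (h4 : y ∉ F ∙ w)
    (h5 : Φ.B w y = 0) : ∃ m ∈ Mg V₀ ⊓ Φ.E, m u = w ∧ m x = y := by
  have hκ : h.form.κ = 0 := Subtype.ext h.k0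
  obtain ⟨k, hk, h6⟩ := (h.nondeg h.nd).witt_fin (Sq.li_rat hu hx h0 h1) (Sq.li_rat hw hy h3 h4)
    (fun i j => Subtype.ext (by
      fin_cases i <;> fin_cases j <;>
        simp [RB.form_B, h.self, h2, h5, Φ.B_eq_zero_symm h2, Φ.B_eq_zero_symm h5]))
    (fun i => by rw [Q_of_κ hκ, Q_of_κ hκ])
  rw [← (h.nondeg h.nd).closure_transvections_alt (fun v => Subtype.ext (h.self v))
    (Q_of_κ hκ)] at hk
  obtain ⟨g, hg, h7⟩ := h.lift (closure_transvections_le_E (h.nondeg h.nd) hκ hk)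
  have h8 : ∀ v ∈ V₀, g v ∈ V₀ := fun v hv => h7 ⟨v, hv⟩ ▸ Subtype.property _
  exact ⟨g, ⟨mem_Mg_of_rat h8, hg⟩, (h7 ⟨u, hu⟩).trans (congrArg Subtype.val (h6 0)),
    (h7 ⟨x, hx⟩).trans (congrArg Subtype.val (h6 1))⟩

open Sq (PP)

variable {α β γ δ : F}

theorem RS.spread (h : RS Φ V₀) (hM : Mg V₀ ⊓ Φ.E ≤ K) (hu : u ∈ V₀) (hx : x ∈ V₀) (h0 : u ≠ 0)
    (h1 : x ∉ F ∙ u) (h2 : Φ.B u x = 0) (h3 : Φ.EIn K u (α • x) β) : PP Φ V₀ K α β :=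
  fun w hw y hy a1 a2 a3 => by
    obtain ⟨m, b1, rfl, rfl⟩ := h.trans2 hu hx h0 h1 h2 hw hy a1 a2 a3
    simpa using h3.conj (hM b1) (E_le_O b1.2)

theorem RS.spread0 (h : RS Φ V₀) (hM : Mg V₀ ⊓ Φ.E ≤ K) (hu : u ∈ V₀) (h0 : u ≠ 0)
    (h3 : Φ.EIn K u 0 β) : PP Φ V₀ K 0 β :=
  let ⟨_, hx, a1, a2⟩ := h.partner hu
  h.spread hM hu hx h0 a1 a2 (by simpa using h3)

theorem RS.pp_rat (h : RS Φ V₀) (hM : Mg V₀ ⊓ Φ.E ≤ K) (ha : α ∈ F₀) (hb : β ∈ F₀) :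
    PP Φ V₀ K α β := fun _ hw _ hy _ _ a3 =>
  (h.eIn hw (smul_mem₀ ha hy) hb (h.data' _ (by simp [a3]))).mono hM

omit [Finite V] [FiniteDimensional F V] in
theorem RS.pp_add (h : RS Φ V₀) (h1 : PP Φ V₀ K α β) (h2 : PP Φ V₀ K γ δ) :
    PP Φ V₀ K (α + γ) (β + δ) := fun w hw y hy a1 a2 a3 => by
  simpa [add_smul, h.self] using (h1 w hw y hy a1 a2 a3).add (h2 w hw y hy a1 a2 a3) (h.self w)
    (by simp [a3]) (by simp [a3])

omit [Finite V] [FiniteDimensional F V] in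
theorem RS.pp_neg (h : RS Φ V₀) (h1 : PP Φ V₀ K α β) : PP Φ V₀ K (-α) (-β) :=
  fun w hw y hy a1 a2 a3 => by
    simpa [h.self] using (h1 w hw y hy a1 a2 a3).neg (h.self w) (by simp [a3])

theorem RS.pp_smul (h : RS Φ V₀) (hM : Mg V₀ ⊓ Φ.E ≤ K) (h1 : PP Φ V₀ K 0 β) (hc : c ∈ F₀) :
    PP Φ V₀ K 0 (c * β) := by
  have key : ∀ c ∈ F₀, PP Φ V₀ K 0 (c * c * β) := fun c hc => by
    by_cases h0 : c = 0
    · simpa [h0] using h.pp_rat hM (zero_mem _) (zero_mem _)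
    obtain ⟨u, hu, -, a0⟩ := h.exists_sing
    obtain ⟨x, hx, a1, a2⟩ := h.partner (smul_mem₀ hc hu)
    have := h1 _ (smul_mem₀ hc hu) x hx (by simp [h0, a0]) a1 a2
    rw [eIn_smul_left] at this
    exact h.spread0 hM hu a0 (by simpa using this)
  have h2 : (2 : F) ∈ F₀ := ofNat_mem _ 2
  convert h.pp_add (key _ (div_mem (add_mem hc (one_mem _)) h2))
    (h.pp_neg (key _ (div_mem (sub_mem hc (one_mem _)) h2))) using 1
  · simp
  · have := h.odd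
    field_simp; ring

theorem RS.pp_half (h : RS Φ V₀) (hM : Mg V₀ ⊓ Φ.E ≤ K) (h1 : PP Φ V₀ K 0 (2 * β)) :
    PP Φ V₀ K 0 β := by
  simpa [← mul_assoc, h.odd] using h.pp_smul hM h1 (inv_mem (ofNat_mem _ 2))

theorem RS.pp_mul (h : RS Φ V₀) (hM : Mg V₀ ⊓ Φ.E ≤ K) (h1 : PP Φ V₀ K α β)
    (h2 : PP Φ V₀ K γ δ) : PP Φ V₀ K 0 (α * γ) := by
  obtain ⟨u, hu, -, a0⟩ := h.exists_sing
  obtain ⟨x, hx, a1, a2⟩ := h.partner hu
  obtain ⟨y, hy, a3, a4⟩ := h.perp_two hu hx a1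
  have a5 : y ∉ F ∙ u := fun h7 => by
    obtain ⟨c, rfl⟩ := Submodule.mem_span_singleton.1 h7
    simp [Φ.B_eq_zero_symm a2] at a4
  have := Pr.eIn_comm h.e1 (h.self u) (h2 u hu y hy a0 a5 a3) (h1 u hu x hx a0 a1 a2)
    (by simp [a3]) (by simp [a2])
  exact h.pp_half hM (h.spread0 hM hu a0 (by simpa [a4, mul_comm γ] using this))

theorem RS.pp_snd (h : RS Φ V₀) (hM : Mg V₀ ⊓ Φ.E ≤ K) (h1 : PP Φ V₀ K α β) :
    PP Φ V₀ K 0 β := by
  obtain ⟨u, hu, -, a0⟩ := h.exists_sing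
  obtain ⟨x, hx, a1, a2⟩ := h.partner hu
  have := (h1 u hu x hx a0 a1 a2).add (h1 u hu (-x) (neg_mem hx) a0 (by simpa) (by simp [a2]))
    (h.self u) (by simp [a2]) (by simp [a2])
  exact h.pp_half hM (h.spread0 hM hu a0 (by simpa [h.self, two_mul] using this))

theorem RS.pp_swap (h : RS Φ V₀) (hM : Mg V₀ ⊓ Φ.E ≤ K) (h1 : PP Φ V₀ K 0 β) :
    PP Φ V₀ K β 0 := fun u hu x hx a0 a1 a2 => by
  have key : ∀ c ∈ F₀, ∀ w ∈ V₀, w ≠ 0 → Φ.EIn K w 0 (c * β) := fun c hc w hw h0 => by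
    obtain ⟨x, hx, a1, a2⟩ := h.partner hw
    simpa using h.pp_smul hM h1 hc w hw x hx h0 a1 a2
  have h2 : (2 : F)⁻¹ ∈ F₀ := inv_mem (ofNat_mem _ 2)
  obtain ⟨a, ha, b1⟩ := key _ h2 (u - x) (sub_mem hu hx) fun e =>
    a1 (sub_eq_zero.1 e ▸ Submodule.mem_span_singleton_self u)
  obtain ⟨b, hb, b2⟩ := key _ (neg_mem h2) (u + x) (add_mem hu hx) fun e =>
    a1 (eq_neg_of_add_eq_zero_right e ▸ neg_mem (Submodule.mem_span_singleton_self u))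
  refine ⟨a * b, mul_mem ha hb, fun v => ?_⟩
  have := h.odd
  simp only [LinearEquiv.mul_apply, b1, b2, eichler_apply, h.e1, map_add, map_sub, map_smul,
    LinearMap.add_apply, LinearMap.sub_apply, LinearMap.smul_apply, h.self, a2,
    Φ.B_eq_zero_symm a2, map_zero, LinearMap.zero_apply, RingHom.id_apply, smul_eq_mul]
  match_scalars <;> field_simp <;> ring

theorem RS.win (h : RS Φ V₀) (hF : PD F₀) (hM : Mg V₀ ⊓ Φ.E ≤ K) (h1 : PP Φ V₀ K 0 β)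
    (h2 : β ∉ F₀) : Φ.E ≤ K := by
  let Λ : Subring F :=
    { carrier := {a | PP Φ V₀ K 0 a}
      mul_mem' := fun h3 h4 => h.pp_mul hM (h.pp_swap hM h3) (h.pp_swap hM h4)
      one_mem' := h.pp_rat hM (zero_mem _) (one_mem _)
      add_mem' := fun h3 h4 => by simpa using h.pp_add h3 h4
      zero_mem' := h.pp_rat hM (zero_mem _) (zero_mem _)
      neg_mem' := fun ha => by simpa using h.pp_neg ha }
  have a5 : ∀ c, PP Φ V₀ K 0 c := hF.2 Λ (fun a ha => h.pp_rat hM (zero_mem _) ha) ⟨β, h1, h2⟩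
  have a6 : ∀ w ∈ V₀, w ≠ 0 → Φ.QIn K w := fun w hw b1 => by
    obtain ⟨x, hx, b2, b3⟩ := h.partner hw
    have b4 : Φ.AIn K w 0 := ⟨by simp, fun s _ => by simpa using a5 s w hw x hx b1 b2 b3⟩
    have hs := h.all w
    obtain ⟨f, hf, b5⟩ := h.hyp hw hs b1
    have key : ∀ v, ∀ c : F, Φ.AIn K w (c • (v - Φ.B w v • f)) := fun v => by
      have hv : v ∈ Submodule.span F (V₀ : Set V) := h.span ▸ Submodule.mem_top
      induction hv using Submodule.span_induction with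
      | mem y hy =>
        intro c
        have b6 := sub_mem hy (smul_mem₀ (h.B _ hw _ hy) hf)
        have b7 : Φ.B w (y - Φ.B w y • f) = 0 := by simp [b5.one]
        generalize y - Φ.B w y • f = z at b6 b7
        by_cases b8 : z ∈ F ∙ w
        · obtain ⟨d, rfl⟩ := Submodule.mem_span_singleton.1 b8
          simpa [smul_smul] using b4.add_smul hs (c * d)
        exact b4.of_eIn (h.data' 0 (by simp [b7])) (h.pp_swap hM (a5 c) w hw z b6 b1 b8 b7)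
      | zero => simpa using b4
      | add x y _ _ hx hy =>
        intro c
        convert (hx c).add hs (hy c) using 1
        rw [map_add]; module
      | smul d x _ hx =>
        intro c
        convert hx (c * d) using 1
        rw [map_smul, smul_eq_mul]; module
    exact qIn_iff.2 fun e he => by simpa [he] using key e 1
  obtain ⟨u, hu, hs, b1⟩ := h.exists_sing
  obtain ⟨f, hf, b2⟩ := h.hyp hu hs b1
  exact E_le_of_qIn h.nd hs b2.right (by simp [b2.one]) (a6 u hu b1) (a6 f hf b2.right_ne)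

theorem RS.nw (h : RS Φ V₀) (hM : Mg V₀ ⊓ Φ.E ≤ K) (hN : ∀ β, PP Φ V₀ K 0 β → β ∈ F₀) :
    NW Φ V₀ K := fun u hu e s h1 h2 v hv => by
  by_cases hu0 : u = 0
  · simpa [hu0, eichler_apply] using hv
  have h4 : ∀ y ∈ V₀, Φ.B u y = 0 → Φ.B y e ∈ F₀ := fun y hy a2 =>
    hN _ (h.pp_half hM (h.spread0 hM hu hu0 (Pr.eIn_comm h.e1 (h.self u) h2
      ((h.eIn hu hy (zero_mem _) (h.data' 0 a2)).mono hM) h1.perp a2)))
  obtain ⟨f, hf, a1⟩ := h.hyp hu h1.sing hu0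
  obtain ⟨e, he, c, rfl⟩ : ∃ e₀ ∈ V₀, ∃ c : F, e = e₀ + c • u := by
    refine ⟨e + Φ.B f e • u, h.mem_of fun x hx => ?_, -Φ.B f e, by simp⟩
    have a3 := neg_mem (h4 _ (sub_mem hx (smul_mem₀ (h.B _ hu _ hx) hf)) (by simp [a1.one]))
    convert a3 using 1
    simp only [map_sub, map_add, map_smul, LinearMap.sub_apply, LinearMap.add_apply,
      LinearMap.smul_apply, smul_eq_mul, RingHom.id_apply, Φ.symm x e, h.e1]
    ring
  have a2 := h1.of_add_smul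
  rw [eIn_add_smul] at h2
  rw [eichler_add_smul]
  generalize s - c + Φ.ε * (RingHom.id F) c = s at a2 h2
  have a5 := h2.add (((h.eIn hu he (zero_mem _) (h.data' 0 a2.perp)).mono hM).neg a2.sing.1
    a2.perp) a2.sing.1 a2.perp (by simp [a2.perp])
  exact h.eich_mem hu he (hN _ (h.spread0 hM hu hu0 (by simpa [h.self] using a5))) hv

theorem RS.stab (h : RS Φ V₀) (hM : Mg V₀ ⊓ Φ.E ≤ K) (hK : K ≤ Φ.E) (hN : NW Φ V₀ K)
    (hu : u ∈ V₀) (hs : Sing Φ u) (hu0 : u ≠ 0) (hg : g ∈ K) (h1 : g u = c • u) : g ∈ Mg V₀ := by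
  have hc : c ≠ 0 := by rintro rfl; exact hu0 (by simpa using h1)
  have hc' : (RingHom.id F) c ≠ 0 := by simpa
  have hO := E_le_O (hK hg)
  obtain ⟨f, hf, a1⟩ := h.hyp hu hs hu0
  have a2 : ∀ y, (RingHom.id F) c * Φ.B u (g y) = Φ.B u y := fun y => by rw [← B_smul_left, ← h1, hO.1]
  obtain ⟨e, -, s, a3, a4⟩ := exists_eich_map' h.nd (u := u) (v := (RingHom.id F) c • g f)
    ⟨hs, (a1.right.mapO hO).smul _, by simpa [a1.one] using a2 f⟩ a1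
  obtain ⟨k, hk⟩ := exists_eich h.nd a3
  have a5 := mem_E a3 hk
  have a6 : ∀ x y, Φ.B ((RingHom.id F) c • (k * g) x) ((RingHom.id F) c • (k * g) y) = c * (RingHom.id F) c * Φ.B x y := fun x y => by
    rw [B_smul_left, B_smul_right, (mul_mem (E_le_O a5) hO).1, Φ.invol, mul_assoc]
  have a7 : (RingHom.id F) c • (k * g) f = f := by rw [LinearEquiv.mul_apply, ← map_smul, hk, a4]
  have a8 : ∀ y ∈ V₀, Φ.B u y = 0 → Φ.B f y = 0 → (RingHom.id F) c • (k * g) y ∈ V₀ := fun y hy b1 b2 => by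
    obtain ⟨t, -, b3, b4⟩ := h.eIn_rat hM hu hs hy b1
    have b5 := b4.conj hg hO
    have b6 := b3.mapO hO
    rw [h1] at b5 b6
    have b7 := smul_mem₀ h.eps (sub_mem hf (hN u hu _ _ (b6.of_smul_left hs)
      ((eIn_smul_left c).1 b5) f hf))
    have b8 : Φ.B u (g y) = 0 := by simpa [b1, hc] using a2 y
    obtain ⟨a, ha⟩ : ∃ a : F, (RingHom.id F) c • (k * g) y - a • u ∈ V₀ := by
      refine ⟨(RingHom.id F) c * Φ.B e (g y) + Φ.ε * (Φ.B ((RingHom.id F) c • g y) f - (RingHom.id F) (c * (RingHom.id F) c * t)), ?_⟩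
      convert b7 using 1
      rw [LinearEquiv.mul_apply, hk, eichler_apply, eichler_apply, b8, a1.one]
      linear_combination (norm := module) (congrArg (· • (RingHom.id F) c • g y) Φ.eps).symm
    have b9 := h.B _ hf _ ha
    have b10 := a6 f y
    rw [a7, b2, mul_zero] at b10
    rw [map_sub, b10, B_smul_right, a1.B_symm, zero_sub] at b9
    have b11 : a ∈ F₀ := by simpa [Φ.eps_ne_zero] using div_mem (neg_mem b9) h.eps
    simpa using add_mem ha (smul_mem₀ b11 hu)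
  have a9 : c * (RingHom.id F) c ∈ F₀ := by
    obtain ⟨y, hy, b0, b2⟩ := h.any [u, f] (by simp [*]) ⊥ (by simp)
    have b1 : y ∉ Submodule.span F {u, f} := fun e => by
      obtain ⟨a, b, rfl⟩ := Submodule.mem_span_pair.1 e
      have e1 := b2 u (by simp)
      have e2 := b2 f (by simp)
      simp [h.self, a1.one, a1.B_symm, h.e1] at e1 e2
      simp [e1, e2] at b0
    obtain ⟨z, hz, b3, b4, b5⟩ := h.perp_three hu hf hy b1
    have := h.B _ (a8 y hy (b2 u (by simp)) (b2 f (by simp))) _ (a8 z hz b3 b4)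
    rwa [a6, b5, mul_one] at this
  have a10 : k * g ∈ Mg V₀ := mem_Mg_of hc' fun v hv => by
    have b1 := mul_mem (h.sig _ h.eps) (h.B _ hf _ hv)
    have b2 := a8 _ (sub_mem (sub_mem hv (smul_mem₀ (h.B _ hu _ hv) hf)) (smul_mem₀ b1 hu))
      (by simp [a1.one, hs.1]) (by
        simp only [map_sub, map_smul, a1.right.1, a1.B_symm, smul_eq_mul]
        linear_combination -Φ.B f v * σε_mul (Φ := Φ))
    have b3 : (k * g) u = c • u := by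
      simp [h1, hk, eichler_apply, hs.1, Φ.B_eq_zero_symm a3.perp]
    convert add_mem (add_mem b2 (smul_mem₀ (h.B _ hu _ hv) hf)) (smul_mem₀ (mul_mem b1 a9) hu)
      using 1
    rw [map_sub, map_sub, map_smul, map_smul, b3]
    linear_combination (norm := module) Φ.B u v • a7
  have a11 : k ∈ K := by simpa using mul_mem (hM ⟨a10, mul_mem a5 (hK hg)⟩) (K.inv_mem hg)
  have a12 : k ∈ Mg V₀ := mem_Mg_of_rat fun v hv => hk v ▸ hN u hu e s a3 ⟨k, a11, hk⟩ v hv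
  simpa using mul_mem ((Mg V₀).inv_mem a12) a10

theorem RS.line (h : RS Φ V₀) (hM : Mg V₀ ⊓ Φ.E ≤ K) (hK : K ≤ Φ.E) (hN : NW Φ V₀ K)
    (hu : u ∈ V₀) (hu0 : u ≠ 0) (hw : w ∈ V₀) (hs : Sing Φ w) (hg : g ∈ K) (h1 : g u = c • w) :
    g ∈ Mg V₀ := by
  have hs' : Sing Φ u := by
    simpa [← h1] using (hs.smul c).mapO (Φ.O.inv_mem (E_le_O (hK hg)))
  obtain ⟨m, c1, -, c2⟩ := h.trans hw hu hs hs' (by rintro rfl; exact hu0 (by simpa using h1)) hu0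
  have := h.stab hM hK hN hu hs' hu0 (mul_mem (hM c1) hg) (c := c) (by simp [h1, c2])
  simpa using mul_mem ((Mg V₀).inv_mem c1.1) this

theorem RS.rat_conj (h : RS Φ V₀) (hM : Mg V₀ ⊓ Φ.E ≤ K) (hK : K ≤ Φ.E) (hN : NW Φ V₀ K)
    (hw : w ∈ V₀) (hs : Sing Φ w) (hw0 : w ≠ 0) (hg : g ∈ K) (h1 : Φ.EIn K u e s)
    (h2 : Φ.B u (g w) = 0) (h3 : Φ.B e (g w) = 0) {v : V} (hv : v ∈ V₀) :
    (Φ.B e (g v) - (RingHom.id F) s * Φ.B u (g v)) • g⁻¹ u + (-((RingHom.id F) Φ.ε * Φ.B u (g v))) • g⁻¹ e ∈ V₀ := by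
  have hO := Φ.O.inv_mem (E_le_O (hK hg))
  obtain ⟨k, hk, a1⟩ := h1.conj (K.inv_mem hg) hO
  simp only [eichler_apply, B_O_left hO, inv_inv] at a1
  have a2 : k w = w := by simp [a1, h2, h3]
  have := sub_mem (h.sc.rat_of_fix (h.stab hM hK hN hw hs hw0 hk (c := 1) (by simpa)) hw hw0 a2 v hv)
    hv
  rwa [a1, add_assoc, add_sub_cancel_left] at this

theorem RS.exists_ne (h : RS Φ V₀) (hu0 : u ≠ 0) (g : V ≃ₗ[F] V) : ∃ v ∈ V₀, Φ.B u (g v) ≠ 0 :=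
  exists_rat_ne h.span (f := Φ.B u ∘ₗ g.toLinearMap) fun h1 => hu0 (h.nd u fun y => by
    simpa using DFunLike.congr_fun h1 (g.symm y))

theorem RS.killT (h : RS Φ V₀) (hM : Mg V₀ ⊓ Φ.E ≤ K) (hK : K ≤ Φ.E) (hN : NW Φ V₀ K)
    (hT : RT Φ F₀) (hw : w ∈ V₀) (hs : Sing Φ w) (hw0 : w ≠ 0) (hg : g ∈ K) (hu : u ∈ V₀)
    (hs' : Sing Φ u) (hu0 : u ≠ 0) (h2 : Φ.B u (g w) = 0) : g ∈ Mg V₀ := by
  obtain ⟨t, a1, a2, a3, a4⟩ := hT
  obtain ⟨v, hv, a5⟩ := h.exists_ne hu0 g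
  have a6 := h.rat_conj hM hK hN hw hs hw0 hg
    ((h.eIn hu (zero_mem _) a1 (data_zero hs' a3 a4)).mono hM) h2 (by simp) hv
  simp only [map_zero, smul_zero, add_zero, LinearMap.zero_apply, zero_sub] at a6
  exact h.line hM hK hN a6 (by simp [a2, a5, hu0]) hu hs' hg
    (by rw [map_smul]; exact congrArg _ (g.apply_symm_apply u))

variable [Finite F]

theorem RS.mem_of_pair (h : RS Φ V₀) (hM : Mg V₀ ⊓ Φ.E ≤ K) (hK : K ≤ Φ.E) (hN : NW Φ V₀ K)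
    (h2 : (2 : F) ≠ 0) (hq : ∀ y, ∀ a ∈ F₀, ∀ b ∈ F₀, y ^ 2 = a * y + b → y ∈ F₀)
    {X Y : V →ₗ[F] V} {β : F} (hX : ∀ v, X (X v) = 0) (hY : ∀ v, Y (Y v) = 0)
    (hXYX : ∀ v, X (Y (X v)) = β • X v) (hYXY : ∀ v, Y (X (Y v)) = β • Y v) (h1 : EndIn K X)
    (h3 : EndIn K Y) (hu : u ∈ V₀) (hs : Sing Φ u) (hu0 : u ≠ 0) (h4 : X u = 0) (hy : y ∈ V₀)
    (h5 : X y ∈ V₀) (h6 : X y ≠ 0) : β ∈ F₀ := by
  by_cases hβ : β = 0
  · exact hβ ▸ zero_mem _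
  rcases endIn_of_pair h2 hβ hX hY hXYX hYXY h1 h3 with ⟨k, hk, a1⟩ | a1
  · have a2 : k u = u := by simp [a1, h4]
    refine h.sc _ h5 h6 _ ?_
    simpa [a1] using sub_mem (h.sc.rat_of_fix (h.stab hM hK hN hu hs hu0 hk (c := 1) (by simpa))
      hu hu0 a2 y hy) hy
  · exact hq _ 0 (zero_mem _) (-1) (neg_mem (one_mem _)) (by simp [a1])

theorem RS.le_of_oddT (h : RS Φ V₀) (hM : Mg V₀ ⊓ Φ.E ≤ K) (hK : K ≤ Φ.E) (hN : NW Φ V₀ K)
    (h2 : (2 : F) ≠ 0) (hq : ∀ y, ∀ a ∈ F₀, ∀ b ∈ F₀, y ^ 2 = a * y + b → y ∈ F₀) (hT : RT Φ F₀)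
    (hg : g ∈ K) : g ∈ Mg V₀ := by
  obtain ⟨w, hw, hs, hw0⟩ := h.exists_sing
  by_contra h1
  have a1 : ∀ u ∈ V₀, Sing Φ u → u ≠ 0 → Φ.B (g w) u ≠ 0 := fun u hu b1 b2 b3 =>
    h1 (h.killT hM hK hN hT hw hs hw0 hg hu b1 b2 (Φ.B_eq_zero_symm b3))
  obtain ⟨t, c1, c2, c3, c4⟩ := hT
  have hO := E_le_O (hK hg)
  have a2 : ∀ u, Φ.EIn K u 0 t → EndIn K ((-(RingHom.id F) t • Φ.B u).smulRight u) := fun u hu =>
    hu.imp fun k hk => ⟨hk.1, fun v => by simp [hk.2, eichler_apply]⟩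
  have a3 : ∀ u ∈ V₀, Sing Φ u → Φ.EIn K u 0 t := fun u hu b1 =>
    (h.eIn hu (zero_mem _) c1 (data_zero b1 c3 c4)).mono hM
  have a4 := (a3 w hw hs).conj hg hO
  rw [map_zero] at a4
  have a5 : ∀ u ∈ V₀, Sing Φ u → Φ.B (g w) u * (RingHom.id F) (Φ.B (g w) u) ∈ F₀ := fun u hu b1 => by
    by_cases b2 : u = 0
    · simp [b2]
    obtain ⟨f, hf, b3⟩ := h.hyp hu b1 b2
    have b4 := h.mem_of_pair hM hK hN h2 hq (β := (RingHom.id F) t ^ 2 * (Φ.B (g w) u * Φ.B u (g w)))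
      (by simp [b1.1]) (by simp [hO.1, hs.1]) (fun v => by simp [smul_smul]; congr 1; ring)
      (fun v => by simp [smul_smul]; congr 1; ring) (a2 u (a3 u hu b1)) (a2 _ a4) hu b1 b2
      (by simp [b1.1]) hf (by simpa [b3.one] using smul_mem₀ (h.sig _ c1) hu)
      (by simp [b3.one, c2, b2])
    have b5 := div_mem b4 (mul_mem (pow_mem (h.sig _ c1) 2) h.eps)
    have b6 : (RingHom.id F) t ≠ 0 := by simpa
    have b7 := Φ.eps_ne_zero
    convert b5 using 1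
    rw [Φ.symm (g w) u]
    field_simp
  obtain ⟨x, hx, b1, b2, b3⟩ := h.sing [w] (by simpa) (F ∙ w)
    (by have := finrank_span_one_le (F := F) w; simp; omega)
  have b4 := b3 w (by simp)
  have b5 : ∀ c : F, Sing Φ (x + c • w) := fun c =>
    (totSing_span (s := {x, w}) (by simp [hs.1, b1.1, b4, Φ.B_eq_zero_symm b4])
      (by simp [hs.2, b1.2])).sing (Submodule.mem_span_pair.2 ⟨1, c, by simp⟩)
  have b6 := a1 w hw hs hw0
  have b7 : (RingHom.id F) (Φ.B (g w) w) ≠ 0 := by simpa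
  have b8 := div_mem (a5 x hx b1) (a5 w hw hs)
  have b9 := div_mem (a5 _ (add_mem hx (smul_mem₀ (one_mem _) hw)) (b5 1)) (a5 w hw hs)
  have b10 : -(Φ.B (g w) x / Φ.B (g w) w) ∈ F₀ := neg_mem (hq _ _ (sub_mem (sub_mem b9 b8)
    (one_mem _)) _ (neg_mem b8) (by simp only [map_add, one_smul]; field_simp; ring))
  refine a1 _ (add_mem hx (smul_mem₀ b10 hw)) (b5 _) (fun b11 => b2 ?_) (by simp [b6])
  rw [eq_neg_of_add_eq_zero_left b11]
  exact neg_mem (Submodule.smul_mem _ _ (Submodule.mem_span_singleton_self w))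

theorem RS.isMaximalIn (h : RS Φ V₀) (hF : PD F₀) :
    Cfsg.Geo.IsMaximalIn Φ.E (Mg V₀ ⊓ Φ.E) := by
  obtain ⟨w, hw, hs, hw0⟩ := h.exists_sing
  refine isMaximalIn_of inf_le_right ?_ fun K hM hK g hg hg' => ?_
  · obtain ⟨c, hc⟩ := hF.1
    obtain ⟨e, he, b1, b2, b3⟩ := h.sing [w] (by simpa) (F ∙ w)
      (by have := finrank_span_one_le (F := F) w; simp; omega)
    have b4 := b3 w (by simp)
    obtain ⟨y, hy, b5, b6⟩ := h.perp_two hw he b2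
    have b7 := eichData_zero hs (b1.smul ((RingHom.id F) c)) (by simp [b4])
    obtain ⟨k, hk⟩ := exists_eich h.nd b7
    refine ⟨k, mem_E b7 hk, fun h1 => hc (h.sc w hw hw0 c ?_)⟩
    simpa [hk, eichler_apply, b5, b6, B_smul_left, Φ.invol] using sub_mem (h.sc.rat_of_fix h1.1 hw
      hw0 (by simp [hk, eichler_apply, hs.1, B_smul_left, Φ.B_eq_zero_symm b4]) y hy) hy
  by_contra h1
  have hN : NW Φ V₀ K := h.nw hM fun β h2 => by_contra fun h3 => h1 (h.win hF hM h2 h3)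
  rcases hF.dichotomy with ⟨θ, hθ⟩ | hq
  · obtain ⟨a, ha, b, hb, h2⟩ := exists_two_rat h.span hθ (g w)
    obtain ⟨u, hu, b1, b2, b3⟩ := h.sing [a, b] (by simp [*]) ⊥ (by simp)
    exact hg' ⟨h.killT hM hK hN h.rt hw hs hw0 hg hu b1 b2
      (by simp [h2, Φ.B_eq_zero_symm (b3 a (by simp)), Φ.B_eq_zero_symm (b3 b (by simp))]), hK hg⟩
  exact hg' ⟨h.le_of_oddT hM hK hN h.odd hq h.rt hg, hK hg⟩

open Matrix Cfsg Cfsg.Geo

variable {ι : Type} [Fintype ι] [DecidableEq ι]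

theorem isMaximalIn_colS_four {Φ : Form (RingHom.id F) (ι → F)} (hΦ : Φ.Nondeg) {P : GL ι F}
    (hε : Φ.ε = -1) (hκ : Φ.κ = 0) (h2 : (2 : F) ≠ 0)
    (hB : ∀ x ∈ colS F₀ P, ∀ y ∈ colS F₀ P, Φ.B x y ∈ F₀)
    (hn : 4 ≤ Fintype.card ι) (hF : PD F₀) {K : Subgroup (GL ι F)}
    (hK : ∀ g, g ∈ K ↔ glE ι F g ∈ Φ.E) : IsMaximalIn K (subfieldSubgroup F₀ P ⊓ K) :=
  isMaximalIn_of_iff (glE ι F) (RS.isMaximalIn ⟨⟨span_colS P, fun _ h => h,
    hε ▸ neg_mem (one_mem _), hκ ▸ zero_mem _, hB, fun v _ => ⟨0, zero_mem _,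
      by simp [(sing_alt hε hκ v).1], by simp [Q_of_κ hκ]⟩⟩, hΦ, hε, hκ, h2, by simpa⟩ hF) hK
    fun g => and_congr mem_subfieldSubgroup_iff_Mg (hK g)

end H23.Sr
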