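import Cfsg.Agent.H23.Nd3

/-! The stabiliser of a non-degenerate plane in a five-dimensional orthogonal group. -/

set_option autoImplicit false

namespace H23.Nd

open Module H22 Cfsg Cfsg.Geo Form

variable {F V : Type*} [Field F] [AddCommGroup V] [Module F V] {Φ : Form (RingHom.id F) V}
  {H : Subgroup (V ≃ₗ[F] V)} {D : Submodule F V} {k g : V ≃ₗ[F] V} {a : V}
  [FiniteDimensional F V]

theorem flip_stab (C : Ctx Φ H) (h2 : (2 : F) ≠ 0) {l : F} (hl : l ≠ 0) (hl' : l ^ 2 ≠ 1)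
    (hB : Blk Φ H D) (hN : NW Φ H D) (hS : ST Φ H D) (hk : k ∈ H) (ha : Good Φ D a)
    (h : k a = -a) : k ∈ stabL D := by
  obtain ⟨haD, hQ, u, hu, h1, h0, h3⟩ := ha
  have hO := C.O hk
  have hκ := C.κ
  have a1 : ∀ s : F, Φ.AIn H u (s • a) := fun s =>
    hB.aIn C.nd hu (D.smul_mem _ haD) (by simp [h3])
  have a2 : ∀ s : F, Φ.AIn H (k u) (s • a) := fun s => by
    simpa [h] using (a1 (-s)).conj hk hO
  have a3 : Φ.Q (k u) = 0 := by rw [hO.2, h1]
  have a4 : Φ.B (k u) a = 0 := by simpa using (a2 1).1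
  have a5 := Φ.B_eq_zero_symm h3
  have a6 := Φ.B_eq_zero_symm a4
  have a7 : Φ.B u u = 0 := by simp [B_self_quad hκ, h1]
  by_cases hβ : Φ.B (k u) u = 0
  · obtain ⟨t, ht, hO', e⟩ := (a2 1).apply hκ a3
    have := hN u hu h1 h0 _ (by simpa [e, a5, hβ] using (a1 1).conj ht hO')
    simp only [e, one_smul, a4, zero_smul, sub_zero, mul_zero, B_self_quad hκ] at this
    exact hS k hk u hu h1 h0 ((D.smul_mem_iff (mul_ne_zero h2 hQ)).1
      (by simpa using D.sub_mem this haD))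
  obtain ⟨f, hfD, hf⟩ := hyp_of_nd C.nd hκ hB.nd hu h1 h0
  set β := Φ.B (k u) u with hβe
  have a8 : Φ.B u (k u) = β := B_comm_quad hκ _ _
  have key : ∀ t : F, t ≠ 0 → f - (Φ.B (k u) f / β + (t ^ 2 * Φ.Q a * β ^ 2)⁻¹) • u ∈
      D.map k.toLinearMap := fun t ht => by
    obtain ⟨p, hp, -, e1⟩ := (a1 (t * Φ.Q a * β)⁻¹).apply hκ h1
    obtain ⟨r, hr, -, e2⟩ := (a2 t).apply hκ a3
    have b1 : (p * r) u = (-(t ^ 2 * Φ.Q a * β)) • k u := by
      simp only [LinearEquiv.mul_apply, e1, e2, map_add, map_sub, map_smul, LinearMap.smul_apply,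
        a5, a6, h3, a7, a8, ← hβe, B_self_quad hκ, Φ.Q_smul, RingHom.id_apply, smul_eq_mul]
      match_scalars <;> field_simp <;> ring
    have b2 := hS.map_eq hk (H.mul_mem hp hr) hu h1 h0 (b1 ▸ Submodule.smul_mem _ _ ⟨u, hu, rfl⟩)
    have b3 : (p * r) f ∈ D.map k.toLinearMap := b2 ▸ ⟨f, hfD, rfl⟩
    have b4 : a ∈ D.map k.toLinearMap := ⟨-a, D.neg_mem haD, by simp [h]⟩
    have b5 : k u ∈ D.map k.toLinearMap := ⟨u, hu, rfl⟩
    convert Submodule.sub_mem _ (Submodule.sub_mem _ b3 (Submodule.smul_mem _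
      (t * Φ.B a f - t ^ 2 * Φ.Q a * Φ.B (k u) f) b5)) (Submodule.smul_mem _
      (-(t * Φ.Q a * β)⁻¹ * (1 + (t * Φ.B a f - t ^ 2 * Φ.Q a * Φ.B (k u) f) * β) -
        Φ.B (k u) f * t) b4) using 1
    simp only [LinearEquiv.mul_apply, e1, e2, map_add, map_sub, map_smul, LinearMap.smul_apply,
      a5, a6, h3, a7, a8, ← hβe, B_self_quad hκ, Φ.Q_smul, RingHom.id_apply, smul_eq_mul, hf.one]
    match_scalars <;> field_simp <;> ring
  have b1 := Submodule.sub_mem _ (key l hl) (key 1 one_ne_zero)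
  refine hS.of_mem_map C hk ((Submodule.smul_mem_iff _
    (s := (l ^ 2 - 1) * (l ^ 2 * Φ.Q a * β ^ 2)⁻¹) (by simp [sub_eq_zero, hl', hl, hQ, hβ])).1 ?_)
    h1 h0 hu
  convert b1 using 1
  match_scalars <;> field_simp <;> ring

theorem isMaximalIn_three [Fintype F] (hΦ : Φ.Nondeg) (hκ : Φ.κ = 1) (hV : finrank F V = 5)
    (h2 : (2 : F) ≠ 0) (hq : 5 ≤ Fintype.card F) (hD : Disjoint D (Φ.perp D))
    (h3 : finrank F D = 3) (hχ : ∀ c, Φ.Q c = 1 → (refl hκ c).1 * LinearEquiv.neg F ∈ Φ.E) :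
    IsMaximalIn Φ.E (stabL D ⊓ Φ.E) := by
  classical
  have hd := hΦ.finrank_perp_add D
  obtain ⟨l, hl, hl'⟩ : ∃ t : F, t ≠ 0 ∧ t ^ 2 ≠ 1 := by
    by_contra! hc
    have : (Finset.univ : Finset F) ⊆ {0, 1, -1} := fun c _ => by
      by_cases h7 : c = 0
      · simp [h7]
      · simp [mul_self_eq_one_iff.1 ((sq c).symm.trans (hc c h7))]
    have h8 := (Finset.card_le_card this).trans Finset.card_le_three
    rw [Finset.card_univ] at h8
    omega
  refine isMaximalIn_stab hΦ hκ hV.ge hD h3.ge (by rintro rfl; simp at h3; omega)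
    (fun _ _ => by omega) fun H C hM hB hN hS g hg => ?_
  have hO := C.O hg
  have key : ∀ c ∈ D, Φ.Q c = 1 → g c ∈ D ∨ g c ∈ Φ.perp D := fun c hc h1 => by
    have a1 : (refl hκ c).1 * LinearEquiv.neg F ∈ H := hM ⟨mem_stabL_of_le.2 fun x hx => by
      simpa [refl_apply] using D.add_mem (D.neg_mem hx) (D.smul_mem _ hc), hχ c h1⟩
    have a2 := H.mul_mem (H.mul_mem hg a1) (H.inv_mem hg)
    have a3 : ∀ x, (g * ((refl hκ c).1 * LinearEquiv.neg F) * g⁻¹ : V ≃ₗ[F] V) x =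
        Φ.B (g c) x • g c - x := fun x => by
      simp [refl_apply, h1, B_O_left hO]; abel
    obtain ⟨a, -, ha, -, -, a4, -⟩ := two_good hΦ hκ h2 hl hl' hD h3.ge (g c)
    have a5 := flip_stab C h2 hl hl' hB hN hS a2 ha (by rw [a3, a4]; simp)
    refine or_iff_not_imp_left.2 fun a6 => Φ.mem_perp'.2 fun x hx => by_contra fun a7 => a6 ?_
    exact (D.smul_mem_iff a7).1 (by
      simpa only [a3, sub_add_cancel] using D.add_mem (apply_mem_of_mem_stabL a5 hx) hx)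
  obtain ⟨u, hu, h1, h0⟩ := exists_sing hκ h3.ge
  obtain ⟨f, hfD, hf⟩ := hyp_of_nd hΦ hκ hD hu h1 h0
  obtain ⟨e, he, a1, a2, a3⟩ := exists_third hΦ hκ hD h3.ge hf hu hfD
  let c : F → V := fun t => f + t • e + (1 - t ^ 2 * Φ.Q e) • u
  have b1 : ∀ t, g (c t) ∈ D ∨ g (c t) ∈ Φ.perp D := fun t =>
    key _ (D.add_mem (D.add_mem hfD (D.smul_mem _ he)) (D.smul_mem _ hu)) (by
      simp [c, Q_add_quad hκ, Φ.Q_smul, h1, hf.right.2, a2, Φ.B_eq_zero_symm a1,
        B_comm_quad hκ f u, hf.one])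
  have b2 : ∀ S : Submodule F V, 2 < (Finset.univ.filter fun t => g (c t) ∈ S).card →
      g u ∈ S ∧ g e ∈ S ∧ g f ∈ S := fun S hS => by
    obtain ⟨r, hr, s, hs, t, ht, e1, e2, e3⟩ := Finset.two_lt_card.1 hS
    simp only [Finset.mem_filter, Finset.mem_univ, true_and, c, map_add, map_smul] at hr hs ht
    have c1 : g u ∈ S := (S.smul_mem_iff (s := (r - s) * (s - t) * (t - r) * Φ.Q e)
      (by simp [sub_eq_zero, e1, e3, e2.symm, a3])).1 (by
        convert S.add_mem (S.add_mem (S.smul_mem (s - t) hr) (S.smul_mem (t - r) hs))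
          (S.smul_mem (r - s) ht) using 1
        module)
    have c2 : g e ∈ S := (S.smul_mem_iff (s := r - s) (by simp [sub_eq_zero, e1])).1 (by
      convert S.add_mem (S.sub_mem hr hs) (S.smul_mem ((r ^ 2 - s ^ 2) * Φ.Q e) c1) using 1
      module)
    exact ⟨c1, c2, by
      convert S.sub_mem (S.sub_mem hr (S.smul_mem (1 - r ^ 2 * Φ.Q e) c1)) (S.smul_mem r c2) using 1
      abel⟩
  by_cases b3 : 2 < (Finset.univ.filter fun t => g (c t) ∈ D).card
  · exact hS g hg u hu h1 h0 (b2 D b3).1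
  have b4 := Finset.card_filter_add_card_filter_not (s := Finset.univ) fun t => g (c t) ∈ D
  rw [Finset.card_univ] at b4
  obtain ⟨c1, c2, c3⟩ := b2 (Φ.perp D) (lt_of_lt_of_le (by omega) (Finset.card_le_card
    (Finset.monotone_filter_right _ fun t _ (ht : ¬ g (c t) ∈ D) => (b1 t).resolve_left ht)))
  have c4 : Hyp Φ (g u) (g f) := ⟨hf.left.mapO hO, hf.right.mapO hO, by rw [hO.1, hf.one]⟩
  have c5 : Submodule.span F {g u, g f} = Φ.perp D := Submodule.eq_of_le_of_finrank_eq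
    (Submodule.span_le.2 (by rintro _ (rfl | rfl) <;> assumption)) (by rw [c4.finrank_span]; omega)
  exact absurd (eq_zero c4.disjoint (c5.ge c2) (mem_perp_pair.2 ⟨by rw [hO.1, a1],
    by rw [hO.1, a2]⟩)) fun h => a3 (by simp [g.map_eq_zero_iff.1 h])

end H23.Nd
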