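import Cfsg.Agent.H22.IsoC
import Cfsg.Agent.H23.Sr3
import Cfsg.Agent.H23.Pr2

/-! Transport of maximality along `Sp₄ → Ω₅`. -/

set_option autoImplicit false

namespace H23.Sr

open Module H22 Cfsg Cfsg.Geo Form Matrix

theorem isMaximalIn_of_surj {G G' : Type*} [Group G] [Group G'] {K M : Subgroup G} (φ : K →* G')
    {K' M' : Subgroup G'} (hK : φ.range = K') (h : IsMaximalIn K' M') (hMK : M ≤ K)
    (hM : ∀ g : K, g.1 ∈ M ↔ φ g ∈ M') : IsMaximalIn K M := by
  subst hK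
  refine isMaximalIn_of hMK ?_ fun H h1 h2 g hg hg' k hk => ?_
  · obtain ⟨_, ⟨g, rfl⟩, h1⟩ := SetLike.exists_of_lt h.1
    exact ⟨g, g.2, fun e => h1 ((hM g).1 e)⟩
  rcases h.2 ((H.subgroupOf K).map φ) (fun m hm => by
    obtain ⟨a, rfl⟩ := h.1.le hm
    exact ⟨a, h1 ((hM a).2 hm), rfl⟩) (Subgroup.map_le_range _ _) with e | e
  · exact absurd ((hM ⟨g, h2 hg⟩).2 (e.le ⟨_, hg, rfl⟩)) hg'
  obtain ⟨a, ha, e1⟩ := e.ge ⟨⟨k, hk⟩, rfl⟩
  have := h1 ((hM (⟨k, hk⟩ * a⁻¹)).2 (by simp [e1]))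
  simpa using H.mul_mem this ha

variable {F : Type*} [Field F]

/-- `4 × 4` matrices -/
abbrev M4 (F : Type*) := Matrix (Fin 2 ⊕ Fin 2) (Fin 2 ⊕ Fin 2) F

/-- the five-dimensional space -/
abbrev W5 (F : Type*) := Unit ⊕ (Fin 2 ⊕ Fin 2) → F

/-- the five-dimensional quadratic space -/
noncomputable abbrev Φ5 (F : Type*) [Field F] : Form (RingHom.id F) (W5 F) := ofQuad (qOdd 2 F)

theorem κ5 : (Φ5 F).κ = 1 := rfl

/-- the symplectic adjoint -/
def ad (A : M4 F) : M4 F := -(J (Fin 2) F * Aᵀ * J (Fin 2) F)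

theorem ad_mul (A B : M4 F) : ad (A * B) = ad B * ad A := by
  simp only [ad, transpose_mul, neg_mul, mul_neg, neg_neg, mul_assoc]
  rw [← mul_assoc (J _ _) (J _ _), J_squared]; simp

theorem ad_add (A B : M4 F) : ad (A + B) = ad A + ad B := by simp [ad, mul_add, add_mul, add_comm]

theorem ad_smul (c : F) (A : M4 F) : ad (c • A) = c • ad A := by simp [ad]

theorem ad_neg (A : M4 F) : ad (-A) = -ad A := by simp [ad]

theorem ad_sub (A B : M4 F) : ad (A - B) = ad A - ad B := by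
  rw [sub_eq_add_neg, ad_add, ad_neg, sub_eq_add_neg]

theorem ad_one : ad (1 : M4 F) = 1 := by simp [ad, J_squared]

theorem ad_ad (A : M4 F) : ad (ad A) = A := by
  simp only [ad, transpose_mul, transpose_neg, J_transpose, neg_mul, mul_neg, neg_neg, mul_assoc,
    transpose_transpose, J_squared]
  rw [← mul_assoc (J _ _) (J _ _), J_squared]; simp

theorem trace_ad (A : M4 F) : (ad A).trace = A.trace := by
  rw [ad, trace_neg, trace_mul_cycle, J_squared]; simp

theorem symp_ad (A : M4 F) (u v : Fin 2 ⊕ Fin 2 → F) :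
    sympForm 2 F (A *ᵥ u) v = sympForm 2 F u (ad A *ᵥ v) := by
  simp only [sympForm, ad, mulVec_mulVec, mul_neg, ← mul_assoc, J_squared]
  rw [← vecMul_transpose, ← dotProduct_mulVec]; simp

theorem ad_eq {A B : M4 F} (h : ∀ u v, sympForm 2 F (A *ᵥ u) v = sympForm 2 F u (B *ᵥ v)) :
    ad A = B := by
  refine toLin'.injective (LinearMap.ext fun v => ?_)
  refine sub_eq_zero.1 (H23.spForm_nondeg 2 _ fun u => (H23.spForm 2 F).B_eq_zero_symm ?_)
  simp only [map_sub, toLin'_apply, H23.spForm_B, ← h, ← symp_ad, sub_self]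

theorem mem_sp {g : GL (Fin 2 ⊕ Fin 2) F} : g ∈ spGL 2 F ↔ ad g.1 = g⁻¹.1 :=
  ⟨fun h => ad_eq fun u v => by rw [← h u]; simp,
    fun h u v => by
      change sympForm 2 F (g.1 *ᵥ u) (g.1 *ᵥ v) = _
      rw [symp_ad, h]; simp⟩

/-- the traceless self-adjoint matrices -/
def L : W5 F →ₗ[F] M4 F where
  toFun v := fromBlocks !![v (.inl ()), v (.inr (.inl 0)); v (.inr (.inr 0)), -v (.inl ())]
    !![0, v (.inr (.inl 1)); -v (.inr (.inl 1)), 0] !![0, -v (.inr (.inr 1)); v (.inr (.inr 1)), 0]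
    !![v (.inl ()), v (.inr (.inr 0)); v (.inr (.inl 0)), -v (.inl ())]
  map_add' u v := by ext (i | i) (j | j) <;> fin_cases i <;> fin_cases j <;> simp [add_comm]
  map_smul' c v := by ext (i | i) (j | j) <;> fin_cases i <;> fin_cases j <;> simp

theorem ad_apply (A : M4 F) : ad A = fromBlocks A.toBlocks₂₂ᵀ (-A.toBlocks₁₂ᵀ) (-A.toBlocks₂₁ᵀ)
    A.toBlocks₁₁ᵀ := by
  conv_lhs => rw [← fromBlocks_toBlocks A]
  simp [ad, J, fromBlocks_transpose, fromBlocks_multiply, fromBlocks_neg]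

theorem ad_L (v : W5 F) : ad (L v) = L v := by
  rw [ad_apply]
  ext (i | i) (j | j) <;> fin_cases i <;> fin_cases j <;> simp [L]

theorem trace_L (v : W5 F) : (L v).trace = 0 := by simp [L, Matrix.trace, Fintype.sum_sum_type]

theorem L_sq (v : W5 F) : L v * L v = (Φ5 F).Q v • 1 := by
  change _ = qOdd 2 F v • _
  ext (i | i) (j | j) <;> fin_cases i <;> fin_cases j <;>
    simp [L, mul_apply, Fintype.sum_sum_type, qOdd_apply] <;> ring

theorem L_anti (u v : W5 F) : L u * L v + L v * L u = (Φ5 F).B u v • 1 := by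
  have := L_sq (u + v)
  rw [Q_add_quad rfl, map_add, add_mul, mul_add, mul_add, L_sq, L_sq] at this
  linear_combination (norm := module) this

theorem L_inj : Function.Injective (L : W5 F → M4 F) := fun u v h => by
  ext (i | i | i)
  · exact congrFun₂ h (.inl 0) (.inl 0)
  · fin_cases i
    exacts [congrFun₂ h (.inl 0) (.inl 1), congrFun₂ h (.inl 0) (.inr 1)]
  · fin_cases i
    exacts [congrFun₂ h (.inl 1) (.inl 0), congrFun₂ h (.inr 1) (.inl 0)]

theorem exists_L (h2 : (2 : F) ≠ 0) {A : M4 F} (h : ad A = A) (ht : A.trace = 0) : ∃ v, L v = A := by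
  refine ⟨Sum.elim (fun _ => A (.inl 0) (.inl 0)) (Sum.elim ![A (.inl 0) (.inl 1), A (.inl 0) (.inr 1)]
    ![A (.inl 1) (.inl 0), A (.inr 1) (.inl 0)]), ?_⟩
  rw [ad_apply] at h
  have e := fun i j => congrFun₂ h i j
  have e1 := e (.inl 0) (.inl 0); have e2 := e (.inl 0) (.inl 1); have e3 := e (.inl 1) (.inl 0)
  have e4 := e (.inl 1) (.inl 1); have e5 := e (.inl 0) (.inr 0); have e6 := e (.inl 1) (.inr 0)
  have e7 := e (.inl 1) (.inr 1); have e8 := e (.inr 0) (.inl 0); have e9 := e (.inr 0) (.inl 1)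
  have e10 := e (.inr 1) (.inl 1)
  simp only [fromBlocks_apply₁₁, fromBlocks_apply₁₂, fromBlocks_apply₂₁, transpose_apply,
    Matrix.neg_apply, toBlocks₁₂, toBlocks₂₁, toBlocks₂₂, of_apply] at e1 e2 e3 e4 e5 e6 e7 e8 e9 e10
  simp only [Matrix.trace, diag, Fintype.sum_sum_type, Fin.sum_univ_two] at ht
  ext (i | i) (j | j) <;> fin_cases i <;> fin_cases j <;> simp [L] <;>
    apply mul_left_cancel₀ h2 <;>
    first
    | linear_combination -ht + e1 + e4
    | linear_combination -ht + e1 - e4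
    | linear_combination 2 * e6 | linear_combination 2 * e9 | linear_combination e5
    | linear_combination e7 | linear_combination e8 | linear_combination e10
    | linear_combination -2 * e1 | linear_combination -2 * e2 | linear_combination -2 * e3
    | linear_combination -2 * e6 | linear_combination -2 * e9 | linear_combination -e5
    | linear_combination -e7 | linear_combination -e8 | linear_combination -e10

theorem comm_scalar {A : M4 F} (h : ∀ v, A * L v = L v * A) : ∃ c : F, A = c • 1 := by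
  have h1 := h (Pi.single (.inr (.inl 0)) 1)
  have h2 := h (Pi.single (.inr (.inr 0)) 1)
  have h3 := h (Pi.single (.inr (.inl 1)) 1)
  have h4 := h (Pi.single (.inr (.inr 1)) 1)
  refine ⟨A (.inl 0) (.inl 0), ?_⟩
  simp only [← Matrix.ext_iff, Sum.forall, Fin.forall_fin_two] at h1 h2 h3 h4
  simp [L, mul_apply, Fintype.sum_sum_type] at h1 h2 h3 h4
  ext (i | i) (j | j) <;> fin_cases i <;> fin_cases j <;> simp [h1.1.2.1, h1.1.2.2, h1.2.1.1,
    h1.2.1.2, h2.1.1.1, h2.1.1.2, h2.2.2.1, h2.2.2.2, h3.2.1.1, h3.2.2.2, h4.1.1.1, h4.1.2.2,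
    h2.1.2.1.1, h4.2.2.1.1, h4.2.1.1.2]

theorem smul_one_inj {a b : F} (h : a • (1 : M4 F) = b • 1) : a = b := by
  simpa using congrFun₂ h (.inl 0) (.inl 0)

theorem exists_conj (h2 : (2 : F) ≠ 0) {g : GL (Fin 2 ⊕ Fin 2) F} (hg : g ∈ spGL 2 F) (v : W5 F) :
    ∃ w, L w = g.1 * L v * g⁻¹.1 ∧ qOdd 2 F w = qOdd 2 F v := by
  obtain ⟨w, hw⟩ := exists_L h2 (A := g.1 * L v * g⁻¹.1) (by
    rw [ad_mul, ad_mul, ad_L, mem_sp.1 hg, mem_sp.1 (inv_mem hg), inv_inv, mul_assoc])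
    (by rw [trace_mul_cycle, Units.inv_mul, one_mul, trace_L])
  refine ⟨w, hw, smul_one_inj ?_⟩
  change (Φ5 F).Q w • _ = (Φ5 F).Q v • _
  rw [← L_sq, hw]
  simp [mul_assoc, ← mul_assoc (L v) (L v), L_sq]

variable [Fintype F] (h2 : (2 : F) ≠ 0)
include h2

theorem exists_phi : ∃ φ : spGL 2 F →* (W5 F ≃ₗ[F] W5 F), φ.range = (Φ5 F).E ∧
    ∀ g v, L (φ g v) = g.1.1 * L v * g.1⁻¹.1 := by
  have hΦ := qOdd_nondeg h2 2
  let ρ : spGL 2 F →* M4 F := (Units.coeHom _).comp (spGL 2 F).subtype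
  let ρ' : spGL 2 F →* M4 F :=
    { toFun g := g.1⁻¹.1ᵀ
      map_one' := by simp
      map_mul' a b := by simp }
  obtain ⟨φ, hφ⟩ := exists_hom_mat (qOdd 2 F) ρ ρ' L L_inj fun g v => exists_conj h2 g.2 v
  let e : spGL 2 F ≃* (H22.spForm 2 F).O :=
    ((glE _ F).subgroupMap (spGL 2 F)).trans (MulEquiv.subgroupCongr (by
      ext k
      obtain ⟨g, rfl⟩ := (glE _ F).surjective k
      refine (Subgroup.mem_map_iff_mem (glE _ F).injective).trans ⟨fun h => ⟨fun u v => by simpa [H22.spForm_B] using h u v, fun _ => rfl⟩,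
        fun h u v => by simpa [H22.spForm_B] using h.1 u v⟩))
  have hc := odd_card_of_two_ne_zero h2
  obtain ⟨z, hz, hz2⟩ := exists_ker_elt (F := F) φ ρ (Units.val_injective.comp Subtype.val_injective)
    fun g hg => by
      obtain ⟨c, hc⟩ := comm_scalar (A := g.1.1) fun v => by
        have := hφ g v
        rw [hg] at this
        exact (Units.mul_inv_eq_iff_eq_mul _).1 this.symm
      have h1 := mem_sp.1 g.2
      have h3 := g.1.inv_mul
      rw [← h1, hc, ad_smul, ad_one, smul_mul_smul_comm, one_mul] at h3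
      rcases mul_self_eq_one_iff.1 (smul_one_inj (h3.trans (one_smul _ _).symm)) with rfl | rfl
      · exact Or.inl (hc.trans (one_smul _ _))
      · exact Or.inr (hc.trans (neg_one_smul _ _))
  have h := range_eq_omega hΦ rfl (genHyp_of_two_ne_zero hΦ rfl h2) (by simp)
    (noTwo_of_perfect (commutator_eq_top_congr ((spEquiv 2 F).trans e.symm)
      (commutator_Sp_eq_top 2 (.inr (.inl ⟨rfl, by
        have := Fintype.one_lt_card (α := F); omega⟩))))) φ (by
      rw [(nsing_card_O_quad_odd 2 _ hΦ (by simp)).2, Nat.card_congr e.toEquiv,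
        card_O_alt 2 _ (H22.spForm_nondeg 2) rfl rfl (by simp), mul_assoc]) hz hz2
  refine ⟨(Φ5 F).O.subtype.comp φ, ?_, hφ⟩
  rw [MonoidHom.range_comp, h, E_quad hΦ rfl (by simp)]

/-- `k` is the action of `g` on the five-dimensional space -/
def Rel (g : GL (Fin 2 ⊕ Fin 2) F) (k : W5 F ≃ₗ[F] W5 F) : Prop :=
  ∀ v, L (k v) = g.1 * L v * g⁻¹.1

theorem transport {M : Subgroup (GL (Fin 2 ⊕ Fin 2) F)} {M' : Subgroup (W5 F ≃ₗ[F] W5 F)}
    (h : IsMaximalIn (Φ5 F).E (M' ⊓ (Φ5 F).E))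
    (hM : ∀ g ∈ spGL 2 F, ∀ k ∈ (Φ5 F).O, Rel g k → (g ∈ M ↔ k ∈ M')) :
    IsMaximalIn (spGL 2 F) (M ⊓ spGL 2 F) := by
  obtain ⟨φ, h1, h3⟩ := exists_phi h2
  refine isMaximalIn_of_surj φ h1 h inf_le_right fun g => ?_
  have := h1.le ⟨g, rfl⟩
  simp [this, hM g g.2 _ (E_le_O this) (h3 g)]

theorem neg_refl_mem (c : W5 F) (hc : (Φ5 F).Q c = 1) :
    (refl κ5 c).1 * LinearEquiv.neg F ∈ (Φ5 F).E := by
  obtain ⟨φ, h1, h3⟩ := exists_phi h2
  have e : L c * L c = 1 := by rw [L_sq, hc, one_smul]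
  convert h1.le ⟨⟨⟨L c, L c, e, e⟩, mem_sp.2 (ad_L c)⟩, rfl⟩
  refine LinearEquiv.ext fun v => L_inj ?_
  rw [h3]
  change _ = L c * L v * L c
  rw [eq_sub_of_add_eq (L_anti c v), sub_mul, mul_assoc, e]
  rw [LinearEquiv.mul_apply, LinearEquiv.neg_apply, map_neg, refl_apply, hc]
  simp

end H23.Sr
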