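import Cfsg.Agent.H23.Sr4

/-! Geometric maximal subgroups of `Sp₄` in odd characteristic. -/

set_option autoImplicit false

namespace H23.Sr

open Module H22 Cfsg Cfsg.Geo Form Matrix

variable {F : Type*} [Field F] {A X : M4 F} {g : GL (Fin 2 ⊕ Fin 2) F} {u v : W5 F}
  {K : Subalgebra F (M4 F)}

theorem four_ne (h2 : (2 : F) ≠ 0) : (4 : F) ≠ 0 := by
  rw [show (4 : F) = 2 * 2 by norm_num]; exact mul_ne_zero h2 h2

theorem trace_conj (g : GL (Fin 2 ⊕ Fin 2) F) (A : M4 F) : (g.1 * A * g⁻¹.1).trace = A.trace := by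
  rw [trace_mul_cycle, Units.inv_mul, one_mul]

theorem conj_mul_conj (g : GL (Fin 2 ⊕ Fin 2) F) (A B : M4 F) :
    g.1 * A * g⁻¹.1 * (g.1 * B * g⁻¹.1) = g.1 * (A * B) * g⁻¹.1 := by simp [mul_assoc]

theorem conj_eq_zero (h : g.1 * A * g⁻¹.1 = 0) : A = 0 :=
  (Units.mul_right_eq_zero g).1 ((Units.mul_left_eq_zero g⁻¹).1 h)

theorem exists_gen (h2 : (2 : F) ≠ 0) (hK : IsFieldSubalgebra 2 K) : ∃ A ∈ K, A ≠ 0 ∧
    A.trace = 0 ∧ (∀ k, k ∈ K ↔ ∃ x y : F, k = x • 1 + y • A) ∧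
    ∀ g : GL (Fin 2 ⊕ Fin 2) F, g ∈ subalgebraNormalizer K ↔ ∃ c : F, g.1 * A * g⁻¹.1 = c • A := by
  have h4 := four_ne h2
  obtain ⟨B, hB, hB'⟩ := exists_notMem_span (W := K.toSubmodule) hK.finrank_eq.ge 1
  set A := B - (B.trace / 4) • 1 with hA
  have a1 : A ∈ K := K.sub_mem hB (K.smul_mem K.one_mem _)
  have a2 : A ∉ F ∙ (1 : M4 F) := fun h => hB' (by
    simpa [hA] using Submodule.add_mem _ h (Submodule.smul_mem _ (B.trace / 4)
      (Submodule.mem_span_singleton_self 1)))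
  have a3 : A.trace = 0 := by simp [hA, h4]
  have a0 : A ≠ 0 := fun h => a2 (h ▸ zero_mem _)
  have a4 : Submodule.span F {1, A} = K.toSubmodule := Submodule.eq_of_le_of_finrank_eq
    (Submodule.span_le.2 (by rintro _ (rfl | rfl); exacts [K.one_mem, a1]))
    ((Nd.finrank_pair one_ne_zero a2).trans hK.finrank_eq.symm)
  have a5 : ∀ k, k ∈ K ↔ ∃ x y : F, k = x • 1 + y • A := fun k => by
    rw [← Subalgebra.mem_toSubmodule, ← a4, Submodule.mem_span_pair]
    simp only [eq_comm]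
  clear_value A
  refine ⟨A, a1, a0, a3, a5, fun g => ⟨fun h => ?_, fun ⟨c, hc⟩ k => ?_⟩⟩
  · obtain ⟨x, y, e⟩ := (a5 _).1 ((h A).1 a1)
    have := congrArg Matrix.trace e
    rw [trace_conj] at this
    simp [a3, h4] at this
    exact ⟨y, by simpa [this] using e⟩
  have hc0 : c ≠ 0 := by rintro rfl; exact a0 (conj_eq_zero (by simpa using hc))
  simp only [a5]
  constructor
  · rintro ⟨x, y, rfl⟩
    exact ⟨x, y * c, by simp [mul_add, add_mul, hc, smul_smul, -Matrix.coe_units_inv]⟩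
  · rintro ⟨x, y, e⟩
    refine ⟨x, y / c, sub_eq_zero.1 (conj_eq_zero (g := g) ?_)⟩
    simp [mul_sub, sub_mul, mul_add, add_mul, e, hc, smul_smul, hc0, -Matrix.coe_units_inv]

theorem sq_ne (hK : IsFieldSubalgebra 2 K) (hA : A ∈ K) (h0 : A ≠ 0) {c : F}
    (h : A * A = c • 1) : c ≠ 0 := by
  rintro rfl
  obtain ⟨y, -, e⟩ := hK.inv A hA h0
  exact h0 (by rw [← mul_one A, ← e, ← mul_assoc, h]; simp)

theorem B_eq_zero_of (h2 : (2 : F) ≠ 0) {κ : F} (hκ : κ ≠ 0) (hX : X * X = κ • 1)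
    (hu : L u * X = -(X * L u)) (hv : L v * X = X * L v) : (Φ5 F).B u v = 0 := by
  have e : (L u * L v + L v * L u) * X = -(X * (L u * L v + L v * L u)) := by
    rw [add_mul, mul_assoc, hv, ← mul_assoc, hu, mul_assoc (L v), hu, mul_neg, ← mul_assoc (L v), hv]
    noncomm_ring
  have e1 := congrArg (· * X) e
  simp only [L_anti, smul_mul_assoc, one_mul, mul_smul_comm, mul_one, neg_mul, hX, smul_smul,
    ← neg_smul] at e1
  exact mul_left_cancel₀ (mul_ne_zero h2 hκ) (by linear_combination smul_one_inj e1)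

variable [Fintype F] (h2 : (2 : F) ≠ 0)
include h2

theorem isMaximalIn_sa (hK : IsFieldSubalgebra 2 K) (hsa : IsSelfAdjointFor (sympForm 2 F) K) :
    IsMaximalIn (spGL 2 F) (subalgebraNormalizer K ⊓ spGL 2 F) := by
  have hΦ : (Φ5 F).Nondeg := qOdd_nondeg h2 2
  obtain ⟨A, a1, a0, a3, -, a5⟩ := exists_gen h2 hK
  obtain ⟨a, rfl⟩ := exists_L h2 (ad_eq (hsa A a1)) a3
  have hQ := sq_ne hK a1 a0 (L_sq a)
  have ha : a ≠ 0 := by rintro rfl; simp at a0
  have hD : Disjoint (F ∙ a) ((Φ5 F).perp (F ∙ a)) :=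
    Pr.disjoint_perp_one (by simp only [B_self_quad κ5]; exact mul_ne_zero h2 hQ)
  have hd := hΦ.finrank_perp_add (F ∙ a)
  rw [finrank_span_singleton ha, show finrank F (W5 F) = 5 by simp] at hd
  have h := Nd.isMaximalIn_nd (D := (Φ5 F).perp (F ∙ a)) hΦ κ5 (by simp)
    (by rw [hΦ.perp_perp]; exact hD.symm) (.inr ⟨by omega, h2⟩)
    (fun e => by rw [e] at hd; simp at hd) (fun g _ e => by
      have := Submodule.finrank_mono e
      rw [LinearEquiv.finrank_map_eq, hΦ.perp_perp, finrank_span_singleton ha] at this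
      omega) (by rw [hΦ.perp_perp, finrank_span_singleton ha]; omega)
  rw [stabL_perp_inf hΦ] at h
  refine transport h2 h fun g _ k _ hk => ?_
  rw [a5, mem_stabL_of_le, ← hk]
  refine ⟨fun ⟨c, hc⟩ x hx => ?_, fun h => ?_⟩
  · obtain ⟨d, rfl⟩ := Submodule.mem_span_singleton.1 hx
    rw [map_smul, L_inj (hc.trans (map_smul L c a).symm)]
    exact Submodule.smul_mem _ _ (Submodule.smul_mem _ _ (Submodule.mem_span_singleton_self a))
  · obtain ⟨c, hc⟩ := Submodule.mem_span_singleton.1 (h a (Submodule.mem_span_singleton_self a))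
    exact ⟨c, by rw [← hc, map_smul]⟩

theorem isMaximalIn_skew (hq : 5 ≤ Fintype.card F) {κ : F} (hκ : κ ≠ 0) (hX : X * X = κ • 1)
    (hs : ad X = -X) {M : Subgroup (GL (Fin 2 ⊕ Fin 2) F)}
    (hM : ∀ g ∈ spGL 2 F, g ∈ M ↔ ∃ c : F, g.1 * X * g⁻¹.1 = c • X) :
    IsMaximalIn (spGL 2 F) (M ⊓ spGL 2 F) := by
  have hΦ : (Φ5 F).Nondeg := qOdd_nondeg h2 2
  have hX0 : X ≠ 0 := by rintro rfl; exact hκ (smul_one_inj (by simpa using hX.symm))
  let P : Submodule F (W5 F) :=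
    { carrier := {v | L v * X = -(X * L v)}
      add_mem' := fun {a b} ha hb => by
        simp only [Set.mem_ofPred_eq, map_add, add_mul, mul_add] at ha hb ⊢; rw [ha, hb, neg_add]
      zero_mem' := by simp
      smul_mem' := fun c a ha => by
        simp only [Set.mem_ofPred_eq, map_smul, smul_mul_assoc, mul_smul_comm] at ha ⊢
        rw [ha, smul_neg] }
  have a1 : ∀ v, ∃ w ∈ P, L ((2 : F) • v - w) * X = X * L ((2 : F) • v - w) := fun v => by
    obtain ⟨w, hw⟩ := exists_L h2 (A := L v - κ⁻¹ • (X * L v * X)) (by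
      simp [ad_sub, ad_smul, ad_mul, ad_L, hs, mul_assoc]) (by
      rw [trace_sub, trace_smul, trace_mul_cycle, hX]; simp [trace_L])
    refine ⟨w, ?_, ?_⟩
    · change L w * X = -(X * L w)
      simp [hw, sub_mul, mul_sub, mul_assoc, ← mul_assoc X X, hX, smul_smul, hκ]
    · simp only [map_sub, map_smul, hw, sub_mul, mul_sub, mul_assoc, ← mul_assoc X X, hX,
        smul_mul_assoc, mul_smul_comm, smul_smul, inv_mul_cancel₀ hκ, one_smul, mul_one, one_mul]
      module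
  obtain ⟨a, ha, hQ⟩ := Nd.exists_Q_ne (D := P) κ5 (Submodule.disjoint_def.2 fun v hv hv' =>
    hΦ v fun x => by
      obtain ⟨w, hw, e⟩ := a1 x
      have := B_eq_zero_of h2 hκ hX hv e
      rw [map_sub, (Φ5 F).B_eq_zero_symm (hv' w hw), map_smul] at this
      simpa [h2] using this) fun e => by
    obtain ⟨c, rfl⟩ := comm_scalar (A := X) fun v => by
      obtain ⟨w, hw, e1⟩ := a1 v
      rw [e, Submodule.mem_bot] at hw
      simpa [hw, h2] using e1.symm
    rw [ad_smul, ad_one, ← neg_smul] at hs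
    have : c = 0 := mul_left_cancel₀ h2 (by linear_combination smul_one_inj hs)
    exact hX0 (by simp [this])
  replace ha : L a * X = -(X * L a) := ha
  have ha' : X * L a = -(L a * X) := by rw [ha, neg_neg]
  obtain ⟨b, hb⟩ := exists_L h2 (A := L a * X) (by rw [ad_mul, hs, ad_L, ha, neg_mul])
    (mul_left_cancel₀ h2 (by
      have := congrArg Matrix.trace ha
      rw [trace_neg, trace_mul_comm X] at this
      linear_combination this))
  have b1 : L a * L b = (Φ5 F).Q a • X := by rw [hb, ← mul_assoc, L_sq]; simp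
  have b2 : L b * L a = -((Φ5 F).Q a • X) := by
    rw [hb, mul_assoc, ha', mul_neg, ← mul_assoc, L_sq]; simp
  have b3 : (Φ5 F).B a b = 0 := smul_one_inj (by rw [← L_anti, b1, b2]; simp)
  have b4 : (Φ5 F).Q b = -(κ * (Φ5 F).Q a) := smul_one_inj (by
    rw [← L_sq, hb, mul_assoc, ← mul_assoc X, ha', neg_mul, mul_assoc, hX]
    simp [L_sq, smul_smul])
  have b5 : L b * X = -(X * L b) := by rw [hb, ← mul_assoc, ha']; simp
  have b6 := (Φ5 F).B_eq_zero_symm b3
  set S := Submodule.span F {a, b}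
  have c1 : Disjoint S ((Φ5 F).perp S) := Submodule.disjoint_def.2 fun v hv hv' => by
    obtain ⟨x, y, rfl⟩ := Submodule.mem_span_pair.1 hv
    obtain ⟨e1, e2⟩ := mem_perp_pair.1 hv'
    simp only [map_add, map_smul, B_self_quad κ5, b3, b6, b4, smul_eq_mul, mul_zero, add_zero,
      zero_add, mul_eq_zero, h2, hQ, hκ, neg_eq_zero, or_false] at e1 e2
    simp [e1, e2]
  have c2 : finrank F S = 2 := Nd.finrank_pair (by rintro rfl; simp at hQ) fun e => by
    obtain ⟨c, rfl⟩ := Submodule.mem_span_singleton.1 e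
    simp only [map_smul, B_self_quad κ5, smul_eq_mul, mul_eq_zero, h2, hQ, or_false] at b3
    simp [b3, hκ, hQ, -ofQuad_Q] at b4
  have hd := hΦ.finrank_perp_add S
  rw [c2, show finrank F (W5 F) = 5 by simp] at hd
  have h := Nd.isMaximalIn_three (D := (Φ5 F).perp S) hΦ κ5 (by simp) h2 hq
    (by rw [hΦ.perp_perp]; exact c1.symm) (by omega) (neg_refl_mem h2)
  refine transport h2 h fun g hg k hO hk => ?_
  rw [hM g hg]
  refine ⟨fun ⟨c, hc⟩ => mem_stabL_of_le.2 fun v hv => ?_, fun h => ?_⟩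
  · have hc0 : c ≠ 0 := by rintro rfl; exact hX0 (conj_eq_zero (by simpa using hc))
    obtain ⟨e1, e2⟩ := mem_perp_pair.1 hv
    have e3 := eq_neg_of_add_eq_zero_left ((L_anti a v).trans (by rw [e1, zero_smul]))
    have e4 := eq_neg_of_add_eq_zero_right ((L_anti b v).trans (by rw [e2, zero_smul]))
    have e5 : L v * X = X * L v := smul_right_injective _ hQ (by
      simp only [← mul_smul_comm, ← smul_mul_assoc ((Φ5 F).Q a) X, ← b1]
      rw [mul_assoc (L a), ← neg_neg (L b * L v), ← e4, mul_neg, ← mul_assoc (L a), e3]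
      simp [mul_assoc])
    have e6 : L (k v) * X = X * L (k v) := smul_right_injective _ hc0 (by
      simp only [← mul_smul_comm, ← smul_mul_assoc c X, ← hc, hk v, conj_mul_conj, e5])
    exact mem_perp_pair.2 ⟨B_eq_zero_of h2 hκ hX ha e6, B_eq_zero_of h2 hκ hX b5 e6⟩
  · have h' : k ∈ stabL S := by
      rw [mem_stabL, ← hΦ.perp_perp S, ← perp_map hO, mem_stabL.1 h]
    obtain ⟨x, y, e1⟩ := Submodule.mem_span_pair.1
      (apply_mem_of_mem_stabL h' (Submodule.subset_span (by simp : a ∈ ({a, b} : Set _))))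
    obtain ⟨x', y', e2⟩ := Submodule.mem_span_pair.1
      (apply_mem_of_mem_stabL h' (Submodule.subset_span (by simp : b ∈ ({a, b} : Set _))))
    have e3 := hO.1 a b
    rw [← e1, ← e2] at e3
    simp only [map_add, map_smul, LinearMap.add_apply, LinearMap.smul_apply, B_self_quad κ5, b3,
      b6, smul_eq_mul, RingHom.id_apply] at e3
    have e4 : x * x' * (Φ5 F).Q a + y * y' * (Φ5 F).Q b = 0 :=
      mul_left_cancel₀ h2 (by linear_combination e3)
    refine ⟨x * y' - y * x', smul_right_injective _ hQ ?_⟩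
    have e5 := conj_mul_conj g (L a) (L b)
    rw [← hk, ← hk, ← e1, ← e2, b1] at e5
    simp only [map_add, map_smul, add_mul, mul_add, smul_mul_assoc, mul_smul_comm, b1, b2, L_sq]
      at e5
    linear_combination (norm := module) -e5 + congrArg (· • (1 : M4 F)) e4

theorem isMaximalIn_un (hq : 5 ≤ Fintype.card F) (hK : IsFieldSubalgebra 2 K)
    (hac : IsAdjointClosedFor (sympForm 2 F) K) (hn : ¬ IsSelfAdjointFor (sympForm 2 F) K) :
    IsMaximalIn (spGL 2 F) (subalgebraNormalizer K ⊓ spGL 2 F) := by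
  obtain ⟨A, a1, a0, a3, a4, a5⟩ := exists_gen h2 hK
  obtain ⟨A', b1, b2⟩ := hac A a1
  obtain ⟨x, y, rfl⟩ := (a4 _).1 b1
  have b3 := ad_eq b2
  have b4 := trace_ad A
  rw [b3] at b4
  simp [a3, four_ne h2] at b4
  rw [b4, zero_smul, zero_add] at b3
  have b5 := ad_ad A
  rw [b3, ad_smul, b3, smul_smul] at b5
  have b6 : ad A = -A := by
    rcases mul_self_eq_one_iff.1 (smul_left_injective F a0 (b5.trans (one_smul _ _).symm))
      with rfl | rfl
    · refine absurd (fun k hk u v => ?_) hn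
      obtain ⟨x, y, rfl⟩ := (a4 _).1 hk
      rw [symp_ad, ad_add, ad_smul, ad_smul, ad_one, b3, one_smul]
    · rw [b3, neg_one_smul]
  obtain ⟨z, w, e⟩ := (a4 _).1 (K.mul_mem a1 a1)
  have e1 := congrArg ad e
  rw [ad_mul, ad_add, ad_smul, ad_smul, ad_one, b6, neg_mul_neg, e, add_right_inj] at e1
  have e2 : w = 0 := mul_left_cancel₀ h2 (smul_left_injective F a0 (by
    linear_combination (norm := module) e1))
  rw [e2, zero_smul, add_zero] at e
  exact isMaximalIn_skew h2 hq (sq_ne hK a1 a0 e) e b6 fun g _ => a5 g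

theorem isMaximalIn_ti (hq : 5 ≤ Fintype.card F) {D : Fin 2 → Submodule F (Fin 2 ⊕ Fin 2 → F)}
    (hD : IsMDecomposition 2 D) (ht : ∀ i, IsTotallySingularFor (sympForm 2 F) (D i)) :
    IsMaximalIn (spGL 2 F) (decompositionStabilizer D ⊓ spGL 2 F) := by
  have hc := isCompl_of_isMDecomposition hD
  obtain ⟨X, h0, h1⟩ : ∃ X : M4 F, (∀ v ∈ D 0, X *ᵥ v = v) ∧ ∀ v ∈ D 1, X *ᵥ v = -v :=
    ⟨LinearMap.toMatrix' (LinearMap.ofIsCompl hc (D 0).subtype (-(D 1).subtype)),
      fun v hv => by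
        rw [← toLin'_apply, toLin'_toMatrix']; exact LinearMap.ofIsCompl_apply_left hc ⟨v, hv⟩,
      fun v hv => by
        rw [← toLin'_apply, toLin'_toMatrix']; exact LinearMap.ofIsCompl_apply_right hc ⟨v, hv⟩⟩
  have dec : ∀ v, ∃ a ∈ D 0, ∃ b ∈ D 1, a + b = v := fun v =>
    Submodule.mem_sup.1 (hc.sup_eq_top ▸ Submodule.mem_top)
  have ext : ∀ {A B : M4 F}, (∀ v ∈ D 0, A *ᵥ v = B *ᵥ v) → (∀ v ∈ D 1, A *ᵥ v = B *ᵥ v) → A = B :=
    fun e0 e1 => toLin'.injective (LinearMap.ext fun v => by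
      obtain ⟨a, ha, b, hb, rfl⟩ := dec v
      simp [mulVec_add, e0 a ha, e1 b hb])
  have m0 : ∀ v, X *ᵥ v = v → v ∈ D 0 := fun v e => by
    obtain ⟨a, ha, b, hb, rfl⟩ := dec v
    rw [mulVec_add, h0 a ha, h1 b hb, add_right_inj, neg_eq_iff_add_eq_zero, ← two_smul F] at e
    simpa [(smul_eq_zero.1 e).resolve_left h2] using ha
  have m1 : ∀ v, X *ᵥ v = -v → v ∈ D 1 := fun v e => by
    obtain ⟨a, ha, b, hb, rfl⟩ := dec v
    rw [mulVec_add, h0 a ha, h1 b hb, neg_add, add_left_inj, eq_neg_iff_add_eq_zero,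
      ← two_smul F] at e
    simpa [(smul_eq_zero.1 e).resolve_left h2] using hb
  have hX : X * X = (1 : F) • 1 := ext (fun v hv => by simp [← mulVec_mulVec, h0 v hv])
    fun v hv => by simp [← mulVec_mulVec, mulVec_neg, h1 v hv]
  refine isMaximalIn_skew h2 hq one_ne_zero hX (ad_eq fun u v => ?_) fun g _ => ?_
  · obtain ⟨a, ha, b, hb, rfl⟩ := dec u
    obtain ⟨c, hc, d, hd, rfl⟩ := dec v
    have e1 := ht 0 a ha c hc
    have e2 := ht 1 b hb d hd
    simp only [← H23.spForm_B] at e1 e2 ⊢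
    simp [mulVec_add, neg_mulVec, h0 a ha, h0 c hc, h1 b hb, h1 d hd, e1, e2, -H23.spForm_B]
  have key : ∀ {c : F}, g.1 * X * g⁻¹.1 = c • X ↔ ∀ v, g.1 *ᵥ (X *ᵥ v) = c • X *ᵥ (g.1 *ᵥ v) := by
    intro c
    rw [Units.mul_inv_eq_iff_eq_mul]
    exact ⟨fun e v => by simp [e, smul_mulVec], fun e => toLin'.injective
      (LinearMap.ext fun v => by simpa [smul_mulVec] using e v)⟩
  rw [mem_decompositionStabilizer_iff, mem_decL_two]
  constructor
  · rintro (⟨e0, e1⟩ | ⟨e0, e1⟩)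
    · refine ⟨1, key.2 fun v => ?_⟩
      obtain ⟨a, ha, b, hb, rfl⟩ := dec v
      have f0 := h0 _ (e0.le ⟨a, ha, rfl⟩)
      have f1 := h1 _ (e1.le ⟨b, hb, rfl⟩)
      simp only [LinearEquiv.coe_coe, glE_apply] at f0 f1
      simp only [mulVec_add, h0 a ha, h1 b hb, f0, f1, mulVec_neg, one_smul]
    · refine ⟨-1, key.2 fun v => ?_⟩
      obtain ⟨a, ha, b, hb, rfl⟩ := dec v
      have f0 := h1 _ (e0.le ⟨a, ha, rfl⟩)
      have f1 := h0 _ (e1.le ⟨b, hb, rfl⟩)
      simp only [LinearEquiv.coe_coe, glE_apply] at f0 f1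
      simp only [mulVec_add, h0 a ha, h1 b hb, f0, f1, mulVec_neg, neg_smul, one_smul, neg_add,
        neg_neg]
  · rintro ⟨c, hc⟩
    have e := conj_mul_conj g X X
    rw [hc, hX, smul_mul_smul_comm, hX, smul_smul] at e
    have e1 : c * c = 1 := smul_one_inj (by simpa using e)
    replace hc := key.1 hc
    have hd := hD.finrank_eq
    rcases mul_self_eq_one_iff.1 e1 with rfl | rfl
    · refine Or.inl ⟨map_eq_of_le ?_ le_rfl, map_eq_of_le ?_ le_rfl⟩ <;> rintro _ ⟨v, hv, rfl⟩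
      · exact m0 _ (by simpa [h0 v hv, -mulVec_mulVec] using (hc v).symm)
      · exact m1 _ (by simpa [h1 v hv, mulVec_neg, -mulVec_mulVec] using (hc v).symm)
    · refine Or.inr ⟨map_eq_of_le ?_ (by rw [hd, hd]), map_eq_of_le ?_ (by rw [hd, hd])⟩ <;>
        rintro _ ⟨v, hv, rfl⟩
      · exact m1 _ (by simpa [h0 v hv, neg_eq_iff_eq_neg, -mulVec_mulVec] using (hc v).symm)
      · exact m0 _ (by simpa [h1 v hv, mulVec_neg, -mulVec_mulVec] using (hc v).symm)

end H23.Sr
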