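import Cfsg.Agent.H23.Sr5
import Cfsg.Agent.H23.Sr1
import Cfsg.Agent.H16.NX6

/-! The normaliser of `2^{1+4}_-` in `Sp₄(p)`. -/

set_option autoImplicit false

namespace H23.Sr

open Module H22 Cfsg Cfsg.Geo Form Matrix H16.NX

variable {F : Type*} [Field F] [Fintype F]

theorem isMaximalIn_ex (h2 : (2 : F) ≠ 0) (hp : (Fintype.card F).Prime)
    {R : Subgroup (GL (Fin 2 ⊕ Fin 2) F)} (hRs : IsSymplecticTypeGroup 2 R)
    (hRi : ActsAbsolutelyIrreducibly (matrixSet R)) (hRf : R ≤ spGL 2 F)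
    (hRm : IsOfMinusType 2 R) : IsMaximalIn (spGL 2 F) (subgroupNormalizer R ⊓ spGL 2 F) := by
  have hΦ : (Φ5 F).Nondeg := qOdd_nondeg h2 2
  have h := PM.of h2 hRs hRi
  obtain ⟨a, b, c, d, hs, ea, eb, ec, ed⟩ := h.exists_sb_minus (by simp)
    fun u hu w hw => h.no_eight (u := u) (w := w) hRm hu hw
  have l : ∀ {x y : GL (Fin 2 ⊕ Fin 2) F}, x * y = y * x → ∀ z, y * (x * z) = x * (y * z) :=
    fun e z => by rw [← mul_assoc, ← e, mul_assoc]
  have l' : ∀ {x y : GL (Fin 2 ⊕ Fin 2) F}, x * y = -(y * x) → ∀ z, y * (x * z) = -(x * (y * z)) :=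
    fun e z => by rw [← mul_assoc, ← mul_assoc, e, neg_mul, neg_neg]
  have n : ∀ {x y : GL (Fin 2 ⊕ Fin 2) F}, x * y = -(y * x) → y * x = -(x * y) :=
    fun e => by rw [e, neg_neg]
  have q : ∀ {x e : GL (Fin 2 ⊕ Fin 2) F}, x * x = e → ∀ z, x * (x * z) = e * z :=
    fun e z => by rw [← mul_assoc, e]
  let r : Fin 5 → GL (Fin 2 ⊕ Fin 2) F := ![c, d, c * d * a, c * d * b, c * d * a * b]
  have r1 : ∀ i, r i ∈ R := fun i => by
    have a1 := mul_mem hs.hc hs.hd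
    fin_cases i
    exacts [hs.hc, hs.hd, mul_mem a1 hs.ha, mul_mem a1 hs.hb, mul_mem (mul_mem a1 hs.ha) hs.hb]
  have r2 : ∀ i j, r i * r j = if i = j then 1 else -(r j * r i) := fun i j => by
    fin_cases i <;> fin_cases j <;>
      simp [r, mul_assoc, l hs.ac, l hs.ad, l hs.bc, l hs.bd, l' hs.ab, l' hs.cd, ← hs.ac, ← hs.ad,
        ← hs.bc, ← hs.bd, n hs.ab, n hs.cd, q ea, q eb, q ec, q ed, ea, eb, ec, ed]
  have r3 : ∀ i, r i * r i = 1 := fun i => by simpa using r2 i i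
  have r4 : ∀ i j, i ≠ j → r i * r j = -(r j * r i) := fun i j e => by simpa [e] using r2 i j
  have r5 : ∀ i, ∃ v, L v = (r i).1 := fun i => by
    obtain ⟨j, hj⟩ := exists_ne i
    exact exists_L h2 ((mem_sp.1 (hRf (r1 i))).trans (by rw [inv_eq_of_mul_eq_one_right (r3 i)]))
      (trace_anti h2 (v := r j) (congrArg Units.val (r4 j i hj)))
  choose v hv using r5
  have v1 : ∀ i, (Φ5 F).Q (v i) = 1 := fun i => smul_one_inj (by
    rw [← L_sq, hv, ← Units.val_mul, r3, one_smul, Units.val_one])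
  have v2 : ∀ i j, i ≠ j → (Φ5 F).B (v i) (v j) = 0 := fun i j e => smul_one_inj (by
    rw [← L_anti, hv, hv, ← Units.val_mul, r4 i j e]; simp)
  let β : Basis (Fin 5) F (W5 F) := basisOfLinearIndependentOfCardEqFinrank
    (linearIndependent_of_dual (Φ := Φ5 F) (w := v) v2 fun i => by
      rw [B_self_quad κ5, v1, mul_one]; exact h2) (by simp)
  have hβ : ∀ i, β i = v i := fun i => by simp [β]
  have hF : Fr.OF (Φ5 F) β 1 := ⟨hΦ, κ5, h2, one_ne_zero, by simpa only [hβ] using v2,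
    by simpa only [hβ] using v1⟩
  refine transport h2 (hF.isMaximalIn5 hp (by simp)) fun g hg k hO hk => ⟨fun hN => ?_, ?_⟩
  · refine Fr.mem_dec fun i => ?_
    have a1 : g * r i * g⁻¹ ∈ R := (Subgroup.mem_set_normalizer_iff.1 hN _).1 (r1 i)
    have a2 : L (k (v i)) = (g * r i * g⁻¹).1 := by rw [hk, hv]; rfl
    simp only [hβ]
    by_contra! hc
    have a3 : ∀ j, (Φ5 F).B (v j) (k (v i)) = 0 := fun j => by
      have a4 := L_anti (v j) (k (v i))
      rw [a2, hv, ← Units.val_mul, ← Units.val_mul] at a4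
      rcases h.pm _ (r1 j) _ a1 with e | e
      · refine absurd (Submodule.mem_span_singleton.2
          ⟨(Φ5 F).B (v j) (k (v i)) / 2, L_inj (smul_right_injective _ h2 ?_)⟩) (hc j)
        have a5 := congrArg ((r j).1 * ·) a4
        simp only [← e, mul_add, ← Units.val_mul, ← mul_assoc, r3, one_mul, mul_smul_comm,
          mul_one] at a5
        simp only [map_smul, smul_smul, a2, hv, mul_div_cancel₀ _ h2, ← a5, two_smul]
      · exact smul_one_inj (by rw [← a4, e]; simp)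
    have a4 : k (v i) = 0 := hΦ _ fun x => (Φ5 F).B_eq_zero_symm (by
      rw [← β.sum_repr x]; simp [hβ, a3, -ofQuad_B])
    simpa [a4, v1, -ofQuad_Q] using hO.2 (v i)
  rintro ⟨π, hπ⟩
  have hn := hs.neg_mem
  have a1 : ∀ i, g * r i * g⁻¹ ∈ R := fun i => by
    obtain ⟨t, ht⟩ := Submodule.mem_span_singleton.1
      ((hπ i).le ⟨_, Submodule.mem_span_singleton_self _, rfl⟩)
    simp only [hβ, LinearEquiv.coe_coe] at ht
    have a2 := hO.2 (v i)
    rw [← ht, (Φ5 F).Q_smul, v1, v1, mul_one] at a2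
    have a3 : (g * r i * g⁻¹).1 = t • (r (π i)).1 := by
      rw [← hv, ← map_smul, ht, hk, hv]; rfl
    rcases mul_self_eq_one_iff.1 ((sq t).symm.trans a2) with rfl | rfl
    · rw [show g * r i * g⁻¹ = r (π i) from Units.ext (by simpa using a3)]; exact r1 _
    · rw [show g * r i * g⁻¹ = -1 * r (π i) from Units.ext (by simpa using a3)]
      exact mul_mem hn (r1 _)
  let K : Subgroup (GL (Fin 2 ⊕ Fin 2) F) :=
    { carrier := {u | ∃ z ∈ scalars _ F, z * (g * u * g⁻¹) ∈ R}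
      one_mem' := ⟨1, one_mem _, by simp⟩
      mul_mem' := by
        rintro x y ⟨z, h1, h3⟩ ⟨w, h4, h5⟩
        refine ⟨z * w, mul_mem h1 h4, ?_⟩
        convert mul_mem h3 h5 using 1
        rw [mul_assoc z (g * x * g⁻¹), ← mul_assoc (g * x * g⁻¹), ← As.cen_scalars w h4 (g * x * g⁻¹)]; group
      inv_mem' := by
        rintro x ⟨z, h1, h3⟩
        refine ⟨z⁻¹, inv_mem h1, ?_⟩
        convert inv_mem h3 using 1
        rw [As.cen_scalars _ (inv_mem h1)]; group }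
  have a2 : ∀ i, r i ∈ K := fun i => ⟨1, one_mem _, by simpa using a1 i⟩
  have a3 : scalars _ F ≤ K := fun z hz => ⟨z⁻¹, inv_mem hz, by
    rw [← As.cen_scalars z hz g]; simp⟩
  have a4 : ∀ x, c * d * x ∈ K → x ∈ K := fun x hx =>
    (K.mul_mem_cancel_left (mul_mem (a2 0) (a2 1))).1 hx
  refine mem_norm_of fun u hu => ?_
  obtain ⟨z, h1, h3⟩ := hs.gen K a3 (a4 _ (a2 2)) (a4 _ (a2 3)) (a2 0) (a2 1) hu
  have h4 : z ∈ spGL 2 F := (Subgroup.mul_mem_cancel_right _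
    (mul_mem (mul_mem hg (hRf hu)) (inv_mem hg))).1 (hRf h3)
  refine (R.mul_mem_cancel_left ?_).1 h3
  obtain ⟨t, ht⟩ := (mem_scalars_iff z).1 h1
  have h5 := mem_sp.1 h4
  rw [ht, ad_smul, ad_one, ← ht] at h5
  rcases eq_of_scalar_sq h1 (mul_eq_one_iff_eq_inv.2 (Units.ext h5)) with rfl | rfl
  exacts [one_mem _, hn]

end H23.Sr
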