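import Cfsg.Agent.H23.Sv1

/-!
Subfield subgroups of classical groups in dimension at least six (local analysis).
-/

set_option autoImplicit false

namespace H23.Sv

open Module H22 Form Sf

variable {F V : Type*} [Field F] {σ : F →+* F} [AddCommGroup V] [Module F V] {F₀ : Subfield F}
  {Φ : Form σ V} {V₀ : Submodule F₀ V} {K : Subgroup (V ≃ₗ[F] V)} {g : V ≃ₗ[F] V}
  {u e f w x y : V} {s c : F}

variable [Finite V] [FiniteDimensional F V]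

theorem RS.perp_three' (h : RS Φ V₀) (hu : u ∈ V₀) (hy : y ∈ V₀) (hx : x ∈ V₀)
    (h0 : x ∉ Submodule.span F {u, y}) : ∃ e ∈ V₀, Φ.B e u = 0 ∧ Φ.B e y = 0 ∧ Φ.B e x = 1 := by
  obtain ⟨e, h1, h2, h3, h4⟩ := h.perp_three hu hy hx h0
  exact ⟨Φ.ε • e, smul_mem₀ h.eps h1, by simp [B_smul_left, Φ.B_eq_zero_symm h2],
    by simp [B_smul_left, Φ.B_eq_zero_symm h3], by simp [B_smul_left, Φ.symm x e, h4, σε_mul]⟩

theorem RS.pair (h : RS Φ V₀) (hu : u ∈ V₀) (hx : x ∈ V₀) :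
    ∃ y ∈ V₀, ∃ e ∈ V₀, Φ.B u y = 0 ∧ Φ.B x y = 0 ∧ Φ.B u e = 0 ∧ Φ.B x e = 0 ∧
      Φ.B y e = 1 := by
  obtain ⟨y, hy, b1, b2⟩ := h.any [u, x] (by simp [*]) (Submodule.span F {u, x})
    (by have := H22.finrank_span_pair_le (F := F) u x; simp; omega)
  obtain ⟨e, he, b3, b4, b5⟩ := h.perp_three hu hx hy b1
  exact ⟨y, hy, e, he, b2 u (by simp), b2 x (by simp), b3, b4, b5⟩

theorem RS.spread (h : RS Φ V₀) (hM : Mg V₀ ⊓ Φ.E ≤ K) (hu : u ∈ V₀) (hs : Sing Φ u) (hu0 : u ≠ 0)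
    (hx : x ∈ V₀) (hx0 : Sing Φ x) (hux : Φ.B u x = 0) (hx' : x ∉ F ∙ u)
    (h1 : Φ.BIn K u (c • x)) :
    ∀ w ∈ V₀, Sing Φ w → ∀ y ∈ V₀, Φ.B w y = 0 → Φ.BIn K w (c • y) := by
  have key : ∀ a ∈ V₀, ∀ x ∈ V₀, Sing Φ a → Φ.B u a = 0 → Φ.B a x ≠ 0 → Φ.BIn K u (c • x) →
      ∀ b ∈ V₀, Φ.B u b = 0 → Φ.B a b = 0 → Φ.BIn K u (c • b) := fun a ha x hx a1 a2 a3 a4 => by
    have a5 := Φ.B_eq_zero_symm a2
    have a6 : σ Φ.ε * Φ.B a x ≠ 0 := mul_ne_zero σε_ne a3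
    have a7 := mul_mem (h.sig _ h.eps) (h.B _ ha _ hx)
    have k1 : ∀ b ∈ V₀, Φ.B u b = 0 → Φ.B a b = 0 → ∃ l ∈ F₀,
        Φ.BIn K u (c • (l • a - (σ Φ.ε * Φ.B a x) • b)) := fun b hb b1 b2 => by
      obtain ⟨s, b3, b4, b5⟩ := h.eIn_rat hM ha a1 hb b2
      refine ⟨Φ.B b x - σ s * Φ.B a x, sub_mem (h.B _ hb _ hx) (mul_mem (h.sig _ b3)
        (h.B _ ha _ hx)), ?_⟩
      convert a4.eichler b4 b5 a5 (Φ.B_eq_zero_symm b1) using 1
      simp only [B_smul_right]; module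
    have k2 : ∀ l ∈ F₀, Φ.BIn K u (c • l • a) := fun l hl => by
      obtain ⟨y, hy, e, he, b1, b2, b3, b4, b5⟩ := h.pair hu ha
      have b6 := neg_mem (div_mem hl a7)
      obtain ⟨l', -, b7⟩ := k1 _ (smul_mem₀ b6 he) (by simp [b3]) (by simp [b4])
      obtain ⟨s, -, b8, b9⟩ := h.eIn_rat hM ha a1 hy b2
      have := step b7 b8 b9 a5 (Φ.B_eq_zero_symm b1) (by simp [a1.1, b4])
      refine ⟨0, eichData_zero hs ((a1.smul l).smul c) (by simp [a2]), ?_⟩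
      convert this using 1
      simp only [map_sub, map_smul, Φ.B_eq_zero_symm b2, b5, smul_eq_mul, smul_smul]
      congr 1
      have := σε_ne (Φ := Φ)
      field_simp
      ring
    intro b hb b1 b2
    obtain ⟨l, b3, b4⟩ := k1 _ (smul_mem₀ (inv_mem a7) hb) (by simp [b1]) (by simp [b2])
    convert (k2 l b3).sub b4 using 1
    rw [smul_inv_smul₀ a6]; module
  have k2 : ∀ y ∈ V₀, Φ.B u y = 0 → Φ.BIn K u (c • y) := fun y hy a2 => by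
    obtain ⟨e, he, b1, b2⟩ := h.perp_two hu hx hx'
    obtain ⟨d, b3⟩ := exists_sing_add_smul (Φ := h.form) (u := ⟨x, hx⟩) (x := ⟨e, he⟩)
      (h.form_sing.2 hx0) (Subtype.ext b2)
    replace b3 : Sing Φ (e + d.1 • x) := h.form_sing.1 b3
    have b4 := add_mem he (smul_mem₀ d.2 hx)
    have b5 : Φ.B u (e + d.1 • x) = 0 := by simp [b1, hux]
    have b6 : Φ.B x (e + d.1 • x) ≠ 0 := by simp [b2, hx0.1]
    generalize e + d.1 • x = a at b3 b4 b5 b6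
    have b7 : Φ.B a x ≠ 0 := fun e => b6 (Φ.B_eq_zero_symm e)
    have b8 := smul_mem₀ (div_mem (h.B _ b4 _ hy) (h.B _ b4 _ hx)) hx
    convert (key a b4 x hx b3 b5 b7 h1 _ (sub_mem hy b8) (by simp [a2, hux]) (by simp [b7])).add
      (key x hx a b4 hx0 hux b6 (key a b4 x hx b3 b5 b7 h1 a b4 b5 b3.1) _ b8 (by simp [hux])
        (by simp [hx0.1])) using 1
    module
  intro w hw a1 y hy a3
  by_cases hw0 : w = 0
  · exact hw0 ▸ (qIn_iff.1 (qIn_zero K) _ (by simp)).bIn (by simp [Sing])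
  obtain ⟨m, b1, b2, rfl⟩ := h.trans hw hu a1 hs hw0 hu0
  have b3 := E_le_O b1.2
  simpa using (k2 (m y) (b2 y hy) (by rw [b3.1, a3])).conj (K.inv_mem (hM b1))
    (Φ.O.inv_mem b3)

theorem RS.exists_new (h : RS Φ V₀) (hM : Mg V₀ ⊓ Φ.E ≤ K) (hK : ¬ NW Φ V₀ K) :
    ∃ u ∈ V₀, Sing Φ u ∧ u ≠ 0 ∧ ∃ x ∈ V₀, Sing Φ x ∧ Φ.B u x = 0 ∧ x ∉ F ∙ u ∧ ∃ c ∉ F₀,
      Φ.BIn K u (c • x) := by
  simp only [NW, not_forall] at hK
  obtain ⟨u, hu, e, s, h1, h2, v, hv, h3⟩ := hK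
  have hu0 : u ≠ 0 := by rintro rfl; exact h3 (by simpa [eichler_apply] using hv)
  have d1 := finrank_span_one_le (F := F) u
  refine ⟨u, hu, h1.sing, hu0, ?_⟩
  by_cases h4 : ∀ y ∈ V₀, Sing Φ y → Φ.B u y = 0 → Φ.B y e ∈ F₀
  · obtain ⟨f, hf, a1⟩ := h.hyp hu h1.sing hu0
    obtain ⟨e, he, c, rfl⟩ : ∃ e₀ ∈ V₀, ∃ c : F, e = e₀ + c • u := by
      refine ⟨e - (σ Φ.ε * Φ.B f e) • u, h.mem_of fun x hx => ?_, _, (sub_add_cancel _ _).symm⟩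
      rw [Φ.symm]
      refine mul_mem h.eps (h.sig _ ?_)
      have a2 : Φ.B u (x - Φ.B u x • f) = 0 := by simp [a1.one]
      have a3 := h.ind hu h1.sing (P := fun y => Φ.B y e ∈ F₀) h4
        (fun x y hx hy => by simpa using add_mem hx hy)
        (sub_mem hx (smul_mem₀ (h.B _ hu _ hx) hf)) a2
      have a4 := Φ.B_eq_zero_symm a2
      simp only [map_sub, LinearMap.sub_apply, B_smul_left, B_smul_right, a1.B_symm] at a3 a4 ⊢
      convert a3 using 1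
      linear_combination -(σ Φ.ε * Φ.B f e) * a4 - σ (Φ.B u x) * Φ.B f e * σε_mul (Φ := Φ)
    have a2 := h1.of_add_smul
    rw [eIn_add_smul] at h2
    rw [eichler_add_smul] at h3
    generalize s - c + Φ.ε * σ c = s at a2 h2 h3
    obtain ⟨t, ht, a3, a4⟩ := h.eIn_rat hM hu h1.sing he a2.perp
    have a5 := h2.add (a4.neg a2.sing.1 a2.perp) a2.sing.1 a2.perp (by simp [a2.perp])
    have a6 := a2.add a3.neg
    simp only [add_neg_cancel, map_neg, LinearMap.neg_apply] at a5 a6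
    obtain ⟨x, hx, b1, b2, b3⟩ := h.sing [u] (by simpa) (F ∙ u) (by simp; omega)
    have b4 := b3 u (by simp)
    obtain ⟨m, b5, -, rfl⟩ := h.trans hu hx h1.sing b1 hu0 fun h => b2 (h ▸ zero_mem _)
    obtain ⟨y, hy, b6, b7⟩ := h.perp_two hu hx b2
    obtain ⟨t', -, b8⟩ := h.eIn_rat hM hu h1.sing hy b6
    have b9 := BIn.eichler ⟨t', b8⟩ (a6.mapO (E_le_O b5.2)) (a5.conj (hM b5) (E_le_O b5.2))
      (Φ.B_eq_zero_symm b4) (by simp)
    simp only [map_zero, LinearMap.zero_apply, smul_zero, sub_zero, b7] at b9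
    refine ⟨_, hx, b1, b4, b2, _, fun b10 => h3 (h.eich_mem hu he ?_ hv), b9⟩
    have := add_mem (h.sig _ (neg_mem b10)) ht
    convert this using 1
    simp [Φ.invol]; ring
  push Not at h4
  obtain ⟨y, hy, a1, a2, a3⟩ := h4
  obtain ⟨y', hy', x, hx, b1, b2, b3, b4, b5⟩ := h.pair hu hy
  obtain ⟨t₀, -, b6, b7⟩ := h.eIn_rat hM hy a1 (smul_mem₀ (neg_mem h.eps) hx) (by simp [b4])
  have b8 := BIn.eichler ⟨s, h1, h2⟩ b6 b7 (Φ.B_eq_zero_symm a2)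
    (by simp [B_smul_left, Φ.B_eq_zero_symm b3])
  obtain ⟨t, -, c7, c8⟩ := h.eIn_rat hM hy a1 hy' b2
  have c9 := step b8 c7 c8 (Φ.B_eq_zero_symm a2) (Φ.B_eq_zero_symm b1) (by simp [b4, a1.1])
  simp only [map_sub, map_smul, Φ.B_eq_zero_symm b2, b5, smul_eq_mul, mul_one, mul_zero, zero_sub,
    mul_neg, neg_neg, mul_right_comm (σ Φ.ε), σε_mul, one_mul, neg_mul] at c9
  refine ⟨y, hy, a1, a2, fun c5 => a3 ?_, _, a3, 0,
    eichData_zero h1.sing (a1.smul _) (by simp [a2]), c9⟩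
  obtain ⟨a, rfl⟩ := Submodule.mem_span_singleton.1 c5
  simp [B_smul_left, h1.perp]

theorem RS.win [Finite F] (h : RS Φ V₀) (hC : Φ.CommTr) (hF : PD F₀) (hM : Mg V₀ ⊓ Φ.E ≤ K)
    (hK : ¬ NW Φ V₀ K) : Φ.E ≤ K := by
  obtain ⟨u, hu, hs, hu0, x, hx, a0, a1, a2, c, hc, a3⟩ := h.exists_new hM hK
  let P : F → Prop := fun c => ∀ w ∈ V₀, Sing Φ w → ∀ y ∈ V₀, Φ.B w y = 0 → Φ.BIn K w (c • y)
  have hP : ∀ c ∈ F₀, P c := fun c hc w hw b1 y hy b3 =>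
    let ⟨s, _, b4⟩ := h.eIn_rat hM hw b1 (smul_mem₀ hc hy) (by simp [b3]); ⟨s, b4⟩
  have hmul : ∀ c d, P c → P d → P (σ d * c) := fun c d hc hd => by
    obtain ⟨y, hy, e, he, b1, b2, b3, b4, b5⟩ := h.pair hu hx
    obtain ⟨s, b6, b7⟩ := hd x hx a0 y hy b2
    have c2 := step (hc u hu hs e he b3) b6 b7 (Φ.B_eq_zero_symm a1)
      (by simp [B_smul_left, Φ.B_eq_zero_symm b1]) (by simp [b4])
    rw [B_smul_left, B_smul_right, b5, mul_one] at c2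
    exact h.spread hM hu hs hu0 hx a0 a1 a2 ⟨0, eichData_zero hs (a0.smul _) (by simp [a1]), c2⟩
  let Λ : Subring F :=
    { carrier := {c | P c}
      mul_mem' := fun {c d} hc hd => by
        simpa [Φ.invol] using hmul d _ hd (hmul 1 c (hP 1 (one_mem _)) hc)
      one_mem' := hP 1 (one_mem _)
      add_mem' := fun {c d} hc hd w hw b1 y hy b3 => by
        simpa [add_smul] using (hc w hw b1 y hy b3).add (hd w hw b1 y hy b3)
      zero_mem' := hP 0 (zero_mem _)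
      neg_mem' := fun {c} hc w hw b1 y hy b3 => by simpa using (hc w hw b1 y hy b3).neg }
  have h5 : ∀ c, P c := hF.2 Λ hP ⟨c, h.spread hM hu hs hu0 hx a0 a1 a2 a3, hc⟩
  have h6 : ∀ w ∈ V₀, Sing Φ w → w ≠ 0 → Φ.QIn K w := fun w hw b1 b2 =>
    qIn_of_bIn h.nd hC (by have := h.big; omega) fun e he =>
      h.ind_perp hw b1 b2 (fun x hx _ b5 c => h5 c w hw b1 x hx b5) (fun _ _ => BIn.add) he
  obtain ⟨f, hf, b1⟩ := h.hyp hu hs hu0
  exact E_le_of_qIn h.nd hs b1.right (by simp [b1.one]) (h6 u hu hs hu0) (h6 f hf b1.right b1.right_ne)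

theorem RS.stab (h : RS Φ V₀) (hM : Mg V₀ ⊓ Φ.E ≤ K) (hK : K ≤ Φ.E) (hN : NW Φ V₀ K)
    (hu : u ∈ V₀) (hs : Sing Φ u) (hu0 : u ≠ 0) (hg : g ∈ K) (h1 : g u = c • u) : g ∈ Mg V₀ := by
  have hc : c ≠ 0 := by rintro rfl; exact hu0 (by simpa using h1)
  have hc' : σ c ≠ 0 := by simpa
  have hO := E_le_O (hK hg)
  obtain ⟨f, hf, a1⟩ := h.hyp hu hs hu0
  have a2 : ∀ y, σ c * Φ.B u (g y) = Φ.B u y := fun y => by rw [← B_smul_left, ← h1, hO.1]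
  obtain ⟨e, -, s, a3, a4⟩ := exists_eich_map' h.nd (u := u) (v := σ c • g f)
    ⟨hs, (a1.right.mapO hO).smul _, by simp [a2, a1.one]⟩ a1
  obtain ⟨k, hk⟩ := exists_eich h.nd a3
  have a5 := mem_E a3 hk
  have a6 : ∀ x y, Φ.B (σ c • (k * g) x) (σ c • (k * g) y) = c * σ c * Φ.B x y := fun x y => by
    rw [B_smul_left, B_smul_right, (mul_mem (E_le_O a5) hO).1, Φ.invol, mul_assoc]
  have a7 : σ c • (k * g) f = f := by rw [LinearEquiv.mul_apply, ← map_smul, hk, a4]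
  have a8 : ∀ y ∈ V₀, Φ.B u y = 0 → Φ.B f y = 0 → σ c • (k * g) y ∈ V₀ := fun y hy b1 b2 => by
    obtain ⟨t, -, b3, b4⟩ := h.eIn_rat hM hu hs hy b1
    have b5 := b4.conj hg hO
    have b6 := b3.mapO hO
    rw [h1] at b5 b6
    have b7 := smul_mem₀ h.eps (sub_mem hf (hN u hu _ _ (b6.of_smul_left hs)
      ((eIn_smul_left c).1 b5) f hf))
    have b8 : Φ.B u (g y) = 0 := by simpa [b1, hc] using a2 y
    obtain ⟨a, ha⟩ : ∃ a : F, σ c • (k * g) y - a • u ∈ V₀ := by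
      refine ⟨σ c * Φ.B e (g y) + Φ.ε * (Φ.B (σ c • g y) f - σ (c * σ c * t)), ?_⟩
      convert b7 using 1
      rw [LinearEquiv.mul_apply, hk, eichler_apply, eichler_apply, b8, a1.one]
      linear_combination (norm := module) (congrArg (· • σ c • g y) Φ.eps).symm
    have b9 := h.B _ hf _ ha
    have b10 := a6 f y
    rw [a7, b2, mul_zero] at b10
    rw [map_sub, b10, B_smul_right, a1.B_symm, zero_sub] at b9
    have b11 : a ∈ F₀ := by simpa [Φ.eps_ne_zero] using div_mem (neg_mem b9) h.eps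
    simpa using add_mem ha (smul_mem₀ b11 hu)
  have a9 : c * σ c ∈ F₀ := by
    obtain ⟨y, hy, b1, b2⟩ := h.any [u, f] (by simp [*]) (Submodule.span F {u, f})
      (by have := H22.finrank_span_pair_le (F := F) u f; simp; omega)
    obtain ⟨z, hz, b3, b4, b5⟩ := h.perp_three hu hf hy b1
    have := h.B _ (a8 y hy (b2 u (by simp)) (b2 f (by simp))) _ (a8 z hz b3 b4)
    rwa [a6, b5, mul_one] at this
  have a10 : k * g ∈ Mg V₀ := mem_Mg_of hc' fun v hv => by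
    have b1 := mul_mem (h.sig _ h.eps) (h.B _ hf _ hv)
    have b2 := a8 _ (sub_mem (sub_mem hv (smul_mem₀ (h.B _ hu _ hv) hf)) (smul_mem₀ b1 hu))
      (by simp [a1.one, hs.1]) (by
        simp only [map_sub, map_smul, a1.right.1, a1.B_symm, smul_eq_mul]
        linear_combination -Φ.B f v * σε_mul (Φ := Φ))
    have b3 : (k * g) u = c • u := by
      simp [h1, hk, eichler_apply, hs.1, Φ.B_eq_zero_symm a3.perp]
    convert add_mem (add_mem b2 (smul_mem₀ (h.B _ hu _ hv) hf)) (smul_mem₀ (mul_mem b1 a9) hu)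
      using 1
    rw [map_sub, map_sub, map_smul, map_smul, b3]
    linear_combination (norm := module) Φ.B u v • a7
  have a11 : k ∈ K := by simpa using mul_mem (hM ⟨a10, mul_mem a5 (hK hg)⟩) (K.inv_mem hg)
  have a12 : k ∈ Mg V₀ := mem_Mg_of_rat fun v hv => hk v ▸ hN u hu e s a3 ⟨k, a11, hk⟩ v hv
  simpa using mul_mem ((Mg V₀).inv_mem a12) a10

theorem RS.line (h : RS Φ V₀) (hM : Mg V₀ ⊓ Φ.E ≤ K) (hK : K ≤ Φ.E) (hN : NW Φ V₀ K)
    (hu : u ∈ V₀) (hu0 : u ≠ 0) (hw : w ∈ V₀) (hs : Sing Φ w) (hg : g ∈ K) (h1 : g u = c • w) :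
    g ∈ Mg V₀ := by
  have hs' : Sing Φ u := by
    simpa [← h1] using (hs.smul c).mapO (Φ.O.inv_mem (E_le_O (hK hg)))
  obtain ⟨m, c1, -, c2⟩ := h.trans hw hu hs hs' (by rintro rfl; exact hu0 (by simpa using h1)) hu0
  have := h.stab hM hK hN hu hs' hu0 (mul_mem (hM c1) hg) (c := c) (by simp [h1, c2])
  simpa using mul_mem ((Mg V₀).inv_mem c1.1) this

theorem RS.rat_conj (h : RS Φ V₀) (hM : Mg V₀ ⊓ Φ.E ≤ K) (hK : K ≤ Φ.E) (hN : NW Φ V₀ K)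
    (hw : w ∈ V₀) (hs : Sing Φ w) (hw0 : w ≠ 0) (hg : g ∈ K) (h1 : Φ.EIn K u e s)
    (h2 : Φ.B u (g w) = 0) (h3 : Φ.B e (g w) = 0) {v : V} (hv : v ∈ V₀) :
    (Φ.B e (g v) - σ s * Φ.B u (g v)) • g⁻¹ u + (-(σ Φ.ε * Φ.B u (g v))) • g⁻¹ e ∈ V₀ := by
  have hO := Φ.O.inv_mem (E_le_O (hK hg))
  obtain ⟨k, hk, a1⟩ := h1.conj (K.inv_mem hg) hO
  simp only [eichler_apply, B_O_left hO, inv_inv] at a1
  have a2 : k w = w := by simp [a1, h2, h3]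
  have := sub_mem (h.sc.rat_of_fix (h.stab hM hK hN hw hs hw0 hk (c := 1) (by simpa)) hw hw0 a2 v hv)
    hv
  rwa [a1, add_assoc, add_sub_cancel_left] at this

theorem RS.exists_ne (h : RS Φ V₀) (hu0 : u ≠ 0) (g : V ≃ₗ[F] V) : ∃ v ∈ V₀, Φ.B u (g v) ≠ 0 :=
  exists_rat_ne h.span (f := Φ.B u ∘ₗ g.toLinearMap) fun h1 => hu0 (h.nd u fun y => by
    simpa using DFunLike.congr_fun h1 (g.symm y))

theorem RS.killT (h : RS Φ V₀) (hM : Mg V₀ ⊓ Φ.E ≤ K) (hK : K ≤ Φ.E) (hN : NW Φ V₀ K)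
    (hT : RT Φ F₀) (hw : w ∈ V₀) (hs : Sing Φ w) (hw0 : w ≠ 0) (hg : g ∈ K) (hu : u ∈ V₀)
    (hs' : Sing Φ u) (hu0 : u ≠ 0) (h2 : Φ.B u (g w) = 0) : g ∈ Mg V₀ := by
  obtain ⟨t, a1, a2, a3, a4⟩ := hT
  obtain ⟨v, hv, a5⟩ := h.exists_ne hu0 g
  have a6 := h.rat_conj hM hK hN hw hs hw0 hg
    ((h.eIn hu (zero_mem _) a1 (data_zero hs' a3 a4)).mono hM) h2 (by simp) hv
  simp only [map_zero, smul_zero, add_zero, LinearMap.zero_apply, zero_sub] at a6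
  exact h.line hM hK hN a6 (by simp [a2, a5, hu0]) hu hs' hg
    (by rw [map_smul]; exact congrArg _ (g.apply_symm_apply u))

theorem RS.killN [Finite F] (h : RS Φ V₀) (hM : Mg V₀ ⊓ Φ.E ≤ K) (hK : K ≤ Φ.E) (hN : NW Φ V₀ K)
    (hw : w ∈ V₀) (hs : Sing Φ w) (hw0 : w ≠ 0) (hg : g ∈ K) (hu : u ∈ V₀)
    (hs' : Sing Φ u) (hu0 : u ≠ 0) (he : e ∈ V₀) (hue : Φ.B u e = 0) (hns : ¬ Sing Φ e)
    (h2 : Φ.B u (g w) = 0) (h3 : Φ.B e (g w) = 0) : g ∈ Mg V₀ := by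
  obtain ⟨s, -, -, a1⟩ := h.eIn_rat hM hu hs' he hue
  have heu := Φ.B_eq_zero_symm hue
  have hO := E_le_O (hK hg)
  have a2 := fun v => h.rat_conj hM hK hN hw hs hw0 hg a1 h2 h3 (v := v)
  obtain ⟨v, hv, a3⟩ := h.exists_ne hu0 g
  have key : ∀ c : F, c ≠ 0 → c • g⁻¹ u ∈ V₀ → g ∈ Mg V₀ := fun c hc b1 =>
    h.line hM hK hN b1 (by simp [hc, hu0]) hu hs' hg
      (by rw [map_smul]; exact congrArg _ (g.apply_symm_apply u))
  by_cases h4 : Φ.B e e = 0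
  swap
  · have b1 := a2 _ (a2 v hv)
    simp only [map_add, map_smul, LinearEquiv.coe_inv, LinearEquiv.apply_symm_apply, hs'.1, hue,
      heu, smul_eq_mul, mul_zero, add_zero, sub_zero, neg_zero, zero_smul, zero_add] at b1
    exact key _ (by simp [a3, h4, Φ.eps_ne_zero]) b1
  have h5 : Φ.Q e ≠ 0 := fun h => hns ⟨h4, h⟩
  have h6 : (2 : F) = 0 := by simpa [h4, h5] using Φ.kB_self e
  have hQ : ∀ a b : F, Φ.Q (a • g⁻¹ u + b • g⁻¹ e) = b ^ 2 * Φ.Q e := fun a b => by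
    rw [← map_smul, ← map_smul, ← map_add, (Φ.O.inv_mem hO).2, Q_add_smul, Φ.Q_smul, hs'.2]
    simp [B_smul_left, hue]
  set b := (Φ.B e (g v) - σ s * Φ.B u (g v)) • g⁻¹ u + (-(σ Φ.ε * Φ.B u (g v))) • g⁻¹ e with hb
  have b1 : Φ.Q b ≠ 0 := by rw [hb, hQ]; simp [h5, a3, Φ.eps_ne_zero]
  obtain ⟨v', hv', b2⟩ := exists_rat_ne h.span (f := (F ∙ b).mkQ ∘ₗ
    (((Φ.B e - σ s • Φ.B u).smulRight (g⁻¹ u) + (-(σ Φ.ε • Φ.B u)).smulRight (g⁻¹ e)) ∘ₗ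
      g.toLinearMap)) fun b2 => by
    obtain ⟨x, b3, b4⟩ := exists_perp_eq_one' h.nd (S := F ∙ u) (x := e) fun h => by
      obtain ⟨c, rfl⟩ := Submodule.mem_span_singleton.1 h
      exact hns (hs'.smul c)
    have b5 := DFunLike.congr_fun b2 (g.symm x)
    simp only [LinearMap.comp_apply, LinearEquiv.coe_coe, LinearEquiv.apply_symm_apply,
      LinearMap.add_apply, LinearMap.smulRight_apply, LinearMap.sub_apply, LinearMap.smul_apply,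
      LinearMap.neg_apply, b4, b3 u (Submodule.mem_span_singleton_self u), Submodule.mkQ_apply,
      LinearMap.zero_apply, Submodule.Quotient.mk_eq_zero, Submodule.mem_span_singleton] at b5
    obtain ⟨c, hc⟩ := b5
    have b6 := congrArg Φ.Q hc
    rw [hQ, Φ.Q_smul] at b6
    obtain rfl : c = 0 := by simpa [b1] using b6
    exact hu0 (by simpa using hc.symm)
  simp only [LinearMap.comp_apply, LinearEquiv.coe_coe, LinearMap.add_apply,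
    LinearMap.smulRight_apply, LinearMap.sub_apply, LinearMap.smul_apply, LinearMap.neg_apply,
    Submodule.mkQ_apply, Ne, Submodule.Quotient.mk_eq_zero, smul_eq_mul] at b2
  obtain ⟨c, hc, b3⟩ := h.iso_two h6 (a2 v' hv') (a2 v hv)
    (by simp [B_smul_left, (Φ.O.inv_mem hO).1, -LinearEquiv.coe_inv, hs'.1, hue, heu, h4]) b1
  have b4 := add_mem (a2 v' hv') (smul_mem₀ hc (a2 v hv))
  have b5 : ∀ a₁ a₂ a₃ a₄ : F, a₁ • g⁻¹ u + a₂ • g⁻¹ e + c • (a₃ • g⁻¹ u + a₄ • g⁻¹ e) =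
    (a₁ + c * a₃) • g⁻¹ u + (a₂ + c * a₄) • g⁻¹ e := fun _ _ _ _ => by module
  rw [b5, hQ, mul_eq_zero, or_iff_left h5, pow_eq_zero_iff two_ne_zero] at b3
  rw [b5, b3, zero_smul, add_zero] at b4
  refine key _ (fun b6 => b2 (Submodule.mem_span_singleton.2 ⟨-c, ?_⟩)) b4
  rw [neg_smul, neg_eq_iff_add_eq_zero, add_comm, hb, b5, b3, b6]; simp

theorem RS.exists_nonsing (h : RS Φ V₀) (hT : ¬ RT Φ F₀) (hu : u ∈ V₀) (he : e ∈ V₀)
    (hs : Sing Φ u) (hs' : Sing Φ e) (hue : Φ.B u e = 0) :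
    ∃ x ∈ V₀, Φ.B u x = 0 ∧ Φ.B e x = 0 ∧ ¬ Sing Φ x := by
  by_contra! h1
  obtain ⟨x, hx, a1, a2⟩ := h.any [u, e] (by simp [*]) (Submodule.span F {u, e})
    (by have := H22.finrank_span_pair_le (F := F) u e; simp; omega)
  obtain ⟨y, hy, a3, a4, a5⟩ := h.perp_three hu he hx a1
  have a6 := h1 x hx (a2 u (by simp)) (a2 e (by simp))
  have a7 := h1 y hy a3 a4
  have a8 := h1 _ (add_mem hx hy) (by simp [a2, a3]) (by simp [a2, a4])
  refine hT ⟨1, one_mem _, one_ne_zero, ?_, ?_⟩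
  · simpa [a6.1, a7.1, a5, Φ.symm x y, add_comm] using a8.1
  · simpa [Φ.Q_add, a6.2, a7.2, a5] using a8.2

theorem RS.kill [Finite F] (h : RS Φ V₀) (hM : Mg V₀ ⊓ Φ.E ≤ K) (hK : K ≤ Φ.E) (hN : NW Φ V₀ K)
    (hw : w ∈ V₀) (hs : Sing Φ w) (hw0 : w ≠ 0) (hg : g ∈ K) (hu : u ∈ V₀)
    (hs' : Sing Φ u) (hu0 : u ≠ 0) (he : e ∈ V₀) (hue : Φ.B u e = 0) (he' : e ∉ F ∙ u)
    (h2 : Φ.B u (g w) = 0) (h3 : Φ.B e (g w) = 0) : g ∈ Mg V₀ := by
  by_cases hT : RT Φ F₀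
  · exact h.killT hM hK hN hT hw hs hw0 hg hu hs' hu0 h2
  by_cases hns : Sing Φ e
  swap
  · exact h.killN hM hK hN hw hs hw0 hg hu hs' hu0 he hue hns h2 h3
  have hO := Φ.O.inv_mem (E_le_O (hK hg))
  obtain ⟨s, -, -, a1⟩ := h.eIn_rat hM hu hs' he hue
  obtain ⟨v, hv, a3⟩ := h.exists_ne hu0 g
  have a2 := h.rat_conj hM hK hN hw hs hw0 hg a1 h2 h3 hv
  obtain ⟨x, hx, a4, a5, a6⟩ := h.exists_nonsing hT hu he hs' hns hue
  rw [← map_smul, ← map_smul, ← map_add] at a2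
  refine h.killN hM hK hN a2 (Sing.mapO ?_ hO) (fun a7 => he' ?_) hg hu hs' hu0 hx a4 a6
    (by simp [hs'.1, hue]) (by simp [Φ.B_eq_zero_symm a4, Φ.B_eq_zero_symm a5])
  · exact (totSing_span (s := {u, e}) (by simp [hs'.1, hns.1, hue, Φ.B_eq_zero_symm hue])
      (by simp [hs'.2, hns.2])).sing (Submodule.mem_span_pair.2 ⟨_, _, rfl⟩)
  · rw [EmbeddingLike.map_eq_zero_iff, neg_smul, add_neg_eq_zero] at a7
    exact (Submodule.smul_mem_iff _ (mul_ne_zero σε_ne a3)).1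
      (a7 ▸ Submodule.smul_mem _ _ (Submodule.mem_span_singleton_self u))

end H23.Sv
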