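import Cfsg.Agent.H23.Sh2

/-! Pairs of totally isotropic 3-spaces in `SU₆`. -/

set_option autoImplicit false

namespace H23.Sv

open Module H22 Cfsg Cfsg.Geo Form Tn Sh

variable {F V : Type*} [Field F] [AddCommGroup V] [Module F V] [FiniteDimensional F V]
  {σ : F →+* F}

variable {Φ : Form σ V} {H : Subgroup (V ≃ₗ[F] V)} (hΦ : Φ.Nondeg) (hε : Φ.ε = 1)
  (hσ : σ ≠ RingHom.id F) {A B : Submodule F V} (hA : Φ.TotSing A) (hB : Φ.TotSing B)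
  (hc : IsCompl A B)
  (hH : stabL A ⊓ stabL B ⊓ Φ.E ≤ H) (h : ∀ u ∈ A, u ≠ 0 → ∀ w ∈ A, Φ.BIn H u w → w ∈ F ∙ u)
  {a b a' b' u : V} (ha : a ∈ A) (hb : b ∈ B) (ha' : a' ∈ A) (hb' : b' ∈ B)
  (hT : ∀ l : F, EichData Φ (a + b) (l • (a' + b')) 0 ∧ Φ.EIn H (a + b) (l • (a' + b')) 0)
include hΦ hε hσ hA hB hc hH h ha hb ha' hb' hT

theorem mem_or (hu : u ∈ A) (h0 : u ≠ 0) (h1 : Φ.B u b = 0) (h3 : Φ.B u b' = 0) :
    a ∈ F ∙ u ∨ a' ∈ F ∙ u := by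
  by_contra! hn
  have hBI : ∀ e ∈ B, Φ.B u e = 0 → Φ.BIn H u e := fun e he h1 =>
    ⟨0, eichData_zero (hA.sing hu) (hB.sing he) h1, (eIn_pair hΦ hA hB hc hu he h1).mono hH⟩
  have key : ∀ e ∈ B, Φ.B u e = 0 → ∀ l : F,
      (σ l * Φ.B a' e) • a - (Φ.B a e * l) • a' ∈ F ∙ u := fun e he h4 l => by
    have h5 := ((hBI e he h4).eichler (hT l).1 (hT l).2
      (Φ.B_eq_zero_symm (by simp [h1, hA.1 u hu a ha]))
      (Φ.B_eq_zero_symm (by simp [h3, hA.1 u hu a' ha']))).sub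
      (hBI ((σ l * Φ.B a' e) • b - (Φ.B a e * l) • b') (B.sub_mem (B.smul_mem _ hb)
        (B.smul_mem _ hb')) (by simp [h1, h3]))
    refine h u hu h0 _ (A.sub_mem (A.smul_mem _ ha) (A.smul_mem _ ha')) ?_
    convert h5 using 1
    simp [hε, hB.1 b hb e he, hB.1 b' hb' e he, B_smul_left]
    module
  have hS := (Submodule.span_singleton_le_iff_mem _ _).2 hu
  obtain ⟨e, he, a1, a2⟩ := exists_mem_pair hΦ hA hB hc hS ha hn.1
  replace a1 := a1 u (Submodule.mem_span_singleton_self u)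
  obtain ⟨θ, hθ⟩ := DFunLike.ne_iff.1 hσ
  have a3 := key e he a1 1
  have a4 := sub_mem (key e he a1 θ) (Submodule.smul_mem _ θ a3)
  rw [show (σ θ * Φ.B a' e) • a - (Φ.B a e * θ) • a' - θ • ((σ 1 * Φ.B a' e) • a -
    (Φ.B a e * 1) • a') = ((σ θ - θ) * Φ.B a' e) • a by rw [map_one]; module] at a4
  have a6 : Φ.B a' e = 0 := by_contra fun a6 =>
    hn.1 ((Submodule.smul_mem_iff _ (mul_ne_zero (sub_ne_zero.2 hθ) a6)).1 a4)
  exact hn.2 (by simpa [a6, a2] using a3)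

theorem eq_zero_of_mem (h3 : 3 ≤ finrank F A) (ha0 : a ≠ 0) (h1 : b' ∈ F ∙ b) : a' = 0 := by
  by_contra h0
  have e1 := hΦ.finrank_le_inf_perp A (F ∙ b)
  have e2 := Sf.finrank_span_one_le (F := F) b
  have e3 : ∀ {x u : V}, x ≠ 0 → x ∈ F ∙ u → u ∈ F ∙ x := fun hx e => by
    obtain ⟨c, rfl⟩ := Submodule.mem_span_singleton.1 e
    exact Submodule.mem_span_singleton.2 ⟨c⁻¹, by simp [smul_smul, left_ne_zero_of_smul hx]⟩
  rcases Pr.le_or_le (A := A ⊓ Φ.perp (F ∙ b)) (B := F ∙ a) (C := F ∙ a') (fun u hu => by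
    by_cases e : u = 0
    · simp [e]
    have a1 := Φ.B_eq_zero_symm (Φ.mem_perp_span_singleton.1 hu.2)
    obtain ⟨c, rfl⟩ := Submodule.mem_span_singleton.1 h1
    exact (mem_or hΦ hε hσ hA hB hc hH h ha hb ha' hb' hT hu.1 e a1 (by simp [a1])).imp
      (e3 ha0) (e3 h0)) with e | e
  · have := (Submodule.finrank_mono e).trans (Sf.finrank_span_one_le a); omega
  · have := (Submodule.finrank_mono e).trans (Sf.finrank_span_one_le a'); omega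

theorem perp_of (h3 : 3 ≤ finrank F A) :
    Φ.B a b' = 0 ∧ Φ.B a' b = 0 ∧ (Φ.B a b = 0 ∨ Φ.B a' b' = 0) := by
  obtain ⟨u, hu, a1, a2⟩ := hΦ.exists_perp_notMem (T := A) (S := ⊥) [b, b'] (by simp; omega)
  have a3 := Φ.B_eq_zero_symm (a2 b (by simp))
  have a4 := Φ.B_eq_zero_symm (a2 b' (by simp))
  have a5 := (hT 1).1.perp
  simp only [one_smul, map_add, LinearMap.add_apply, hA.1 a ha a' ha', hB.1 b hb b' hb'] at a5
  rcases mem_or hΦ hε hσ hA hB hc hH h ha hb ha' hb' hT hu a1 a3 a4 with e | e <;>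
    obtain ⟨c, rfl⟩ := Submodule.mem_span_singleton.1 e
  · simp only [B_smul_left, a3, a4, mul_zero, zero_add, add_zero] at a5 ⊢
    exact ⟨trivial, Φ.B_eq_zero_symm a5, .inl trivial⟩
  · simp only [B_smul_left, B_smul_right, a3, a4, Φ.B_eq_zero_symm a3, mul_zero, zero_add,
      add_zero] at a5 ⊢
    exact ⟨a5, trivial, .inr trivial⟩

omit hA hB hc hH h ha hb ha' hb' hT in
theorem isMaximalIn_tsPair3 {D : Fin 2 → Submodule F V} (hA : Φ.TotSing (D 0))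
    (hB : Φ.TotSing (D 1)) (hc : IsCompl (D 0) (D 1)) (h5 : finrank F (D 0) = 3)
    (hsw : ∃ g ∈ Φ.E, (D 0).map g.toLinearMap = D 1 ∧ (D 1).map g.toLinearMap = D 0) :
    IsMaximalIn Φ.E (decL D ⊓ Φ.E) := by
  have hC : Φ.CommTr := commTr_herm hσ
  have e1 := finrank_eq_of_tsPair hΦ hA hB hc
  have e2 := finrank_eq_of_tsPair hΦ hB hA hc.symm
  refine isMaximalIn_of inf_le_right ?_ fun H hMH hHE g hg hgM => ?_
  · obtain ⟨g, hg, h1, h2⟩ := exists_not_mem_pair hΦ hA hB hc (by omega)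
    exact ⟨g, hg.2, fun h => (mem_decL_two.1 h.1).elim (fun h => h2 h.2.le) fun h => h1 h.2.le⟩
  have hH : stabL (D 0) ⊓ stabL (D 1) ⊓ Φ.E ≤ H := fun k hk =>
    hMH ⟨mem_decL_two.2 (Or.inl hk.1), hk.2⟩
  have hH' : stabL (D 1) ⊓ stabL (D 0) ⊓ Φ.E ≤ H := by rwa [inf_comm (stabL (D 1))]
  obtain ⟨r, hr, hr1, hr2⟩ := hsw
  have hrH : r ∈ H := hMH ⟨mem_decL_two.2 (Or.inr ⟨hr1, hr2⟩), hr⟩
  by_cases h : ∀ u ∈ D 0, u ≠ 0 → ∀ w ∈ D 0, Φ.BIn H u w → w ∈ F ∙ u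
  swap
  · push Not at h
    obtain ⟨u, hu, hu0, w, hw, h1, h2⟩ := h
    have hQ := qIn_of_pair hΦ hA hB hc hC (by omega) hH hu hu0 hw h2 h1
    have hru : r u ∈ D 1 := hr1 ▸ ⟨u, hu, rfl⟩
    obtain ⟨a, ha, -, h3⟩ := exists_mem_pair hΦ hB hA hc.symm bot_le hru (by simpa using hu0)
    exact E_le_of_qIn hΦ (hB.sing hru) (hA.sing ha) (by simp [h3])
      ((hQ u hu).conj hrH (E_le_O hr)) (hQ a ha)
  exfalso
  have h' : ∀ u ∈ D 1, u ≠ 0 → ∀ w ∈ D 1, Φ.BIn H u w → w ∈ F ∙ u := fun u hu hu0 w hw h1 => by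
    obtain ⟨c, hc⟩ := Submodule.mem_span_singleton.1 (h (r u) (hr2 ▸ ⟨u, hu, rfl⟩)
      (by simpa using hu0) (r w) (hr2 ▸ ⟨w, hw, rfl⟩) (h1.conj hrH (E_le_O hr)))
    exact Submodule.mem_span_singleton.2 ⟨c, r.injective (by simpa using hc)⟩
  have hO := E_le_O (hHE hg)
  obtain ⟨π, p1, p2⟩ : ∃ π : V →ₗ[F] V, (∀ v, π v ∈ D 0) ∧ ∀ v, v - π v ∈ D 1 :=
    ⟨(D 0).projection _ hc, Submodule.projection_apply_mem hc, Submodule.sub_projection_mem hc⟩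
  obtain ⟨π', p3, p4⟩ : ∃ π' : V →ₗ[F] V, (∀ v, π' v ∈ D 1) ∧ ∀ v, π v + π' v = v :=
    ⟨LinearMap.id - π, p2, by simp⟩
  have key : ∀ {A B : Submodule F V}, Φ.TotSing A → Φ.TotSing B → IsCompl A B →
      stabL A ⊓ stabL B ⊓ Φ.E ≤ H → 3 ≤ finrank F B → ∃ j, A.map g.toLinearMap ≤ D j := by
    intro A B hA' hB' hc' hH'' h5'
    suffices ∀ x ∈ A.map g.toLinearMap, x ∈ D 0 ∨ x ∈ D 1 from
      (le_or_le_of_forall this).elim (fun h => ⟨0, h⟩) fun h => ⟨1, h⟩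
    intro x hx
    by_contra! hc''
    have hb0 : π' x ≠ 0 := fun e => hc''.1 (by rw [← p4 x, e, add_zero]; exact p1 x)
    have ha0 : π x ≠ 0 := fun e => hc''.2 (by rw [← p4 x, e, zero_add]; exact p3 x)
    obtain ⟨Y, y1, y2, hT⟩ : ∃ Y : Submodule F V, 2 ≤ finrank F Y ∧
        (∀ y ∈ Y, ∀ y' ∈ Y, Φ.B y y' = 0) ∧ ∀ y ∈ Y, EichData Φ x y 0 ∧ Φ.EIn H x y 0 := by
      refine ⟨B.map g.toLinearMap ⊓ Φ.perp (F ∙ x), ?_, ?_, ?_⟩
      · have e3 := hΦ.finrank_le_inf_perp (B.map g.toLinearMap) (F ∙ x)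
        have e4 := Sf.finrank_span_one_le (F := F) x
        rw [LinearEquiv.finrank_map_eq] at e3
        omega
      · rintro _ ⟨⟨y, hy, rfl⟩, -⟩ _ ⟨⟨y', hy', rfl⟩, -⟩
        exact (hO.1 y y').trans (hB'.1 y hy y' hy')
      rintro _ ⟨⟨y, hy, rfl⟩, hxy⟩
      obtain ⟨x, hx, rfl⟩ := hx
      have h1 : Φ.B x y = 0 := (hO.1 x y).symm.trans (Φ.mem_perp_span_singleton.1 hxy)
      exact ⟨(eichData_zero (hA'.sing hx) (hB'.sing hy) h1).mapO hO,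
        ((eIn_pair hΦ hA' hB' hc' hx hy h1).mono hH'').conj hg hO⟩
    have t1 : ∀ y ∈ Y, ∀ l : F, EichData Φ (π x + π' x) (l • (π y + π' y)) 0 ∧
      Φ.EIn H (π x + π' x) (l • (π y + π' y)) 0 := fun y hy l => by
        simpa only [p4] using hT _ (Y.smul_mem l hy)
    have t2 : ∀ y ∈ Y, ∀ l : F, EichData Φ (π' x + π x) (l • (π' y + π y)) 0 ∧
      Φ.EIn H (π' x + π x) (l • (π' y + π y)) 0 := fun y hy => by
        simpa only [add_comm] using t1 y hy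
    have k1 := fun y hy => eq_zero_of_mem hΦ hε hσ hA hB hc hH h (p1 x) (p3 x) (p1 y) (p3 y)
      (t1 y hy) h5.ge ha0
    have k2 := fun y hy => eq_zero_of_mem hΦ hε hσ hB hA hc.symm hH' h' (p3 x) (p1 x) (p3 y) (p1 y)
      (t2 y hy) (by omega) hb0
    have k3 := fun y hy => perp_of hΦ hε hσ hA hB hc hH h (p1 x) (p3 x) (p1 y) (p3 y)
      (t1 y hy) h5.ge
    have k4 : ∀ y ∈ Y, π y ∈ F ∙ π x ∨ π' y ∈ F ∙ π' x → y = 0 := fun y hy e => by
      rw [← p4 y]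
      rcases e with e | e
      · simp [k2 y hy e, k1 y hy (by simp [k2 y hy e])]
      · simp [k1 y hy e, k2 y hy (by simp [k1 y hy e])]
    have x0 : x ≠ 0 := by rintro rfl; simp at ha0
    have k5 : 3 ≤ finrank F (Y ⊔ F ∙ x : Submodule F V) := by
      have := Submodule.finrank_lt_finrank_of_lt (SetLike.lt_iff_le_and_exists.2 ⟨le_sup_left, x,
        Submodule.mem_sup_right (Submodule.mem_span_singleton_self x),
        fun e => x0 (k4 x e (.inl (Submodule.mem_span_singleton_self _)))⟩ : Y < Y ⊔ F ∙ x)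
      omega
    have k6 : ∀ (ϖ : V →ₗ[F] V) (C : Submodule F V), (∀ v, ϖ v ∈ C) → ϖ x ≠ 0 →
        (∀ y ∈ Y, ϖ y ∈ F ∙ ϖ x → y = 0) → finrank F C = 3 → ∀ a ∈ C, ∃ y ∈ Y, ∃ c : F,
          a = ϖ y + c • ϖ x := fun ϖ C c1 c2 c3 c4 a ha => by
      obtain ⟨w, hw, rfl⟩ := surj_of_inj (W := Y ⊔ F ∙ x) ϖ c1 (fun w hw e => by
        obtain ⟨y, hy, _, hz, rfl⟩ := Submodule.mem_sup.1 hw
        obtain ⟨c, rfl⟩ := Submodule.mem_span_singleton.1 hz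
        rw [map_add, map_smul] at e
        obtain rfl := c3 y hy (Submodule.mem_span_singleton.2 ⟨-c, by
          linear_combination (norm := module) -e⟩)
        simp_all) (by omega) ha
      obtain ⟨y, hy, _, hz, rfl⟩ := Submodule.mem_sup.1 hw
      obtain ⟨c, rfl⟩ := Submodule.mem_span_singleton.1 hz
      exact ⟨y, hy, c, by simp⟩
    by_cases e : Φ.B (π x) (π' x) = 0
    · refine hb0 (hΦ _ fun v => ?_)
      obtain ⟨y, hy, c, e1⟩ := k6 π _ p1 ha0 (fun y hy e => k4 y hy (.inl e)) h5 _ (p1 v)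
      rw [← p4 v, e1]
      simp [hB.1 _ (p3 x) _ (p3 v), Φ.B_eq_zero_symm e, Φ.B_eq_zero_symm (k3 y hy).2.1]
    have k7 : ∀ y ∈ Y, Φ.B (π y) (π' y) = 0 := fun y hy => (k3 y hy).2.2.resolve_left e
    obtain ⟨y, hy, y0⟩ := (Submodule.ne_bot_iff Y).1 (by rintro rfl; simp at y1)
    refine y0 (k4 y hy (.inl (hΦ (π y) (fun v => ?_) ▸ zero_mem _)))
    obtain ⟨y', hy', c, e1⟩ := k6 π' _ p3 hb0 (fun y hy e => k4 y hy (.inr e)) (by omega) _ (p3 v)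
    obtain ⟨θ, hθ⟩ := DFunLike.ne_iff.1 hσ
    have c1 := k7 _ (Y.add_mem hy hy')
    have c2 := k7 _ (Y.add_mem hy (Y.smul_mem θ hy'))
    simp only [map_add, map_smul π, map_smul π', LinearMap.add_apply, k7 y hy, k7 y' hy',
      B_smul_left, B_smul_right] at c1 c2
    rw [← p4 v, e1]
    simp only [map_add, map_smul, hA.1 _ (p1 _) _ (p1 _), (k3 y hy).2.1]
    exact mul_left_cancel₀ (sub_ne_zero.2 hθ) (by
      simp only [smul_eq_mul, RingHom.id_apply]; linear_combination σ θ * c1 - c2)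
  refine hgM ⟨mem_decL_of_le (m := finrank F (D 0)) (Fin.forall_fin_two.2 ⟨rfl, by omega⟩) ?_
    (Fin.forall_fin_two.2 ⟨key hA hB hc hH (by omega), key hB hA hc.symm hH' h5.ge⟩), hHE hg⟩
  have : D 0 ≠ D 1 := fun h => by
    have := hc.disjoint
    rw [← h, disjoint_self] at this
    rw [this, finrank_bot] at h5
    omega
  intro i j hij
  fin_cases i <;> fin_cases j <;> simp_all

end H23.Sv
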