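import Cfsg.Agent.H23.Gu2

/-! Galois expansions of linear maps; semilinearity from singular lines. -/

set_option autoImplicit false

namespace H23

open Module H22 Cfsg Cfsg.Geo Form Tn

variable {F E V : Type*} [Field F] [Field E] [Algebra F E] [FiniteDimensional F E]

theorem gal_li : LinearIndependent E fun s : Gal(E/F) => s.toLinearMap :=
  (linearIndependent_toLinearMap F E E).comp (fun s : Gal(E/F) => s.toAlgHom)
    AlgEquiv.coe_toAlgHom_injective

theorem gal_indep {h : Gal(E/F) → E} (e : ∀ y, ∑ s, h s * s y = 0) (s : Gal(E/F)) : h s = 0 := by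
  refine Fintype.linearIndependent_iff.1 (gal_li (F := F) (E := E)) h (LinearMap.ext fun y => ?_) s
  simpa only [LinearMap.sum_apply, LinearMap.smul_apply, AlgEquiv.toLinearMap_apply, smul_eq_mul,
    LinearMap.zero_apply] using e y

theorem gal_ext {h h' : Gal(E/F) → E} (e : ∀ y, ∑ s, h s * s y = ∑ s, h' s * s y) : h = h' :=
  funext fun s => sub_eq_zero.1 (gal_indep (h := h - h') (fun y => by simp [sub_mul, e]) s)

open Classical in
/-- A single coefficient. -/
noncomputable def gs (j : Gal(E/F)) (c : E) (s : Gal(E/F)) : E := if s = j then c else 0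

omit [FiniteDimensional F E] in
@[simp] theorem gs_self (j : Gal(E/F)) (c : E) : gs j c j = c := if_pos rfl

omit [FiniteDimensional F E] in
@[simp] theorem gs_ne {j s : Gal(E/F)} (h : s ≠ j) (c : E) : gs j c s = 0 := if_neg h

theorem sum_gs (j : Gal(E/F)) (c : E) (f : Gal(E/F) → E) : ∑ s, gs j c s * f s = c * f j := by
  rw [Finset.sum_eq_single j (fun s _ hs => by simp [hs]) (by simp)]; simp

theorem tr_gal (s : Gal(E/F)) (x : E) : Algebra.trace F E (s x) = Algebra.trace F E x :=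
  Algebra.trace_eq_of_algEquiv s x

theorem tr_adj (a : Gal(E/F) → E) (y c : E) : Algebra.trace F E ((∑ s, a s * s c) * y) =
    Algebra.trace F E ((∑ t : Gal(E/F), t⁻¹ (a t * y)) * c) := by
  simp only [Finset.sum_mul, map_sum]
  refine Finset.sum_congr rfl fun s _ => ?_
  rw [← tr_gal s (_ * c), map_mul s, ← AlgEquiv.mul_apply, mul_inv_cancel, mul_right_comm]; rfl

theorem sum_inv_gal (a : Gal(E/F) → E) (y : E) :
    ∑ t : Gal(E/F), t⁻¹ (a t * y) = ∑ s : Gal(E/F), s (a s⁻¹) * s y := by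
  simpa using Equiv.sum_comp (Equiv.inv Gal(E/F)) fun s => s (a s⁻¹) * s y

theorem gal_quad {s : Gal(E/F)} (h2 : s ≠ 1 → s * s = 1 → (2 : E) ≠ 0) {a b : E} (hb : b ≠ 0)
    (e : ∀ y, a * s (s y) - 2 * (b * s y) + y = 0) : s = 1 := by
  by_contra h1
  have := gal_indep (F := F) (h := gs (s * s) a + gs s (-2 * b) + gs 1 1)
    (fun y => by
      simp only [Pi.add_apply, add_mul, Finset.sum_add_distrib, sum_gs]
      simpa [sub_eq_add_neg, mul_assoc] using e y)
  by_cases h3 : s * s = 1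
  · simpa [h3, h1, h2 h1 h3, hb] using this s
  · simpa [Ne.symm h3, Ne.symm h1] using this 1

theorem gal_cube {s : Gal(E/F)} (h2 : s ≠ 1 → s * s ≠ 1 ∧ s * s * s ≠ 1) {a b c : E}
    (e : ∀ y, a * s (s (s y)) - 3 * (b * s (s y)) + 3 * (c * s y) - y = 0) : s = 1 := by
  by_contra h1
  have := gal_indep (F := F) (h := gs (s * s * s) a + gs (s * s) (-3 * b) +
    gs s (3 * c) + gs 1 (-1)) (fun y => by
      simp only [Pi.add_apply, add_mul, Finset.sum_add_distrib, sum_gs]
      simpa [sub_eq_add_neg, mul_assoc] using e y) 1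
  simp [(h2 h1).1.symm, Ne.symm h1, (h2 h1).2.symm] at this

variable [Finite E]

theorem card_gal : Nat.card Gal(E/F) = finrank F E :=
  have : Finite F := Finite.of_injective _ (algebraMap F E).injective
  IsGalois.card_aut_eq_finrank F E

theorem tr_sum (x : E) : algebraMap F E (Algebra.trace F E x) = ∑ s : Gal(E/F), s x :=
  have : Finite F := Finite.of_injective _ (algebraMap F E).injective
  trace_eq_sum_automorphisms x

theorem gal_coeff (l : E →ₗ[F] E) : ∃ h : Gal(E/F) → E, ∀ y, l y = ∑ s, h s * s y := by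
  let b := basisOfLinearIndependentOfCardEqFinrank (gal_li (F := F) (E := E)) (by
    rw [← Nat.card_eq_fintype_card, card_gal, finrank_linearMap_self])
  refine ⟨b.repr l, fun y => ?_⟩
  conv_lhs => rw [← b.sum_repr l]
  simp [b]

theorem gal_span [Fintype E] (θ : Gal(E/F) → E) : ∃ a : E → E, ∀ j, θ j = ∑ b, a b * j b := by
  have : Submodule.span E (Set.range fun (b : E) (j : Gal(E/F)) => j b) = ⊤ := by
    classical
    by_contra h
    obtain ⟨f, h1, h2⟩ := Submodule.exists_le_ker_of_lt_top _ (lt_top_iff_ne_top.2 h)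
    refine h1 (LinearMap.pi_ext fun j c => ?_)
    have h3 := gal_indep (F := F) (h := fun j => f fun i => if j = i then 1 else 0) (fun y => by
      simpa [mul_comm, f.pi_apply_eq_sum_univ fun j : Gal(E/F) => j y] using
        h2 (Submodule.subset_span ⟨y, rfl⟩))
    simp [f.pi_apply_eq_sum_univ (Pi.single j c), h3]
  obtain ⟨a, ha⟩ := (Submodule.mem_span_range_iff_exists_fun E).1 (this.ge (Submodule.mem_top (x := θ)))
  exact ⟨a, fun j => by simp [← ha]⟩

theorem gal_comm (s t : Gal(E/F)) : s * t = t * s :=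
  have : Finite F := Finite.of_injective _ (algebraMap F E).injective
  (IsCyclic.commGroup (α := Gal(E/F))).mul_comm s t

variable [AddCommGroup V] [Module F V] [Module E V] [IsScalarTower F E V]
  {Φ : Form (RingHom.id F) V} {Ψ : Form (RingHom.id E) V}

omit [FiniteDimensional F E] [Finite E] [IsScalarTower F E V] in
theorem Lift.B_smul (h : Lift Φ Ψ) (c : E) (u v : V) :
    Φ.B (c • u) v = Algebra.trace F E (Ψ.B u v * c) := by
  rw [h.tr, h.adj]; rfl

omit [IsScalarTower F E V] in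
theorem Lift.adjT (h : Lift Φ Ψ) {m : V ≃ₗ[F] V} (hm : m ∈ Φ.O) {u w : V} {a : Gal(E/F) → E}
    (h1 : ∀ y : E, m (y • u) = (∑ s, a s * s y) • w) (x : V) :
    Ψ.B u (m⁻¹ x) = ∑ t : Gal(E/F), t⁻¹ (a t * Ψ.B w x) := tr_ext (F := F) fun c => by
  rw [← h.B_smul, ← B_O_left hm, h1, h.B_smul, mul_comm, tr_adj]

omit [FiniteDimensional F E] [IsScalarTower F E V] in
theorem Lift.B_fix (h : Lift Φ Ψ) {k : V ≃ₗ[F] V} (hk : k ∈ Φ.O) {u : V}
    (h1 : ∀ a : E, k (a • u) = a • u) (x : V) : Ψ.B u (k x) = Ψ.B u x :=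
  tr_ext (F := F) fun c => by rw [← h.B_smul, ← h.B_smul, ← hk.1 _ x, h1]

omit [IsScalarTower F E V] in
theorem Lift.semi_of_sing [FiniteDimensional E V] (h : Lift Φ Ψ) {g : V ≃ₗ[F] V} (hg : g ∈ Φ.O)
    {u : V} (hu : Sing Ψ u) (hu0 : u ≠ 0)
    (h1 : ∀ w, Sing Ψ w → w ≠ 0 → ∃ s : Gal(E/F), ∀ a, g (a • w) = s a • g w) (y : E) :
    ∃ y' : E, ∀ v, g (y • v) = y' • g v := by
  have h2 : ∀ {w z : V} {s t : Gal(E/F)}, Ψ.B w z ≠ 0 → (∀ a, g (a • w) = s a • g w) →
      (∀ a, g (a • z) = t a • g z) → s = t := fun {w z s t} h0 hs ht => by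
    have a1 : ∀ a, t⁻¹ (s a * Ψ.B (g w) (g z)) = a * Ψ.B w z := fun a => tr_ext (F := F) fun b => by
      have := hg.1 (a • w) (b • z)
      rw [hs, ht, h.B_smul, h.B_smul, B_smul_right, B_smul_right] at this
      rw [← tr_gal t, map_mul t, ← AlgEquiv.mul_apply, mul_inv_cancel, AlgEquiv.one_apply]
      convert this using 2 <;> ring
    refine AlgEquiv.ext fun a => ?_
    have a2 := a1 a
    have a3 := a1 1
    rw [map_one, one_mul, one_mul] at a3
    rw [map_mul, a3] at a2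
    exact (t.symm_apply_eq.1 (mul_right_cancel₀ h0 a2))
  obtain ⟨s, hs⟩ := h1 u hu hu0
  obtain ⟨f, hf⟩ := exists_hyp h.nondeg hu hu0
  refine ⟨s y, hf.sing_induction (fun w hw => ?_) fun a b ha hb => by simp [ha, hb]⟩
  by_cases h0 : w = 0
  · simp [h0]
  obtain ⟨t, ht⟩ := h1 w hw h0
  by_cases h3 : Ψ.B u w = 0
  · obtain ⟨z, hz, a1, a2⟩ := exists_sing_not_perp h.nondeg hu hu0 h0 h3
    obtain ⟨t', ht'⟩ := h1 z hz (by rintro rfl; simp at a1)
    rw [ht, h2 a1 hs ht', h2 a2 ht ht']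
  · rw [ht, h2 h3 hs ht]

omit [Finite E] [Algebra F E] [IsScalarTower F E V] [FiniteDimensional F E] in
theorem exists_coord {m : V ≃ₗ[F] V} {u w : V} (hw : w ≠ 0) [Algebra F E] [IsScalarTower F E V]
    (h : ∀ y : E, m (y • u) ∈ E ∙ w) : ∃ l : E →ₗ[F] E, ∀ y, m (y • u) = l y • w := by
  obtain ⟨f, hf⟩ := exists_dual_one (F := E) hw
  refine ⟨f.restrictScalars F ∘ₗ m.toLinearMap ∘ₗ
    (LinearMap.toSpanSingleton E V u).restrictScalars F, fun y => ?_⟩
  obtain ⟨c, hc⟩ := Submodule.mem_span_singleton.1 (h y)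
  simp [← hc, hf]

end H23
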