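import Cfsg.Agent.H23.Sx1

/-! Quadratic systems; unipotent radicals of parabolic subgroups of orthogonal groups. -/

set_option autoImplicit false

namespace H23

open Module H22 Cfsg Cfsg.Geo Form

variable {F V : Type*} [Field F] [AddCommGroup V] [Module F V] [FiniteDimensional F V]

theorem exists_quad_root [Finite F] {Y : Type*} [AddCommGroup Y] [Module F Y]
    [FiniteDimensional F Y] (l : V →ₗ[F] Y) (β : V →ₗ[F] V →ₗ[F] Y)
    (h : 2 * finrank F Y < finrank F V) : ∃ x ≠ 0, l x + β x x = 0 := by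
  classical
  have := Fintype.ofFinite F
  obtain ⟨p, hp⟩ := CharP.exists F
  let b := Module.finBasis F V
  let c := Module.finBasis F Y
  let f : Fin (finrank F Y) → MvPolynomial (Fin (finrank F V)) F := fun i =>
    ∑ j, MvPolynomial.C (c.coord i (l (b j))) * MvPolynomial.X j +
      ∑ j, ∑ k, MvPolynomial.C (c.coord i (β (b j) (b k))) * (MvPolynomial.X j * MvPolynomial.X k)
  have h1 : ∀ i, (f i).totalDegree ≤ 2 := fun i => by
    refine (MvPolynomial.totalDegree_add _ _).trans (max_le ?_ ?_)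
    · refine MvPolynomial.totalDegree_finsetSum_le fun j _ => ?_
      exact (MvPolynomial.totalDegree_mul _ _).trans (by simp)
    · refine MvPolynomial.totalDegree_finsetSum_le fun j _ =>
        MvPolynomial.totalDegree_finsetSum_le fun k _ => ?_
      refine (MvPolynomial.totalDegree_mul _ _).trans ?_
      simpa using (MvPolynomial.totalDegree_mul _ _).trans (by simp)
  have h2 := char_dvd_card_solutions_of_fintype_sum_lt p (f := f) (by
    refine (Finset.sum_le_card_nsmul _ _ 2 fun i _ => h1 i).trans_lt ?_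
    simpa [mul_comm] using h)
  have h3 : ∀ x i, MvPolynomial.eval x (f i) =
      c.coord i (l (∑ j, x j • b j) + β (∑ j, x j • b j) (∑ j, x j • b j)) := fun x i => by
    simp only [f, map_add, map_sum, map_mul, MvPolynomial.eval_C, MvPolynomial.eval_X, map_smul,
      LinearMap.sum_apply, LinearMap.smul_apply, smul_eq_mul, Finset.mul_sum]
    congr 1
    · exact Finset.sum_congr rfl fun _ _ => mul_comm _ _
    · rw [Finset.sum_comm]
      exact Finset.sum_congr rfl fun _ _ => Finset.sum_congr rfl fun _ _ => by ring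
  by_contra! h4
  have h5 : Fintype.card {x : Fin (finrank F V) → F // ∀ i, MvPolynomial.eval x (f i) = 0} = 1 :=
    Fintype.card_eq_one_iff.2 ⟨⟨0, fun i => by rw [h3]; simp⟩, fun x => Subtype.ext (by
      by_contra h6
      refine h4 (∑ j, x.1 j • b j) (fun e => h6 (funext
        (Fintype.linearIndependent_iff.1 b.linearIndependent _ e))) (c.ext_elem fun i => ?_)
      simpa [h3] using x.2 i)⟩
  exact CharP.char_ne_one F p (Nat.dvd_one.1 (by convert h2 using 1; convert h5.symm))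

theorem commute_of_fix {σ : F →+* F} {Φ : Form σ V} (hΦ : Φ.Nondeg) {L : Submodule F V}
    {z t : V ≃ₗ[F] V} (hz : z ∈ Φ.O) (ht : t ∈ Φ.O) (h1 : ∀ x ∈ Φ.perp L, z x = x)
    (h2 : ∀ x ∈ L, t x = x) : Commute z t := LinearEquiv.ext fun v => by
  have a1 : t v - v ∈ Φ.perp L := fun l hl => by rw [map_sub, ← ht.1 l v, h2 l hl, sub_self]
  have a2 : z v - v ∈ L := hΦ.perp_perp L ▸ fun l hl => by
    rw [map_sub, ← hz.1 l v, h1 l hl, sub_self]
  have a3 := h1 _ a1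
  have a4 := h2 _ a2
  rw [map_sub] at a3 a4
  change z (t v) = t (z v)
  linear_combination (norm := module) a3 - a4

variable {Φ : Form (RingHom.id F) V} (hΦ : Φ.Nondeg) (hκ : Φ.κ = 1) {H : Subgroup (V ≃ₗ[F] V)}
  {L : Submodule F V}
include hΦ hκ

theorem sq_mem_E [Finite F] (h2 : (2 : F) ≠ 0) (hV : 5 ≤ finrank F V) {g : V ≃ₗ[F] V}
    (hg : g ∈ Φ.O) : g * g ∈ Φ.E := by
  have := Fintype.ofFinite F
  obtain ⟨φ, -, h1⟩ := exists_hom_ker_eq_commutator hΦ hκ h2 (by omega)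
  refine (mem_E_quad hΦ hκ hV (g := ⟨g, hg⟩ * ⟨g, hg⟩)).2 ?_
  rw [h1, MonoidHom.mem_ker, map_mul]
  ext <;> simp

omit [FiniteDimensional F V] hΦ in
theorem eichData_quad {u e : V} (hu : Sing Φ u) (he : Φ.B u e = 0) : EichData Φ u e (Φ.Q e) :=
  ⟨hu, he, by simpa [B_self_quad hκ, two_mul] using (Φ.eps_mul_Q e).symm, by simp [hκ]⟩

omit [FiniteDimensional F V] hΦ in
theorem aIn_quad {u e : V} (he : Φ.B u e = 0) (h : Φ.EIn H u e (Φ.Q e)) : Φ.AIn H u e :=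
  ⟨he, fun s hs => by rwa [show s = Φ.Q e by simpa [hκ] using hs.trQ]⟩

theorem eIn_of_mod (hL : Φ.TotSing L) (hH : H ≤ Φ.O) {r r' : V ≃ₗ[F] V} (hr : r ∈ H) (hr' : r' ∈ H)
    {a a' e e' : V} (ha : a ∈ L) (ha' : a' ∈ L) (he : e ∈ Φ.perp L) (he' : e' ∈ Φ.perp L)
    (h1 : ∀ x ∈ Φ.perp L, r x = x + Φ.B e x • a) (h2 : ∀ x ∈ Φ.perp L, r' x = x + Φ.B e' x • a') :
    Φ.AIn H a' (Φ.B e e' • a) := by
  have key : ∀ {r a e}, r ∈ H → a ∈ L → e ∈ Φ.perp L → (∀ x ∈ Φ.perp L, r x = x + Φ.B e x • a) →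
      ∃ T ∈ Φ.O, ∃ z ∈ Φ.O, (∀ v, T v = Φ.eichler a e (Φ.Q e) v) ∧ r = z * T ∧
        (∀ x ∈ Φ.perp L, z x = x) ∧ (∀ x ∈ L, T x = x) ∧ ∀ x ∈ L, z x = x := by
    intro r a e hr ha he h1
    have a1 := eichData_quad hκ ⟨hL.1 a ha a ha, hL.2 a ha⟩ (he a ha)
    obtain ⟨T, hT⟩ := exists_eich hΦ a1
    have a2 := mem_O_of_eich a1 hT
    have a3 : ∀ x ∈ L, T x = x := fun x hx => by
      simp [hT, eichler_apply, hL.1 a ha x hx, Φ.B_eq_zero_symm (he x hx)]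
    have a4 : ∀ x ∈ Φ.perp L, (r * T⁻¹) x = x := fun x hx => by
      obtain ⟨x, rfl⟩ := T.surjective x
      have : x ∈ Φ.perp L := fun l hl => by rw [← a2.1, a3 l hl, hx l hl]
      rw [show (r * T⁻¹) (T x) = r x by simp, h1 x this]
      simp [hT, eichler_apply, this a ha]
    exact ⟨T, a2, r * T⁻¹, mul_mem (hH hr) (inv_mem a2), hT, by simp, a4, a3,
      fun x hx => a4 x fun l hl => hL.1 l hl x hx⟩
  obtain ⟨T, b1, z, b2, b3, rfl, b4, b5, b6⟩ := key hr ha he h1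
  obtain ⟨T', c1, z', c2, c3, rfl, c4, c5, c6⟩ := key hr' ha' he' h2
  have d1 := commute_of_fix hΦ b2 b1 b4 b5
  have d2 := commute_of_fix hΦ b2 c1 b4 c5
  have d3 := commute_of_fix hΦ b2 c2 b4 c6
  have d4 := commute_of_fix hΦ c2 b1 c4 b5
  have d5 := commute_of_fix hΦ c2 c1 c4 c5
  have e1 : z * T * (z' * T') * (z * T)⁻¹ * (z' * T')⁻¹ = T * T' * T⁻¹ * T'⁻¹ := by
    rw [mul_assoc z, ← mul_assoc T z', ← d4.eq, mul_inv_rev, mul_inv_rev,
      ((d3.mul_right d1).mul_right d2).eq, ← d1.inv_inv.eq]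
    simp only [mul_assoc, mul_inv_cancel_left]
    rw [← mul_assoc T⁻¹, ← mul_assoc T', ← mul_assoc T, ← mul_assoc z',
      (d4.mul_right (d5.mul_right (d4.inv_right.mul_right d5.inv_right))).eq]
    simp only [mul_assoc, mul_inv_cancel, mul_one]
  have e2 : Φ.B a' a = 0 := hL.1 _ ha' _ ha
  refine aIn_quad hκ (by simp [e2]) ⟨_, mul_mem (mul_mem (mul_mem hr hr') (inv_mem hr))
    (inv_mem hr'), fun v => ?_⟩
  obtain ⟨v, rfl⟩ := T'.surjective v
  have e3 : Φ.ε = 1 := by simpa [hκ] using Φ.kε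
  have e4 : T e' = e' + Φ.B e e' • a := by simp [b3, eichler_apply, he' a ha]
  have e5 : Φ.B a' (T.symm v) = Φ.B a' v := by rw [← b1.1, b5 a' ha']; simp
  have e6 : Φ.B e' (T.symm v) = Φ.B e' v + Φ.B e e' * Φ.B a v := by rw [← b1.1, e4]; simp
  rw [e1, show (T * T' * T⁻¹ * T'⁻¹) (T' v) = T (T' (T.symm v)) by simp]
  simp [c3, eichler_apply, e3, b5 a' ha', e4, e5, e6, Φ.Q_smul, hL.2 a ha, hL.1 a' ha' a' ha',
    hL.1 a ha a' ha', he' a ha, he' a' ha']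
  module

theorem mem_of_fix_perp (hH : ∀ a ∈ L, ∀ a' ∈ L, Φ.AIn H a a') (hL : Φ.TotSing L)
    {z : V ≃ₗ[F] V} (hz : z ∈ Φ.O) (h1 : ∀ x ∈ Φ.perp L, z x = x) : z ∈ H := by
  induction L using WellFoundedLT.induction generalizing z with
  | ind L ih =>
  by_cases h0 : L = ⊥
  · rw [show z = 1 from LinearEquiv.ext fun x => h1 x (by simp [h0])]
    exact one_mem _
  obtain ⟨a, ha, ha0⟩ := L.exists_mem_ne_zero_of_ne_bot h0
  obtain ⟨y, hy⟩ := hΦ.exists_ne ha0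
  have a1 : a ∉ L ⊓ Φ.perp (F ∙ y) := fun e => by
    simpa [hy] using Φ.B_eq_zero_symm (Φ.mem_perp_span_singleton.1 e.2)
  have a2 : z y - y ∈ L := hΦ.perp_perp L ▸ fun l hl => by
    rw [map_sub, ← hz.1 l y, h1 l hl, sub_self]
  have a3 : Φ.B (z y - y) y = 0 := by
    have := hz.2 y
    rw [← sub_add_cancel (z y) y, Q_add_quad hκ, hL.2 _ a2] at this
    linear_combination this
  have a4 := eichData_quad hκ ⟨hL.1 a ha a ha, hL.2 a ha⟩ (hL.1 a ha _ a2)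
  obtain ⟨T, hT, a5⟩ := (hH a ha _ a2).2 _ a4
  have e3 : Φ.ε = 1 := by simpa [hκ] using Φ.kε
  simpa using mul_mem (inv_mem hT) (ih (L ⊓ Φ.perp (F ∙ y)) (lt_of_le_of_ne inf_le_left
    fun e => a1 (e.ge ha)) (fun a ha b hb => hH a ha.1 b hb.1)
    ⟨fun a ha b hb => hL.1 a ha.1 b hb.1, fun a ha => hL.2 a ha.1⟩
    (mul_mem (mem_O_of_eich a4 a5) hz) fun x hx => by
      rw [hΦ.perp_inf, hΦ.perp_perp] at hx
      obtain ⟨x, hx', _, hb, rfl⟩ := Submodule.mem_sup.1 hx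
      obtain ⟨c, rfl⟩ := Submodule.mem_span_singleton.1 hb
      have b1 : T (z y) = y := by
        rw [← sub_add_cancel (z y) y, a5, eichler_apply, map_add, map_add, a3, hy, hL.2 _ a2,
          hL.1 _ a2 _ a2, hL.1 _ ha _ a2, e3]
        simp
      have b2 : T x = x := by rw [a5, eichler_apply, hx' _ a2, hx' _ ha]; simp
      simp [h1 x hx', b1, b2])

theorem aIn_of_mod (hL : Φ.TotSing L) (hH : H ≤ Φ.O) (h0 : ∃ e ∈ Φ.perp L, ∃ e' ∈ Φ.perp L,
    Φ.B e e' = 1) (h1 : ∀ a ∈ L, ∀ e ∈ Φ.perp L, ∃ r ∈ H, ∀ x ∈ Φ.perp L, r x = x + Φ.B e x • a)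
    {a e : V} (ha : a ∈ L) (he : e ∈ Φ.perp L) : Φ.AIn H a e := by
  obtain ⟨f, hf, f', hf', h2⟩ := h0
  have a0 : ∀ a ∈ L, ∀ a' ∈ L, Φ.AIn H a a' := fun a ha a' ha' => by
    obtain ⟨r, hr, h3⟩ := h1 a' ha' f hf
    obtain ⟨r', hr', h4⟩ := h1 a ha f' hf'
    simpa [h2] using eIn_of_mod hΦ hκ hL hH hr hr' ha' ha hf hf' h3 h4
  obtain ⟨r, hr, h3⟩ := h1 a ha e he
  have a1 := eichData_quad hκ ⟨hL.1 a ha a ha, hL.2 a ha⟩ (he a ha)
  obtain ⟨T, hT⟩ := exists_eich hΦ a1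
  refine aIn_quad hκ (he a ha) ⟨T, ?_, hT⟩
  simpa using mul_mem hr (mem_of_fix_perp hΦ hκ a0 hL (mul_mem (inv_mem (hH hr))
    (mem_O_of_eich a1 hT)) fun x hx => r.symm_apply_eq.2 (by
      simp [hT, eichler_apply, h3 x hx, hx a ha]))

end H23
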