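import Cfsg.Agent.H23.Sx3

/-! Maximality of the orthogonal group over an extension field of prime degree. -/

set_option autoImplicit false

namespace H23

open Module H22 Cfsg Cfsg.Geo Form Tn

variable {F E V : Type*} [Field F] [Field E] [Algebra F E] [FiniteDimensional F E] [Finite E]
  [AddCommGroup V] [Module F V] [Module E V] [IsScalarTower F E V]

omit [FiniteDimensional F E] in
theorem exists_gal (l : E ≃ₗ[F] E) (h : ∀ d, ∃ d', ∀ x, l (d * x) = d' * l x) :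
    ∃ s : Gal(E/F), ∀ y, l y = l 1 * s y := by
  obtain ⟨α, hα⟩ := exists_semi (E := E) (g := l) h
  have h0 : l 1 ≠ 0 := by simp
  refine ⟨AlgEquiv.ofBijective ⟨α, fun c => mul_right_cancel₀ h0 ?_⟩
    (Finite.injective_iff_bijective.1 α.injective), fun y => by simpa [mul_comm] using hα y 1⟩
  exact (hα (algebraMap F E c) 1).symm.trans (by rw [algebraMap_smul, map_smul, Algebra.smul_def])

omit [FiniteDimensional F E] in
theorem pd_of_prime (h : (finrank F E).Prime) : Sf.PD (fr F E) := by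
  have := Fintype.ofFinite E
  have : Finite F := Finite.of_injective _ (algebraMap F E).injective
  have := Fintype.ofFinite F
  refine Sf.pd_of_card h ?_
  rw [Module.card_eq_pow_finrank (K := F), ← Nat.card_eq_fintype_card]
  exact congrArg (· ^ _) (Nat.card_congr (algebraMap F E).rangeRestrictFieldEquiv.toEquiv)

/-- A quadratic form over an extension of prime degree, in odd characteristic. -/
structure Ox (Φ : Form (RingHom.id F) V) (Ψ : Form (RingHom.id E) V) : Prop extends Lift Φ Ψ where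
  kap : Φ.κ = 1
  kap' : Ψ.κ = 1
  two : (2 : F) ≠ 0
  pr : (finrank F E).Prime
  fd : FiniteDimensional E V
  dim : 4 ≤ finrank E V

variable (F) in
/-- Elements of the unipotent radical of the stabiliser of a line, modulo its centre. -/
def RIn (Ψ : Form (RingHom.id E) V) (H : Subgroup (V ≃ₗ[F] V)) (u : V) (φ : V →ₗ[F] E) : Prop :=
  (∀ a : E, φ (a • u) = 0) ∧ ∃ r ∈ H, ∀ x, Ψ.B u x = 0 → r x = x + φ x • u

namespace Ox

variable {Φ : Form (RingHom.id F) V} {Ψ : Form (RingHom.id E) V} (h : Ox Φ Ψ)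
  {H : Subgroup (V ≃ₗ[F] V)} {u v w x e : V} {φ φ' : V →ₗ[F] E}
include h

omit [FiniteDimensional F E] [Finite E] [IsScalarTower F E V] in
theorem ε' : Ψ.ε = 1 := by simpa [h.kap'] using Ψ.kε

omit [FiniteDimensional F E] [Finite E] [IsScalarTower F E V] in
theorem two' : (2 : E) ≠ 0 := by
  rw [← map_ofNat (algebraMap F E)]; exact (map_ne_zero _).2 h.two

omit [FiniteDimensional F E] [Finite E] [IsScalarTower F E V] in
theorem comm (u v : V) : Ψ.B u v = Ψ.B v u := by simp [Ψ.symm v u, h.ε']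

omit [FiniteDimensional F E] [Finite E] [IsScalarTower F E V] in
theorem Q_eq (v : V) : Φ.Q v = Algebra.trace F E (Ψ.Q v) := mul_left_cancel₀ h.two (by
  rw [← B_self_quad h.kap, h.B_eq, B_self_quad h.kap', two_mul, two_mul, map_add])

omit [FiniteDimensional F E] [Finite E] [IsScalarTower F E V] in
theorem sing (hu : Sing Ψ u) : Sing Φ u := (sing_quad h.kap).2 (by simp [h.Q_eq, hu.2])

omit [FiniteDimensional F E] [Finite E] in
theorem mem_O {k : V ≃ₗ[E] V} (hk : k ∈ Ψ.O) : k.restrictScalars F ∈ Φ.O :=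
  ⟨fun x y => by simp [h.B_eq, hk.1], fun x => by simp [h.Q_eq, hk.2]⟩

omit [Finite E] in
theorem fdF : FiniteDimensional F V := have := h.fd; Module.Finite.trans E V

omit [FiniteDimensional F E] [IsScalarTower F E V] in
theorem iso3 : Ψ.Iso3 := have := h.fd; iso3_quad h.kap'

omit [FiniteDimensional F E] [Finite E] [IsScalarTower F E V] in
theorem nonsing {f : V} (hf : Hyp Ψ u f) : ∃ e, Ψ.B u e = 0 ∧ Ψ.B f e = 0 ∧ Ψ.Q e ≠ 0 := by
  have := h.fd
  have := h.dim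
  obtain ⟨e, a1, a2⟩ := exists_Q_ne_zero_of_finrank h.kap' h.nondeg (Z := Submodule.span E {u, f})
    (by rw [hf.disjoint.eq_bot, hf.finrank_span]; simp; omega)
  exact ⟨e, (mem_perp_pair.1 a1).1, (mem_perp_pair.1 a1).2, a2⟩

omit [FiniteDimensional F E] [Finite E] [IsScalarTower F E V] in
theorem trans (hu : Sing Ψ u) (hw : Sing Ψ w) (hu0 : u ≠ 0) (hw0 : w ≠ 0) :
    ∃ m ∈ Ψ.E, ∃ c : E, m u = c • w := by
  have := h.fd
  obtain ⟨x, hx, a1, a2⟩ : ∃ x, Sing Ψ x ∧ Ψ.B u x ≠ 0 ∧ Ψ.B w x ≠ 0 := by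
    by_cases h0 : Ψ.B u w = 0
    · exact exists_sing_not_perp h.nondeg hu hu0 hw0 h0
    obtain ⟨e, a1, a2, a3⟩ := h.nonsing (hyp_smul hu hw h0)
    have a4 : Ψ.B w e = 0 := by simpa [B_smul_left, h0] using a2
    refine ⟨w + Ψ.B u w • e - (Ψ.B u w * Ψ.Q e) • u, (sing_quad h.kap').2 ?_, by
      simp [a1, hu.1, h0], by simp [a4, hw.1, h.comm w u, h0, a3]⟩
    simp [Ψ.Q_sub, Ψ.Q_add, Ψ.Q_smul, h.kap', hw.2, hu.2, a4, h.comm w u, h.comm e u, a1]
    ring
  rw [h.comm] at a1 a2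
  obtain ⟨e, -, s, hs, a3⟩ := exists_eich_map' h.nondeg (hyp_smul hx hu a1) (hyp_smul hx hw a2)
  obtain ⟨m, hm⟩ := exists_eich h.nondeg hs
  rw [← hm, map_smul] at a3
  exact ⟨m, Form.mem_E hs hm, Ψ.B x u * (Ψ.B x w)⁻¹, by rw [mul_smul, ← a3, smul_inv_smul₀ a1]⟩

omit [FiniteDimensional F E] [Finite E] [IsScalarTower F E V] in
theorem exists_dil (hu : Sing Ψ u) (hu0 : u ≠ 0) {c : E} (hc : c ≠ 0) : ∃ d ∈ Ψ.O, d u = c • u ∧
    ∀ x, Ψ.B u x = 0 → ∃ a : E, d x = x + a • u := by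
  have := h.fd
  obtain ⟨f, hf⟩ := exists_hyp h.nondeg hu hu0
  let d : V →ₗ[E] V := LinearMap.id + (c - 1) • (Ψ.B f).smulRight u + (c⁻¹ - 1) • (Ψ.B u).smulRight f
  have h1 : ∀ x y, Ψ.B (d x) (d y) = Ψ.B x y := fun x y => by
    simp [d, hu.1, hf.right.1, hf.one, h.comm f u, h.comm x u, h.comm x f]
    field_simp; ring
  refine ⟨equivOfIsometry h.nondeg d h1, ⟨h1, fun x => mul_left_cancel₀ h.two' ?_⟩, ?_,
    fun x hx => ⟨(c - 1) * Ψ.B f x, ?_⟩⟩
  · rw [← B_self_quad h.kap', ← B_self_quad h.kap']; exact h1 x x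
  · change d u = _
    simp [d, hu.1, h.comm f u, hf.one, sub_smul]
  · change d x = _
    simp [d, hx, mul_smul]

omit [FiniteDimensional F E] [Finite E] [IsScalarTower F E V] h in
theorem r_add (hu : Sing Ψ u) (h1 : RIn F Ψ H u φ) (h2 : RIn F Ψ H u φ') :
    RIn F Ψ H u (φ + φ') := by
  obtain ⟨a0, z, a1, a2⟩ := h1
  obtain ⟨b0, z', a3, a4⟩ := h2
  refine ⟨by simp [a0, b0], z * z', mul_mem a1 a3, fun x hx => ?_⟩
  simp [a4 x hx, a2 x hx, a2 (φ' x • u) (by simp [hu.1]), a0, add_smul]; abel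

omit [FiniteDimensional F E] [Finite E] [IsScalarTower F E V] h in
theorem r_neg (hu : Sing Ψ u) (h1 : RIn F Ψ H u φ) : RIn F Ψ H u (-φ) := by
  obtain ⟨a0, z, a1, a2⟩ := h1
  refine ⟨by simp [a0], z⁻¹, inv_mem a1, fun x hx => z.symm_apply_eq.2 ?_⟩
  simp [a2 x hx, a2 (φ x • u) (by simp [hu.1]), a0]

omit [FiniteDimensional F E] [IsScalarTower F E V] in
theorem r_conj (hH : H ≤ Φ.O) {m : V ≃ₗ[F] V} (hm : m ∈ H) {l : E ≃ₗ[F] E}
    (h1 : ∀ y : E, m (y • u) = l y • u) (h2 : RIn F Ψ H u φ) :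
    RIn F Ψ H u (l.toLinearMap ∘ₗ φ ∘ₗ m.symm.toLinearMap) := by
  obtain ⟨a0, z, a1, a2⟩ := h2
  refine ⟨fun a => ?_, m * z * m⁻¹, mul_mem (mul_mem hm a1) (inv_mem hm), fun x hx => ?_⟩
  · obtain ⟨a, rfl⟩ := l.surjective a
    simp [← h1, a0]
  · have : Ψ.B u (m.symm x) = 0 := h.B_eq_zero.2 fun k => by
      rw [← RingHom.id_apply k, ← h.adj, ← (hH hm).1, h1, h.B_smul]; simp [hx]
    simp [a2 _ this, h1]

variable (hM : ∀ k ∈ Ψ.O, (k * k).restrictScalars F ∈ H)
include hM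

omit [FiniteDimensional F E] [Finite E] in
theorem mem_H {k : V ≃ₗ[E] V} (hk : k ∈ Ψ.E) : k.restrictScalars F ∈ H := by
  have := h.fd
  have h2 := h.two'
  let K : Subgroup (V ≃ₗ[E] V) := ⟨⟨⟨{k | k.restrictScalars F ∈ H}, fun ha hb => H.mul_mem ha hb⟩,
    one_mem H⟩, fun ha => H.inv_mem ha⟩
  refine (ED_le' (fun u _ e _ s hs g hg => ?_) : Ψ.E ≤ K) hk
  change _ ∈ H
  have a1 := eichData_quad h.kap' hs.sing (e := (2⁻¹ : E) • e) (by simp [hs.perp])
  obtain ⟨T, hT⟩ := exists_eich h.nondeg a1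
  convert hM T (mem_O_of_eich a1 hT)
  refine LinearEquiv.ext fun v => ?_
  rw [LinearEquiv.mul_apply, hT, hT, eichler_mul hs.sing.1 a1.perp a1.perp, hg, B_self_quad h.kap',
    Ψ.Q_smul, show s = Ψ.Q e by simpa [h.kap'] using hs.trQ, ← add_smul]
  congr 2
  · rw [← two_mul, mul_inv_cancel₀ h2, one_smul]
  · field_simp; ring

omit [FiniteDimensional F E] [Finite E] in
theorem exists_T (hu : Sing Ψ u) (he : Ψ.B u e = 0) : ∃ T ∈ H, ∀ v,
    T v = v + (Ψ.B e v - Ψ.Q e * Ψ.B u v) • u - Ψ.B u v • e := by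
  have := h.fd
  have a1 := eichData_quad h.kap' hu he
  obtain ⟨T, hT⟩ := exists_eich h.nondeg a1
  exact ⟨_, h.mem_H hM (Form.mem_E a1 hT), fun v => by
    simp [hT, eichler_apply, h.ε', sub_eq_add_neg]⟩

omit [FiniteDimensional F E] in
theorem r_sq (hH : H ≤ Φ.O) (hu : Sing Ψ u) (hu0 : u ≠ 0) (h1 : RIn F Ψ H u φ) (c : E) :
    RIn F Ψ H u ((c * c) • φ) := by
  by_cases hc : c = 0
  · exact ⟨by simp [hc], 1, one_mem _, by simp [hc]⟩
  obtain ⟨d, a1, a2, a3⟩ := h.exists_dil hu hu0 hc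
  obtain ⟨-, r, a4, a5⟩ := h.r_conj hH (hM d a1) (l := (LinearEquiv.smulOfNeZero E E (c * c)
    (mul_ne_zero hc hc)).restrictScalars F) (fun y => by simp [a2, smul_smul]; ring_nf) h1
  refine ⟨by simp [h1.1], r, a4, fun x hx => ?_⟩
  obtain ⟨x, rfl⟩ := (d * d).surjective x
  have a6 : Ψ.B u x = 0 := by
    rw [← (mul_mem a1 a1).1 u x, show (d * d) u = (c * c) • u by simp [a2, smul_smul], B_smul_left,
      hx, mul_zero]
  obtain ⟨a, ha⟩ := a3 x a6
  have a7 : φ ((d * d) x) = φ x := by simp [ha, a2, h1.1, smul_smul]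
  rw [a5 _ hx, LinearMap.smul_apply, a7]
  simp [show (d * d).symm (d (d x)) = x from (d * d).symm_apply_apply x]

theorem win (hH : H ≤ Φ.O) (hu : Sing Ψ u) (hu0 : u ≠ 0)
    (h1 : ∀ γ : End F E, ∀ e, Ψ.B u e = 0 → RIn F Ψ H u (γ ∘ₗ (Ψ.B e).restrictScalars F)) :
    Φ.E ≤ H := by
  have := h.fd
  have := h.fdF
  obtain ⟨δ, hδ⟩ := Algebra.trace_surjective F E 1
  have a0 : ∀ {u f}, Hyp Ψ u f → ∃ e f', Ψ.B u e = 0 ∧ Ψ.B f e = 0 ∧ Ψ.B u f' = 0 ∧ Ψ.B f f' = 0 ∧
      Φ.B f' e = 1 := fun hf => by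
    obtain ⟨e, a1, a2, a3⟩ := h.nonsing hf
    exact ⟨e, (δ / (2 * Ψ.Q e)) • e, a1, a2, by simp [a1], by simp [a2], by
      rw [h.B_smul, B_self_quad h.kap', mul_div_cancel₀ _ (mul_ne_zero h.two' a3), hδ]⟩
  obtain ⟨f, hf⟩ := exists_hyp h.nondeg hu hu0
  have a1 : ∀ x, x ∈ Φ.perp ((E ∙ u).restrictScalars F) ↔ Ψ.B u x = 0 := fun x =>
    ⟨fun e => tr_ext (F := F) fun c => by
      simpa [h.B_smul] using e (c • u) (Submodule.mem_span_singleton.2 ⟨c, rfl⟩), fun e l hl => by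
      obtain ⟨c, rfl⟩ := Submodule.mem_span_singleton.1 hl
      simp [h.B_smul, e]⟩
  have a2 : ∀ (a : E) e, Ψ.B u e = 0 → Φ.AIn H (a • u) e := fun a e he => by
    obtain ⟨e₁, f₁, b1, -, b2, -, b3⟩ := a0 hf
    refine aIn_of_mod h.nd h.kap (L := (E ∙ u).restrictScalars F) ⟨fun x hx y hy => ?_,
      fun x hx => ?_⟩ hH ⟨f₁, (a1 _).2 b2, e₁, (a1 _).2 b1, b3⟩ (fun x hx e he => ?_)
      (Submodule.mem_span_singleton.2 ⟨a, rfl⟩) ((a1 _).2 he)
    · obtain ⟨c, rfl⟩ := Submodule.mem_span_singleton.1 hy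
      exact (a1 _).2 (by simp [hu.1]) x hx
    · obtain ⟨c, rfl⟩ := Submodule.mem_span_singleton.1 hx
      exact (h.sing (hu.smul c)).2
    · obtain ⟨c, rfl⟩ := Submodule.mem_span_singleton.1 hx
      obtain ⟨-, r, b4, b5⟩ := h1 ((Algebra.trace F E).smulRight c) e ((a1 _).1 he)
      exact ⟨r, b4, fun x hx => by simp [b5 x ((a1 _).1 hx), h.B_eq]⟩
  have a3 : ∀ w e, Sing Ψ w → Ψ.B w e = 0 → Φ.AIn H w e := fun w e hw he => by
    by_cases h0 : w = 0
    · exact ⟨by simp [h0], fun s => h0 ▸ qIn_zero H e s⟩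
    obtain ⟨m, b1, c, b2⟩ := h.trans hu hw hu0 h0
    have b3 : c ≠ 0 := by rintro rfl; simp [hu0] at b2
    simpa [b2, b3] using (a2 c⁻¹ (m⁻¹ e) (by rw [← B_O_left (E_le_O b1), b2]; simp [he])).conj
      (h.mem_H hM b1) (h.mem_O (E_le_O b1))
  have a4 : ∀ w, Sing Ψ w → w ≠ 0 → Φ.QIn H w := fun u hu hu0 => qIn_iff.2 fun e he => by
    obtain ⟨f, hf⟩ := exists_hyp h.nondeg hu hu0
    obtain ⟨e₁, f₁, b1, b2, b3, b4, b5⟩ := a0 hf
    have b6 := eichData_quad h.kap (h.sing (hf.right.smul (Ψ.B u e))) (e := f₁) (by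
      simp [h.B_smul, b4])
    obtain ⟨T, hT, b7⟩ := (a3 _ f₁ (hf.right.smul _) (by simp [b4])).2 _ b6
    have b8 := (a3 u e₁ hu b1).conj hT (hH hT)
    have b9 : Φ.B (Ψ.B u e • f) u = 0 := by rw [h.B_smul, h.comm, hf.one, one_mul, ← h.B_eq, he]
    rw [b7, b7, eichler_apply, eichler_apply, b9, b5, h.B_eq f₁, h.comm f₁, b3, h.B_smul, b2] at b8
    simpa using (a3 u (e - Ψ.B u e • f) hu (by simp [hf.one])).add (h.sing hu)
      ((by simpa using b8 : Φ.AIn H u (e₁ + Ψ.B u e • f)).sub (h.sing hu) (a3 u e₁ hu b1))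
  exact E_le_of_qIn h.nd (h.sing hu) (h.sing (hf.right.smul δ)) (by simp [h.B_eq, hf.one, hδ])
    (a4 u hu hu0) (a4 _ (hf.right.smul δ) (smul_ne_zero (by rintro rfl; simp at hδ) hf.right_ne))

variable (hH : H ≤ Φ.O) (hN : ¬ Φ.E ≤ H)
include hH hN

theorem mono (hu : Sing Ψ u) (hu0 : u ≠ 0) {m : V ≃ₗ[F] V} (hm : m ∈ H)
    (h1 : ∀ y : E, m (y • u) ∈ E ∙ u) :
    ∃ (c : E) (s : Gal(E/F)), ∀ y, m (y • u) = (c * s y) • u := by
  obtain ⟨l₀, hl⟩ := exists_coord hu0 h1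
  let l := LinearEquiv.ofInjectiveEndo l₀ ((injective_iff_map_eq_zero _).2 fun y hy => by
    simpa [hy, hu0] using hl y)
  replace hl : ∀ y, m (y • u) = l y • u := hl
  let Γ : Subring (End F E) :=
    { carrier := {γ | ∀ φ, RIn F Ψ H u φ → RIn F Ψ H u (γ ∘ₗ φ)}
      mul_mem' := fun ha hb φ h => ha _ (hb φ h)
      one_mem' := fun _ h => h
      add_mem' := fun ha hb φ h => by
        rw [LinearMap.add_comp]; exact r_add hu (ha φ h) (hb φ h)
      zero_mem' := fun _ _ => ⟨by simp, 1, one_mem _, by simp⟩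
      neg_mem' := fun ha φ h => by rw [LinearMap.neg_comp]; exact r_neg hu (ha φ h) }
  have a1 : ∀ c : E, (LinearMap.lsmul E E c).restrictScalars F ∈ Γ := fun c φ h2 => by
    convert r_add hu (h.r_sq hM hH hu hu0 h2 ((c + 1) / 2)) (r_neg hu
      (h.r_sq hM hH hu hu0 h2 ((c - 1) / 2))) using 1
    have := h.two'
    ext x; simp; field_simp; ring
  obtain ⟨s, hs⟩ := exists_gal l fun d => by_contra fun a2 => hN (h.win hM hH hu hu0 fun γ e he => by
    refine hr_field (pd_of_prime h.pr) Γ a1 (fun n hn z hz => ?_) ⟨l.toLinearMap ∘ₗ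
      (LinearMap.lsmul E E d).restrictScalars F ∘ₗ l.symm.toLinearMap, fun φ h2 => ?_, fun c => ?_⟩
      γ _ ⟨by simp [h.comm e, he], ?_⟩
    · have : n = 0 := LinearMap.ext_ring (by
        have := n.map_smul (n 1) 1
        rw [smul_eq_mul, mul_one, hn] at this
        simpa only [smul_eq_mul, mul_self_eq_zero, LinearMap.zero_apply] using this.symm)
      simpa [this] using hz
    · convert h.r_conj hH hm hl (a1 d _ (h.r_conj hH (inv_mem hm) (l := l.symm)
        (fun y => m.symm_apply_eq.2 (by simp [hl])) h2)) using 1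
      ext x; simp; exact .inl (congrArg φ (m.apply_symm_apply x).symm)
    · by_contra! a3
      exact a2 ⟨c, fun x => by simpa using a3 (l x)⟩
    · obtain ⟨T, a3, a4⟩ := h.exists_T hM hu he
      exact ⟨T, a3, fun x hx => by simp [a4, hx]⟩)
  exact ⟨l 1, s, fun y => by rw [hl, hs]⟩

theorem line (hu : Sing Ψ u) (hu0 : u ≠ 0) (X : Submodule F E) : X ≠ ⊥ → ∀ g ∈ H,
    (∀ x ∈ X, g (x • u) ∈ E ∙ u) → ∀ x : E, g (x • u) ∈ E ∙ u := by
  induction X using WellFoundedGT.induction with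
  | ind X ih =>
  intro hX
  have := h.fd
  have := h.dim
  obtain ⟨x₀, a1, a2⟩ := X.exists_mem_ne_zero_of_ne_bot hX
  have caseI : ∀ g ∈ H, (∀ x ∈ X, g (x • u) ∈ E ∙ u) → ∀ x₁ : E, Ψ.B u (g (x₁ • u)) = 0 →
      g (x₁ • u) ∈ E ∙ u := fun g hg h1 x₁ h2 => by_contra fun h3 => by
    obtain ⟨b, hb⟩ := Submodule.mem_span_singleton.1 (h1 x₀ a1)
    have key : ∀ e, Ψ.B u e = 0 → Ψ.B e (g (x₁ • u)) = b → ∃ (c : E) (s : Gal(E/F)),
        c * s x₀ = x₀ ∧ c * s x₁ = x₁ + x₀ ∧ ∀ y : E, g ((c * s y) • u) = g (y • u) +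
          (Ψ.B e (g (y • u)) - Ψ.Q e * Ψ.B u (g (y • u))) • u - Ψ.B u (g (y • u)) • e := by
      intro e he hy
      obtain ⟨T, hT, b0⟩ := h.exists_T hM hu he
      have b1 : g⁻¹ * T * g ∈ H := mul_mem (mul_mem (inv_mem hg) hT) hg
      have b3 : ∀ x ∈ X, (g⁻¹ * T * g) (x • u) = x • u := fun x hx => by
        obtain ⟨c, hc⟩ := Submodule.mem_span_singleton.1 (h1 x hx)
        exact g.symm_apply_eq.2 (by simp [b0, ← hc, hu.1, h.comm e, he])
      have b4 : (g⁻¹ * T * g) (x₁ • u) = x₁ • u + x₀ • u :=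
        g.symm_apply_eq.2 (by simp [b0, h2, hy, hb])
      obtain ⟨c, s, b5⟩ := h.mono hM hH hN hu hu0 b1 (ih (X ⊔ F ∙ x₁)
        (SetLike.lt_iff_le_and_exists.2 ⟨le_sup_left, x₁, Submodule.mem_sup_right
          (Submodule.mem_span_singleton_self _), fun e => h3 (h1 _ e)⟩)
        (fun h => hX (eq_bot_iff.2 (h ▸ le_sup_left))) _ b1 fun x hx => by
          obtain ⟨x, hx', _, hz, rfl⟩ := Submodule.mem_sup.1 hx
          obtain ⟨e, rfl⟩ := Submodule.mem_span_singleton.1 hz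
          rw [add_smul, smul_assoc, map_add, map_smul _ e, b3 x hx', b4, ← add_smul, ← smul_assoc,
            ← add_smul]
          exact Submodule.smul_mem _ _ (Submodule.mem_span_singleton_self u))
      exact ⟨c, s, smul_left_injective E hu0 ((b5 _).symm.trans (b3 x₀ a1)),
        smul_left_injective E hu0 ((b5 _).symm.trans (b4.trans (add_smul ..).symm)),
        fun y => by rw [← b5, ← b0]; simp⟩
    obtain ⟨e, h4, h5⟩ := h.nondeg.exists_perp_eq_one h3
    have h6 := h4 u (Submodule.mem_span_singleton_self u)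
    obtain ⟨c, s, b1, b2, b3⟩ := key (b • e) (by simp [h.comm u, h6]) (by simp [h5])
    have hc : c ≠ 0 := by rintro rfl; simp [a2.symm] at b1
    have b4 : s ≠ 1 := by
      rintro rfl
      simp [a2] at b1
      simp [b1, a2] at b2
    by_cases h7 : ∀ y : E, Ψ.B u (g (y • u)) = 0
    · refine b4 (gal_quad (a := c * s c) (b := c) (fun _ _ => h.two') hc fun y => ?_)
      have e1 := b3 (c * s y)
      rw [h7, b3 y, h7] at e1
      have e2 := b3 y
      simp [h7, h6] at e1 e2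
      refine smul_left_injective E hu0 (g.injective ?_)
      simp only [add_smul, sub_smul, two_mul, map_add, map_sub, mul_assoc, e1, e2]
      simp
    obtain ⟨y, hy⟩ := not_forall.1 h7
    obtain ⟨e₁, -, c1, c2⟩ := h.nondeg.exists_perp_notMem (T := ⊤) (S := E ∙ u) [u, g (x₁ • u)]
      (by simp [finrank_span_singleton hu0]; omega)
    obtain ⟨c', s', c3, c4, c5⟩ := key (b • e + e₁) (by simp [h.comm u e, h6, c2])
      (by simp [h5, h.comm e₁, c2])
    have c6 : ∀ {c : E} {s : Gal(E/F)}, c * s x₀ = x₀ → c * s x₁ = x₁ + x₀ →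
        s (x₁ / x₀) = x₁ / x₀ + 1 := fun {c s} e1 e2 => by
        rw [map_div₀, div_add_one a2, ← e2, div_eq_div_iff (by simpa) a2]
        linear_combination -(s x₁) * e1
    obtain rfl : s' = s := by
      by_contra c7
      have := Fact.mk h.pr
      obtain ⟨n, hn⟩ := mem_powers_of_prime_card (card_gal (F := F) (E := E))
        (inv_mul_eq_one.not.2 c7) (g' := s)
      have c8 : (s'⁻¹ * s) (x₁ / x₀) = x₁ / x₀ := s'.symm_apply_eq.2 ((c6 b1 b2).trans (c6 c3 c4).symm)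
      have c9 := Function.iterate_fixed c8 n
      rw [← AlgEquiv.coe_pow, show _ ^ n = s from hn, c6 b1 b2] at c9
      simp at c9
    obtain rfl : c' = c := mul_right_cancel₀ (by simpa) (c3.trans b1.symm)
    obtain ⟨A, A', c7⟩ : ∃ A A' : E, g (y • u) + A • u - Ψ.B u (g (y • u)) • b • e =
      g (y • u) + A' • u - Ψ.B u (g (y • u)) • (b • e + e₁) := ⟨_, _, (b3 y).symm.trans (c5 y)⟩
    exact c1 ((Submodule.smul_mem_iff _ hy).1 (Submodule.mem_span_singleton.2 ⟨A' - A, by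
      linear_combination (norm := module) -c7⟩))
  intro g hg h1 x₁
  by_contra h3
  have h2 := mt (caseI g hg h1 x₁) h3
  obtain ⟨b, hb⟩ := Submodule.mem_span_singleton.1 (h1 x₀ a1)
  obtain ⟨f, hf⟩ := exists_hyp h.nondeg hu hu0
  obtain ⟨δ, hδ⟩ := Algebra.trace_surjective F E 1
  set y := g (x₁ • u)
  let G : V →ₗ[F] E ⧸ F ∙ (δ / x₀) :=
    Submodule.mkQ _ ∘ₗ (Ψ.B u).restrictScalars F ∘ₗ g.symm.toLinearMap
  let W := Ψ.perp (Submodule.span E {u, f})
  let P : E →ₗ[F] V := (LinearMap.toSpanSingleton E V u).restrictScalars F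
  have : FiniteDimensional F W := Module.Finite.trans E W
  have : Finite F := Finite.of_injective _ (algebraMap F E).injective
  obtain ⟨e, b1, b2⟩ := exists_quad_root (V := W)
    (G ∘ₗ (P ∘ₗ (Ψ.B y).restrictScalars F - (LinearMap.lsmul E V (Ψ.B u y)).restrictScalars F) ∘ₗ
      W.subtype.restrictScalars F)
    (LinearMap.mk₂ F (fun e e' : W => G (P (-(2⁻¹ * Ψ.B e e' * Ψ.B u y))))
      (by simp [mul_add, add_mul, add_comm]) (fun c e e' => by
        rw [← map_smul, ← map_smul, ← algebraMap_smul E c e]; simp [Algebra.smul_def]; ring_nf)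
      (by simp [mul_add, add_mul, add_comm]) (fun c e e' => by
        rw [← map_smul, ← map_smul, ← algebraMap_smul E c e']; simp [Algebra.smul_def]; ring_nf))
    (by
      have e1 := Submodule.finrank_quotient_add_finrank (F ∙ (δ / x₀))
      rw [finrank_span_singleton (div_ne_zero (by rintro rfl; simp at hδ) a2)] at e1
      have e2 := hf.finrank_perp h.nondeg
      rw [← finrank_mul_finrank F E W]
      nlinarith)
  obtain ⟨e, he⟩ := e
  obtain ⟨b3, b4⟩ := mem_perp_pair.1 he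
  obtain ⟨T, hT, b0⟩ := h.exists_T hM hu b3
  have b5 : Ψ.B u (T y - y) = 0 := by simp [b0, hu.1, b3]
  have b6 : Ψ.B u (g.symm (T y - y)) = 0 := by
    obtain ⟨c, hc⟩ := Submodule.mem_span_singleton.1 ((Submodule.Quotient.mk_eq_zero _).1
      (show G (T y - y) = 0 by
        rw [← b2]
        simp only [LinearMap.comp_apply, LinearMap.mk₂_apply, ← map_add]
        congr 1
        simp [b0, P, B_self_quad h.kap', h.comm y e, h.two', sub_smul]
        abel))
    replace hc : c • (δ / x₀) = Ψ.B u (g.symm (T y - y)) := hc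
    have := (hH hg).1 (x₀ • u) (g.symm (T y - y))
    rw [← hb, g.apply_symm_apply, h.B_smul, h.B_smul, b5, ← hc] at this
    simp [a2, hδ] at this
    rw [← hc, ← this, zero_smul]
  obtain ⟨c, hc⟩ := Submodule.mem_span_singleton.1 (caseI _ (mul_mem (mul_mem (inv_mem hg) hT) hg)
    (fun x hx => by
      obtain ⟨c, hc⟩ := Submodule.mem_span_singleton.1 (h1 x hx)
      exact Submodule.mem_span_singleton.2 ⟨x, (g.symm_apply_eq.2 (by
        simp [b0, ← hc, hu.1, h.comm e, b3])).symm⟩) x₁ (by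
      simpa [y, hu.1] using b6))
  have b7 : g ((c - x₁) • u) = T y - y := by simp [sub_smul, hc, y]
  obtain ⟨d, hd⟩ := Submodule.mem_span_singleton.1 (caseI g hg h1 (c - x₁) (by rw [b7, b5]))
  rw [b7, b0] at hd
  have b8 : Ψ.B u y • e = (Ψ.B e y - Ψ.Q e * Ψ.B u y - d) • u := by
    linear_combination (norm := module) hd
  have b9 := congrArg (Ψ.B f) b8
  rw [B_smul_right, B_smul_right, b4, h.comm f, hf.one, mul_zero, mul_one] at b9
  exact b1 (Subtype.ext (by simpa [← b9, h2] using b8))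

theorem sing_map (hu : Sing Ψ u) (hu0 : u ≠ 0) {g : V ≃ₗ[F] V} (hg : g ∈ H) : Sing Ψ (g u) := by
  have := h.fd
  have := h.dim
  by_contra h1
  have h2 : Ψ.B (g u) (g u) ≠ 0 := fun e => h1 ((sing_quad h.kap').2 (by
    simpa [B_self_quad h.kap', h.two'] using e))
  have h0 : g u ≠ 0 := by simpa
  have a1 : ∀ w, Sing Ψ w → Ψ.B (g u) w = 0 → ∀ a : E, Ψ.B w (g (a • u)) = 0 := by
    intro w hw hw' a
    by_cases h3 : w = 0
    · simp [h3]
    obtain ⟨e, -, c1, c2⟩ := h.nondeg.exists_perp_notMem (T := ⊤) (S := E ∙ w) [w, g u]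
      (by simp [finrank_span_singleton h3]; omega)
    have a2 : ∀ c : E, ∃ s : Gal(E/F), ∃ d : E, g (s a • u) = g (a • u) + d • w -
        Ψ.B w (g (a • u)) • c • e := fun c => by
      obtain ⟨T, hT, b0⟩ := h.exists_T hM hw (e := c • e) (by simp [c2])
      have b1 := mul_mem (mul_mem (inv_mem hg) hT) hg
      have b2 : (g⁻¹ * T * g) u = u := g.symm_apply_eq.2 (by
        simp [b0, h.comm w, hw', h.comm e, c2])
      obtain ⟨d, s, b3⟩ := h.mono hM hH hN hu hu0 b1 (h.line hM hH hN hu hu0 (F ∙ 1) (by simp) _ b1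
        fun x hx => by
          obtain ⟨c, rfl⟩ := Submodule.mem_span_singleton.1 hx
          rw [smul_assoc, one_smul, map_smul, b2]
          exact Submodule.smul_of_tower_mem _ _ (Submodule.mem_span_singleton_self u))
      obtain rfl : d = 1 := smul_left_injective E hu0 (by simpa [b2] using (b3 1).symm)
      exact ⟨s, _, by rw [← b0, ← one_mul (s a), ← b3]; simp⟩
    choose s d hs using a2
    have := Fintype.ofFinite E
    have : Finite F := Finite.of_injective _ (algebraMap F E).injective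
    have := Fintype.ofFinite F
    obtain ⟨c, c', c3, c4⟩ := Fintype.exists_ne_map_eq_of_card_lt s (by
      rw [← Nat.card_eq_fintype_card, card_gal, Module.card_eq_pow_finrank (K := F)]
      exact Nat.lt_pow_self Fintype.one_lt_card)
    by_contra h4
    refine c1 ((Submodule.smul_mem_iff _ (mul_ne_zero h4 (sub_ne_zero.2 c3))).1
      (Submodule.mem_span_singleton.2 ⟨d c - d c', ?_⟩))
    linear_combination (norm := module) (hs c).symm.trans (c4 ▸ hs c')
  have a2 := h.nondeg.finrank_perp_add (E ∙ g u)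
  rw [finrank_span_singleton h0] at a2
  obtain ⟨w, a3, a4, a5⟩ := h.iso3 (Ψ.perp (E ∙ g u)) (by omega)
  obtain ⟨f, a6, a7⟩ := exists_hyp_mem h.nondeg a5 a3 (by
    rw [h.nondeg.perp_perp]
    intro e
    obtain ⟨c, rfl⟩ := Submodule.mem_span_singleton.1 e
    simp [mem_perp_span_singleton, h2] at a3
    simp [a3] at a4)
  obtain ⟨l, hl⟩ := exists_coord (m := g) (u := u) h0 fun a => by
    rw [← h.nondeg.perp_perp (E ∙ g u)]
    exact fun x hx => Ψ.B_eq_zero_symm (Ψ.mem_perp_span_singleton.1 (le_of_sing_mem a7 a3 a6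
      (U := Ψ.perp (E ∙ g (a • u))) (fun x hx hs => Ψ.mem_perp_span_singleton.2 (Ψ.B_eq_zero_symm
        (a1 x hs (Ψ.mem_perp_span_singleton.1 hx) a))) hx))
  obtain ⟨δ, hδ⟩ := Algebra.trace_surjective F E 1
  obtain ⟨a, ha⟩ := Finite.injective_iff_surjective.1 ((injective_iff_map_eq_zero l).2
    fun y hy => by simpa [hy, hu0] using hl y) (δ / Ψ.B (g u) (g u))
  have := (hH hg).1 (a • u) u
  rw [hl, ha, h.B_smul, h.B_smul, mul_div_cancel₀ _ h2, hδ, hu.1] at this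
  simp at this

omit hM hH hN in
theorem isMaximalIn : IsMaximalIn Φ.E (Tg F (ls E V) ⊓ Φ.E) := by
  have := h.fd
  have := h.fdF
  have := h.nt
  have := h.dim
  have : Finite F := Finite.of_injective _ (algebraMap F E).injective
  obtain ⟨u, -, hu0, hu⟩ := h.iso3 ⊤ (by simp; omega)
  refine isMaximalIn_of inf_le_right ?_ fun H h1 h2 g hg hg' => ?_
  · obtain ⟨f, hf⟩ := exists_hyp h.nondeg hu hu0
    obtain ⟨e, a1, a2, a3⟩ := h.nonsing hf
    obtain ⟨t, ht⟩ := exists_eich h.nd (eichData_quad h.kap (h.sing hu) (e := e)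
      (by simp [h.B_eq, a1]))
    have a4 := Form.mem_E (eichData_quad h.kap (h.sing hu) (e := e) (by simp [h.B_eq, a1])) ht
    refine ⟨t, a4, fun h1 => ?_⟩
    obtain ⟨α, hα⟩ := exists_semi (semi_of_Tg h1.1)
    obtain ⟨d, hd⟩ := Algebra.trace_surjective F E 1
    have a5 : 2 * Ψ.Q e ≠ 0 := mul_ne_zero h.two' a3
    refine h.pr.one_lt.not_ge (finrank_le_one d fun b => ⟨Algebra.trace F E b, ?_⟩)
    have a6 := h.B_semi (E_le_O a4).1 hα (d • f) ((b / (2 * Ψ.Q e)) • e)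
    have e3 : Φ.ε = 1 := by simpa [h.kap] using Φ.kε
    simp only [ht, eichler_apply, h.B_eq, B_smul_right, hf.one, h.comm e f, a1, a2,
      B_self_quad h.kap' e, div_mul_cancel₀ _ a5, mul_one, hd, mul_zero, map_zero, e3] at a6
    simp only [← algebraMap_smul E (_ : F) (_ : V)] at a6
    simp [B_smul_left, a1, a2, h.comm f u, h.comm e u, hf.one, hu.1, B_self_quad h.kap' e,
      div_mul_cancel₀ _ a5] at a6
    rw [Algebra.smul_def] at a6 ⊢
    linear_combination a6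
  have hM : ∀ k ∈ Ψ.O, (k * k).restrictScalars F ∈ H := fun k hk =>
    h1 ⟨mem_Tg_of_semi fun y => ⟨y, (k * k).map_smul y⟩, sq_mem_E h.nd h.kap h.two (by
      have := h.pr.two_le
      rw [← finrank_mul_finrank F E V]; nlinarith) (h.mem_O hk)⟩
  have hH := h2.trans E_le_O
  by_contra h3
  refine hg' ⟨mem_Tg_of_semi (h.semi_of_sing (hH hg) hu hu0 fun w hw hw0 => ?_), h2 hg⟩
  obtain ⟨m, hm, c, h4⟩ := h.trans (h.sing_map hM hH h3 hw hw0 hg) hw (by simpa) hw0
  have h5 := mul_mem (h.mem_H hM hm) hg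
  obtain ⟨c', s, h6⟩ := h.mono hM hH h3 hw hw0 h5 (h.line hM hH h3 hw hw0 (F ∙ 1) (by simp) _ h5
    fun x hx => by
      obtain ⟨c, rfl⟩ := Submodule.mem_span_singleton.1 hx
      simp [h4, Submodule.smul_of_tower_mem, Submodule.mem_span_singleton_self])
  refine ⟨s, fun a => m.injective ?_⟩
  have h7 : c' = c := smul_left_injective E hw0 (by simpa [h4] using (h6 1).symm)
  simpa [h7, h4, smul_smul, mul_comm] using h6 a

end Ox

omit [FiniteDimensional F E] [Finite E] in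
theorem isMaximalIn_ox {ι : Type} [Fintype ι] [DecidableEq ι] [Fintype F] {r : ℕ} (hr : r.Prime)
    (hn : 3 * r < Fintype.card ι) (h2 : (2 : F) ≠ 0) {Q : (ι → F) → F}
    (hQ : IsNondegenerateQuadraticForm Q) {K : Subalgebra F (Matrix ι ι F)}
    (hK : IsFieldSubalgebra r K) (hsa : IsSelfAdjointFor (QuadraticMap.polar Q) K) :
    IsMaximalIn (omegaGL Q) (subalgebraNormalizer K ⊓ omegaGL Q) := by
  have : Nonempty ι := Fintype.card_pos_iff.1 (by omega)
  obtain ⟨Q, rfl, hΦ⟩ := exists_quad hQ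
  letI := (As.IsFieldSubalgebra.isField hK).toField
  have : Finite K := Subtype.finite
  have h : AdjE (ofQuad Q) (RingHom.id K) := ⟨hΦ, inferInstance, fun k => hsa k k.2⟩
  have h1 := finrank_mul_finrank F K (ι → F)
  rw [hK.finrank_eq, finrank_fintype_fun_eq_card] at h1
  obtain ⟨Ψ, h5, h6⟩ := h.exists_lift_quad rfl (by
    rw [← map_ofNat (algebraMap F K)]; exact (map_ne_zero _).2 h2)
  have h3 := fun g => mem_omegaGL_iff_E (g := g) hΦ (by have := hr.two_le; omega)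
  exact isMaximalIn_of_iff (glE _ F) (Ox.isMaximalIn ⟨h5, rfl, h6, h2, hK.finrank_eq ▸ hr,
    Module.Finite.of_finite, by by_contra! h; nlinarith⟩) h3
    fun g => and_congr (mem_normalizer_iff_semi.trans ⟨mem_Tg_of_semi, semi_of_Tg⟩) (h3 g)

end H23
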