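import Cfsg.Agent.H23.Sx3
import Cfsg.Agent.H23.Nm2

/-! Maximality of the tensor product of two symplectic groups in the orthogonal group. -/

set_option autoImplicit false

namespace H23

open Module H22 Cfsg Cfsg.Geo Form Tn

variable {F S W V : Type*} [Field F] [AddCommGroup S] [Module F S] [AddCommGroup W] [Module F W]
  [AddCommGroup V] [Module F V]

theorem sp_rank_one [Fintype F] [FiniteDimensional F S] {f : Form (RingHom.id F) S} (hn : f.Nondeg)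
    (he : f.ε = -1) (hk : f.κ = 0) (hq : 3 ≤ Fintype.card F ∨ 3 ≤ finrank F S)
    (Λ : Subring (End F S)) (h1 : ∀ c : F, ∀ z ∈ Λ, c • z ∈ Λ)
    (h2 : ∀ (c : F) a, ∀ z ∈ Λ,
      (1 + c • (f.B a).smulRight a) * z * (1 - c • (f.B a).smulRight a) ∈ Λ)
    {z : End F S} (hz : z ∈ Λ) {a : S} (ha : z a ∉ F ∙ a) (x y : S) : (f.B x).smulRight y ∈ Λ := by
  have e0 := B_self_alt he hk
  have e1 := B_neg_alt he
  have h0 : a ≠ 0 := by rintro rfl; simp at ha
  have h3 : ∀ {z z' : End F S} {c : F}, c ≠ 0 → z ∈ Λ → (∀ v, z v = c • z' v) → z' ∈ Λ :=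
    fun {z z' c} hc hz h => by
      convert h1 c⁻¹ z hz using 1
      ext v; simp [h, hc]
  obtain ⟨b', hb'⟩ := hn.exists_repr (f.B a ∘ₗ z)
  set b := z a + f.B a (z a) • a with hb
  have a1 : b ∉ F ∙ a := fun h => ha (by
    simpa [b] using sub_mem h (Submodule.smul_mem _ (f.B a (z a)) (Submodule.mem_span_singleton_self a)))
  have a2 : (f.B b').smulRight a - (f.B a).smulRight b ∈ Λ :=
    h3 one_ne_zero (sub_mem (h2 1 a z hz) hz) fun v => by simp [hb', b]; module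
  have a3 : ∀ {μ : F} {x y c : S}, f.B c a = 0 → μ • (f.B x).smulRight a - (f.B a).smulRight y ∈ Λ →
      f.B c y = 1 → (μ * f.B c x) • (f.B c).smulRight a - (f.B a).smulRight c ∈ Λ := by
    intro μ x y c b1 b2 b3
    exact h3 one_ne_zero (sub_mem (h2 1 c _ b2) b2) fun v => by
      simp [b1, b3, e1 c a, e1 c x]; module
  have a4 : (f.B a).smulRight a ∈ Λ := by
    by_cases b1 : ∃ c, c ∉ F ∙ a ∧ f.B c a = 0 ∧ f.B c b = 1
    · obtain ⟨c, b1, b2, b3⟩ := b1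
      obtain ⟨d, b4, b5⟩ := hn.exists_perp_eq_one b1
      replace b4 := b4 a (Submodule.mem_span_singleton_self a)
      have b6 := a3 (μ := 1) b2 (by simpa using a2) b3
      have b7 := a3 b4 b6 b5
      have b8 := a3 (c := d + a) (by simp [b4, e0]) b6 (by simp [b5, e1 c a, b2])
      exact h3 one_ne_zero (sub_mem (mul_mem b6 b7) (sub_mem b8 b7)) fun v => by
        simp [b2, b5, e0, e1 d c, e1 d a, e1 c a, b4]; module
    obtain ⟨c, b2, b3⟩ := hn.exists_perp_eq_one a1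
    replace b2 := b2 a (Submodule.mem_span_singleton_self a)
    have b4 : f.B a (z a) ≠ 0 := fun h => b1 ⟨c, fun h' => by
      obtain ⟨k, rfl⟩ := Submodule.mem_span_singleton.1 h'
      simp [b, h] at b3, b2, b3⟩
    rcases hq with hq | hq
    · obtain ⟨l, l0, l1⟩ := exists_ne_zero_one hq
      exact h3 (mul_ne_zero (mul_ne_zero l0 (sub_ne_zero.2 l1)) b4)
        (sub_mem (h1 l _ a2) (sub_mem (h2 l a z hz) hz)) fun v => by simp [hb', b]; module
    · obtain ⟨e, -, b5, b6⟩ := hn.exists_perp_notMem (T := ⊤) (S := ⊥) [a, b] (by simp; omega)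
      have b7 : f.B e a = 0 := f.B_eq_zero_symm (b6 a (by simp))
      have b8 : f.B e b = 0 := f.B_eq_zero_symm (b6 b (by simp))
      have b9 : ∀ k : F, f.B (k • a) b = k * f.B a (z a) := fun k => by simp [b, e0]
      by_cases b10 : c ∈ F ∙ a
      · refine absurd ⟨c + e, fun h => ?_, by simp [b2, b7], by simp [b3, b8]⟩ b1
        obtain ⟨k, rfl⟩ := Submodule.mem_span_singleton.1 (by simpa using sub_mem h b10 : e ∈ F ∙ a)
        rw [b9] at b8
        simp [b4] at b8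
        simp [b8] at b5
      · exact absurd ⟨c, b10, b2, b3⟩ b1
  obtain ⟨c₀, a5⟩ := hn.exists_ne h0
  have a6 : ∀ P : S →ₗ[F] End F S, (∀ c, f.B c a ≠ 0 → P c ∈ Λ) → ∀ c, P c ∈ Λ := fun P h c => by
    by_cases b1 : f.B c a = 0
    · simpa using sub_mem (h (c + c₀) (by simp [b1, e1 a c₀, a5])) (h c₀ (by simp [e1 a c₀, a5]))
    · exact h c b1
  have a7 : ∀ y, (f.B a).smulRight y ∈ Λ := a6 (LinearMap.smulRightₗ (f.B a)) fun c hc =>
    h3 (pow_ne_zero 3 hc) (sub_mem (mul_mem (h2 1 c _ a4) a4) (h1 (f.B c a ^ 2) _ a4)) fun v => by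
      simp [e0, e1 c a]; module
  refine a6 (LinearMap.smulRightₗ.flip y ∘ₗ f.B) (fun c hc => ?_) x
  exact h3 hc (sub_mem (h2 1 c _ (a7 (y - f.B c y • c))) (a7 y)) fun v => by
    simp [e0, e1 c a]; module

theorem isTP_flip {t : S →ₗ[F] W →ₗ[F] V} (ht : IsTensorProduct t) : IsTensorProduct t.flip :=
  IsTensorProduct.of_equiv ((TensorProduct.comm F W S).trans ht.equiv) fun _ _ => by simp

/-- The quadratic form on the tensor product of two symplectic spaces. -/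
structure Sb (Φ : Form (RingHom.id F) V) (f : Form (RingHom.id F) S) (h : Form (RingHom.id F) W)
    (t : S →ₗ[F] W →ₗ[F] V) : Prop where
  ht : IsTensorProduct t
  nd : Φ.Nondeg
  kap : Φ.κ = 1
  fn : f.Nondeg
  fe : f.ε = -1
  fk : f.κ = 0
  hn : h.Nondeg
  he : h.ε = -1
  hk : h.κ = 0
  B : ∀ x w y w', Φ.B (t x w) (t y w') = f.B x y * h.B w w'
  Q : ∀ x w, Φ.Q (t x w) = 0

namespace Sb

variable {Φ : Form (RingHom.id F) V} {f : Form (RingHom.id F) S} {h : Form (RingHom.id F) W}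
  {t : S →ₗ[F] W →ₗ[F] V} (p : Sb Φ f h t) {H : Subgroup (V ≃ₗ[F] V)} {u w e : W}
  {φ φ' : V →ₗ[F] S}
include p

theorem flip : Sb Φ h f t.flip :=
  ⟨isTP_flip p.ht, p.nd, p.kap, p.hn, p.he, p.hk, p.fn, p.fe, p.fk,
    fun _ _ _ _ => (p.B ..).trans (mul_comm ..), fun _ _ => p.Q ..⟩

/-- The contraction with `h u`. -/
noncomputable abbrev cv (u : W) : V →ₗ[F] S := cov F p.ht (h.B u)

theorem B_t (x : S) (u : W) (v : V) : Φ.B (t x u) v = f.B x (p.cv u v) :=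
  ext_t p.ht (f := Φ.B (t x u)) (f' := f.B x ∘ₗ p.cv u) (by simp [p.B, mul_comm]) v

theorem cv_add (u w : W) (v : V) : p.cv (u + w) v = p.cv u v + p.cv w v := by
  rw [cv, map_add, cov_add]

theorem cv_sub (u w : W) (c : F) (v : V) : p.cv (u - c • w) v = p.cv u v - c • p.cv w v := by
  rw [cv, map_sub, cov_sub, map_smul, cov_smul_left]

theorem h0 (u : W) : h.B u u = 0 := B_self_alt p.he p.hk u

theorem f0 (x : S) : f.B x x = 0 := B_self_alt p.fe p.fk x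

theorem mem_perp {v : V} : v ∈ Φ.perp (LinearMap.range (vec F t u)) ↔ p.cv u v = 0 :=
  ⟨fun h1 => p.fn.eq_of_forall' fun x => by simpa [p.B_t] using h1 (t x u) ⟨x, rfl⟩,
    fun h1 _ ⟨x, hx⟩ => by simp [← hx, p.B_t, h1]⟩

theorem totSing (u : W) : Φ.TotSing (LinearMap.range (vec F t u)) :=
  ⟨by rintro _ ⟨x, rfl⟩ _ ⟨y, rfl⟩; simp [p.B, p.h0], by rintro _ ⟨x, rfl⟩; simp [p.Q]⟩

theorem sing (x : S) (u : W) : Sing Φ (t x u) := (sing_quad p.kap).2 (p.Q x u)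

variable [FiniteDimensional F V]

theorem exists_tv (u : W) (c : F) : ∃ g ∈ Φ.E, ∀ v, g v = v + c • t (p.cv u v) u := by
  have a1 : ∀ v, (c • (vec F t u ∘ₗ p.cv u)) ((c • (vec F t u ∘ₗ p.cv u)) v) = 0 := by simp [p.h0]
  refine ⟨unip _ a1, mem_of_fix_perp p.nd p.kap (fun a ha b hb => ⟨(p.totSing u).1 a ha b hb,
    fun s hs => eIn_ED p.nd Submodule.mem_top Submodule.mem_top hs⟩) (p.totSing u) (mem_O_quad p.kap fun v => ?_)
    fun v hv => by simp [unip_apply, p.mem_perp.1 hv], fun _ => rfl⟩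
  simp [unip_apply, Φ.Q_add_smul, p.Q, p.kap, Φ.B_eq_zero_symm ((p.B_t _ u v).trans (p.f0 _))]

theorem exists_tvS [Nontrivial S] [Nontrivial W] [Finite S] (a : S) (c : F) :
    ∃ g ∈ Tg F t ⊓ Φ.E, ∀ x w, g (t x w) = t (x + (c * f.B a x) • a) w := by
  obtain ⟨g, a1, a2⟩ := p.flip.exists_tv a c
  have a3 : ∀ x w, g (t x w) = t (x + (c * f.B a x) • a) w := fun x w => by
    rw [a2, show p.flip.cv a (t x w) = _ from cov_t p.flip.ht _ w x]; simp [mul_smul]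
  have := Module.Finite.of_finite (R := F) (M := S)
  obtain ⟨b, -, a4⟩ := exists_tv_alt p.fn p.fe p.fk a c
  exact ⟨g, ⟨⟨b, 1, fun x w => by rw [a3, a4]; rfl⟩, a1⟩, a3⟩

variable [Finite F] [Nontrivial S] [Finite W] [FiniteDimensional F W] (hM : Tg F t ⊓ Φ.E ≤ H)
include hM

theorem tv (u : W) (c : F) : ∃ g ∈ H, ∀ v, g v = v + c • t (p.cv u v) u := by
  obtain ⟨g, a1, a2⟩ := p.exists_tv u c
  exact ⟨g, hM ⟨tv_mem_Tg p.ht (ψ := c • h.B u) (u := u) fun v => by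
    rw [a2, cov_smul_left, t_smul], a1⟩, a2⟩

theorem trans (hu : u ≠ 0) (hw : w ≠ 0) : ∃ m ∈ H, ∃ b ∈ h.O, (∀ x y, m (t x y) = t x (b y)) ∧
    b u = w := by
  let K : Subgroup (W ≃ₗ[F] W) :=
    { carrier := {b | ∃ m ∈ H, ∀ x y, m (t x y) = t x (b y)}
      mul_mem' := fun ⟨m, a1, a2⟩ ⟨m', a3, a4⟩ => ⟨m * m', mul_mem a1 a3, by simp [a2, a4]⟩
      one_mem' := ⟨1, one_mem _, by simp⟩
      inv_mem' := fun ⟨m, a1, a2⟩ => ⟨m⁻¹, inv_mem a1, fun x y => m.symm_apply_eq.2 (by simp [a2])⟩ }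
  obtain ⟨b, a1, a2⟩ := p.hn.witt_one hu hw (by simp [p.h0]) (by simp [Q_of_κ p.hk])
  obtain ⟨m, a3, a4⟩ := O_le_of_tr (H := K) p.hn p.he p.hk (fun y c => by
    obtain ⟨g, -, b1⟩ := exists_tv_alt p.hn p.he p.hk y c
    obtain ⟨m, b2, b3⟩ := p.tv hM y c
    exact ⟨g, ⟨m, b2, by simp [b1, b3, mul_smul]⟩, b1⟩) a1
  exact ⟨m, a3, b, a1, a4, a2⟩

omit hM

variable (H u φ) in
/-- Elements of the unipotent radical of the stabiliser of a block, modulo its centre. -/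
def RT : Prop := ∃ r ∈ H, (∀ x, φ (t x u) = 0) ∧ ∀ v, p.cv u v = 0 → r v = v + t (φ v) u

variable (H) in
/-- The coefficients occurring in `H`. -/
def Lz (z : End F S) : Prop := ∀ u ≠ 0, ∀ e, h.B u e = 0 → p.RT H u (z ∘ₗ p.cv e)

omit [FiniteDimensional F V] [Finite F] [Nontrivial S] [Finite W] [FiniteDimensional F W]

variable {p}

theorem RT.congr (h1 : p.RT H u φ) (h2 : ∀ v, p.cv u v = 0 → φ v = φ' v) : p.RT H u φ' :=
  have ⟨r, a1, a2, a3⟩ := h1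
  ⟨r, a1, fun x => by rw [← h2 _ (by simp [p.h0]), a2], fun v hv => by rw [a3 v hv, h2 v hv]⟩

theorem rt_zero (h2 : ∀ v, p.cv u v = 0 → φ v = 0) : p.RT H u φ :=
  RT.congr (φ := 0) ⟨1, one_mem _, by simp⟩ fun v hv => (h2 v hv).symm

theorem RT.add (h1 : p.RT H u φ) (h2 : p.RT H u φ') : p.RT H u (φ + φ') :=
  have ⟨r, a1, a2, a3⟩ := h1
  have ⟨r', a4, a5, a6⟩ := h2
  ⟨r * r', mul_mem a1 a4, by simp [a2, a5], fun v hv => by
    simp [a6 v hv, a3 v hv, a3 (t _ u) (by simp [p.h0]), a2, add_assoc]⟩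

theorem RT.neg (h1 : p.RT H u φ) : p.RT H u (-φ) :=
  have ⟨r, a1, a2, a3⟩ := h1
  ⟨r⁻¹, inv_mem a1, by simp [a2], fun v hv => r.symm_apply_eq.2 (by
    simp [a3 v hv, a3 (t _ u) (by simp [p.h0]), a2])⟩

theorem RT.sub (h1 : p.RT H u φ) (h2 : p.RT H u φ') : p.RT H u (φ - φ') :=
  sub_eq_add_neg φ φ' ▸ h1.add h2.neg

theorem RT.conj (hH : H ≤ Φ.O) (h1 : p.RT H u φ) {m : V ≃ₗ[F] V} (hm : m ∈ H) {a : S ≃ₗ[F] S}
    (h2 : ∀ x, m (t x u) = t (a x) w) :
    p.RT H w (a.toLinearMap ∘ₗ φ ∘ₗ m.symm.toLinearMap) := by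
  obtain ⟨r, a1, a2, a3⟩ := h1
  refine ⟨m * r * m⁻¹, mul_mem (mul_mem hm a1) (inv_mem hm), fun x => ?_, fun v hv => ?_⟩
  · obtain ⟨x, rfl⟩ := a.surjective x
    simp [← h2, a2]
  · have : p.cv u (m.symm v) = 0 := p.fn.eq_of_forall' fun x => by
      rw [← p.B_t, ← (hH hm).1, h2, p.B_t]; simp [hv]
    simp [a3 _ this, h2]

variable [FiniteDimensional F V] [Finite F] [Nontrivial S] [Finite W] [FiniteDimensional F W]
  (hM : Tg F t ⊓ Φ.E ≤ H) (hH : H ≤ Φ.O)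
include hM

theorem rt_rat (he : h.B u e = 0) : p.RT H u (p.cv e) := by
  obtain ⟨g, a1, a2⟩ := p.tv hM (u + e) 1
  obtain ⟨k, a3, a4⟩ := p.tv hM e (-1)
  have a5 := h.B_eq_zero_symm he
  exact ⟨g * k, mul_mem a1 a3, by simp [a5], fun v hv => by
    simp [a2, a4, cv_add, hv, he, a5, p.h0]; abel⟩

include hH

theorem RT.proj (h1 : p.RT H u φ) (he : h.B u e = 0) (c : F) :
    p.RT H u (c • (φ ∘ₗ vec F t e ∘ₗ p.cv e)) := by
  obtain ⟨m, a1, a2⟩ := p.tv hM e c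
  refine ((h1.conj hH (inv_mem a1) (a := 1) (w := u) fun x => m.symm_apply_eq.2 ?_).sub h1).congr
    fun v _ => ?_
  · simp [a2, h.B_eq_zero_symm he]
  · change φ (m v) - φ v = _
    simp [a2]

theorem RT.spread (h1 : p.RT H u φ) (he : h.B u e = 0) (hw : h.B u w = 0) :
    p.RT H u ((φ ∘ₗ vec F t e) ∘ₗ p.cv w) := by
  by_cases h0 : e ∈ F ∙ u
  · obtain ⟨c, rfl⟩ := Submodule.mem_span_singleton.1 h0
    obtain ⟨-, -, a1, -⟩ := h1
    exact rt_zero fun v _ => by simp [a1]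
  have a1 : ∀ w, h.B u w = 0 → h.B e w ≠ 0 → p.RT H u ((φ ∘ₗ vec F t e) ∘ₗ p.cv w) :=
    fun w h2 h3 => ((h1.proj hM hH he 1).proj hM hH h2 (h.B e w)⁻¹).congr fun v _ => by simp [h3]
  by_cases h2 : h.B e w = 0
  · obtain ⟨y, a2, a3⟩ := p.hn.exists_perp_eq_one h0
    replace a2 := h.B_eq_zero_symm (a2 u (Submodule.mem_span_singleton_self u))
    have a4 : h.B e y ≠ 0 := by simp [B_neg_alt p.he y e, a3]
    exact ((a1 (w + y) (by simp [hw, a2]) (by simp [h2, a4])).sub (a1 y a2 a4)).congr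
      fun v _ => by simp [cv_add]
  · exact a1 w hw h2

theorem RT.lz (h1 : p.RT H u φ) (hu : u ≠ 0) (he : h.B u e = 0) : p.Lz H (φ ∘ₗ vec F t e) := by
  intro w hw y hy
  obtain ⟨m, a1, b, a2, a3, rfl⟩ := p.trans hM hu hw
  obtain ⟨y, rfl⟩ := b.surjective y
  refine ((h1.spread hM hH he (w := y) (by rw [← a2.1, hy])).conj hH a1 (a := 1)
    fun x => a3 x u).congr fun v _ => ?_
  obtain ⟨v, rfl⟩ := m.surjective v
  simpa using congrArg (fun x => φ (t x e)) (ext_t p.ht (f := p.cv y)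
    (f' := p.cv (b y) ∘ₗ m.toLinearMap) (by simp [a3, a2.1]) v)

theorem Lz.mul (h5 : 5 ≤ finrank F W) {z z' : End F S} (h1 : p.Lz H z) (h2 : p.Lz H z') :
    p.Lz H (z * z') := by
  obtain ⟨u, hu⟩ := (finrank_pos_iff_exists_ne_zero (R := F) (M := W)).1 (by omega)
  obtain ⟨w, -, a1, a2⟩ := p.hn.exists_perp_notMem (T := ⊤) (S := F ∙ u) [u]
    (by simp [finrank_span_singleton hu]; omega)
  obtain ⟨w', a3, a4⟩ := p.hn.exists_perp_eq_one a1
  obtain ⟨e, -, a5, a6⟩ := p.hn.exists_perp_notMem (T := ⊤) (S := Submodule.span F {x | x ∈ [u, w]})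
    [u, w] (by have := finrank_span_list_le (F := F) [u, w]; simp at this ⊢; omega)
  obtain ⟨y, a7, a8⟩ := p.hn.exists_perp_eq_one a5
  replace a3 := a3 u (Submodule.mem_span_singleton_self u)
  have a9 := a7 u (Submodule.subset_span (by simp))
  obtain ⟨r, b1, -, b2⟩ := h2 w (by rintro rfl; simp at a1) y
    (h.B_eq_zero_symm (a7 w (Submodule.subset_span (by simp))))
  have b3 := h1 u hu w' (h.B_eq_zero_symm a3)
  have b4 := h.B_eq_zero_symm (a2 u (by simp))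
  convert ((b3.conj hH (inv_mem b1) (a := 1) (w := u) fun x => r.symm_apply_eq.2 (by
    simp [b2 (t x u) (by simp [b4]), a9])).sub b3).lz hM hH hu (a6 u (by simp)) using 1
  ext x
  change _ = z (p.cv w' (r (t x e))) - z (p.cv w' (t x e))
  simp [b2 (t x e) (by simp [a6 w (by simp)]), a4, a8]

theorem win (h4 : 4 ≤ finrank F W) (h1 : ∀ x y, p.Lz H ((f.B x).smulRight y)) : Φ.E ≤ H := by
  have a0 : ∀ u : W, u ≠ 0 → ∀ l : List W, l.length ≤ 2 → ∃ w w', w ≠ 0 ∧ h.B w' u = 0 ∧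
      h.B w' w = 1 ∧ ∀ x ∈ l, h.B x w = 0 := fun u hu l hl => by
    obtain ⟨w, -, a1, a2⟩ := p.hn.exists_perp_notMem (T := ⊤) (S := F ∙ u) l
      (by simp [finrank_span_singleton hu]; omega)
    obtain ⟨w', a3, a4⟩ := p.hn.exists_perp_eq_one a1
    exact ⟨w, w', by rintro rfl; simp at a1, a3 u (Submodule.mem_span_singleton_self u), a4, a2⟩
  have a1 : ∀ a, ∀ u ≠ 0, ∀ e, p.cv u e = 0 → Φ.AIn H (t a u) e := fun a u hu e he => by
    refine aIn_of_mod p.nd p.kap (p.totSing u) hH ?_ ?_ ⟨a, rfl⟩ (p.mem_perp.2 he)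
    · obtain ⟨w, w', -, b1, b2, b3⟩ := a0 u hu [u] (by simp)
      obtain ⟨x, hx⟩ := exists_ne (0 : S)
      obtain ⟨y, hy⟩ := p.fn.exists_ne hx
      exact ⟨t x w', p.mem_perp.2 (by simp [h.B_eq_zero_symm b1]), t y w,
        p.mem_perp.2 (by simp [b3]), by simp [p.B, hy, b2]⟩
    rintro _ ⟨a, rfl⟩ e he
    obtain ⟨w₀, b1⟩ := p.hn.exists_ne hu
    have b2 : ∀ e, p.RT H u ((Φ.B (e - t (p.cv u e) w₀)).smulRight a) := fun e =>
      p.ht.inductionOn e (rt_zero (by simp)) (fun b w => (h1 b a u hu (w - h.B u w • w₀)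
        (by simp [b1])).congr fun v _ => by simp [p.B_t, cv_sub])
        fun e e' b2 b3 => (b2.add b3).congr fun v _ => by simp; module
    obtain ⟨r, b3, -, b4⟩ := b2 e
    exact ⟨r, b3, fun x hx => by simp [b4 x (p.mem_perp.1 hx), p.mem_perp.1 he]⟩
  have a2 : ∀ a ≠ 0, ∀ u ≠ 0, Φ.QIn H (t a u) := fun a ha u hu => qIn_iff.2 fun e he => by
    obtain ⟨b', b1⟩ := p.fn.exists_ne ha
    obtain ⟨w₀, b2⟩ := p.hn.exists_ne hu
    have b3 : ∀ b w, f.B a b = 0 → Φ.AIn H (t a u) (t b w) := fun b w hb => by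
      obtain ⟨w₁, w', c1, c2, c3, c4⟩ := a0 u hu [u, w] (by simp)
      have c5 := c4 u (by simp)
      have c6 := h.B_eq_zero_symm (c4 w (by simp))
      obtain ⟨T, c7, c8⟩ := (a1 a w₁ c1 (t b w) (by simp [c6])).2 _
        (eichData_quad p.kap (p.sing a w₁) (by simp [p.B, c6]))
      have c9 := a1 a u hu (t b' w') (by simp [h.B_eq_zero_symm c2])
      have d1 := c9.conj c7 (hH c7)
      have e3 : Φ.ε = 1 := by simpa [p.kap] using Φ.kε
      rw [c8, c8, eichler_apply, eichler_apply] at d1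
      simp only [p.B, p.f0, f.B_eq_zero_symm hb, b1, B_neg_alt p.he w' w₁, c3, e3, p.Q] at d1
      convert ((by simpa using d1 : Φ.AIn H (t a u) (t b' w' + (f.B b b' * h.B w w') • t a w₁ +
        t b w)).sub (p.sing a u) c9).sub (p.sing a u)
        (a1 a u hu ((f.B b b' * h.B w w') • t a w₁) (by simp [c5])) using 1
      abel
    have b4 : ∀ e, Φ.AIn H (t a u) (e - Φ.B (t a u) e • t b' w₀) := fun e =>
      p.ht.inductionOn e (by simpa using a1 a u hu 0 (by simp)) (fun x w => by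
        convert (b3 (x - f.B a x • b') w (by simp [b1])).add (p.sing a u)
          (a1 a u hu (t (f.B a x • b') (w - h.B u w • w₀)) (by simp [b2])) using 1
        simp [p.B]; module)
        fun e e' b4 b5 => by convert b4.add (p.sing a u) b5 using 1; simp; module
    simpa [he] using b4 e
  obtain ⟨u, hu⟩ := (finrank_pos_iff_exists_ne_zero (R := F) (M := W)).1 (by omega)
  obtain ⟨w, hw⟩ := p.hn.exists_ne hu
  obtain ⟨x, hx⟩ := exists_ne (0 : S)
  obtain ⟨y, hy⟩ := p.fn.exists_ne hx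
  exact E_le_of_qIn p.nd (p.sing x u) (p.sing y w) (by simp [p.B, hw, hy]) (a2 x hx u hu)
    (a2 y (by rintro rfl; simp at hy) w (by rintro rfl; simp at hw))

variable [Fintype F] [FiniteDimensional F S] (hq : 3 ≤ Fintype.card F ∨ 3 ≤ finrank F S)
  (h5 : 5 ≤ finrank F W) (hN : ¬ Φ.E ≤ H)
include hq h5 hN

theorem RT.rat (h1 : p.RT H u φ) (hu : u ≠ 0) (he : h.B u e = 0) :
    ∃ c : F, ∀ x, φ (t x e) = c • x := by
  refine (scalar_or (φ ∘ₗ vec F t e)).resolve_right fun ⟨a, ha⟩ => hN (win (p := p) hM hH (by omega) fun x y => ?_)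
  let Λ : Subring (End F S) :=
    { carrier := {z | p.Lz H z}
      mul_mem' := Lz.mul hM hH h5
      one_mem' := fun u _ e he => rt_rat hM he
      add_mem' := fun ha hb u hu e he => (ha u hu e he).add (hb u hu e he)
      zero_mem' := fun u _ e _ => rt_zero (by simp)
      neg_mem' := fun ha u hu e he => (ha u hu e he).neg }
  refine sp_rank_one p.fn p.fe p.fk hq Λ (fun c z hz u hu e he => ?_)
    (fun c a z hz u hu e he => ?_) (h1.lz hM hH hu he) ha x y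
  · exact (hz u hu (c • e) (by simp [he])).congr fun v _ => by
      simp [cv, cov_smul_left]
  · have : Nontrivial W := ⟨u, 0, hu⟩
    have : Finite S := Module.finite_of_finite F
    obtain ⟨m, a1, a2⟩ := p.exists_tvS a c
    obtain ⟨b, -, a3⟩ := exists_tv_alt p.fn p.fe p.fk a c
    refine ((hz u hu e he).conj hH (hM a1) (a := b) fun x => by rw [a2, a3]).congr fun v _ => ?_
    obtain ⟨v, rfl⟩ := m.surjective v
    have a4 := ext_t p.ht (f := p.cv e ∘ₗ m.toLinearMap) (f' := b.toLinearMap ∘ₗ p.cv e)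
      (by simp [a2, a3, smul_smul, mul_comm, mul_assoc]) v
    simp only [LinearMap.comp_apply, LinearEquiv.coe_coe] at a4
    simp [a4, a3, p.f0, mul_smul]

theorem step {g : V ≃ₗ[F] V} (hg : g ∈ H) {a : S ≃ₗ[F] S} (hu : u ≠ 0) (hw : w ≠ 0)
    (h1 : ∀ x, g (t x u) = t (a x) w) (he : h.B u e = 0) : ∃ e', ∀ x, g (t x e) = t (a x) e' := by
  by_cases h0 : e ∈ F ∙ u
  · obtain ⟨c, rfl⟩ := Submodule.mem_span_singleton.1 h0
    exact ⟨c • w, by simp [h1]⟩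
  have h2 : ∀ x, g⁻¹ (t x w) = t (a⁻¹ x) u := fun x => g.symm_apply_eq.2 (by simp [h1])
  obtain ⟨w₀, a1⟩ := p.hn.exists_ne hw
  obtain ⟨e', a2⟩ := exists_vec p.ht (e := fun x => g (t x e) + t (p.cv w₀ (g (t x e))) w)
    (a := a) (F := F) fun ψ => by
      obtain ⟨y, hy⟩ := p.hn.exists_repr (ψ + ψ w • h.B w₀)
      obtain ⟨c, hc⟩ := ((rt_rat (p := p) hM (e := y) (h.B_eq_zero_symm (by
        simp [hy, B_neg_alt p.he w w₀, a1]))).conj hH (inv_mem hg) h2).rat hM hH hq h5 hN hu he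
      refine ⟨c, fun x => ?_⟩
      have := congrArg a (hc x)
      rw [cv, LinearMap.ext hy] at this
      simpa [cov_add, cov_smul_left, cv, show g⁻¹.symm = g from rfl] using this
  set z : S →ₗ[F] S := -(p.cv w₀ ∘ₗ g.toLinearMap ∘ₗ vec F t e)
  replace a2 : ∀ x, g (t x e) = t (a x) e' + t (z x) w := fun x => by simp [z, ← a2]
  obtain ⟨x₀, a3⟩ := exists_ne (0 : S)
  have a4 : e' ∉ F ∙ w := fun h3 => by
    obtain ⟨c, rfl⟩ := Submodule.mem_span_singleton.1 h3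
    obtain ⟨y, b1, b2⟩ := p.hn.exists_perp_eq_one h0
    have := congrArg (p.cv y) (g.injective ((a2 x₀).trans (show _ = g (t (a⁻¹ (c • a x₀ + z x₀)) u)
      by simp [h1])))
    simp [b1 u (Submodule.mem_span_singleton_self u), b2, a3] at this
  have a5 : h.B w e' = 0 := by
    obtain ⟨y, hy⟩ := p.fn.exists_ne a3
    simpa [h1, a2, p.B, he, p.h0, hy] using (hH hg).1 (t (a⁻¹ x₀) u) (t (a⁻¹ y) e)
  obtain ⟨e₁, a6, a7⟩ := p.hn.exists_perp_eq_one a4
  replace a6 := h.B_eq_zero_symm (a6 w (Submodule.mem_span_singleton_self w))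
  obtain ⟨μ, a8⟩ := ((rt_rat (p := p) hM he).conj hH hg h1).rat hM hH hq h5 hN hw a6
  replace a8 : ∀ x, a (p.cv e (g.symm (t x e₁))) = μ • x := a8
  have a9 : ∀ v, p.cv w v = 0 → ∀ x, f.B x (p.cv e (g.symm v)) = f.B (a x) (p.cv e' v) :=
    fun v hv x => by rw [← p.B_t, ← (hH hg).1, a2]; simp [p.B_t, hv]
  have b1 : ∀ v, p.cv w v = 0 → a (p.cv e (g.symm v)) = -μ • p.cv e' v := fun v hv => by
    rw [neg_smul, ← smul_neg, ← a8]
    exact congrArg a (p.fn.eq_of_forall' fun x => by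
      simp [a9 v hv, a9 (t _ e₁) (by simp [a6]), B_neg_alt p.he e₁ e', a7])
  obtain ⟨k, b2, b3⟩ := p.tv hM e 1
  obtain ⟨k', b4, b5⟩ := p.tv hM e' μ
  obtain ⟨ν, b6⟩ := RT.rat (p := p) hM hH hq h5 hN (φ := z ∘ₗ p.cv e ∘ₗ g.symm.toLinearMap)
    ⟨k' * (g * k * g⁻¹), mul_mem b4 (mul_mem (mul_mem hg b2) (inv_mem hg)), fun x => by
      simp [show g.symm (t x w) = _ from h2 x, h.B_eq_zero_symm he], fun v hv => by
      simp [b3, b5, a2, b1 v hv, p.h0, h.B_eq_zero_symm a5]; abel⟩ hw a6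
  have b7 : μ ≠ 0 := by
    rintro rfl
    obtain ⟨y, hy⟩ := p.fn.exists_ne a3
    have := a9 (t y e₁) (by simp [a6]) (a⁻¹ x₀)
    simp [show p.cv e (g.symm (t y e₁)) = 0 by simpa using a8 y, hy, B_neg_alt p.he e₁ e', a7]
      at this
  refine ⟨e' + (ν / μ) • w, fun x => ?_⟩
  have b8 : p.cv e (g.symm (t (a x) e₁)) = μ • x := a.injective (by simp [a8])
  have b9 : μ • z x = ν • a x := by simpa [b8] using b6 (a x)
  rw [a2, ← inv_smul_smul₀ b7 (z x), b9]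
  simp [div_eq_inv_mul, mul_smul]

theorem block {g : V ≃ₗ[F] V} (hg : g ∈ H) (hu : u ≠ 0) (h1 : ∀ x, ∃ y, g (t x u) = t y w) :
    g ∈ Tg F t := by
  obtain ⟨a, h2⟩ := exists_blockEquiv p.ht hu h1
  obtain ⟨x₀, a3⟩ := exists_ne (0 : S)
  have a0 : ∀ {u w}, u ≠ 0 → (∀ x, g (t x u) = t (a x) w) → w ≠ 0 := fun hu h => by
    rintro rfl
    exact a3 (t_eq_zero p.ht hu (by simpa using h x₀))
  obtain ⟨u', -, a1, a2⟩ := p.hn.exists_perp_notMem (T := ⊤) (S := F ∙ u) [u]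
    (by simp [finrank_span_singleton hu]; omega)
  obtain ⟨y, a4, a5⟩ := p.hn.exists_perp_eq_one a1
  replace a4 := h.B_eq_zero_symm (a4 u (Submodule.mem_span_singleton_self u))
  have a6 : u' ≠ 0 := by rintro rfl; simp at a1
  obtain ⟨w', a7⟩ := step (p := p) hM hH hq h5 hN hg hu (a0 hu h2) h2 (a2 u (by simp))
  refine mem_Tg_of p.ht a fun e => ?_
  obtain ⟨e₁, b1⟩ := step (p := p) hM hH hq h5 hN hg hu (a0 hu h2) h2 (e := h.B u' e • y) (by simp [a4])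
  obtain ⟨e₂, b2⟩ := step (p := p) hM hH hq h5 hN hg a6 (a0 a6 a7) a7 (e := e + h.B u' e • y)
    (by simp [B_neg_alt p.he y u', a5])
  exact ⟨e₂ - e₁, fun x => by simp [← b1, ← b2]⟩

theorem mem_Tg (h2 : finrank F S + 1 < finrank F W) (X : Submodule F S) : ∀ g ∈ H, u ≠ 0 →
    (∀ x ∈ X, g (t x u) = t x u) → g ∈ Tg F t := by
  induction X using WellFoundedGT.induction with
  | ind X ih =>
  intro g hg hu h1
  by_cases a1 : X = ⊤
  · exact block (p := p) hM hH hq h5 hN hg hu fun x => ⟨x, h1 x (a1 ▸ Submodule.mem_top)⟩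
  obtain ⟨x₁, a2⟩ : ∃ x₁, x₁ ∉ X := by
    by_contra! a2
    exact a1 (eq_top_iff.2 fun x _ => a2 x)
  obtain ⟨w, a3, a4⟩ := exists_ker_ne ((covL p.ht (g (t x₁ u)) ∘ₗ h.B).prod (h.B.flip u))
    (by simpa using h2)
  obtain ⟨a5, a6⟩ : p.cv w (g (t x₁ u)) = 0 ∧ h.B w u = 0 := Prod.ext_iff.1 a4
  obtain ⟨y, a7, a8⟩ := h3_tensor p.ht finrank_pos (by omega)
    (g.symm.toLinearMap ∘ₗ vec F t w ∘ₗ p.cv w ∘ₗ g.toLinearMap) (by simp [p.h0]) (by
      obtain ⟨y, hy⟩ := p.hn.exists_ne a3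
      have h5 : LinearMap.range (p.cv w ∘ₗ g.toLinearMap) = ⊤ := LinearMap.range_eq_top.2
        fun x => ⟨g.symm (t x y), by simp [hy]⟩
      rw [← LinearMap.comp_assoc, LinearMap.range_comp, h5, Submodule.map_top]
      exact LinearMap.finrank_range_of_inj ((injective_iff_map_eq_zero _).2 fun x hx =>
        t_eq_zero p.ht a3 (by simpa using hx))) fun c => by
      obtain ⟨k, b1, b2⟩ := p.tv hM w c
      refine ⟨g⁻¹ * k * g, ih (X ⊔ F ∙ x₁) (SetLike.lt_iff_le_and_exists.2 ⟨le_sup_left, x₁,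
        Submodule.mem_sup_right (Submodule.mem_span_singleton_self _), a2⟩) _
        (mul_mem (mul_mem (inv_mem hg) b1) hg) hu fun x hx => ?_, fun v => by simp [b2]⟩
      obtain ⟨x, hx', _, hz, rfl⟩ := Submodule.mem_sup.1 hx
      obtain ⟨e, rfl⟩ := Submodule.mem_span_singleton.1 hz
      exact g.symm_apply_eq.2 (by simp [b2, h1 x hx', a5, a6])
  refine block (p := p) hM hH hq h5 hN hg a7 (w := w) fun x => ?_
  obtain ⟨v, hv⟩ := a8 x
  exact ⟨_, by rw [← hv]; exact g.apply_symm_apply _⟩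

omit hM hH hN in
theorem isMaximalIn (h2 : finrank F S + 1 < finrank F W) :
    IsMaximalIn Φ.E (Tg F t ⊓ Φ.E) := by
  obtain ⟨u, hu⟩ := (finrank_pos_iff_exists_ne_zero (R := F) (M := W)).1 (by omega)
  refine isMaximalIn_of inf_le_right ?_ fun H h1 h3 g hg hg' => by_contra fun h4 =>
    hg' ⟨mem_Tg (p := p) h1 (h3.trans E_le_O) hq h5 h4 h2 ⊥ g hg hu (by simp), h3 hg⟩
  obtain ⟨w, -, a1, a2⟩ := p.hn.exists_perp_notMem (T := ⊤) (S := F ∙ u) [u]
    (by simp [finrank_span_singleton hu]; omega)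
  obtain ⟨e, a3, a4⟩ := p.hn.exists_perp_eq_one a1
  replace a3 := a3 u (Submodule.mem_span_singleton_self u)
  obtain ⟨y, a5, a6⟩ := p.hn.exists_perp_eq_one (notMem_sup_span_swap (S := ⊥) (by simpa)
    (by simpa) : u ∉ ⊥ ⊔ F ∙ w)
  replace a5 := a5 w (Submodule.mem_sup_right (Submodule.mem_span_singleton_self w))
  obtain ⟨a, ha⟩ := exists_ne (0 : S)
  obtain ⟨x, hx⟩ := p.fn.exists_ne ha
  have b1 := eichData_quad p.kap (p.sing a u) (e := t a e) (by simp [p.B, p.f0])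
  obtain ⟨T, hT⟩ := exists_eich p.nd b1
  refine ⟨T, Form.mem_E b1 hT, fun ⟨⟨α, β, b2⟩, _⟩ => ?_⟩
  have b3 := congrArg (p.cv y) (b2 a w)
  have b4 := congrArg (p.cv y) (b2 x w)
  simp [hT, eichler_apply, p.B, p.f0, a5] at b3
  simp [hT, eichler_apply, p.B, a2, a5, ha, hx, a4, a6,
    (smul_eq_zero.1 b3.symm).resolve_right (by simpa)] at b4

end Sb

theorem isMaximalIn_sp_tensor {ι : Type} [Fintype ι] [DecidableEq ι] [Fintype F] {n₁ n₂ : ℕ}
    (h0 : 0 < n₁) (h1 : n₁ + 1 < n₂) (h2 : 5 ≤ n₂) (hq : 3 ≤ Fintype.card F ∨ 3 ≤ n₁)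
    {Q : (ι → F) → F} (hQ : IsNondegenerateQuadraticForm Q) {e : ι ≃ Fin n₁ × Fin n₂} {P : GL ι F}
    {f₁ f₂} (hf₁ : IsSymplecticForm f₁) (hf₂ : IsSymplecticForm f₂)
    (hT : IsTensorFormStructure id (QuadraticMap.polar Q) f₁ f₂ e P)
    (hp : ∀ x w, Q (tP e P x w) = 0) :
    IsMaximalIn (omegaGL Q) (tensorProductSubgroup n₁ n₂ e P ⊓ omegaGL Q) := by
  obtain ⟨Q, rfl, hΦ⟩ := exists_quad hQ
  obtain ⟨c, a1, a2⟩ := As.tensor_pure (σ := RingHom.id F) hT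
  obtain ⟨f, b1, b2, b3, b4⟩ := exists_form_of_isSymplecticForm hf₁
  obtain ⟨h, c1, c2, c3, c4⟩ := exists_form_of_isSymplecticForm hf₂
  have : Nonempty (Fin n₁) := ⟨⟨0, h0⟩⟩
  have h3 := fun g => mem_omegaGL_iff_E (g := g) hΦ (by
    rw [Fintype.card_congr e]; simp; nlinarith)
  refine isMaximalIn_of_iff (glE _ F) (Sb.isMaximalIn (by simpa) (by simpa)
    (f := ofAlt (c • f.B) fun x => by simp [B_self_alt b2 b3]) (p :=
    ⟨isTensorProduct_tP e P, hΦ, rfl, fun x hx => b1 x fun y => by simpa [ofAlt, a1] using hx y,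
      rfl, rfl, c1, c2, c3, fun x w y w' => (a2 x w y w').trans ?_, hp⟩) (by simpa)) h3
    fun g => and_congr (mem_tensorProductSubgroup_iff_Tg h0) (h3 g)
  rw [← c4, ← As.eq_fog_of_bilin hf₁.bilinear, ← As.eq_fog_of_bilin hf₂.bilinear, b4]
  rfl

end H23
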