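import Cfsg.Agent.H23.Fr3

/-! Unitary frames: overgroups of the full monomial group. -/

set_option autoImplicit false

namespace H23.Uf

open Module H22 Cfsg Cfsg.Geo Form Finset

variable {F V : Type*} [Field F] {σ : F →+* F} [AddCommGroup V] [Module F V]

theorem quad3 {a b c x y z : F} (hxy : x ≠ y) (hxz : x ≠ z) (hyz : y ≠ z)
    (hx : a * x ^ 2 + b * x + c = 0) (hy : a * y ^ 2 + b * y + c = 0)
    (hz : a * z ^ 2 + b * z + c = 0) : a = 0 ∧ c = 0 := by
  have e1 : a * (x + y) + b = 0 :=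
    mul_left_cancel₀ (sub_ne_zero.2 hxy) (by linear_combination hx - hy)
  have e2 : a * (x + z) + b = 0 :=
    mul_left_cancel₀ (sub_ne_zero.2 hxz) (by linear_combination hx - hz)
  have e3 : a = 0 := mul_left_cancel₀ (sub_ne_zero.2 hyz) (by linear_combination e1 - e2)
  exact ⟨e3, by linear_combination hx - x * e1 + x * y * e3⟩

/-- a finite field with an involution -/
structure HF [Fintype F] (σ : F →+* F) (q : ℕ) : Prop where
  ne : σ ≠ RingHom.id F
  inv : ∀ a, σ (σ a) = a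
  card : Fintype.card F = q ^ 2
  cardU : Nat.card {x : F // σ x * x = 1} = q + 1

theorem hf_conj [Fintype F] {q : ℕ} (hF : Fintype.card F = q ^ 2) : HF (conj hF) q :=
  ⟨conj_ne_id hF, conj_conj hF, hF, by
    rw [← card_norm_eq hF 1 one_ne_zero (one_pow q)]; simp [pow_succ]⟩

namespace HF

variable [Fintype F] {q : ℕ} (hf : HF σ q)
include hf

theorem two_le : 2 ≤ q := two_le_of_card_eq_sq hf.card

theorem cardU' [DecidableEq F] : #{x : F | σ x * x = 1} = q + 1 := by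
  rw [← hf.cardU, Nat.card_eq_fintype_card, Fintype.card_subtype]

theorem exists_U (l : List F) (hl : l.length ≤ q) : ∃ x, σ x * x = 1 ∧ x ∉ l := by
  classical
  obtain ⟨x, h1, h2⟩ := exists_mem_notMem_of_card_lt_card (s := l.toFinset)
    (t := {x : F | σ x * x = 1}) (by rw [hf.cardU']; have := l.toFinset_card_le; omega)
  exact ⟨x, by simpa using h1, by simpa using h2⟩

theorem half [DecidableEq F] {a b : F} (ha : σ a = a) (hb : σ b = b) (a0 : a ≠ 0) (b0 : b ≠ 0) :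
    q ^ 2 < 2 * #((({x : F | σ x * x = 1} : Finset F) ×ˢ ({x : F | σ x * x = 1} : Finset F)).image
      fun p => p.1 * a + p.2 * b) := by
  set U : Finset F := {x : F | σ x * x = 1} with hU
  have h1 : #{p ∈ U ×ˢ U | p.1 * a + p.2 * b = 0} ≤ #U :=
    card_le_card_of_injOn Prod.snd (fun p hp => (mem_product.1 (mem_filter.1 hp).1).2)
      fun p hp p' hp' e => Prod.ext (mul_right_cancel₀ a0 (by
        linear_combination (mem_filter.1 hp).2 - (mem_filter.1 hp').2 - b * e)) e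
  have h2 := card_le_mul_card_image (f := fun p : F × F => p.1 * a + p.2 * b)
    {p ∈ U ×ˢ U | ¬ p.1 * a + p.2 * b = 0} 2 fun w _ => not_lt.1 fun h => by
      obtain ⟨x, hx, y, hy, z, hz, e1, e2, e3⟩ := two_lt_card.1 h
      simp only [mem_filter, mem_product, hU, mem_univ, true_and] at hx hy hz
      have k1 : ∀ {x y : F × F}, x ≠ y → x.1 * a + x.2 * b = w → y.1 * a + y.2 * b = w →
          x.2 ≠ y.2 := fun e h1 h2 e' =>
        e (Prod.ext (mul_right_cancel₀ a0 (by linear_combination h1 - h2 - b * e')) e')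
      have k2 : ∀ {x : F × F}, σ x.1 * x.1 = 1 → σ x.2 * x.2 = 1 → x.1 * a + x.2 * b = w →
          -b * σ w * x.2 ^ 2 + (w * σ w + b ^ 2 - a ^ 2) * x.2 + -b * w = 0 := fun {x} h1 h2 h3 => by
        simp only [← h3, map_add, map_mul, ha, hb]
        linear_combination (x.2 * a ^ 2) * h1 + (x.1 * a * b) * h2
      have := (quad3 (k1 e1 hx.2 hy.2) (k1 e2 hx.2 hz.2) (k1 e3 hy.2 hz.2)
        (k2 hx.1.1.1 hx.1.1.2 hx.2) (k2 hy.1.1.1 hy.1.1.2 hy.2) (k2 hz.1.1.1 hz.1.1.2 hz.2)).2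
      exact hx.1.2 (hx.2.trans (by simpa [b0] using this))
  have h3 := card_filter_add_card_filter_not (s := U ×ˢ U) fun p => p.1 * a + p.2 * b = 0
  have h4 := card_le_card (image_subset_image (f := fun p : F × F => p.1 * a + p.2 * b)
    (filter_subset (fun p => ¬ p.1 * a + p.2 * b = 0) (U ×ˢ U)))
  rw [card_product, hf.cardU'] at h3
  rw [hf.cardU'] at h1
  have := hf.two_le
  nlinarith

theorem four {a b c d : F} (ha : σ a = a) (hb : σ b = b) (hc : σ c = c) (hd : σ d = d) (a0 : a ≠ 0)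
    (b0 : b ≠ 0) (c0 : c ≠ 0) (d0 : d ≠ 0) (w : F) : ∃ x y z t, σ x * x = 1 ∧ σ y * y = 1 ∧
      σ z * z = 1 ∧ σ t * t = 1 ∧ x * a + y * b + (z * c + t * d) = w := by
  classical
  have h1 := hf.half ha hb a0 b0
  have h2 := hf.half hc hd c0 d0
  rw [← card_image_of_injective _ (sub_right_injective (b := w))] at h2
  have h3 := add_lt_add h1 h2
  rw [← two_mul, ← mul_add, ← hf.card, ← card_univ] at h3
  obtain ⟨v, hv⟩ := inter_nonempty_of_card_lt_card_add_card (subset_univ _) (subset_univ _)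
    (Nat.lt_of_mul_lt_mul_left h3)
  simp only [mem_inter, mem_image, mem_product, mem_filter, mem_univ, true_and] at hv
  obtain ⟨⟨p, e1, e2⟩, _, ⟨p', e3, rfl⟩, e4⟩ := hv
  exact ⟨_, _, _, _, e1.1, e1.2, e3.1, e3.2, by rw [e2, ← e4]; ring⟩

theorem exists_fun {ι : Type} [Fintype ι] [DecidableEq ι] {a f : ι → F} {S : Finset ι} (h4 : #S = 4)
    (ha : ∀ p ∈ S, σ (a p) = a p ∧ a p ≠ 0) (h1 : ∀ p, σ (f p) * f p = 1) (w : F) :
    ∃ g : ι → F, (∀ p, σ (g p) * g p = 1) ∧ (∀ p ∉ S, g p = f p) ∧ ∑ p, g p * a p = w := by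
  obtain ⟨i, j, k, l, e1, e2, e3, e4, e5, e6, rfl⟩ := card_eq_four.1 h4
  simp only [mem_insert, mem_singleton, forall_eq_or_imp, forall_eq] at ha
  obtain ⟨x, y, z, t, b1, b2, b3, b4, b5⟩ := hf.four ha.1.1 ha.2.1.1 ha.2.2.1.1 ha.2.2.2.1 ha.1.2
    ha.2.1.2 ha.2.2.1.2 ha.2.2.2.2 (w - ∑ p ∈ {i, j, k, l}ᶜ, f p * a p)
  refine ⟨fun p => if p = i then x else if p = j then y else if p = k then z else if p = l then t
    else f p, fun p => by dsimp only; split_ifs <;> simp [*], fun p hp => ?_, ?_⟩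
  · simp only [mem_insert, mem_singleton, not_or] at hp
    simp [hp]
  rw [← sum_add_sum_compl {i, j, k, l}, sum_congr (s₁ := {i, j, k, l}ᶜ) rfl (g := fun p => f p * a p)
    fun p hp => by
      simp only [mem_compl, mem_insert, mem_singleton, not_or] at hp
      simp [hp]]
  generalize ∑ p ∈ {i, j, k, l}ᶜ, f p * a p = r at *
  simp [e1, e2, e3, e4, e5, e6, e1.symm, e2.symm, e3.symm, e4.symm, e5.symm, e6.symm]
  linear_combination b5

theorem spread {Φ : Form σ V} {P : V → Prop} (hadd : ∀ a b, P a → P b → P (a + b))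
    (hsub : ∀ a b, P a → P b → P (a - b)) {x e : V} (hx : Φ.B x x = 1)
    (hr : ∀ l, σ l * l = 1 → ∀ e, P e → P (e + ((l - 1) * Φ.B x e) • x)) (he : P e)
    (h0 : Φ.B x e ≠ 0) (c : F) : P (c • x) := by
  obtain ⟨l, a1, a2⟩ := hf.exists_U [1] (by simpa using hf.two_le.trans' one_le_two)
  have a3 := hsub _ _ (hr l a1 e he) he
  rw [add_sub_cancel_left] at a3
  have a4 : (l - 1) * Φ.B x e ≠ 0 := mul_ne_zero (sub_ne_zero.2 (by simpa using a2)) h0
  have a5 : ∀ m, σ m * m = 1 → P ((m * ((l - 1) * Φ.B x e)) • x) := fun m hm => by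
    convert hr m hm _ a3 using 1
    simp [hx]; module
  obtain ⟨x, y, z, t, b1, b2, b3, b4, b5⟩ := hf.four (map_one σ) (map_one σ) (map_one σ) (map_one σ)
    one_ne_zero one_ne_zero one_ne_zero one_ne_zero (c / ((l - 1) * Φ.B x e))
  convert hadd _ _ (hadd _ _ (a5 x b1) (a5 y b2)) (hadd _ _ (a5 z b3) (a5 t b4)) using 1
  rw [← add_smul, ← add_smul, ← add_smul, ← div_mul_cancel₀ c a4, ← b5]
  ring_nf

end HF

variable {ι : Type} [Fintype ι] [DecidableEq ι]

variable (F) in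
/-- the monomial group of a basis -/
abbrev Mb (b : Basis ι F V) : Subgroup (V ≃ₗ[F] V) := decL fun i => F ∙ b i

/-- `K` contains the quasi-reflection with data `d, c` -/
def QR (Φ : Form σ V) (K : Subgroup (V ≃ₗ[F] V)) (d : V) (c : F) : Prop :=
  ∃ g ∈ K, ∀ v, g v = v + (c * Φ.B d v) • d

theorem QR.conj {Φ : Form σ V} {K : Subgroup (V ≃ₗ[F] V)} {d : V} {c : F} (h : QR Φ K d c)
    {g : V ≃ₗ[F] V} (hg : g ∈ K) (hO : g ∈ Φ.O) : QR Φ K (g d) c :=
  let ⟨k, h1, h2⟩ := h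
  ⟨g * k * g⁻¹, mul_mem (mul_mem hg h1) (inv_mem hg), fun v => by simp [h2, B_O_left hO]⟩

theorem exists_mb {b : Basis ι F V} {g : V ≃ₗ[F] V} (hg : g ∈ Mb F b) :
    ∃ (s : Equiv.Perm ι) (a : ι → F), ∀ i, g (b i) = a i • b (s i) := by
  obtain ⟨s, hs⟩ := hg
  choose a ha using fun i => Submodule.mem_span_singleton.1
    ((hs i).le ⟨_, Submodule.mem_span_singleton_self _, rfl⟩)
  exact ⟨s, a, fun i => (ha i).symm⟩

/-- an orthonormal basis of a hermitian space -/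
structure UF [Fintype F] (Φ : Form σ V) (b : Basis ι F V) (q : ℕ) : Prop extends HF σ q where
  ε : Φ.ε = 1
  orth : ∀ i j, Φ.B (b i) (b j) = if i = j then 1 else 0

namespace UF

variable [Fintype F] {Φ : Form σ V} {b : Basis ι F V} {q : ℕ} (h : UF Φ b q)
  {K : Subgroup (V ≃ₗ[F] V)} {x y z : V} {i j k : ι} {l : F} {g : V ≃ₗ[F] V}
include h

theorem kap : Φ.κ = 0 := κ_of_ne_id h.ne

theorem sy (x y : V) : Φ.B y x = σ (Φ.B x y) := by rw [Φ.symm, h.ε, one_mul]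

theorem expand (x : V) : ∑ i, Φ.B (b i) x • b i = x := by
  conv_rhs => rw [← b.sum_repr x]
  refine sum_congr rfl fun i _ => ?_
  conv_lhs => rw [← b.sum_repr x]
  simp [h.orth, -Basis.sum_repr]

theorem ext (e : ∀ i, Φ.B (b i) x = Φ.B (b i) y) : x = y := by
  rw [← h.expand x, ← h.expand y]; simp [e]

theorem B_sum (x y : V) : Φ.B x y = ∑ i, σ (Φ.B (b i) x) * Φ.B (b i) y := by
  conv_lhs => rw [← h.expand x]
  simp [B_smul_left]

theorem nd : Φ.Nondeg := fun x hx => h.ext fun i => by simp [h.sy x, hx]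

theorem sing (hx : Φ.B x x = 0) : Sing Φ x := ⟨hx, Q_of_κ h.kap x⟩

theorem mem_span (e : ∀ p, p ≠ i → Φ.B (b p) x = 0) : x ∈ F ∙ b i :=
  Submodule.mem_span_singleton.2 ⟨Φ.B (b i) x, h.ext fun p => by
    by_cases e' : p = i <;> simp [h.orth, e', e]⟩

theorem exists_qr {d : V} {c : F} (hc : c + σ c + c * σ c * Φ.B d d = 0) : ∃ g ∈ Φ.O,
    LinearMap.det g.toLinearMap = 1 + c * Φ.B d d ∧ ∀ v, g v = v + (c * Φ.B d v) • d := by
  have := b.finiteDimensional_of_finite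
  have h1 := Φ.qrefl_B (d := d) (c := c) (by simpa [h.ε])
  exact ⟨equivOfIsometry h.nd _ h1, ⟨h1, fun x => by rw [Q_of_κ h.kap, Q_of_κ h.kap]⟩,
    Φ.det_qrefl d c, fun x => Φ.qrefl_apply d c x⟩

theorem exists_diag {f : ι → F} (hf : ∀ p, σ (f p) * f p = 1) : ∃ g ∈ Mb F b ⊓ Φ.O,
    LinearMap.det g.toLinearMap = ∏ p, f p ∧ ∀ p v, Φ.B (b p) (g v) = f p * Φ.B (b p) v := by
  have := b.finiteDimensional_of_finite
  have h0 : ∀ p v, Φ.B (b p) (b.constr F (fun p => f p • b p) v) = f p * Φ.B (b p) v := fun p v => by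
    conv => enter [1, 2, 2]; rw [← h.expand v]
    simp [h.orth, mul_comm]
  have h1 : ∀ x y, Φ.B (b.constr F (fun p => f p • b p) x) (b.constr F (fun p => f p • b p) y) =
      Φ.B x y := fun x y => by
    rw [h.B_sum, h.B_sum x]
    exact sum_congr rfl fun p _ => by
      rw [h0, h0, map_mul]; linear_combination (σ (Φ.B (b p) x) * Φ.B (b p) y) * hf p
  refine ⟨equivOfIsometry h.nd _ h1, ⟨Fr.mem_dec fun p => ⟨p, h.mem_span fun r hr =>
    (h0 _ _).trans (by simp [h.orth, hr])⟩, h1, fun x => by rw [Q_of_κ h.kap, Q_of_κ h.kap]⟩,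
    ?_, h0⟩
  rw [← Matrix.det_diagonal, ← LinearMap.det_toMatrix b]
  congr 1
  ext i j
  change LinearMap.toMatrix b b (b.constr F fun p => f p • b p) i j = _
  by_cases e : i = j <;> simp [LinearMap.toMatrix_apply, e, Finsupp.single_apply, eq_comm]

theorem exists_r (i : ι) (hl : σ l * l = 1) : ∃ g ∈ Mb F b ⊓ Φ.O,
    LinearMap.det g.toLinearMap = l ∧ ∀ v, g v = v + ((l - 1) * Φ.B (b i) v) • b i := by
  obtain ⟨g, a1, a2, a3⟩ := h.exists_qr (d := b i) (c := l - 1) (by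
    simp [h.orth]; linear_combination hl)
  exact ⟨g, ⟨Fr.mem_dec fun p => ⟨p, h.mem_span fun r hr => by
    by_cases e : i = p <;> simp [a3, h.orth, hr, e]⟩, a1⟩, by simpa [h.orth] using a2, a3⟩

theorem exists_swap (hij : i ≠ j) : ∃ g ∈ Mb F b ⊓ Φ.O, LinearMap.det g.toLinearMap = -1 ∧
    ∀ p v, Φ.B (b p) (g v) = Φ.B (b (Equiv.swap i j p)) v := by
  obtain ⟨g, a1, a2, a3⟩ := h.exists_qr (d := b i - b j) (c := -1) (by
    simp [h.orth, hij, hij.symm])
  have a4 : ∀ p v, Φ.B (b p) (g v) = Φ.B (b (Equiv.swap i j p)) v := fun p v => by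
    rw [Equiv.swap_apply_def]
    split_ifs with e1 e2 <;> simp [a3, h.orth, *, hij.symm]
  exact ⟨g, ⟨Fr.mem_dec fun p => ⟨Equiv.swap i j p, h.mem_span fun r hr => by
    simp [a4, h.orth, Equiv.swap_apply_eq_iff, hr]⟩, a1⟩,
    by simp [a2, h.orth, hij, hij.symm], a4⟩

variable (K b) in
omit h in
/-- the orbit of the frame -/
def XX (x : V) : Prop := ∃ g ∈ K, ∃ i, x = g (b i)

omit h in
theorem XX.map (hx : XX b K x) (hg : g ∈ K) : XX b K (g x) :=
  let ⟨k, h1, i, e⟩ := hx; ⟨g * k, mul_mem hg h1, i, by simp [e]⟩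

variable (hK : K ≤ Φ.O) (hM : Mb F b ⊓ Φ.O ≤ K)
include hK

theorem norm (hx : XX b K x) : Φ.B x x = 1 := by
  obtain ⟨g, h1, i, rfl⟩ := hx
  simp [(hK h1).1, h.orth]

include hM

theorem qr (hx : XX b K x) (hl : σ l * l = 1) : QR Φ K x (l - 1) := by
  obtain ⟨g, h1, i, rfl⟩ := hx
  obtain ⟨k, a1, -, a2⟩ := h.exists_r i hl
  exact QR.conj ⟨k, hM a1, a2⟩ h1 (hK h1)

theorem aIn_spread {e : V} (hz : Sing Φ z) (hx : XX b K x) (h1 : Φ.B x z = 0) (he : Φ.AIn K z e)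
    (h0 : Φ.B x e ≠ 0) (c : F) : Φ.AIn K z (c • x) :=
  h.spread (fun _ _ => AIn.add hz) (fun _ _ => AIn.sub hz) (h.norm hK hx) (fun l hl e he => by
    obtain ⟨g, a1, a2⟩ := h.qr hK hM hx hl
    simpa [a2, h1] using he.conj a1 (hK a1)) he h0 c

theorem aIn_w (h1 : Φ.B (b j) z = 0) (hy : XX b K (b j + z)) (c : F) :
    Sing Φ z ∧ Φ.AIn K z (c • b j) := by
  have h2 := Φ.B_eq_zero_symm h1
  have hz : Sing Φ z := h.sing (by simpa [h.orth, h1, h2] using h.norm hK hy)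
  have hx : XX b K (b j) := ⟨1, one_mem _, j, rfl⟩
  obtain ⟨l, a1, a2⟩ := h.exists_U [1] (by simpa using h.two_le.trans' one_le_two)
  obtain ⟨g, b1, b2⟩ := h.qr hK hM hy a1
  obtain ⟨k, b3, b4⟩ := h.qr hK hM hx (l := σ l) (by rw [h.inv, mul_comm, a1])
  have a3 := h.spread (P := fun e => ∃ s, EichData Φ z e s ∧ Φ.EIn K z e s)
    (fun _ _ ⟨s, c1, c2⟩ ⟨s', c3, c4⟩ => ⟨_, c1.add c3, c2.add c4 hz.1 c1.perp c3.perp⟩)
    (fun _ _ ⟨s, c1, c2⟩ ⟨s', c3, c4⟩ => sub_eq_add_neg (G := V) _ _ ▸ ⟨_, c1.add c3.neg,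
      c2.add (c4.neg hz.1 c3.perp) hz.1 c1.perp c3.neg.perp⟩) (h.norm hK hx)
    (fun l hl e ⟨s, c1, c2⟩ => by
      obtain ⟨g, c3, c4⟩ := h.qr hK hM hx hl
      exact ⟨s, by simpa [c4, h1] using c1.mapO (hK c3), by simpa [c4, h1] using c2.conj c3 (hK c3)⟩)
    (e := (1 - l) • b j) ⟨1 - σ l, ⟨hz, by simp [h2], by
      simp [B_smul_left, h.orth, h.ε, h.inv]; linear_combination a1, by simp [h.kap, Q_of_κ h.kap]⟩,
      g * k, mul_mem b1 b3, fun v => by
        simp [b2, b4, eichler_apply, B_smul_left, h.orth, h2, h.ε, h.inv]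
        match_scalars <;> [ring; linear_combination (Φ.B (b j) v) * a1;
          linear_combination (Φ.B (b j) v) * a1]⟩
    (by simpa [h.orth, sub_eq_zero, @eq_comm _ _ l] using a2)
  have a4 : Φ.AIn K z 0 := ⟨by simp, fun s hs => by
    obtain ⟨t, ht⟩ := DFunLike.ne_iff.1 h.ne
    have c0 : t - σ t ≠ 0 := sub_ne_zero.2 (Ne.symm ht)
    have c1 : σ s = -s := by have := hs.trB; simp [h.ε] at this; linear_combination -this
    obtain ⟨s₁, c2, c3⟩ := a3 1
    obtain ⟨s₂, c4, c5⟩ := a3 (-s / (t - σ t) * t)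
    convert (c3.add c5 hz.1 c2.perp c4.perp).add ((c5.add c3 hz.1 c4.perp c2.perp).neg hz.1
      (c4.add c2).perp) hz.1 (c2.add c4).perp (c4.add c2).neg.perp using 1
    · abel
    · have c6 : σ t - t ≠ 0 := sub_ne_zero.2 ht
      simp [B_smul_left, h.orth, c1, h.inv]
      field_simp
      ring⟩
  obtain ⟨s, c1, c2⟩ := a3 c
  exact ⟨hz, a4.of_eIn c1 c2⟩

theorem E_le_w (h0 : z ≠ 0) (h1 : Φ.B (b j) z = 0) (hy : XX b K (b j + z)) : Φ.E ≤ K := by
  have := b.finiteDimensional_of_finite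
  have hz := (h.aIn_w hK hM h1 hy 0).1
  let A : Submodule F V :=
    { carrier := {e | ∀ c : F, Φ.AIn K z (c • e)}
      add_mem' := fun ha hb c => by rw [smul_add]; exact (ha c).add hz (hb c)
      zero_mem' := fun c => by simpa using (h.aIn_w hK hM h1 hy 0).2
      smul_mem' := fun a _ ha c => by rw [smul_smul]; exact ha _ }
  have a1 : b j ∈ A := fun c => (h.aIn_w hK hM h1 hy c).2
  have a2 : z ∈ A := fun c => by simpa using (A.zero_mem 0).add_smul hz c
  obtain ⟨k, hk⟩ : ∃ k, Φ.B (b k) z ≠ 0 := by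
    by_contra! e
    exact h0 (h.ext (by simp [e]))
  have hkj : j ≠ k := by rintro rfl; exact hk h1
  obtain ⟨m, a3, a4⟩ := h.exists_U [1] (by simpa using h.two_le.trans' one_le_two)
  replace a4 : m - 1 ≠ 0 := sub_ne_zero.2 (by simpa using a4)
  obtain ⟨r, a5, -, a6⟩ := h.exists_r k a3
  have hk' : σ (Φ.B (b k) z) ≠ 0 := by simpa
  have a7 : ∀ i, b i - (σ (Φ.B (b i) z) / σ (Φ.B (b k) z)) • b k ∈ A := fun i => by
    by_cases e : Φ.B (b i) z = 0
    · by_cases e' : j = i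
      · simpa [← e', h1] using a1
      obtain ⟨g, b1, -, b2⟩ := h.exists_swap e'
      have b3 : g z = z := h.ext fun p => by
        rw [b2, Equiv.swap_apply_def]; split_ifs <;> simp [*]
      have b4 : g (b j) = b i := h.ext fun p => by simp [b2, h.orth, Equiv.swap_apply_eq_iff]
      exact fun c => by simpa [b3, b4, e] using (a1 c).conj (hM b1) b1.2
    by_cases e' : k = i
    · simp [← e', hk]
    have hij : j ≠ i := by rintro rfl; exact e h1
    obtain ⟨c, hc⟩ := exists_norm_eq_of_invol h.ne h.inv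
      (μ := -(σ (Φ.B (b k) z) * Φ.B (b k) z)⁻¹) (by simp [h.inv, mul_comm])
    have c0 : c ≠ 0 := by rintro rfl; simp [hk] at hc
    obtain ⟨b1, b2⟩ := h.aIn_w hK hM (j := j) (z := r z) (by simp [a6, h1, h.orth, hkj])
      (by simpa [a6, h.orth, hkj.symm, add_assoc] using hy.map (hM a5)) c
    have m0 : m ≠ 0 := by rintro rfl; simp at a3
    have m1 : σ m = m⁻¹ := eq_inv_of_mul_eq_one_left a3
    have m2 : 1 - m ≠ 0 := fun e => a4 (by linear_combination -e)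
    obtain ⟨T, b3, b4⟩ := b2.2 (σ ((m - 1) * (σ (Φ.B (b k) z) * Φ.B (b k) z))⁻¹) ⟨b1, b2.1, by
      simp [B_smul_left, h.orth, h.ε, h.inv, mul_comm c, hc, m1]; field_simp; ring,
      by simp [h.kap, Q_of_κ h.kap]⟩
    have b5 : T (b i) = b i - (σ (Φ.B (b i) z) / σ (Φ.B (b k) z)) • b k -
        (σ (Φ.B (b i) z) / ((m - 1) * (σ (Φ.B (b k) z) * Φ.B (b k) z))) • z -
        (σ (Φ.B (b i) z) * c) • b j := by
      simp [b4, eichler_apply, a6, B_smul_left, h.orth, hij, e', h.ε, h.inv, h.sy (b i) z]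
      match_scalars <;> field_simp
    have b6 := h.aIn_spread hK hM hz (XX.map ⟨1, one_mem _, i, rfl⟩ b3) (x := T (b i)) (by
      simp [b5, B_smul_left, hz.1, h1, h.inv, hk]) (a1 1) (by
      simp [b5, B_smul_left, h.orth, hkj.symm, hij.symm, Φ.B_eq_zero_symm h1, h.inv, e, c0])
    simpa [b5] using A.add_mem (A.add_mem b6 (A.smul_mem (σ (Φ.B (b i) z) * c) a1))
      (A.smul_mem (σ (Φ.B (b i) z) / ((m - 1) * (σ (Φ.B (b k) z) * Φ.B (b k) z))) a2)
  refine E_le_of_qIn_of_mem h.nd hz (qIn_iff.2 fun e he => ?_) (hM a5) a5.2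
    (by simp [a6, hz.1, a4, hk, h.sy (b k) z])
  have a8 := A.sum_mem (t := univ) fun i _ => A.smul_mem (Φ.B (b i) e) (a7 i)
  rw [h.B_sum] at he
  simp only [smul_sub, sum_sub_distrib, h.expand, smul_smul, ← sum_smul, ← mul_div_assoc,
    ← sum_div] at a8
  simp only [mul_comm (Φ.B _ e), he] at a8
  simpa using a8 1

theorem E_le_of_one (hx : XX b K x) (hy : XX b K y) (h1 : Φ.B x y = 1) (h0 : x ≠ y) : Φ.E ≤ K := by
  obtain ⟨g, a1, i, rfl⟩ := hx
  refine h.E_le_w hK hM (j := i) (z := g⁻¹ y - b i) (fun e => h0 (by simp [← sub_eq_zero.1 e]))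
    (by rw [map_sub, ← B_O_left (hK a1), h1]; simp [h.orth]) (by simpa using hy.map (inv_mem a1))

open Classical in
theorem grow (hN : ¬ Φ.E ≤ K) (hx : XX b K x) (h2 : 2 ≤ #{p | Φ.B (b p) x ≠ 0})
    (hj : Φ.B (b j) x = 0) :
    ∃ y, XX b K y ∧ #{p | Φ.B (b p) x ≠ 0} + 1 ≤ #{p | Φ.B (b p) y ≠ 0} := by
  obtain ⟨i, hi, k, hk, hik⟩ := one_lt_card.1 h2
  simp only [mem_filter, mem_univ, true_and] at hi hk
  have hij : i ≠ j := by rintro rfl; exact hi hj
  have a1 : 1 - σ (Φ.B (b i) x) * Φ.B (b i) x ≠ 0 := fun e => by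
    obtain ⟨r, b1, -, b2⟩ := h.exists_r i (sub_eq_zero.1 e).symm
    refine hN (h.E_le_of_one hK hM ⟨r, hM b1, i, rfl⟩ hx ?_ fun e' => hk ?_)
    · simp [b2, h.orth, B_smul_left]; linear_combination -e
    · rw [← e']; simp [b2, h.orth, hik.symm]
  obtain ⟨g, b1, -, b2⟩ := h.exists_swap hij
  have b3 : g x = x - Φ.B (b i) x • b i + Φ.B (b i) x • b j := h.ext fun p => by
    rw [b2, Equiv.swap_apply_def]; split_ifs <;> simp [*, h.orth, hij.symm]
  obtain ⟨l, a2, a3⟩ := h.exists_U [1, 1 - (1 - σ (Φ.B (b i) x) * Φ.B (b i) x)⁻¹] h.two_le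
  simp only [List.mem_cons, List.not_mem_nil, or_false, not_or] at a3
  obtain ⟨r, b4, b5⟩ := h.qr hK hM hx a2
  have b6 : Φ.B x (g x) = 1 - σ (Φ.B (b i) x) * Φ.B (b i) x := by
    simp [b3, h.norm hK hx, h.sy (b i) x, Φ.B_eq_zero_symm hj, mul_comm]
  refine ⟨_, (hx.map (hM b1)).map b4, ?_⟩
  rw [← card_insert_of_notMem (a := j) (by simp [hj])]
  refine card_le_card fun p hp => ?_
  simp only [mem_insert, mem_filter, mem_univ, true_and] at hp ⊢
  rw [b5, b6, b3]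
  rcases hp with rfl | hp
  · simp [h.orth, hj, hi, hij.symm]
  by_cases e : p = i
  · simp [e, h.orth, hij, hi, a1, sub_eq_zero, a3.1]
  have e' : p ≠ j := by rintro rfl; exact hp hj
  simp only [map_add, map_sub, map_smul, h.orth, if_neg e, if_neg e', smul_eq_mul, mul_zero,
    sub_zero, add_zero]
  exact fun e2 => a3.2 (by field_simp; exact mul_left_cancel₀ hp (by linear_combination e2))

theorem E_le_of_notMem (hn : 5 ≤ Fintype.card ι) (hg : g ∈ K) (hg' : g ∉ Mb F b) : Φ.E ≤ K := by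
  classical
  by_contra hN
  have : Nonempty ι := Fintype.card_pos_iff.1 (by omega)
  have key : ∀ m, m + 2 ≤ Fintype.card ι → ∃ x, XX b K x ∧ m + 2 ≤ #{p | Φ.B (b p) x ≠ 0} := by
    intro m hm
    induction m with
    | zero =>
      by_contra! e
      refine hg' (Fr.mem_dec fun i => ?_)
      obtain ⟨j, hj⟩ := card_le_one_iff_subset_singleton.1 (Nat.lt_succ_iff.1 (e _ ⟨g, hg, i, rfl⟩))
      exact ⟨j, h.mem_span fun p hp => by_contra fun e' => hp (by simpa using hj (by simpa))⟩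
    | succ m ih =>
      obtain ⟨x, a1, a2⟩ := ih (by omega)
      by_cases e : ∃ j, Φ.B (b j) x = 0
      · obtain ⟨j, hj⟩ := e
        obtain ⟨y, a3, a4⟩ := h.grow hK hM hN a1 (by omega) hj
        exact ⟨y, a3, by omega⟩
      · exact ⟨x, a1, by rw [filter_true_of_mem (by simpa using e)]; simpa using hm⟩
  obtain ⟨x, a1, a2⟩ := key 3 hn
  obtain ⟨S, a3, a4⟩ := exists_subset_card_eq (s := {p | Φ.B (b p) x ≠ 0}) (n := 4) (by omega)
  obtain ⟨p, a5, a6⟩ := exists_mem_notMem_of_card_lt_card (s := S) (t := {p | Φ.B (b p) x ≠ 0})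
    (by omega)
  obtain ⟨l, a7, a8⟩ := h.exists_U [1] (by simpa using h.two_le.trans' one_le_two)
  obtain ⟨f, b1, b2, b3⟩ := h.exists_fun a4 (a := fun p => σ (Φ.B (b p) x) * Φ.B (b p) x)
    (fun p hp => ⟨by simp [h.inv, mul_comm], by simpa using a3 hp⟩) (fun _ => a7) 1
  obtain ⟨d, b4, -, b5⟩ := h.exists_diag b1
  refine hN (h.E_le_of_one hK hM a1 (a1.map (hM b4)) (by
    rw [h.B_sum, ← b3]; simp [b5, mul_left_comm]) fun e => a8 ?_)
  have := b5 p x
  rw [← e, b2 p a6] at this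
  simpa [show Φ.B (b p) x ≠ 0 by simpa using a5] using this.symm

end UF

end H23.Uf
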