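import Cfsg.Agent.H26.Rv1
import Cfsg.Agent.H22.LsE
import Cfsg.Agent.H23.Classify

/-! The Weil character as a real-vector function. -/

set_option autoImplicit false

namespace H23.Wl

open Cfsg H17 H19 H26Rv Subgroup Module H22 H22.Ls H23.Form

universe u

section

variable {F V W : Type*} [Field F] [AddCommGroup V] [Module F V] [AddCommGroup W] [Module ℂ W]
  {Φ : Form (RingHom.id F) V} {ψ : AddChar F ℂ} (D : WD Φ ψ W) [Fintype V] [FiniteDimensional ℂ W]

theorem repr_w [DecidableEq V] (u z : V) : D.bs.repr (D.w u) z = if u = z then 1 else 0 := by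
  rw [← D.bs_apply, Basis.repr_self, Finsupp.single_apply]

theorem repr_sum {ι : Type*} [Fintype ι] (c : ι → ℂ) (f : ι → V) [DecidableEq V]
    (z : V) : D.bs.repr (∑ i, c i • D.w (f i)) z = ∑ i, if f i = z then c i else 0 := by
  simp only [map_sum, map_smul, ← D.bs_apply, Basis.repr_self, Finsupp.coe_finsetSum,
    Finset.sum_apply, Finsupp.smul_apply, Finsupp.single_apply, smul_eq_mul, mul_ite, mul_one,
    mul_zero]

theorem repr_mul (X Y : End ℂ W) (z : V) : D.bs.repr (X * Y) z =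
    ∑ u, D.bs.repr X u * D.bs.repr Y (z - u) * ψ (Φ.B u (z - u) / 2) := by
  classical
  conv_lhs => rw [← D.bs.sum_repr X, ← D.bs.sum_repr Y, Finset.sum_mul_sum]
  simp only [smul_mul_smul_comm, D.bs_apply, D.mul, smul_smul,
    map_sum, map_smul, Finsupp.coe_finsetSum, Finset.sum_apply, Finsupp.smul_apply]
  refine Finset.sum_congr rfl fun u _ => ?_
  rw [Finset.sum_eq_single (z - u) (fun v _ hv => by
    rw [repr_w, if_neg (fun e => hv (by simp [← e])), smul_zero]) (by simp)]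
  simp [repr_w]

theorem repr_smul_one (c : ℂ) : D.bs.repr (c • 1) 0 = c := by
  classical
  rw [← D.zero]; simp [repr_w]

theorem weil_eq {M N : End ℂ W} {g : V →ₗ[F] V} (hM : ∀ v, M * D.w v = D.w (g v) * M)
    (h1 : M * N = 1) : ∑ u, ψ (-(Φ.B (g u) u / 2)) • D.w (g u - u) =
      (finrank ℂ W * LinearMap.trace ℂ W N) • M := by
  obtain ⟨c, hc⟩ := D.scalar (T := ∑ u, D.w u * N * D.w (-u)) fun v => by
    simp only [Finset.sum_mul, Finset.mul_sum]
    refine (Fintype.sum_equiv (Equiv.addLeft v) _ _ fun u => ?_).symm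
    rw [← mul_assoc, ← mul_assoc, D.mul, mul_assoc _ _ (D.w v), D.mul]
    simp [D.alt, D.skew u v, neg_div]
  have a1 := congrArg (LinearMap.trace ℂ W) hc
  simp only [map_sum, map_smul, LinearMap.trace_one, LinearMap.trace_mul_comm ℂ (_ * N),
    ← mul_assoc, D.neg_mul, one_mul, Finset.sum_const, Finset.card_univ, nsmul_eq_mul, D.dim',
    smul_eq_mul] at a1
  rw [show (finrank ℂ W : ℂ) * LinearMap.trace ℂ W N = c from
    mul_right_cancel₀ D.dim_ne (by linear_combination a1), ← mul_one M, ← mul_smul_comm, ← hc,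
    Finset.mul_sum]
  refine Finset.sum_congr rfl fun u _ => ?_
  rw [← mul_assoc, ← mul_assoc, hM, mul_assoc _ M, h1, mul_one, D.mul]
  simp [sub_eq_add_neg, neg_div]

end

variable {p : ℕ} [Fact p.Prime] {H : Type u} [Group H] [Finite H] {O : ValuationSubring ℂ}

theorem exists_wd (h2 : (2 : ZMod p) ≠ 0) {U : Type u} [AddCommGroup U] [Module (ZMod p) U]
    [Finite U] {β : U →ₗ[ZMod p] U →ₗ[ZMod p] ZMod p} (hA : LinearMap.BilinForm.IsAlt β)
    (hn : (ofAlt β hA).Nondeg) {ψ : AddChar (ZMod p) ℂ} (hψ : ∃ a, ψ a ≠ 1) :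
    ∃ m : ℕ, Nonempty (WD (ofAlt β hA) ψ ((Fin m → ZMod p) → ℂ)) := by
  obtain ⟨m, b, h3, h4, h5⟩ := exists_symplectic_basis hA hn
  have h6 : ∀ i j, β (b (.inr i)) (b (.inl j)) = -if j = i then 1 else 0 := fun i j => by
    rw [← h3, hA.neg_eq]
  let D := stdWD (ZMod p) m h2 hψ
  refine ⟨m, ⟨⟨fun u => D.w (b.equivFun u ∘ Sum.swap), fun u v => ?_, ?_, ?_, hn, rfl, rfl, h2,
    hψ⟩⟩⟩
  · rw [D.mul, map_add]
    congr 3
    change _ = β u v
    conv_rhs => rw [← b.sum_equivFun u, ← b.sum_equivFun v]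
    simp only [map_sum, map_smul, LinearMap.sum_apply, LinearMap.smul_apply,
      Fintype.sum_sum_type, map_add, LinearMap.add_apply, h3, h4, h5, h6]
    simp [H22.spForm_B, H22.sympForm_eq, mul_comm, sub_eq_add_neg, Finset.sum_add_distrib,
      add_comm]
  · rw [map_zero]; exact D.zero
  · rw [D.dim]; exact Nat.card_congr b.equivFun.toEquiv.symm

theorem weil [CharP (kk O) p] (hi : InvP p H) : WeilP p H O := by
  classical
  intro hp U _ _ _ ρ β hinv hA hn
  have := Fintype.ofFinite U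
  have h2 : (2 : ZMod p) ≠ 0 := fun e => hp ((Nat.prime_dvd_prime_iff_eq Fact.out Nat.prime_two).1
    ((ZMod.natCast_eq_zero_iff 2 p).1 e))
  have hA' : LinearMap.BilinForm.IsAlt β := hA
  set e : AddChar (ZMod p) ℂ := ZMod.stdAddChar
  have he : ∀ a, e a ^ p = 1 := fun a => by
    rw [← AddChar.map_nsmul_eq_pow]; simp
  have hz : ∀ a, IsIntegral ℤ (e a) := fun a =>
    IsIntegral.of_pow (Fact.out : p.Prime).pos (by rw [he]; exact isIntegral_one)
  obtain ⟨m, ⟨D⟩⟩ := exists_wd h2 hA' hn (ψ := e) ⟨1, fun h => by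
    simpa using ZMod.injective_stdAddChar (h.trans (AddChar.map_zero_eq_one _).symm)⟩
  obtain ⟨ω₀, hω₀⟩ := D.exists_weil
  let φ : H →* (ofAlt β hA').O := MonoidHom.mk' (fun h => ⟨LinearEquiv.ofLinearMap (ρ h) (ρ h⁻¹)
      (by rw [← Module.End.mul_eq_comp, ← map_mul]; simp [Module.End.one_eq_id])
      (by rw [← Module.End.mul_eq_comp, ← map_mul]; simp [Module.End.one_eq_id]),
        hinv h, fun _ => rfl⟩) fun a b => Subtype.ext (LinearEquiv.ext fun v => by simp)
  obtain ⟨ω, hω⟩ : ∃ ω : Representation ℂ H ((Fin m → ZMod p) → ℂ),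
      ∀ h v, ω h * D.w v = D.w (ρ h v) * ω h := ⟨ω₀.comp φ, fun h v => hω₀ (φ h) v⟩
  have hχ := isCharacter_character ω
  have d0 := D.dim_ne
  have d2 := D.dim
  have hd : ω.character 1 = finrank ℂ ((Fin m → ZMod p) → ℂ) := by simp
  have a1 : ∀ h, ∑ u, e (-(β (ρ h u) u / 2)) • D.w (ρ h u - u) =
      (finrank ℂ ((Fin m → ZMod p) → ℂ) * ω.character h⁻¹) • ω h := fun h =>
    weil_eq D (hω h) (N := ω h⁻¹) (by rw [← map_mul]; simp)
  have a0 : ∀ h (c : ℂ), ∑ u, (if ρ h u = u then c else 0) = fx ρ ⊤ h * c := fun h c => by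
    simp [fx, Finset.sum_ite, Fintype.card_subtype]
  have f0 : ∀ h, (fx ρ ⊤ h : ℂ) ≠ 0 := fun h =>
    Nat.cast_ne_zero.2 (Nat.card_ne_zero.2 ⟨⟨⟨0, by simp⟩⟩, inferInstance⟩)
  have a2 : ∀ h, ω.character h⁻¹ * ω.character h = fx ρ ⊤ h := fun h => by
    have := congrArg (LinearMap.trace ℂ _) (a1 h)
    rw [map_sum, map_smul, Finset.sum_congr rfl (g := fun u => if ρ h u = u then
      (finrank ℂ ((Fin m → ZMod p) → ℂ) : ℂ) else 0) fun u _ => by
        split_ifs with e'
        · simp [e', hA, D.zero]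
        · rw [map_smul, D.tr (sub_ne_zero.2 e'), smul_zero], a0] at this
    exact mul_left_cancel₀ d0 (by rw [← mul_assoc, mul_comm _ (fx ρ ⊤ h : ℂ), this]; rfl)
  generalize finrank ℂ ((Fin m → ZMod p) → ℂ) = d at *
  have a3 : ∀ h y, (y ∉ LinearMap.range (ρ h - 1) ∧
      D.bs.repr ((d * ω.character h⁻¹ / fx ρ ⊤ h) • ω h) y = 0) ∨
      (y ∈ LinearMap.range (ρ h - 1) ∧ ∃ s,
        D.bs.repr ((d * ω.character h⁻¹ / fx ρ ⊤ h) • ω h) y = e s) := fun h y => by
    rw [div_eq_inv_mul, mul_smul, ← a1, map_smul, Finsupp.smul_apply, repr_sum]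
    by_cases hy : y ∈ LinearMap.range (ρ h - 1)
    · obtain ⟨u₀, rfl⟩ := hy
      refine .inr ⟨⟨u₀, rfl⟩, -(β (ρ h u₀) u₀ / 2), ?_⟩
      rw [smul_eq_mul, inv_mul_eq_iff_eq_mul₀ (f0 h), ← a0]
      refine (Fintype.sum_equiv (Equiv.addLeft u₀) _ _ fun k => ?_).symm
      by_cases e' : ρ h k = k
      · have b1 := hinv h u₀ k
        have b2 := hA'.neg_eq u₀ k
        rw [e'] at b1
        simp [e', b1, ← b2, hA]
      · rw [if_neg e', if_neg fun e'' => e' ?_]
        simp at e''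
        linear_combination (norm := module) e''
    exact .inl ⟨hy, smul_eq_zero_of_right _
      (Finset.sum_eq_zero fun u _ => if_neg fun e' => hy ⟨u, e'⟩)⟩
  have a4 : ∀ h n y, IsIntegral ℤ
      (D.bs.repr (((d * ω.character h⁻¹ / fx ρ ⊤ h) • ω h) ^ (n + 1)) y) := fun h n => by
    have b1 : ∀ y, IsIntegral ℤ (D.bs.repr ((d * ω.character h⁻¹ / fx ρ ⊤ h) • ω h) y) :=
      fun y => by
        rcases a3 h y with ⟨-, e'⟩ | ⟨-, s, e'⟩ <;> rw [e']
        exacts [isIntegral_zero, hz s]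
    induction n with
    | zero => simpa using b1
    | succ n ih =>
      intro y
      rw [pow_succ, repr_mul]
      exact IsIntegral.sum _ fun u _ => ((ih u).mul (b1 _)).mul (hz _)
  have a5 : ∀ h (c : ℂ) n, D.bs.repr ((c • ω h) ^ (n * Nat.card H)) 0 = c ^ (n * Nat.card H) :=
    fun h c n => by
      rw [smul_pow, ← map_pow, mul_comm n, pow_mul, pow_mul h, pow_card_eq_one', one_pow, map_one,
        repr_smul_one]
  obtain ⟨k, hk⟩ : ∃ k, Nat.card H = k + 1 := ⟨_, (Nat.succ_pred_eq_of_pos Nat.card_pos).symm⟩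
  refine ⟨fun h => d * ω.character h⁻¹ / fx ρ ⊤ h, fun σ h => ?_, ?_, fun h => ?_, fun h hh => ?_,
    ?_⟩
  · have b1 := (hχ.map_ringHom σ.toRingHom).conj_apply h⁻¹
    have b2 : ((‖σ (ω.character h⁻¹)‖ ^ 2 : ℝ) : ℂ) = fx ρ ⊤ h := by
      rw [← Complex.normSq_eq_norm_sq, Complex.normSq_eq_conj_mul_self, ← map_natCast σ, ← a2,
        map_mul, mul_comm]
      congr 1
      simpa using b1
    have b3 : ‖σ (ω.character h⁻¹)‖ ^ 2 = fx ρ ⊤ h := by exact_mod_cast b2
    have b4 : (fx ρ ⊤ h : ℝ) ≠ 0 := by exact_mod_cast f0 h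
    rw [map_div₀, map_mul, map_natCast, map_natCast, norm_div, norm_mul, div_pow, mul_pow, b3,
      ← d2]
    simp only [Complex.norm_natCast]
    push_cast
    exact le_of_eq (by field_simp)
  · have := a2 1
    rw [inv_one, hd] at this
    simp only [inv_one, hd, this, div_self (f0 1)]
  · have := a4 h k 0
    rw [← hk, ← one_mul (Nat.card H), a5, one_mul] at this
    exact this.of_pow Nat.card_pos
  · have b0 : p ∣ Nat.card (LinearMap.range (ρ h - 1)) := by
      rw [Module.natCard_eq_pow_finrank (K := ZMod p), Nat.card_zmod]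
      refine dvd_pow_self p fun e' => hh ?_
      rw [Submodule.finrank_eq_zero, LinearMap.range_eq_bot, sub_eq_zero] at e'
      simp [fx, e']
    have a3' := a3 h
    set X := (d * ω.character h⁻¹ / fx ρ ⊤ h) • ω h
    have b1 : ∀ z, D.bs.repr (X * X) z ∈ O.nonunits := fun z => by
      have c1 : (∑ u, if u ∈ LinearMap.range (ρ h - 1) ∧ z - u ∈ LinearMap.range (ρ h - 1) then
          (1 : ℂ) else 0) ∈ O.nonunits := by
        by_cases hz : z ∈ LinearMap.range (ρ h - 1)
        · rw [Finset.sum_congr rfl (g := fun u => if u ∈ LinearMap.range (ρ h - 1) then 1 else 0)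
            fun u _ => if_congr (and_iff_left_of_imp (sub_mem hz)) rfl rfl, Finset.sum_boole]
          exact (natCast_mem_nonunits_iff p _).2 (by
            rwa [Nat.card_eq_fintype_card, Fintype.card_subtype] at b0)
        rw [Finset.sum_eq_zero fun u _ => if_neg fun e' => hz (by simpa using add_mem e'.1 e'.2)]
        exact zero_mem _
      rw [repr_mul, ← sub_add_cancel (Finset.sum _ _) _, ← Finset.sum_sub_distrib]
      refine add_mem (sum_mem fun u _ => ?_) c1
      rcases a3' u with ⟨c2, c3⟩ | ⟨c2, s, c3⟩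
      · simp [c2, c3, zero_mem]
      rcases a3' (z - u) with ⟨c4, c5⟩ | ⟨c4, s', c5⟩
      · simp [c4, c5, zero_mem]
      rw [c3, c5, if_pos ⟨c2, c4⟩, ← AddChar.map_add_eq_mul, ← AddChar.map_add_eq_mul]
      exact sub_one_mem_nonunits_of_pow_prime_pow p (n := 1) (by rw [pow_one, he])
    rw [← pow_mem_nonunits_iff (n := 3 * Nat.card H) (by omega), ← a5, hk,
      show 3 * (k + 1) = 2 + (3 * k + 1) by ring, pow_add, sq, repr_mul]
    exact sum_mem fun u _ => nonunits_mul_right (nonunits_mul_right (b1 u)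
      (mem_of_isIntegral O (a4 h _ _))) (mem_of_isIntegral O (hz _))
  obtain ⟨N, hN⟩ := hi U ρ
  refine ⟨N, ?_⟩
  convert H26Rv.smul_mem (isIntegral_natCast d) (H26Rv.mul_mem (H26Rv.char_mem hχ.comp_inv) hN)
    using 2
  ring

end H23.Wl
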